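import Cfsg.Agent.Helper16.GLEmbed2

set_option autoImplicit false
open Cfsg

namespace Cfsg.Agent.Helper16

open QuadraticMap
open scoped commutatorElement

section OddPart
variable {m : ℕ} {F : Type*} [Field F]

theorem omega_transport {ι : Type} [Fintype ι] [DecidableEq ι] (Q₁ Q₂ : (ι → F) → F) (h : Q₁ = Q₂)
    (g₁ : ↥(isometryGroup F Q₁)) (g₂ : ↥(isometryGroup F Q₂))
    (hg : (g₁ : GL ι F) = (g₂ : GL ι F)) : g₁ ∈ Omega F Q₁ ↔ g₂ ∈ Omega F Q₂ := by
  subst h
  have : g₁ = g₂ := Subtype.ext hg
  rw [this]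

/-- the embedding into the isometry group of `qfPlus` -/
noncomputable def glEmbedQ (m : ℕ) (F : Type*) [Field F] :
    GL (Fin m) F →* ↥(isometryGroup F ⇑(qfPlus m F)) where
  toFun A := ⟨(glEmbed m F A : GL (Fin m ⊕ Fin m) F), by
    rw [coe_qfPlus]
    exact (glEmbed m F A).2⟩
  map_one' := Subtype.ext (by
    show ((glEmbed m F 1 : ↥(isometryGroup F (quadFormPlus m F))) : GL (Fin m ⊕ Fin m) F) = 1
    rw [map_one]
    rfl)
  map_mul' A B := Subtype.ext (by
    show ((glEmbed m F (A * B) : ↥(isometryGroup F (quadFormPlus m F))) :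
      GL (Fin m ⊕ Fin m) F) = (glEmbed m F A : GL (Fin m ⊕ Fin m) F) * (glEmbed m F B : GL (Fin m ⊕ Fin m) F)
    rw [map_mul]
    rfl)

theorem glEmbedQ_coe (A : GL (Fin m) F) :
    ((glEmbedQ m F A : GL (Fin m ⊕ Fin m) F) : Matrix (Fin m ⊕ Fin m) (Fin m ⊕ Fin m) F) =
      blockMat A := rfl

theorem det_blockMat (A : GL (Fin m) F) : (blockMat A).det = 1 := by
  unfold blockMat
  rw [Matrix.det_fromBlocks_zero₂₁, Matrix.det_transpose, ← Matrix.det_mul, ← Units.val_mul,
    mul_inv_cancel, Units.val_one, Matrix.det_one]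

theorem mem_NGrp_iff_spinor [Fintype F] (h2 : (2 : F) ≠ 0) (A : GL (Fin m) F) :
    A ∈ NGrp m F ↔ spinorHom h2 (qfPlus m F) qfPlus_nondegenerate (glEmbedQ m F A) = 1 := by
  rw [mem_NGrp, omega_transport _ _ (coe_qfPlus m F).symm (glEmbed m F A) (glEmbedQ m F A) rfl,
    mem_Omega_iff_det_spinor h2 _ qfPlus_nondegenerate, glEmbedQ_coe, det_blockMat]
  exact ⟨fun h => h.2, fun h => ⟨rfl, h⟩⟩

/-- the vector `α e_j + β f_j` -/
def uu (j : Fin m) (α β : F) : Fin m ⊕ Fin m → F :=
  α • Pi.single (Sum.inl j) 1 + β • Pi.single (Sum.inr j) 1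

theorem uu_inl (j i : Fin m) (α β : F) : uu j α β (Sum.inl i) = if i = j then α else 0 := by
  simp [uu, Pi.single_apply]

theorem uu_inr (j i : Fin m) (α β : F) : uu j α β (Sum.inr i) = if i = j then β else 0 := by
  simp [uu, Pi.single_apply]

theorem qfPlus_uu (j : Fin m) (α β : F) : qfPlus m F (uu j α β) = α * β := by
  rw [qfPlus_apply]
  unfold quadFormPlus
  rw [Finset.sum_eq_single j]
  · simp [uu_inl, uu_inr]
  · intro b _ hb
    simp [uu_inl, hb]
  · simp

theorem polar_uu (j : Fin m) (α β : F) (x : Fin m ⊕ Fin m → F) :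
    polar ⇑(qfPlus m F) (uu j α β) x = α * x (Sum.inr j) + β * x (Sum.inl j) := by
  unfold uu
  rw [polar_add_left, polar_smul_left, polar_smul_left, polar_qfPlus_inl, polar_qfPlus_inr]
  simp [smul_eq_mul]

theorem qrefl_uu (j : Fin m) (α β : F) (hα : α ≠ 0) (hβ : β ≠ 0) (x : Fin m ⊕ Fin m → F) :
    qrefl (qfPlus m F) (uu j α β) x =
      Sum.elim (fun i => if i = j then -(α / β) * x (Sum.inr j) else x (Sum.inl i))
        (fun i => if i = j then -(β / α) * x (Sum.inl j) else x (Sum.inr i)) := by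
  rw [qrefl_apply, qfPlus_uu, polar_uu]
  funext k
  rcases k with i | i
  · by_cases hi : i = j
    · subst hi
      simp [uu_inl]
      field_simp
      ring
    · simp [uu_inl, hi]
  · by_cases hi : i = j
    · subst hi
      simp [uu_inr]
      field_simp
      ring
    · simp [uu_inr, hi]

theorem glEmbedQ_dg_single (j : Fin m) (a : Fˣ) :
    glEmbedQ m F (dg m F (Pi.mulSingle j a)) =
      reflElt (qfPlus m F) (uu j 1 (-1)) * reflElt (qfPlus m F) (uu j 1 (-(a : F))) := by
  have hu : qfPlus m F (uu j 1 (-1)) ≠ 0 := by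
    rw [qfPlus_uu]
    simp
  have hw : qfPlus m F (uu j 1 (-(a : F))) ≠ 0 := by
    rw [qfPlus_uu]
    simp
  apply isom_ext
  apply mat_ext
  intro x
  rw [Subgroup.coe_mul, Units.val_mul, ← Matrix.mulVec_mulVec, reflElt_mulVec _ _ hw,
    reflElt_mulVec _ _ hu, glEmbedQ_coe, blockMat_dg_mulVec,
    qrefl_uu j 1 (-(a : F)) one_ne_zero (neg_ne_zero.2 a.ne_zero),
    qrefl_uu j 1 (-1) one_ne_zero (neg_ne_zero.2 one_ne_zero)]
  funext k
  rcases k with i | i
  · by_cases hi : i = j
    · subst hi
      simp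
    · simp [hi, Pi.mulSingle_apply]
  · by_cases hi : i = j
    · subst hi
      simp
    · simp [hi, Pi.mulSingle_apply]

theorem zmod2_ext (x y : Multiplicative (ZMod 2)) (h : x = 1 ↔ y = 1) : x = y := by
  revert x y
  decide

theorem spinor_dg_single [Fintype F] (h2 : (2 : F) ≠ 0) (j : Fin m) (a : Fˣ) :
    spinorHom h2 (qfPlus m F) qfPlus_nondegenerate (glEmbedQ m F (dg m F (Pi.mulSingle j a))) =
      sqHom F a := by
  apply zmod2_ext
  rw [sqHom_eq_one_iff, glEmbedQ_dg_single]
  have h := spinorHom_prod_eq_one_iff h2 (qfPlus m F) qfPlus_nondegenerate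
    [uu j 1 (-1), uu j 1 (-(a : F))] (by
      intro v hv
      simp only [List.mem_cons, List.not_mem_nil, or_false] at hv
      rcases hv with rfl | rfl
      · rw [qfPlus_uu]
        simp
      · rw [qfPlus_uu]
        simp)
  simp only [List.map_cons, List.map_nil, List.prod_cons, List.prod_nil, mul_one, qfPlus_uu,
    one_mul, neg_mul_neg] at h
  exact h

theorem det_tv (i j : Fin m) (hij : i ≠ j) (c : F) :
    Matrix.GeneralLinearGroup.det (tv i j hij c) = 1 := by
  apply Units.ext
  rw [Matrix.GeneralLinearGroup.val_det_apply, tv_coe, Matrix.det_transvection_of_ne i j hij c]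
  rfl

theorem det_dg_single (j : Fin m) (a : Fˣ) :
    Matrix.GeneralLinearGroup.det (dg m F (Pi.mulSingle j a)) = a := by
  apply Units.ext
  rw [Matrix.GeneralLinearGroup.val_det_apply, dg_coe, Matrix.det_diagonal,
    Finset.prod_eq_single j]
  · simp
  · intro b _ hb
    simp [hb]
  · simp

/-- the spinor norm of `diag(A, A⁻ᵀ)` is the square class of `det A` -/
theorem spinor_glEmbedQ [Fintype F] (h2 : (2 : F) ≠ 0) (A : GL (Fin m) F) :
    spinorHom h2 (qfPlus m F) qfPlus_nondegenerate (glEmbedQ m F A) =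
      sqHom F (Matrix.GeneralLinearGroup.det A) := by
  have h := mem_of_tv_dg
    (((spinorHom h2 (qfPlus m F) qfPlus_nondegenerate).comp (glEmbedQ m F)) *
      ((sqHom F).comp Matrix.GeneralLinearGroup.det)).ker ?_ ?_ A
  · rw [MonoidHom.mem_ker, MonoidHom.mul_apply, MonoidHom.comp_apply, MonoidHom.comp_apply] at h
    rw [eq_comm, ← mul_one (sqHom F _), ← h, ← mul_assoc, mul_comm (sqHom F _), mul_assoc,
      zmod2_sq, mul_one]
  · intro i j hij c
    rw [MonoidHom.mem_ker, MonoidHom.mul_apply, MonoidHom.comp_apply, MonoidHom.comp_apply,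
      det_tv, map_one, mul_one]
    have : tv i j hij c = tv i j hij (c / 2) * tv i j hij (c / 2) := by
      apply Units.ext
      rw [Units.val_mul, tv_coe, tv_coe, Matrix.transvection_mul_transvection_same _ _ hij]
      congr 1
      field_simp
      ring
    rw [this, map_mul, map_mul, zmod2_sq]
  · intro j a
    rw [MonoidHom.mem_ker, MonoidHom.mul_apply, MonoidHom.comp_apply, MonoidHom.comp_apply,
      det_dg_single, spinor_dg_single, zmod2_sq]

theorem mem_NGrp_iff_of_odd [Fintype F] (h2 : (2 : F) ≠ 0) (A : GL (Fin m) F) :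
    A ∈ NGrp m F ↔ IsSquare (A : Matrix (Fin m) (Fin m) F).det := by
  rw [mem_NGrp_iff_spinor h2, spinor_glEmbedQ, sqHom_eq_one_iff,
    Matrix.GeneralLinearGroup.val_det_apply]

theorem mem_NGrp_of_even [Fintype F] (h2 : (2 : F) = 0) (h : Fintype.card F ≠ 2 ∨ m ≠ 2)
    (A : GL (Fin m) F) : A ∈ NGrp m F := by
  classical
  have hchar : ringChar F = 2 := by
    have : CharP F 2 := by
      apply CharTwo.of_one_ne_zero_of_two_eq_zero one_ne_zero h2
    exact ringChar.eq F 2
  apply mem_of_tv_dg
  · intro i j hij c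
    apply tv_mem_NGrp_of_comm
    have hm2 : 2 ≤ m := by
      by_contra hlt
      have : m ≤ 1 := by omega
      apply hij
      apply Fin.ext
      have := i.2
      have := j.2
      omega
    rcases Nat.lt_or_ge 2 m with h3 | h3
    · exact Or.inl h3
    · right
      have hm : m = 2 := le_antisymm h3 hm2
      refine ⟨hm, ?_⟩
      have hcard : Fintype.card F ≠ 2 := by
        rcases h with h | h
        · exact h
        · exact absurd hm h
      have h1 : 1 < Fintype.card F := Fintype.one_lt_card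
      obtain ⟨x, hx0, hx1⟩ : ∃ x : F, x ≠ 0 ∧ x ≠ 1 := by
        by_contra hcon
        push Not at hcon
        have hsub : (Finset.univ : Finset F) ⊆ {0, 1} := by
          intro x _
          by_cases hx : x = 0
          · simp [hx]
          · simp [hcon x hx]
        have h4 := Finset.card_le_card hsub
        rw [Finset.card_univ] at h4
        have h5 : ({0, 1} : Finset F).card ≤ 2 := Finset.card_le_two
        omega
      refine ⟨x, hx0, ?_⟩
      intro hx2
      apply hx1
      have h6 : (x - 1) * (x - 1) = 0 := by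
        have : (x - 1) * (x - 1) = x ^ 2 - 2 * x + 1 := by ring
        rw [this, hx2, h2]
        have h7 : (1 : F) + 1 = 0 := by rw [one_add_one_eq_two, h2]
        linear_combination h7
      have h8 : x - 1 = 0 := by
        rcases mul_eq_zero.1 h6 with h | h <;> exact h
      exact sub_eq_zero.1 h8
  · intro j a
    obtain ⟨c, hc⟩ := FiniteField.isSquare_of_char_two hchar (a : F)
    have hc0 : c ≠ 0 := by
      rintro rfl
      rw [mul_zero] at hc
      exact a.ne_zero hc
    have : a = Units.mk0 c hc0 * Units.mk0 c hc0 := by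
      apply Units.ext
      rw [Units.val_mul, Units.val_mk0, hc]
    rw [this]
    exact dg_sq_mem_NGrp j _

end OddPart

end Cfsg.Agent.Helper16
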