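import Cfsg.Agent.Helper16.AutD8

set_option autoImplicit false
open Cfsg

namespace Cfsg.Agent.Helper16

open QuadraticMap

section AutD8Main
variable {F : Type*} [Field F] [Fintype F] {ι : Type} [Fintype ι] [DecidableEq ι]

set_option maxHeartbeats 3200000 in
/-- `PGO / Inn ≅ D₈` when `-1 ∈ Ω` -/
theorem exists_hom_pgo_inn_dihedral (h2 : (2 : F) ≠ 0) (Q : QuadraticForm F (ι → F))
    (hQ : (polarBilin Q).Nondegenerate) (hP : SiegelScalar Q) (k : ℕ)
    (hk : Fintype.card ι = 2 * k) (hk1 : 1 ≤ k)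
    (hsim : ∃ g₀ : ↥(Geo.quadSimilarityGroup (F := F) ⇑Q),
      ¬ IsSquare ((multFun ⇑Q g₀ : Fˣ) : F)) (hneg : negIso Q ∈ Omega F ⇑Q) :
    ∃ φ : ↥(pgoAut F ⇑Q) →* DihedralGroup 4, Function.Surjective φ ∧
      φ.ker = (Inn (POmega F ⇑Q)).subgroupOf (pgoAut F ⇑Q) := by
  have hι : 2 ≤ Fintype.card ι := by omega
  obtain ⟨u, hu⟩ := exists_rep h2 Q hQ hι 1 one_ne_zero
  have hu0 : Q u ≠ 0 := by rw [hu]; exact one_ne_zero
  have hne : ∃ x, Q x ≠ 0 := ⟨u, hu0⟩
  obtain ⟨p₀, hp₀, hθ₀⟩ := exists_so_nonsq h2 Q hQ hι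
  obtain ⟨t₀, ht₀⟩ := hsim
  obtain ⟨aS, haS⟩ : ∃ aS : ↥(Geo.quadSimilarityGroup (F := F) ⇑Q),
      aS = isoSim ⇑Q (reflElt Q u) := ⟨_, rfl⟩
  obtain ⟨c, hc⟩ : ∃ c : ↥(Geo.quadSimilarityGroup (F := F) ⇑Q) ⧸ KGrp ⇑Q,
      c = QuotientGroup.mk (isoSim ⇑Q p₀) := ⟨_, rfl⟩
  have haa : aS * aS = 1 := by rw [haS, ← map_mul, reflElt_mul_self, map_one]
  have hc1 : c ≠ 1 := by
    intro h
    rw [hc, QuotientGroup.eq_one_iff, isoSim_mem_KGrp_iff h2 Q hQ hP hne hneg,
      mem_Omega_iff_det_spinor h2 Q hQ] at h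
    exact hθ₀ h.2
  have hcc : c * c = 1 := by
    rw [hc, ← QuotientGroup.mk_mul, ← map_mul, QuotientGroup.eq_one_iff,
      isoSim_mem_KGrp_iff h2 Q hQ hP hne hneg, mem_Omega_iff_det_spinor h2 Q hQ]
    refine ⟨by rw [Subgroup.coe_mul, Units.val_mul, Matrix.det_mul, hp₀, one_mul], ?_⟩
    rw [map_mul]
    exact zmod2_sq _
  have hmaS : multFun ⇑Q aS = 1 := by
    rw [haS]
    exact multFun_isometry Q hne _ (reflElt Q u).2
  -- the element of order four
  obtain ⟨gx, hgx, hgx2⟩ : ∃ gx : ↥(Geo.quadSimilarityGroup (F := F) ⇑Q),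
      ¬ IsSquare ((multFun ⇑Q gx : Fˣ) : F) ∧
      (QuotientGroup.mk (gx * gx) : ↥(Geo.quadSimilarityGroup (F := F) ⇑Q) ⧸ KGrp ⇑Q) = c := by
    have ht2 : (QuotientGroup.mk (t₀ * t₀) :
          ↥(Geo.quadSimilarityGroup (F := F) ⇑Q) ⧸ KGrp ⇑Q) = 1 ∨
        (QuotientGroup.mk (t₀ * t₀) :
          ↥(Geo.quadSimilarityGroup (F := F) ⇑Q) ⧸ KGrp ⇑Q) = c := by
      have hχ : chiHom Q hQ hne h2 k hk (t₀ * t₀) = 1 := by
        rw [map_mul]
        exact klein_sq _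
      obtain ⟨s, hs, z, hz, hsz⟩ := (chiHom_eq_one_iff' Q hQ hne h2 k hk _).1 hχ
      have hs' := (mem_specialIsometryGL_iff ⇑Q _).1 hs
      have hzK : z ∈ KGrp ⇑Q := (mem_KGrp_iff ⇑Q z).2 ⟨1, one_mem _, z,
        MonoidHom.mem_ker.2 ((autHom_eq_one_iff h2 Q hQ hP hne z).2 hz), (one_mul z).symm⟩
      have h1 : (QuotientGroup.mk (t₀ * t₀) :
          ↥(Geo.quadSimilarityGroup (F := F) ⇑Q) ⧸ KGrp ⇑Q) =
          QuotientGroup.mk (isoSim ⇑Q ⟨(s : GL ι F), hs'.1⟩) := by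
        rw [hsz, QuotientGroup.mk_mul, (QuotientGroup.eq_one_iff z).2 hzK, mul_one]
        rfl
      rw [h1, hc]
      exact so_class h2 Q hQ hP hne hneg p₀ _ hp₀ hθ₀ hs'.2
    rcases ht2 with h | h
    · refine ⟨t₀ * aS, ?_, ?_⟩
      · have hm : multFun ⇑Q (t₀ * aS) = multFun ⇑Q t₀ := by
          have h3 := (multHom ⇑Q hne).map_mul t₀ aS
          rw [multHom_apply, multHom_apply, multHom_apply, hmaS, mul_one] at h3
          exact h3
        rw [hm]
        exact ht₀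
      · have h7 := (refl_comm_class h2 Q hQ hP hne hneg u hu t₀ ht₀ p₀ hp₀ hθ₀).2
        rw [← haS, ← hc] at h7
        have hgrp : t₀ * aS * (t₀ * aS) = (t₀ * aS * t₀⁻¹ * aS) * (aS⁻¹ * (t₀ * t₀) * aS) := by
          group
        rw [hgrp, QuotientGroup.mk_mul, h7, QuotientGroup.mk_mul, QuotientGroup.mk_mul, h, mul_one,
          ← QuotientGroup.mk_mul, inv_mul_cancel, QuotientGroup.mk_one, mul_one]
    · exact ⟨t₀, ht₀, h⟩
  obtain ⟨R, hR⟩ : ∃ R : ↥(Geo.quadSimilarityGroup (F := F) ⇑Q) ⧸ KGrp ⇑Q,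
      R = QuotientGroup.mk gx := ⟨_, rfl⟩
  obtain ⟨S, hS⟩ : ∃ S : ↥(Geo.quadSimilarityGroup (F := F) ⇑Q) ⧸ KGrp ⇑Q,
      S = QuotientGroup.mk aS := ⟨_, rfl⟩
  have hRR : R * R = c := by
    rw [hR, ← QuotientGroup.mk_mul]
    exact hgx2
  have hR4 : R ^ 4 = 1 := by
    have h : R ^ 4 = (R * R) * (R * R) := by
      rw [show (4 : ℕ) = 2 + 2 from rfl, pow_add, pow_two]
    rw [h, hRR, hcc]
  have hSS : S * S = 1 := by rw [hS, ← QuotientGroup.mk_mul, haa, QuotientGroup.mk_one]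
  have hSinv : S⁻¹ = S := inv_eq_of_mul_eq_one_right hSS
  have hSR : S * R * S⁻¹ = R⁻¹ := by
    have h7 := (refl_comm_class h2 Q hQ hP hne hneg u hu gx hgx p₀ hp₀ hθ₀).1
    rw [← haS, ← hc] at h7
    have h8 : S * R * S * R⁻¹ = c := by
      rw [hS, hR, ← QuotientGroup.mk_inv, ← QuotientGroup.mk_mul, ← QuotientGroup.mk_mul,
        ← QuotientGroup.mk_mul]
      exact h7
    have h9 : S * R * S = c * R := by
      rw [← h8]
      group
    rw [hSinv, h9, ← hRR, eq_inv_iff_mul_eq_one]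
    have h10 : R * R * R * R = R ^ 4 := by
      rw [show (4 : ℕ) = 2 + 2 from rfl, pow_add, pow_two, ← mul_assoc]
    rw [h10, hR4]
  have hR1 : R ≠ 1 := by
    intro h
    apply hc1
    rw [← hRR, h, one_mul]
  have hκx : (sqHom F).comp (multHom ⇑Q hne) gx ≠ 1 := by
    rw [MonoidHom.comp_apply, multHom_apply, Ne, sqHom_eq_one_iff]
    exact hgx
  have hκa : (sqHom F).comp (multHom ⇑Q hne) aS = 1 := by
    rw [MonoidHom.comp_apply, multHom_apply, hmaS, map_one]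
  have hδa : detSign Q hQ hne h2 k hk aS ≠ 1 := by
    rw [haS]
    exact detSign_refl_ne_one Q hQ hne h2 k hk u hu0
  have hinj : Function.Injective (dLift hR4 hSS hSR) := by
    rw [injective_iff_map_eq_one]
    intro x hx
    rcases x with i | i
    · rw [dLift_r] at hx
      have hi : i.val < 4 := ZMod.val_lt i
      have hi0 : i.val = 0 := by
        by_contra hne0
        have hcases : i.val = 1 ∨ i.val = 2 ∨ i.val = 3 := by omega
        rcases hcases with h | h | h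
        · rw [h, pow_one] at hx
          exact hR1 hx
        · rw [h, pow_two, hRR] at hx
          exact hc1 hx
        · rw [h] at hx
          apply hR1
          have h5 : R ^ 4 = R ^ 3 * R := pow_succ R 3
          rw [hx, one_mul, hR4] at h5
          exact h5.symm
      have hi1 : i = 0 := (ZMod.val_eq_zero i).1 hi0
      rw [hi1]
      rfl
    · exfalso
      rw [dLift_sr] at hx
      have hmem : aS * gx ^ i.val ∈ KGrp ⇑Q := by
        rw [← QuotientGroup.eq_one_iff, QuotientGroup.mk_mul, QuotientGroup.mk_pow, ← hS, ← hR]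
        exact hx
      obtain ⟨h1, h3⟩ := kappa_KGrp h2 Q hQ hP hne k hk _ hmem
      rw [map_mul, map_pow, hκa, one_mul, zmod2_pow] at h1
      rw [map_mul, map_pow, zmod2_pow] at h3
      by_cases hev : Even i.val
      · rw [if_pos hev, mul_one] at h3
        exact hδa h3
      · rw [if_neg hev] at h1
        exact hκx h1
  have hsurj : Function.Surjective (dLift hR4 hSS hSR) := by
    intro γ
    obtain ⟨g, rfl⟩ := QuotientGroup.mk_surjective γ
    rw [← MonoidHom.mem_range]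
    have hRmem : R ∈ (dLift hR4 hSS hSR).range := ⟨DihedralGroup.r 1, by
      rw [dLift_r]
      have : (1 : ZMod 4).val = 1 := rfl
      rw [this, pow_one]⟩
    have hSmem : S ∈ (dLift hR4 hSS hSR).range := ⟨DihedralGroup.sr 0, by
      rw [dLift_sr]
      have : (0 : ZMod 4).val = 0 := rfl
      rw [this, pow_zero, mul_one]⟩
    have hcmem : c ∈ (dLift hR4 hSS hSR).range := by
      rw [← hRR]
      exact mul_mem hRmem hRmem
    have hso : ∀ o : ↥(isometryGroup F ⇑Q), ((o : GL ι F) : Matrix ι ι F).det = 1 →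
        (QuotientGroup.mk (isoSim ⇑Q o) : ↥(Geo.quadSimilarityGroup (F := F) ⇑Q) ⧸ KGrp ⇑Q) ∈
          (dLift hR4 hSS hSR).range := by
      intro o hdet
      rcases so_class h2 Q hQ hP hne hneg p₀ o hp₀ hθ₀ hdet with h | h
      · rw [h]
        exact one_mem _
      · rw [h, ← hc]
        exact hcmem
    have hiso : ∀ o : ↥(isometryGroup F ⇑Q),
        (QuotientGroup.mk (isoSim ⇑Q o) : ↥(Geo.quadSimilarityGroup (F := F) ⇑Q) ⧸ KGrp ⇑Q) ∈
          (dLift hR4 hSS hSR).range := by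
      intro o
      rcases det_iso_dichotomy h2 Q hQ o with hdet | hdet
      · exact hso o hdet
      · have hdet' : (((o * reflElt Q u : ↥(isometryGroup F ⇑Q)) : GL ι F) : Matrix ι ι F).det
            = 1 := by
          rw [Subgroup.coe_mul, Units.val_mul, Matrix.det_mul, hdet, det_refl Q u hu0]
          norm_num
        have h5 : (QuotientGroup.mk (isoSim ⇑Q o) :
            ↥(Geo.quadSimilarityGroup (F := F) ⇑Q) ⧸ KGrp ⇑Q) =
            QuotientGroup.mk (isoSim ⇑Q (o * reflElt Q u)) * S := by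
          rw [hS, ← QuotientGroup.mk_mul, haS, ← map_mul, mul_assoc, reflElt_mul_self, mul_one]
        rw [h5]
        exact mul_mem (hso _ hdet') hSmem
    have hsq : ∀ g : ↥(Geo.quadSimilarityGroup (F := F) ⇑Q),
        IsSquare ((multFun ⇑Q g : Fˣ) : F) →
        (QuotientGroup.mk g : ↥(Geo.quadSimilarityGroup (F := F) ⇑Q) ⧸ KGrp ⇑Q) ∈
          (dLift hR4 hSS hSR).range := by
      intro g hg
      obtain ⟨o, z, hz, hgoz⟩ := exists_iso_mul_scalar Q g hg
      have hzK : z ∈ KGrp ⇑Q := (mem_KGrp_iff ⇑Q z).2 ⟨1, one_mem _, z,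
        MonoidHom.mem_ker.2 ((autHom_eq_one_iff h2 Q hQ hP hne z).2 hz), (one_mul z).symm⟩
      rw [hgoz, QuotientGroup.mk_mul, (QuotientGroup.eq_one_iff z).2 hzK, mul_one]
      exact hiso o
    by_cases hg : IsSquare ((multFun ⇑Q g : Fˣ) : F)
    · exact hsq g hg
    · have h5 : (QuotientGroup.mk g : ↥(Geo.quadSimilarityGroup (F := F) ⇑Q) ⧸ KGrp ⇑Q) =
          QuotientGroup.mk (g * gx⁻¹) * R := by
        rw [hR, ← QuotientGroup.mk_mul, inv_mul_cancel_right]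
      rw [h5]
      refine mul_mem (hsq _ ?_) hRmem
      rw [← sqHom_eq_one_iff, ← multHom_apply ⇑Q hne, map_mul, map_mul, map_inv, map_inv,
        mul_inv_eq_one]
      exact zmod2_eq_of_ne_one _ _ (by
        rw [Ne, multHom_apply, sqHom_eq_one_iff]
        exact hg) (by
        rw [Ne, multHom_apply, sqHom_eq_one_iff]
        exact hgx)
  obtain ⟨ψ, hψ⟩ : ∃ ψ : DihedralGroup 4 ≃* ↥(Geo.quadSimilarityGroup (F := F) ⇑Q) ⧸ KGrp ⇑Q,
      ψ = MulEquiv.ofBijective (dLift hR4 hSS hSR) ⟨hinj, hsurj⟩ := ⟨_, rfl⟩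
  rw [pgoAut_eq, inn_eq]
  apply exists_hom_of_quot (autHom ⇑Q) _ _
    ((ψ.symm.toMonoidHom.comp (QuotientGroup.mk' (KGrp ⇑Q))).comp (Subgroup.subtype _))
  · apply sim_top_subtype_surj
    intro d
    obtain ⟨g, hg⟩ := QuotientGroup.mk_surjective (ψ d)
    refine ⟨g, ?_⟩
    rw [MonoidHom.comp_apply, QuotientGroup.mk'_apply, hg]
    exact ψ.symm_apply_apply d
  · intro b
    rw [MonoidHom.comp_apply, MonoidHom.comp_apply, MulEquiv.coe_toMonoidHom,
      MulEquiv.map_eq_one_iff, QuotientGroup.mk'_apply, QuotientGroup.eq_one_iff, mem_KGrp_iff]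
    exact Iff.rfl

end AutD8Main

end Cfsg.Agent.Helper16
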