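import Cfsg.Agent.Helper16.LagMax3

set_option autoImplicit false
open Cfsg

namespace Cfsg.Agent.Helper16

open QuadraticMap Module

section DecGeom
variable {ι : Type} [Fintype ι] [DecidableEq ι] {F : Type*} [Field F]

theorem ne_bot_of_finrank_pos (S : Submodule F (ι → F)) (h : 0 < finrank F S) : S ≠ ⊥ := by
  rintro rfl
  rw [finrank_bot] at h
  exact lt_irrefl 0 h

theorem exists_fin_ne {t : ℕ} (ht : 2 ≤ t) (l : Fin t) : ∃ j : Fin t, j ≠ l := by
  by_cases h : (l : ℕ) = 0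
  · refine ⟨⟨1, by omega⟩, fun h' => ?_⟩
    rw [← h'] at h
    simp at h
  · exact ⟨⟨0, by omega⟩, fun h' => h (by rw [← h'])⟩

/-- a non-singular vector spans a non-degenerate line (odd characteristic) -/
theorem nd_span_nonsing (h2 : (2 : F) ≠ 0) (Q : QuadraticForm F (ι → F)) (x : ι → F)
    (hx : Q x ≠ 0) : ND Q (Submodule.span F {x}) := by
  intro w hw hw0
  obtain ⟨c, rfl⟩ := Submodule.mem_span_singleton.1 hw
  have hc : c ≠ 0 := by
    rintro rfl
    exact hw0 (zero_smul F x)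
  refine ⟨x, Submodule.mem_span_singleton_self x, ?_⟩
  rw [polar_smul_left, qf_polar_self, smul_eq_mul]
  exact mul_ne_zero hc (mul_ne_zero h2 hx)

theorem ND.sup {Q : QuadraticForm F (ι → F)} {A B : Submodule F (ι → F)} (hA : ND Q A)
    (hB : ND Q B) (hAB : ∀ a ∈ A, ∀ b ∈ B, polar Q a b = 0) : ND Q (A ⊔ B) := by
  intro w hw hw0
  obtain ⟨a, ha, b, hb, rfl⟩ := Submodule.mem_sup.1 hw
  by_cases ha0 : a = 0
  · subst ha0
    rw [zero_add] at hw0 ⊢
    obtain ⟨x, hx, hne⟩ := hB b hb hw0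
    exact ⟨x, Submodule.mem_sup_right hx, hne⟩
  · obtain ⟨x, hx, hne⟩ := hA a ha ha0
    refine ⟨x, Submodule.mem_sup_left hx, ?_⟩
    rw [polar_add_left, polar_comm Q b x, hAB x hx b hb, add_zero]
    exact hne

/-- the orthogonal complement of a non-degenerate subspace inside a non-degenerate subspace -/
theorem ND.compl {Q : QuadraticForm F (ι → F)} (hQ : (polarBilin Q).Nondegenerate)
    {X Y : Submodule F (ι → F)} (hX : ND Q X) (hY : ND Q Y) (hYX : Y ≤ X) :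
    ND Q (X ⊓ orth Q Y) := by
  intro w hw hw0
  obtain ⟨hwX, hwY⟩ := Submodule.mem_inf.1 hw
  obtain ⟨x, hx, hne⟩ := hX w hwX hw0
  obtain ⟨y, hy, x', hx', hxx⟩ := hY.decomp hQ x
  have hx'X : x' ∈ X := by
    have h1 := X.sub_mem hx (hYX hy)
    have e : x - y = x' := by rw [hxx, add_sub_cancel_left]
    rwa [e] at h1
  refine ⟨x', Submodule.mem_inf.2 ⟨hx'X, hx'⟩, ?_⟩
  rw [hxx, polar_add_right, polar_comm Q w y, (mem_orth Q Y w).1 hwY y hy, zero_add] at hne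
  exact hne

theorem ND.exists_nonsing {Q : QuadraticForm F (ι → F)} {S : Submodule F (ι → F)} (hS : ND Q S)
    (h0 : S ≠ ⊥) : ∃ z ∈ S, Q z ≠ 0 := by
  obtain ⟨w, hw, hw0⟩ := Submodule.exists_mem_ne_zero_of_ne_bot h0
  obtain ⟨x, hx, hne⟩ := hS w hw hw0
  by_cases h1 : Q w = 0
  · by_cases h2 : Q x = 0
    · refine ⟨w + x, S.add_mem hw hx, ?_⟩
      rw [qf_add, h1, h2, zero_add, zero_add]
      exact hne
    · exact ⟨x, hx, h2⟩
  · exact ⟨w, hw, h1⟩

/-- a non-singular vector whose norm avoids a prescribed value -/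
theorem ND.exists_two_vals [Fintype F] (h2 : (2 : F) ≠ 0) {Q : QuadraticForm F (ι → F)}
    {S : Submodule F (ι → F)} (hS : ND Q S) (h0 : S ≠ ⊥)
    (hq : 5 ≤ Fintype.card F ∨ 2 ≤ finrank F S) (α : F) (hα : α ≠ 0) :
    ∃ z ∈ S, Q z ≠ 0 ∧ Q z ≠ α := by
  rcases hq with hq | hq
  · obtain ⟨z₀, hz₀, hz₀Q⟩ := hS.exists_nonsing h0
    by_cases h : Q z₀ = α
    · obtain ⟨μ, hμ0, hμ1, hμ2⟩ := exists_three_avoid (by omega) (1 : F)
      refine ⟨μ • z₀, S.smul_mem _ hz₀, ?_, ?_⟩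
      · rw [qf_smul]
        exact mul_ne_zero (mul_ne_zero hμ0 hμ0) hz₀Q
      · rw [qf_smul, h]
        intro h3
        have h4 : (μ - 1) * (μ + 1) * α = 0 := by linear_combination h3
        rcases mul_eq_zero.1 h4 with h5 | h5
        · rcases mul_eq_zero.1 h5 with h6 | h6
          · exact hμ1 (sub_eq_zero.1 h6)
          · exact hμ2 (eq_neg_of_add_eq_zero_left h6)
        · exact hα h5
    · exact ⟨z₀, hz₀, hz₀Q, h⟩
  · obtain ⟨z, hz, hzQ⟩ := exists_rep_sub h2 Q S hS.inf_orth hq (-α) (neg_ne_zero.2 hα)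
    refine ⟨z, hz, by rw [hzQ]; exact neg_ne_zero.2 hα, ?_⟩
    rw [hzQ]
    intro h
    have h3 : (2 : F) * α = 0 := by linear_combination -h
    rcases mul_eq_zero.1 h3 with h5 | h5
    · exact h2 h5
    · exact hα h5

/-- a vector of prescribed norm orthogonal to a given zero or non-singular vector -/
theorem ND.exists_vec_perp [Fintype F] (h2 : (2 : F) ≠ 0) {Q : QuadraticForm F (ι → F)}
    (hQ : (polarBilin Q).Nondegenerate) {X : Submodule F (ι → F)} (hX : ND Q X)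
    (h3 : 3 ≤ finrank F X) (a₁ : ι → F) (ha₁ : a₁ ∈ X) (ha : a₁ = 0 ∨ Q a₁ ≠ 0) (c : F)
    (hc : c ≠ 0) : ∃ x ∈ X, polar Q a₁ x = 0 ∧ Q x = c := by
  rcases ha with rfl | ha
  · obtain ⟨x, hx, hxQ⟩ := exists_rep_sub h2 Q X hX.inf_orth (by omega) c hc
    exact ⟨x, hx, by rw [polar_zero_left], hxQ⟩
  · have hS : ND Q (X ⊓ orth Q (Submodule.span F {a₁})) :=
      hX.compl hQ (nd_span_nonsing h2 Q a₁ ha) ((Submodule.span_singleton_le_iff_mem _ _).2 ha₁)
    have hfin := finrank_inf_orth_ge Q hQ X (Submodule.span F {a₁})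
    have h1 := finrank_span_one_le (F := F) a₁
    obtain ⟨x, hx, hxQ⟩ := exists_rep_sub h2 Q _ hS.inf_orth (by omega) c hc
    obtain ⟨hxX, hxO⟩ := Submodule.mem_inf.1 hx
    exact ⟨x, hxX, (mem_orth_span_singleton Q a₁ x).1 hxO, hxQ⟩

/-- a second vector of the same norm, not proportional to the first -/
theorem ND.exists_mate [Fintype F] (h2 : (2 : F) ≠ 0) {Q : QuadraticForm F (ι → F)}
    (hQ : (polarBilin Q).Nondegenerate) {S : Submodule F (ι → F)} (hS : ND Q S)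
    (hq : (5 ≤ Fintype.card F ∧ 2 ≤ finrank F S) ∨ 3 ≤ finrank F S) (x₂ : ι → F)
    (hx₂ : x₂ ∈ S) (hx₂Q : Q x₂ ≠ 0) :
    ∃ x ∈ S, Q x = Q x₂ ∧ x ∉ Submodule.span F {x₂} := by
  have hS' : ND Q (S ⊓ orth Q (Submodule.span F {x₂})) :=
    hS.compl hQ (nd_span_nonsing h2 Q x₂ hx₂Q) ((Submodule.span_singleton_le_iff_mem _ _).2 hx₂)
  have hfin := finrank_inf_orth_ge Q hQ S (Submodule.span F {x₂})
  have h1 := finrank_span_one_le (F := F) x₂
  obtain ⟨z, hz, hzQ, hzQ'⟩ := hS'.exists_two_vals h2 (ne_bot_of_finrank_pos _ (by omega))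
    (by omega) (-(Q x₂)) (neg_ne_zero.2 hx₂Q)
  obtain ⟨hzS, hzO⟩ := Submodule.mem_inf.1 hz
  rw [mem_orth_span_singleton] at hzO
  have hAB : Q x₂ + Q z ≠ 0 := by
    intro h
    apply hzQ'
    linear_combination h
  obtain ⟨x, hxdef⟩ : ∃ x, x = ((Q x₂ - Q z) / (Q x₂ + Q z)) • x₂ +
      ((-(2 * Q x₂)) / (Q x₂ + Q z)) • z := ⟨_, rfl⟩
  refine ⟨x, ?_, ?_, ?_⟩
  · rw [hxdef]
    exact S.add_mem (S.smul_mem _ hx₂) (S.smul_mem _ hzS)
  · rw [hxdef, qf_lin2, hzO]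
    field_simp
    ring
  · intro h
    obtain ⟨c, hc⟩ := Submodule.mem_span_singleton.1 h
    have h5 : polar Q z (c • x₂) = polar Q z x := by rw [hc]
    rw [hxdef, polar_smul_right, polar_add_right, polar_smul_right, polar_smul_right,
      polar_comm Q z x₂, hzO, qf_polar_self] at h5
    simp only [smul_eq_mul, mul_zero, zero_add] at h5
    have h6 : (-(2 * Q x₂)) / (Q x₂ + Q z) * (2 * Q z) ≠ 0 :=
      mul_ne_zero (div_ne_zero (neg_ne_zero.2 (mul_ne_zero h2 hx₂Q)) hAB) (mul_ne_zero h2 hzQ)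
    exact h6 h5.symm

/-- a vector of `X` orthogonal to `a₁^⊥ ∩ X` is a multiple of the singular vector `a₁` -/
theorem ND.eq_smul_of_double_orth {Q : QuadraticForm F (ι → F)} {X : Submodule F (ι → F)}
    (hX : ND Q X) (a₁ : ι → F) (ha₁ : a₁ ∈ X) (ha₁0 : a₁ ≠ 0) (ha₁Q : Q a₁ = 0) (b₁ : ι → F)
    (hb₁ : b₁ ∈ X) (h : ∀ w ∈ X, polar Q a₁ w = 0 → polar Q w b₁ = 0) :
    ∃ β : F, b₁ = β • a₁ := by
  obtain ⟨u, hu, huQ, hau⟩ := hX.exists_partner a₁ ha₁ ha₁0 ha₁Q
  refine ⟨polar Q u b₁, ?_⟩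
  have hmem : b₁ - polar Q u b₁ • a₁ ∈ X ⊓ orth Q X := by
    refine Submodule.mem_inf.2 ⟨X.sub_mem hb₁ (X.smul_mem _ ha₁), ?_⟩
    rw [mem_orth]
    intro x hx
    have hw : polar Q a₁ (x - polar Q a₁ x • u) = 0 := by
      rw [polar_sub_right, polar_smul_right, hau, smul_eq_mul, mul_one, sub_self]
    have h1 := h _ (X.sub_mem hx (X.smul_mem _ hu)) hw
    rw [polar_sub_left, polar_smul_left, smul_eq_mul] at h1
    rw [polar_sub_right, polar_smul_right, smul_eq_mul, polar_comm Q x a₁]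
    linear_combination h1
  rw [hX.inf_orth, Submodule.mem_bot] at hmem
  exact sub_eq_zero.1 hmem

/-- a hyperbolic pair spans a non-degenerate plane -/
theorem nd_hyp (Q : QuadraticForm F (ι → F)) (v v' : ι → F) (hv : Q v = 0) (hv' : Q v' = 0)
    (hvv' : polar Q v v' ≠ 0) : ND Q (Submodule.span F {v} ⊔ Submodule.span F {v'}) := by
  intro w hw hw0
  obtain ⟨a, ha, b, hb, rfl⟩ := Submodule.mem_sup.1 hw
  obtain ⟨α, rfl⟩ := Submodule.mem_span_singleton.1 ha
  obtain ⟨β, rfl⟩ := Submodule.mem_span_singleton.1 hb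
  by_cases hα : α = 0
  · have hβ : β ≠ 0 := by
      rintro rfl
      apply hw0
      rw [hα, zero_smul, zero_smul, add_zero]
    refine ⟨v, Submodule.mem_sup_left (Submodule.mem_span_singleton_self v), ?_⟩
    rw [polar_add_left, polar_smul_left, polar_smul_left, qf_polar_self, hv, polar_comm Q v' v,
      hα]
    simp only [smul_eq_mul, mul_zero, zero_add]
    exact mul_ne_zero hβ hvv'
  · refine ⟨v', Submodule.mem_sup_right (Submodule.mem_span_singleton_self v'), ?_⟩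
    rw [polar_add_left, polar_smul_left, polar_smul_left, qf_polar_self, hv']
    simp only [smul_eq_mul, mul_zero, add_zero]
    exact mul_ne_zero hα hvv'

/-- a decomposition into pairwise orthogonal, pairwise isometric non-degenerate subspaces -/
structure ODec (Q : QuadraticForm F (ι → F)) {t : ℕ} (k : ℕ)
    (D : Fin t → Submodule F (ι → F)) : Prop where
  nd : ∀ i, ND Q (D i)
  fin : ∀ i, finrank F (D i) = k
  perp : ∀ i j, i ≠ j → ∀ u ∈ D i, ∀ v ∈ D j, polar Q u v = 0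
  sup : iSup D = ⊤
  iso : ∀ i j, ∃ e : D i ≃ₗ[F] D j, ∀ w : D i, Q ((e w : D j) : ι → F) = Q (w : ι → F)

theorem ODec.le_orth {Q : QuadraticForm F (ι → F)} {t k : ℕ} {D : Fin t → Submodule F (ι → F)}
    (hD : ODec Q k D) {i j : Fin t} (hij : i ≠ j) : D i ≤ orth Q (D j) := by
  intro x hx
  rw [mem_orth]
  intro u hu
  exact hD.perp j i hij.symm u hu x hx

theorem ODec.eq_zero_of_mem_mem {Q : QuadraticForm F (ι → F)} {t k : ℕ}
    {D : Fin t → Submodule F (ι → F)} (hD : ODec Q k D) {i j : Fin t} (hij : i ≠ j)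
    {x : ι → F} (hi : x ∈ D i) (hj : x ∈ D j) : x = 0 := by
  have h : x ∈ D j ⊓ orth Q (D j) := Submodule.mem_inf.2 ⟨hj, hD.le_orth hij hi⟩
  rw [(hD.nd j).inf_orth, Submodule.mem_bot] at h
  exact h

theorem ODec.comps {Q : QuadraticForm F (ι → F)} {t k : ℕ} {D : Fin t → Submodule F (ι → F)}
    (hD : ODec Q k D) (v : ι → F) :
    ∃ c : Fin t → (ι → F), (∀ j, c j ∈ D j) ∧ v = ∑ j, c j := by
  have hv : v ∈ iSup D := by
    rw [hD.sup]
    trivial
  obtain ⟨f, hf, hfv⟩ := (Submodule.mem_iSup_iff_exists_finsupp D v).1 hv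
  refine ⟨fun j => f j, hf, ?_⟩
  rw [← hfv, Finsupp.sum_fintype]
  intro i
  rfl

theorem polar_sum_right' (Q : QuadraticForm F (ι → F)) {t : ℕ} (x : ι → F)
    (c : Fin t → (ι → F)) : polar Q x (∑ j, c j) = ∑ j, polar Q x (c j) := by
  rw [← polarBilin_apply_apply, map_sum]
  rfl

theorem ODec.polar_sum {Q : QuadraticForm F (ι → F)} {t k : ℕ} {D : Fin t → Submodule F (ι → F)}
    (hD : ODec Q k D) (c : Fin t → (ι → F)) (hc : ∀ j, c j ∈ D j) (j : Fin t) (x : ι → F)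
    (hx : x ∈ D j) : polar Q x (∑ i, c i) = polar Q x (c j) := by
  rw [polar_sum_right']
  apply Finset.sum_eq_single j
  · intro i _ hij
    exact hD.perp j i hij.symm x hx (c i) (hc i)
  · intro h
    exact absurd (Finset.mem_univ j) h

theorem ODec.comps_orth {Q : QuadraticForm F (ι → F)} {t k : ℕ}
    {D : Fin t → Submodule F (ι → F)} (hD : ODec Q k D) (l : Fin t) (v : ι → F)
    (hv : v ∈ orth Q (D l)) :
    ∃ c : Fin t → (ι → F), (∀ j, c j ∈ D j) ∧ c l = 0 ∧ v = ∑ j, c j := by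
  obtain ⟨c, hc, hvc⟩ := hD.comps v
  refine ⟨c, hc, ?_, hvc⟩
  have h : c l ∈ D l ⊓ orth Q (D l) := by
    refine Submodule.mem_inf.2 ⟨hc l, ?_⟩
    rw [mem_orth]
    intro x hx
    rw [← hD.polar_sum c hc l x hx, ← hvc]
    exact (mem_orth Q _ v).1 hv x hx
  rw [(hD.nd l).inf_orth, Submodule.mem_bot] at h
  exact h

theorem ODec.eq_zero_of_orth_all {Q : QuadraticForm F (ι → F)}
    (hQ : (polarBilin Q).Nondegenerate) {t k : ℕ} {D : Fin t → Submodule F (ι → F)}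
    (hD : ODec Q k D) (v : ι → F) (h : ∀ j, v ∈ orth Q (D j)) : v = 0 := by
  by_contra hv0
  obtain ⟨y, hy⟩ := exists_polar_ne Q hQ v hv0
  obtain ⟨c, hc, hyc⟩ := hD.comps y
  apply hy
  rw [hyc, polar_sum_right']
  apply Finset.sum_eq_zero
  intro j _
  rw [polar_comm]
  exact (mem_orth Q _ v).1 (h j) (c j) (hc j)

/-- a non-singular vector orthogonal to `D l` has a non-singular component in another block -/
theorem ODec.exists_nonsing_comp {Q : QuadraticForm F (ι → F)} {t k : ℕ}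
    {D : Fin t → Submodule F (ι → F)} (hD : ODec Q k D) (l : Fin t) (v : ι → F)
    (hv : v ∈ orth Q (D l)) (hvQ : Q v ≠ 0) :
    ∃ j, j ≠ l ∧ ∃ a ∈ D j, ∃ b ∈ orth Q (D j), v = a + b ∧ Q a ≠ 0 := by
  obtain ⟨c, hc, hcl, hvc⟩ := hD.comps_orth l v hv
  have hsum : Q v = ∑ j, Q (c j) := by
    have h1 := qf_sum_orth Q c (fun i j hij => hD.perp i j hij (c i) (hc i) (c j) (hc j))
      (fun _ => (1 : F))
    simp only [one_smul, one_mul] at h1
    rw [hvc]
    exact h1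
  obtain ⟨j, hj⟩ : ∃ j, Q (c j) ≠ 0 := by
    by_contra hcon
    push Not at hcon
    apply hvQ
    rw [hsum]
    exact Finset.sum_eq_zero (fun j _ => hcon j)
  have hjl : j ≠ l := by
    rintro rfl
    rw [hcl, QuadraticMap.map_zero] at hj
    exact hj rfl
  refine ⟨j, hjl, c j, hc j, v - c j, ?_, by abel, hj⟩
  rw [mem_orth]
  intro x hx
  rw [polar_sub_right, hvc, hD.polar_sum c hc j x hx, sub_self]

end DecGeom

end Cfsg.Agent.Helper16
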