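import Cfsg.Agent.Helper16.DecSeed2

set_option autoImplicit false
open Cfsg

namespace Cfsg.Agent.Helper16

open QuadraticMap Module

section DecPhase2
variable {ι : Type} [Fintype ι] [DecidableEq ι] {F : Type*} [Field F]

/-- a seed forces the overgroup to contain `Ω` -/
theorem omega_le_of_seed [Fintype F] (hn : 7 ≤ Fintype.card ι) {Q : QuadraticForm F (ι → F)}
    (hQ : (polarBilin Q).Nondegenerate) {t k : ℕ} {D : Fin t → Submodule F (ι → F)}
    (hD : ODec Q k D) (hk : 3 ≤ k) {M : Subgroup (GL ι F)} (hM : DHyp Q D M)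
    (hseed : Seed Q D M) : Geo.omegaGL ⇑Q ≤ M := by
  obtain ⟨l, u, hu, hu0, huQ, b, hb, hbD⟩ := hseed
  have h3 : 3 ≤ finrank F (D l) := by rw [hD.fin l]; exact hk
  obtain ⟨b₁, hb₁, b', hb', hbb⟩ := (hD.nd l).decomp hQ b
  have hb'0 : b' ≠ 0 := by
    rintro rfl
    rw [add_zero] at hbb
    exact hbD (hbb ▸ hb₁)
  have hub' : polar Q u b' = 0 := (mem_orth Q _ b').1 hb' u hu
  have hub₁ : polar Q u b₁ = 0 := by
    have h1 := hb.1
    rw [hbb, polar_add_right, hub', add_zero] at h1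
    exact h1
  have hb'N : b' ∈ rootSp Q M u := by
    have h1 := (rootSp Q M u).sub_mem hb (hM.block l u b₁ hu hb₁ huQ hub₁)
    have e : b - b₁ = b' := by rw [hbb, add_sub_cancel_left]
    rwa [e] at h1
  have hmix : b' ∈ mixedSub Q (D l) M :=
    ⟨hb', fun v hv hvQ => (hM.root_all hQ hD hk l b' hb' u hu hu0 huQ hb'N v hv hvQ).2⟩
  obtain ⟨j, hj⟩ : ∃ j, b' ∉ orth Q (D j) := by
    by_contra hall
    push Not at hall
    exact hb'0 (hD.eq_zero_of_orth_all hQ b' hall)
  have hjl : j ≠ l := by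
    rintro rfl
    exact hj hb'
  have h3j : 3 ≤ finrank F (D j) := by rw [hD.fin j]; exact hk
  have hstabl : ∀ (i : Fin t), i ≠ l → ∀ (u w : ι → F) (hu : Q u = 0) (huw : polar Q u w = 0),
      u ∈ D i → w ∈ D i →
      ((sieg Q u w hu huw : ↥(isometryGroup F ⇑Q)) : GL ι F) ∈ Geo.subspaceStabilizer (D l) := by
    intro i hil u w hu huw huD hwD
    apply isom_mem_stab
    intro x hx
    rw [act_sieg, hD.perp i l hil w hwD x hx, hD.perp i l hil u huD x hx]
    simp only [zero_smul, mul_zero, add_zero, sub_zero]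
    exact hx
  have hDj : D j ≤ mixedSub Q (D l) M := by
    apply siegel_invariant_sub Q hQ (D j) (hD.nd j) h3j (mixedSub Q (D l) M) ?_ b' hmix ?_
    · intro u w hu huw huD hwD y hy
      have hσM := hM.hS j u huD w hwD hu huw
      rw [siegT_eq Q u w hu huw] at hσM
      exact mixedSub_inv Q (D l) M _ hσM (hstabl j hjl u w hu huw huD hwD) y hy
    · by_contra hcon
      push Not at hcon
      exact hj ((mem_orth Q _ b').2 hcon)
  have hall : ∀ j', j' ≠ l → D j' ≤ mixedSub Q (D l) M := by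
    intro j' hj'l
    by_cases hjj' : j' = j
    · rw [hjj']
      exact hDj
    obtain ⟨h, hhM, hh1, hh2⟩ := hM.hP l j j' (Ne.symm hjj') hjl.symm hj'l.symm
    intro x hx
    have hstab : (h : GL ι F) ∈ Geo.subspaceStabilizer (D l) := isom_mem_stab Q h (D l) hh2
    have h1 := mixedSub_inv Q (D l) M h⁻¹ (by rw [Subgroup.coe_inv]; exact M.inv_mem hhM)
      (by rw [Subgroup.coe_inv]; exact Subgroup.inv_mem _ hstab) _ (hDj (hh1 x hx))
    rwa [act_inv_act] at h1
  have horth : orth Q (D l) ≤ mixedSub Q (D l) M := by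
    intro v hv
    obtain ⟨c, hc, hcl, hvc⟩ := hD.comps_orth l v hv
    rw [hvc]
    apply Submodule.sum_mem
    intro i _
    by_cases hil : i = l
    · rw [hil, hcl]
      exact Submodule.zero_mem _
    · exact hall i hil (hc i)
  have hroot : ∀ v ∈ D l, Q v = 0 → v ∈ rootDirs Q M := by
    intro v hv hQv
    refine ⟨hQv, fun w hvw => ?_⟩
    obtain ⟨a, ha, b'', hb'', rfl⟩ := (hD.nd l).decomp hQ w
    have hvb' : polar Q v b'' = 0 := (mem_orth Q _ b'').1 hb'' v hv
    have hva : polar Q v a = 0 := by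
      rw [polar_add_right, hvb', add_zero] at hvw
      exact hvw
    have h1 : siegT Q v a ∈ M := hM.hS l v hv a ha hQv hva
    have h2 : siegT Q v b'' ∈ M := by
      have h3 := (horth hb'').2 v hv hQv 1
      rwa [one_smul] at h3
    have h3 := M.mul_mem h1 h2
    rw [siegT_mul Q v a b'' hQv hva hvb', siegT_eq Q v (a + b'') hQv hvw] at h3
    exact h3
  obtain ⟨u₂, hu₂, hu₂Q, huu₂⟩ := (hD.nd l).exists_partner u hu hu0 huQ
  apply omegaGL_le_of_rootDirs hn Q hQ M
  exact rootDirs_all (by omega) Q hQ M u u₂ (hroot u hu huQ) (hroot u₂ hu₂ hu₂Q)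
    (by rw [huu₂]; exact one_ne_zero)

end DecPhase2

end Cfsg.Agent.Helper16
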