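import Cfsg.Agent.Helper16.DecGeom

set_option autoImplicit false
open Cfsg

namespace Cfsg.Agent.Helper16

open QuadraticMap Module

section DecRoot
variable {ι : Type} [Fintype ι] [DecidableEq ι] {F : Type*} [Field F]

open Classical in
theorem siegT_of_ne (Q : QuadraticForm F (ι → F)) (u w : ι → F) (hu : Q u ≠ 0) :
    siegT Q u w = 1 := by
  unfold siegT
  rw [dif_neg (fun h => hu h.1)]

/-- the vectors `e` orthogonal to `a` whose root elements `ρ_{a,ce}` all lie in `M` -/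
def rootSp (Q : QuadraticForm F (ι → F)) (M : Subgroup (GL ι F)) (a : ι → F) :
    Submodule F (ι → F) where
  carrier := {e | polar Q a e = 0 ∧ ∀ c : F, siegT Q a (c • e) ∈ M}
  add_mem' := by
    rintro e e' ⟨he, he1⟩ ⟨he', he1'⟩
    refine ⟨by rw [polar_add_right, he, he', add_zero], fun c => ?_⟩
    by_cases ha : Q a = 0
    · have h1 := M.mul_mem (he1 c) (he1' c)
      rwa [siegT_mul Q a _ _ ha (by rw [polar_smul_right, he, smul_zero])
        (by rw [polar_smul_right, he', smul_zero]), ← smul_add] at h1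
    · rw [siegT_of_ne Q a _ ha]
      exact M.one_mem
  zero_mem' := ⟨qf_polar_zero_right Q a, fun c => by
    rw [smul_zero]
    by_cases ha : Q a = 0
    · rw [siegT_zero_right Q a ha]
      exact M.one_mem
    · rw [siegT_of_ne Q a _ ha]
      exact M.one_mem⟩
  smul_mem' := by
    rintro l e ⟨he, he1⟩
    refine ⟨by rw [polar_smul_right, he, smul_zero], fun c => ?_⟩
    rw [smul_smul]
    exact he1 (c * l)

theorem rootSp_self (Q : QuadraticForm F (ι → F)) (M : Subgroup (GL ι F)) (a : ι → F)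
    (ha : Q a = 0) : a ∈ rootSp Q M a :=
  ⟨by rw [qf_polar_self, ha, mul_zero], fun c => by
    rw [siegT_self Q a ha c]
    exact M.one_mem⟩

theorem rootSp_act (Q : QuadraticForm F (ι → F)) (M : Subgroup (GL ι F))
    (h : ↥(isometryGroup F ⇑Q)) (hM : (h : GL ι F) ∈ M) (a e : ι → F) (ha : Q a = 0)
    (he : e ∈ rootSp Q M a) : act ⇑Q h e ∈ rootSp Q M (act ⇑Q h a) := by
  obtain ⟨he0, he1⟩ := he
  refine ⟨(act_polar ⇑Q h a e).trans he0, fun c => ?_⟩
  have h2 := M.mul_mem (M.mul_mem hM (he1 c)) (M.inv_mem hM)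
  rw [siegT_conj Q h a (c • e) ha (by rw [polar_smul_right, he0, smul_zero]), act_smul] at h2
  exact h2

theorem rootSp_symm (Q : QuadraticForm F (ι → F)) (M : Subgroup (GL ι F)) (a e : ι → F)
    (ha : Q a = 0) (he : Q e = 0) (h : e ∈ rootSp Q M a) : a ∈ rootSp Q M e := by
  obtain ⟨h0, h1⟩ := h
  have hea : polar Q e a = 0 := by rw [polar_comm]; exact h0
  refine ⟨hea, fun c => ?_⟩
  rw [siegT_symm Q e (c • a) he (by rw [qf_smul, ha, mul_zero])
    (by rw [polar_smul_right, hea, smul_zero]),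
    siegT_smul Q a (-e) c ha (by rw [polar_neg_right, h0, neg_zero]), smul_neg, ← neg_smul]
  exact h1 (-c)

theorem rootSp_smul_base (Q : QuadraticForm F (ι → F)) (M : Subgroup (GL ι F)) (v b : ι → F)
    (hv : Q v = 0) (hb : b ∈ rootSp Q M v) (c : F) : b ∈ rootSp Q M (c • v) := by
  obtain ⟨h0, h1⟩ := hb
  refine ⟨by rw [polar_smul_left, h0, smul_zero], fun d => ?_⟩
  rw [siegT_smul Q v (d • b) c hv (by rw [polar_smul_right, h0, smul_zero]), smul_smul]
  exact h1 (c * d)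

theorem rootSp_sieg_mem (Q : QuadraticForm F (ι → F)) (M : Subgroup (GL ι F)) (a e : ι → F)
    (ha : Q a = 0) (h : e ∈ rootSp Q M a) :
    ((sieg Q a e ha h.1 : ↥(isometryGroup F ⇑Q)) : GL ι F) ∈ M := by
  have h1 := h.2 1
  rwa [one_smul, siegT_eq Q a e ha h.1] at h1

/-- invariance of the root space under a Siegel element of `M` fixing `a` -/
theorem rootSp_sieg (Q : QuadraticForm F (ι → F)) (M : Subgroup (GL ι F)) (a : ι → F)
    (ha : Q a = 0) (z w : ι → F) (hz : Q z = 0) (hzw : polar Q z w = 0)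
    (hM : siegT Q z w ∈ M) (hza : polar Q z a = 0) (hwa : polar Q w a = 0) (v : ι → F)
    (hv : v ∈ rootSp Q M a) :
    polar Q w v • z - polar Q z v • w - (Q w * polar Q z v) • z ∈ rootSp Q M a := by
  rw [siegT_eq Q z w hz hzw] at hM
  have h1 := rootSp_act Q M _ hM a v ha hv
  have hfix : act ⇑Q (sieg Q z w hz hzw) a = a := by
    rw [act_sieg, hza, hwa]
    simp
  rw [hfix, act_sieg] at h1
  have h2 := (rootSp Q M a).sub_mem h1 hv
  have e : v + polar Q w v • z - polar Q z v • w - (Q w * polar Q z v) • z - v =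
      polar Q w v • z - polar Q z v • w - (Q w * polar Q z v) • z := by abel
  rwa [e] at h2

/-- invariance of the root space under a product of two reflections of `M` fixing `a` -/
theorem rootSp_refl (Q : QuadraticForm F (ι → F)) (M : Subgroup (GL ι F)) (a : ι → F)
    (ha : Q a = 0) (x x' : ι → F) (hx : Q x ≠ 0) (hx' : Q x' ≠ 0)
    (hM : ((reflElt Q x * reflElt Q x' : ↥(isometryGroup F ⇑Q)) : GL ι F) ∈ M)
    (hxa : polar Q x a = 0) (hx'a : polar Q x' a = 0) (v : ι → F) (hv : v ∈ rootSp Q M a) :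
    qrefl Q x (qrefl Q x' v) - v ∈ rootSp Q M a := by
  have h1 := rootSp_act Q M _ hM a v ha hv
  simp only [act_mul, act_refl Q x' hx', act_refl Q x hx] at h1
  rw [qrefl_of_orth Q x' a hx'a, qrefl_of_orth Q x a hxa] at h1
  exact (rootSp Q M a).sub_mem h1 hv

/-- the hypotheses on an overgroup `M` of the stabiliser of the decomposition -/
structure DHyp (Q : QuadraticForm F (ι → F)) {t : ℕ} (D : Fin t → Submodule F (ι → F))
    (M : Subgroup (GL ι F)) : Prop where
  hS : ∀ l, ∀ u ∈ D l, ∀ w ∈ D l, Q u = 0 → polar Q u w = 0 → siegT Q u w ∈ M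
  hR : ∀ l l', ∀ x ∈ D l, ∀ x' ∈ D l', Q x ≠ 0 → Q x' = Q x →
    ((reflElt Q x * reflElt Q x' : ↥(isometryGroup F ⇑Q)) : GL ι F) ∈ M
  hP : ∀ l j j', j ≠ j' → l ≠ j → l ≠ j' → ∃ h : ↥(isometryGroup F ⇑Q), (h : GL ι F) ∈ M ∧
    (∀ x ∈ D j', act ⇑Q h x ∈ D j) ∧ (∀ x ∈ D l, act ⇑Q h x ∈ D l)

theorem DHyp.block {Q : QuadraticForm F (ι → F)} {t : ℕ} {D : Fin t → Submodule F (ι → F)}
    {M : Subgroup (GL ι F)} (hM : DHyp Q D M) (l : Fin t) (u w : ι → F) (hu : u ∈ D l)
    (hw : w ∈ D l) (huQ : Q u = 0) (huw : polar Q u w = 0) : w ∈ rootSp Q M u :=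
  ⟨huw, fun c => hM.hS l u hu (c • w) ((D l).smul_mem c hw) huQ
    (by rw [polar_smul_right, huw, smul_zero])⟩

/-- a mixed root element attached to a singular vector of a block -/
def Seed (Q : QuadraticForm F (ι → F)) {t : ℕ} (D : Fin t → Submodule F (ι → F))
    (M : Subgroup (GL ι F)) : Prop :=
  ∃ l, ∃ u ∈ D l, u ≠ 0 ∧ Q u = 0 ∧ ∃ b ∈ rootSp Q M u, b ∉ D l

theorem seed_of_sing (Q : QuadraticForm F (ι → F)) {t : ℕ} (D : Fin t → Submodule F (ι → F))
    (M : Subgroup (GL ι F)) (l : Fin t) (a e : ι → F) (ha : Q a = 0) (he : e ∈ rootSp Q M a)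
    (heD : e ∈ D l) (heQ : Q e = 0) (he0 : e ≠ 0) (haD : a ∉ D l) : Seed Q D M :=
  ⟨l, e, heD, he0, heQ, a, rootSp_symm Q M a e ha heQ he, haD⟩

/-- moving the base vector of a mixed root element by a block Siegel element -/
theorem DHyp.root_move {Q : QuadraticForm F (ι → F)} {t : ℕ} {D : Fin t → Submodule F (ι → F)}
    {M : Subgroup (GL ι F)} (hM : DHyp Q D M) (l : Fin t) (b : ι → F) (hb : b ∈ orth Q (D l))
    (v v' z : ι → F) (hv : v ∈ D l) (hvQ : Q v = 0) (hbv : b ∈ rootSp Q M v) (hv' : v' ∈ D l)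
    (hv'Q : Q v' = 0) (hz : z ∈ D l) (hzQ : Q z = 0) (hzv : polar Q z v ≠ 0)
    (hzv' : polar Q z v' ≠ 0) : b ∈ rootSp Q M v' := by
  have h1 : Q ((polar Q z v)⁻¹ • v) = 0 := by rw [qf_smul, hvQ, mul_zero]
  have h2 : Q ((polar Q z v')⁻¹ • v') = 0 := by rw [qf_smul, hv'Q, mul_zero]
  have h3 : polar Q z ((polar Q z v)⁻¹ • v) = 1 := by
    rw [polar_smul_right, smul_eq_mul, inv_mul_cancel₀ hzv]
  have h4 : polar Q z ((polar Q z v')⁻¹ • v') = 1 := by
    rw [polar_smul_right, smul_eq_mul, inv_mul_cancel₀ hzv']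
  have hmv := sieg_move Q z _ _ hzQ h1 h2 h3 h4
  have hzw : polar Q z ((polar Q z v)⁻¹ • v - (polar Q z v')⁻¹ • v') = 0 := by
    rw [polar_sub_right, h3, h4, sub_self]
  have hwD : (polar Q z v)⁻¹ • v - (polar Q z v')⁻¹ • v' ∈ D l :=
    (D l).sub_mem ((D l).smul_mem _ hv) ((D l).smul_mem _ hv')
  have hσM := hM.hS l z hz _ hwD hzQ hzw
  rw [siegT_eq Q z _ hzQ hzw] at hσM
  have h5 := rootSp_act Q M _ hσM _ b h1 (rootSp_smul_base Q M v b hvQ hbv _)
  have hfix : act ⇑Q (sieg Q z _ hzQ hzw) b = b := by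
    rw [act_sieg, (mem_orth Q _ b).1 hb z hz, (mem_orth Q _ b).1 hb _ hwD]
    simp
  rw [hmv, hfix] at h5
  have h6 := rootSp_smul_base Q M _ b h2 h5 (polar Q z v')
  rwa [smul_smul, mul_inv_cancel₀ hzv', one_smul] at h6

/-- a mixed root element based at one singular vector of a block can be based at all of them -/
theorem DHyp.root_all [Fintype F] {Q : QuadraticForm F (ι → F)}
    (hQ : (polarBilin Q).Nondegenerate) {t k : ℕ} {D : Fin t → Submodule F (ι → F)}
    (hD : ODec Q k D) (hk : 3 ≤ k) {M : Subgroup (GL ι F)} (hM : DHyp Q D M) (l : Fin t)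
    (b : ι → F) (hb : b ∈ orth Q (D l)) (v : ι → F) (hv : v ∈ D l) (hv0 : v ≠ 0)
    (hvQ : Q v = 0) (hbv : b ∈ rootSp Q M v) (v' : ι → F) (hv' : v' ∈ D l) (hv'Q : Q v' = 0) :
    b ∈ rootSp Q M v' := by
  by_cases hv'0 : v' = 0
  · subst hv'0
    exact ⟨by rw [polar_zero_left], fun c => by
      rw [siegT_zero_left]
      exact M.one_mem⟩
  by_cases hvv' : polar Q v v' = 0
  · obtain ⟨x, hx, hxv⟩ := hD.nd l v hv hv0
    obtain ⟨x', hx', hxv'⟩ := hD.nd l v' hv' hv'0
    obtain ⟨z₀, hz₀X, hz₀v, hz₀v'⟩ := (hD.nd l).exists_nonorth_both v v'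
      ⟨x, hx, by rw [polar_comm]; exact hxv⟩ ⟨x', hx', by rw [polar_comm]; exact hxv'⟩
    apply hM.root_move l b hb v v' (z₀ + (-(Q z₀ / polar Q z₀ v)) • v) hv hvQ hbv hv' hv'Q
      ((D l).add_mem hz₀X ((D l).smul_mem _ hv))
    · rw [qf_add, qf_smul, hvQ, polar_smul_right, smul_eq_mul]
      field_simp
      ring
    · rw [polar_add_left, polar_smul_left, qf_polar_self, hvQ]
      simpa using hz₀v
    · rw [polar_add_left, polar_smul_left, hvv']
      simpa using hz₀v'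
  · have hY := nd_hyp Q v v' hvQ hv'Q hvv'
    have hS : ND Q (D l ⊓ orth Q (Submodule.span F {v} ⊔ Submodule.span F {v'})) :=
      (hD.nd l).compl hQ hY (sup_le ((Submodule.span_singleton_le_iff_mem _ _).2 hv)
        ((Submodule.span_singleton_le_iff_mem _ _).2 hv'))
    have hfin := finrank_inf_orth_ge Q hQ (D l) (Submodule.span F {v} ⊔ Submodule.span F {v'})
    have hf2 := finrank_span_pair_le (F := F) v v'
    rw [hD.fin l] at hfin
    obtain ⟨y, hyS, hyQ⟩ := hS.exists_nonsing (ne_bot_of_finrank_pos _ (by omega))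
    obtain ⟨hy, hyO⟩ := Submodule.mem_inf.1 hyS
    rw [orth_sup, Submodule.mem_inf, mem_orth_span_singleton, mem_orth_span_singleton] at hyO
    obtain ⟨hvy, hv'y⟩ := hyO
    apply hM.root_move l b hb v v' (v + (-(Q y / polar Q v v')) • v' + y) hv hvQ hbv hv' hv'Q
      ((D l).add_mem ((D l).add_mem hv ((D l).smul_mem _ hv')) hy)
    · rw [qf_add, qf_add, qf_smul, hvQ, hv'Q, polar_smul_right, polar_add_left,
        polar_smul_left, hvy, hv'y, smul_eq_mul]
      field_simp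
      ring
    · rw [polar_add_left, polar_add_left, polar_smul_left, qf_polar_self, hvQ,
        polar_comm Q v' v, polar_comm Q y v, hvy]
      simp only [smul_eq_mul, mul_zero, zero_add, add_zero]
      exact mul_ne_zero (neg_ne_zero.2 (div_ne_zero hyQ hvv')) hvv'
    · rw [polar_add_left, polar_add_left, polar_smul_left, qf_polar_self, hv'Q,
        polar_comm Q y v', hv'y]
      simpa using hvv'

end DecRoot

end Cfsg.Agent.Helper16
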