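import Cfsg.Agent.Helper16.DecRoot

set_option autoImplicit false
open Cfsg

namespace Cfsg.Agent.Helper16

open QuadraticMap Module

section DecSeed1
variable {ι : Type} [Fintype ι] [DecidableEq ι] {F : Type*} [Field F]

/-- a root element based at a singular vector orthogonal to a block, with direction not
orthogonal to the block, produces a seed -/
theorem seed_orth [Fintype F] {Q : QuadraticForm F (ι → F)}
    (hQ : (polarBilin Q).Nondegenerate) {t k : ℕ} {D : Fin t → Submodule F (ι → F)}
    (hD : ODec Q k D) (hk : 3 ≤ k) {M : Subgroup (GL ι F)} (hM : DHyp Q D M) (l : Fin t)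
    (a v : ι → F) (ha : Q a = 0) (ha0 : a ≠ 0) (haO : a ∈ orth Q (D l))
    (hv : v ∈ rootSp Q M a) (hvO : v ∉ orth Q (D l)) : Seed Q D M := by
  have h3 : 3 ≤ finrank F (D l) := by rw [hD.fin l]; exact hk
  have hex : ∃ x ∈ D l, polar Q x v ≠ 0 := by
    by_contra hcon
    push Not at hcon
    exact hvO ((mem_orth Q _ v).2 hcon)
  obtain ⟨u, hu, huQ, huv⟩ := (hD.nd l).exists_sing_nonorth h3 v hex
  have hu0 : u ≠ 0 := by
    rintro rfl
    rw [polar_zero_left] at huv
    exact huv rfl
  have hau : ∀ x ∈ D l, polar Q a x = 0 := fun x hx => by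
    rw [polar_comm]
    exact (mem_orth Q _ a).1 haO x hx
  obtain ⟨w, hw, w', hw', huw, huw', hww'⟩ := (hD.nd l).exists_perp_pair hQ h3 u hu hu0 huQ
  have hav : polar Q a v = 0 := hv.1
  have hρM : ((sieg Q a v ha hav : ↥(isometryGroup F ⇑Q)) : GL ι F) ∈ M :=
    rootSp_sieg_mem Q M a v ha hv
  have hρu : act ⇑Q (sieg Q a v ha hav) u = u + polar Q v u • a := by
    rw [act_sieg, hau u hu]
    simp
  have hρw : act ⇑Q (sieg Q a v ha hav) w = w + polar Q v w • a := by
    rw [act_sieg, hau w hw]
    simp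
  obtain ⟨a₁, ha₁def⟩ : ∃ a₁, a₁ = u + polar Q v u • a := ⟨_, rfl⟩
  have ha₁Q : Q a₁ = 0 := by
    rw [ha₁def, ← hρu, act_Q ⇑Q]
    exact huQ
  have hv₁ : w + polar Q v w • a ∈ rootSp Q M a₁ := by
    have h1 := rootSp_act Q M _ hρM u w huQ (hM.block l u w hu hw huQ huw)
    rwa [hρu, hρw, ← ha₁def] at h1
  have hua₁ : polar Q u a₁ = 0 := by
    rw [ha₁def, polar_add_right, polar_smul_right, qf_polar_self, huQ, polar_comm Q u a,
      hau u hu]
    simp
  have hw'a₁ : polar Q w' a₁ = 0 := by
    rw [ha₁def, polar_add_right, polar_smul_right, polar_comm Q w' u, huw', polar_comm Q w' a,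
      hau w' hw']
    simp
  have h4 := rootSp_sieg Q M a₁ ha₁Q u w' huQ huw' (hM.hS l u hu w' hw' huQ huw') hua₁ hw'a₁ _
    hv₁
  have e1 : polar Q u (w + polar Q v w • a) = 0 := by
    rw [polar_add_right, polar_smul_right, huw, polar_comm Q u a, hau u hu]
    simp
  have e2 : polar Q w' (w + polar Q v w • a) = polar Q w w' := by
    rw [polar_add_right, polar_smul_right, polar_comm Q w' a, hau w' hw', polar_comm Q w' w]
    simp
  rw [e1, e2] at h4
  simp only [zero_smul, mul_zero, sub_zero] at h4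
  have hu₁ : u ∈ rootSp Q M a₁ := by
    have h5 := (rootSp Q M a₁).smul_mem (polar Q w w')⁻¹ h4
    rwa [smul_smul, inv_mul_cancel₀ hww', one_smul] at h5
  refine ⟨l, u, hu, hu0, huQ, a₁, rootSp_symm Q M a₁ u ha₁Q huQ hu₁, ?_⟩
  intro ha₁D
  have h6 : polar Q v u • a ∈ D l := by
    have h7 := (D l).sub_mem ha₁D hu
    have e : a₁ - u = polar Q v u • a := by rw [ha₁def, add_sub_cancel_left]
    rwa [e] at h7
  have h7 : a ∈ D l := by
    have h8 := (D l).smul_mem (polar Q v u)⁻¹ h6
    rwa [smul_smul, inv_mul_cancel₀ (by rw [polar_comm]; exact huv), one_smul] at h8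
  have h9 : a ∈ D l ⊓ orth Q (D l) := Submodule.mem_inf.2 ⟨h7, haO⟩
  rw [(hD.nd l).inf_orth, Submodule.mem_bot] at h9
  exact ha0 h9

/-- a singular vector with a non-singular component in `D l`, a zero or non-singular component
in another block, and a non-zero root direction inside `D l`, produces a seed -/
theorem seed_plane [Fintype F] (h2 : (2 : F) ≠ 0) {Q : QuadraticForm F (ι → F)}
    (hQ : (polarBilin Q).Nondegenerate) {t k : ℕ} {D : Fin t → Submodule F (ι → F)}
    (hD : ODec Q k D) (hk : 3 ≤ k) (hq : 5 ≤ Fintype.card F ∨ 5 ≤ k) {M : Subgroup (GL ι F)}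
    (hM : DHyp Q D M) (l j : Fin t) (hjl : j ≠ l) (a a₁ a' e aj aj' : ι → F) (ha : Q a = 0)
    (ha₁ : a₁ ∈ D l) (ha₁Q : Q a₁ ≠ 0) (ha' : a' ∈ orth Q (D l)) (haa : a = a₁ + a')
    (he : e ∈ rootSp Q M a) (heD : e ∈ D l) (he0 : e ≠ 0) (haj : aj ∈ D j)
    (haj' : aj' ∈ orth Q (D j)) (haaj : a = aj + aj') (hajQ : aj = 0 ∨ Q aj ≠ 0) :
    Seed Q D M := by
  have h3 : 3 ≤ finrank F (D l) := by rw [hD.fin l]; exact hk
  have h3j : 3 ≤ finrank F (D j) := by rw [hD.fin j]; exact hk
  have haD : a ∉ D l := by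
    intro h
    have h1 : a' ∈ D l ⊓ orth Q (D l) := by
      refine Submodule.mem_inf.2 ⟨?_, ha'⟩
      have h4 := (D l).sub_mem h ha₁
      have e1 : a - a₁ = a' := by rw [haa, add_sub_cancel_left]
      rwa [e1] at h4
    rw [(hD.nd l).inf_orth, Submodule.mem_bot] at h1
    rw [haa, h1, add_zero] at ha
    exact ha₁Q ha
  by_cases heQ : Q e = 0
  · exact seed_of_sing Q D M l a e ha he heD heQ he0 haD
  have hpa : ∀ x ∈ D l, polar Q a x = polar Q a₁ x := by
    intro x hx
    rw [haa, polar_add_left, polar_comm Q a' x, (mem_orth Q _ a').1 ha' x hx, add_zero]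
  have hpaj : ∀ x ∈ D j, polar Q a x = polar Q aj x := by
    intro x hx
    rw [haaj, polar_add_left, polar_comm Q aj' x, (mem_orth Q _ aj').1 haj' x hx, add_zero]
  -- spreading by pairs of reflections
  have hb : ∀ e' ∈ rootSp Q M a, e' ∈ D l → ∀ x ∈ D l, polar Q a₁ x = 0 → Q x ≠ 0 →
      polar Q x e' ≠ 0 → x ∈ rootSp Q M a := by
    intro e' he' he'D x hx hax hxQ hxe'
    obtain ⟨x', hx', hajx', hx'Q⟩ := (hD.nd j).exists_vec_perp h2 hQ h3j aj haj hajQ (Q x) hxQ
    have hR := hM.hR l j x hx x' hx' hxQ hx'Q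
    have hxa : polar Q x a = 0 := by
      rw [polar_comm, hpa x hx]
      exact hax
    have hx'a : polar Q x' a = 0 := by
      rw [polar_comm, hpaj x' hx']
      exact hajx'
    have h1 := rootSp_refl Q M a ha x x' hxQ (by rw [hx'Q]; exact hxQ) hR hxa hx'a e' he'
    have hx'e' : polar Q x' e' = 0 := hD.perp j l hjl x' hx' e' he'D
    rw [qrefl_of_orth Q x' e' hx'e', qrefl_apply] at h1
    have e1 : e' - ((Q x)⁻¹ * polar Q x e') • x - e' = (-((Q x)⁻¹ * polar Q x e')) • x := by
      rw [neg_smul]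
      abel
    rw [e1] at h1
    have h5 := (rootSp Q M a).smul_mem (-((Q x)⁻¹ * polar Q x e'))⁻¹ h1
    rwa [smul_smul, inv_mul_cancel₀ (neg_ne_zero.2 (mul_ne_zero (inv_ne_zero hxQ) hxe')),
      one_smul] at h5
  -- the vectors `p`, `p'`
  obtain ⟨p, hp, ha₁p, hpQ⟩ := (hD.nd l).exists_vec_perp h2 hQ h3 a₁ ha₁ (Or.inr ha₁Q)
    (-(Q a₁)) (neg_ne_zero.2 ha₁Q)
  have hpQ0 : Q p ≠ 0 := by
    rw [hpQ]
    exact neg_ne_zero.2 ha₁Q
  have hY : ND Q (Submodule.span F {a₁} ⊔ Submodule.span F {p}) :=
    (nd_span_nonsing h2 Q a₁ ha₁Q).sup (nd_span_nonsing h2 Q p hpQ0) (by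
      intro x hx y hy
      obtain ⟨c, rfl⟩ := Submodule.mem_span_singleton.1 hx
      obtain ⟨d, rfl⟩ := Submodule.mem_span_singleton.1 hy
      rw [polar_smul_left, polar_smul_right, ha₁p]
      simp)
  have hYle : Submodule.span F {a₁} ⊔ Submodule.span F {p} ≤ D l :=
    sup_le ((Submodule.span_singleton_le_iff_mem _ _).2 ha₁)
      ((Submodule.span_singleton_le_iff_mem _ _).2 hp)
  have hS : ND Q (D l ⊓ orth Q (Submodule.span F {a₁} ⊔ Submodule.span F {p})) :=
    (hD.nd l).compl hQ hY hYle
  have hfin := finrank_inf_orth_ge Q hQ (D l) (Submodule.span F {a₁} ⊔ Submodule.span F {p})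
  have hf2 := finrank_span_pair_le (F := F) a₁ p
  have hfl := hD.fin l
  obtain ⟨p', hp'S, hp'Q0, hp'Qa⟩ := hS.exists_two_vals h2 (ne_bot_of_finrank_pos _ (by omega))
    (by omega) (Q a₁) ha₁Q
  obtain ⟨hp', hp'O⟩ := Submodule.mem_inf.1 hp'S
  rw [orth_sup, Submodule.mem_inf, mem_orth_span_singleton, mem_orth_span_singleton] at hp'O
  obtain ⟨ha₁p', hpp'⟩ := hp'O
  have hs0 : Q a₁ - Q p' ≠ 0 := sub_ne_zero.2 (Ne.symm hp'Qa)
  obtain ⟨s, hsdef⟩ : ∃ s, s = (Q a₁ - Q p')⁻¹ := ⟨_, rfl⟩
  have hs : s * (Q a₁ - Q p') = 1 := by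
    rw [hsdef]
    exact inv_mul_cancel₀ hs0
  have hsne : s ≠ 0 := by
    rw [hsdef]
    exact inv_ne_zero hs0
  obtain ⟨xs, hxsdef⟩ : ∃ xs, xs = s • (p + p') := ⟨_, rfl⟩
  have hxsD : xs ∈ D l := by
    rw [hxsdef]
    exact (D l).smul_mem _ ((D l).add_mem hp hp')
  have hxsQ : Q xs = -s := by
    rw [hxsdef, qf_smul, qf_add, hpQ, hpp']
    linear_combination (-s) * hs
  have hxsQ0 : Q xs ≠ 0 := by
    rw [hxsQ]
    exact neg_ne_zero.2 hsne
  have ha₁xs : polar Q a₁ xs = 0 := by
    rw [hxsdef, polar_smul_right, polar_add_right, ha₁p, ha₁p']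
    simp
  have hae : polar Q a₁ e = 0 := by
    rw [← hpa e heD]
    exact he.1
  have hxsN : xs ∈ rootSp Q M a := by
    by_cases hxe : polar Q xs e = 0
    · obtain ⟨z, hz, ha₁z, hzQ, hze, hxz⟩ : ∃ z ∈ D l, polar Q a₁ z = 0 ∧ Q z ≠ 0 ∧
          polar Q z e ≠ 0 ∧ polar Q xs z ≠ 0 := by
        by_cases hsum : Q e + Q xs = 0
        · rcases hq with hq | hq
          · obtain ⟨μ, hμ0, hμ1, hμ2⟩ := exists_three_avoid (by omega) (1 : F)
            refine ⟨e + μ • xs, (D l).add_mem heD ((D l).smul_mem _ hxsD), ?_, ?_, ?_, ?_⟩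
            · rw [polar_add_right, polar_smul_right, hae, ha₁xs]
              simp
            · rw [qf_add, qf_smul, polar_smul_right, polar_comm Q e xs, hxe]
              intro h
              simp only [smul_eq_mul, mul_zero, add_zero] at h
              have h4 : (μ - 1) * (μ + 1) * Q xs = 0 := by linear_combination h - hsum
              rcases mul_eq_zero.1 h4 with h5 | h5
              · rcases mul_eq_zero.1 h5 with h6 | h6
                · exact hμ1 (sub_eq_zero.1 h6)
                · exact hμ2 (eq_neg_of_add_eq_zero_left h6)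
              · exact hxsQ0 h5
            · rw [polar_add_left, polar_smul_left, hxe, qf_polar_self]
              simp only [smul_eq_mul, mul_zero, add_zero]
              exact mul_ne_zero h2 heQ
            · rw [polar_add_right, polar_smul_right, hxe, qf_polar_self]
              simp only [smul_eq_mul, zero_add]
              exact mul_ne_zero hμ0 (mul_ne_zero h2 hxsQ0)
          · have hexs : polar Q e xs = 0 := by
              rw [polar_comm]
              exact hxe
            have hY3 : ND Q (Submodule.span F {a₁} ⊔ Submodule.span F {e} ⊔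
                Submodule.span F {xs}) := by
              apply ((nd_span_nonsing h2 Q a₁ ha₁Q).sup (nd_span_nonsing h2 Q e heQ) ?_).sup
                (nd_span_nonsing h2 Q xs hxsQ0) ?_
              · intro x hx y hy
                obtain ⟨c, rfl⟩ := Submodule.mem_span_singleton.1 hx
                obtain ⟨d, rfl⟩ := Submodule.mem_span_singleton.1 hy
                rw [polar_smul_left, polar_smul_right, hae]
                simp
              · intro x hx y hy
                obtain ⟨x1, hx1, x2, hx2, rfl⟩ := Submodule.mem_sup.1 hx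
                obtain ⟨c, rfl⟩ := Submodule.mem_span_singleton.1 hx1
                obtain ⟨d, rfl⟩ := Submodule.mem_span_singleton.1 hx2
                obtain ⟨f, rfl⟩ := Submodule.mem_span_singleton.1 hy
                rw [polar_add_left, polar_smul_left, polar_smul_left, polar_smul_right,
                  polar_smul_right, ha₁xs, hexs]
                simp
            have hY3le : Submodule.span F {a₁} ⊔ Submodule.span F {e} ⊔ Submodule.span F {xs} ≤
                D l :=
              sup_le (sup_le ((Submodule.span_singleton_le_iff_mem _ _).2 ha₁)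
                ((Submodule.span_singleton_le_iff_mem _ _).2 heD))
                ((Submodule.span_singleton_le_iff_mem _ _).2 hxsD)
            have hS3 := (hD.nd l).compl hQ hY3 hY3le
            have hfin3 := finrank_inf_orth_ge Q hQ (D l) (Submodule.span F {a₁} ⊔
              Submodule.span F {e} ⊔ Submodule.span F {xs})
            have hf3 := finrank_span_triple_le (F := F) a₁ e xs
            obtain ⟨y, hyS, hyQ⟩ := hS3.exists_nonsing (ne_bot_of_finrank_pos _ (by omega))
            obtain ⟨hy, hyO⟩ := Submodule.mem_inf.1 hyS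
            rw [orth_sup, orth_sup, Submodule.mem_inf, Submodule.mem_inf,
              mem_orth_span_singleton, mem_orth_span_singleton, mem_orth_span_singleton] at hyO
            obtain ⟨⟨ha₁y, hey⟩, hxsy⟩ := hyO
            refine ⟨e + xs + y, (D l).add_mem ((D l).add_mem heD hxsD) hy, ?_, ?_, ?_, ?_⟩
            · rw [polar_add_right, polar_add_right, hae, ha₁xs, ha₁y]
              simp
            · rw [qf_add, qf_add, polar_add_left, hexs, hey, hxsy]
              intro h
              apply hyQ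
              linear_combination h - hsum
            · rw [polar_add_left, polar_add_left, hxe, qf_polar_self, polar_comm Q y e, hey]
              simp only [add_zero]
              exact mul_ne_zero h2 heQ
            · rw [polar_add_right, polar_add_right, hxe, qf_polar_self, hxsy]
              simp only [add_zero, zero_add]
              exact mul_ne_zero h2 hxsQ0
        · refine ⟨e + xs, (D l).add_mem heD hxsD, ?_, ?_, ?_, ?_⟩
          · rw [polar_add_right, hae, ha₁xs, add_zero]
          · rw [qf_add, polar_comm Q e xs, hxe, add_zero]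
            exact hsum
          · rw [polar_add_left, hxe, qf_polar_self, add_zero]
            exact mul_ne_zero h2 heQ
          · rw [polar_add_right, hxe, qf_polar_self, zero_add]
            exact mul_ne_zero h2 hxsQ0
      have hzN : z ∈ rootSp Q M a := hb e he heD z hz ha₁z hzQ hze
      exact hb z hzN hz xs hxsD ha₁xs hxsQ0 hxz
    · exact hb e he heD xs hxsD ha₁xs hxsQ0 hxe
  -- the final root element
  obtain ⟨u, hudef⟩ : ∃ u, u = a₁ + p := ⟨_, rfl⟩
  have huD : u ∈ D l := by
    rw [hudef]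
    exact (D l).add_mem ha₁ hp
  have huQ : Q u = 0 := by
    rw [hudef, qf_add, hpQ, ha₁p]
    ring
  have hu0 : u ≠ 0 := by
    intro h0
    have h1 : polar Q a₁ u = 0 := by
      rw [h0]
      exact qf_polar_zero_right Q a₁
    rw [hudef, polar_add_right, qf_polar_self, ha₁p, add_zero] at h1
    exact (mul_ne_zero h2 ha₁Q) h1
  have hup' : polar Q u p' = 0 := by rw [hudef, polar_add_left, ha₁p', hpp', add_zero]
  have haxs : polar Q a xs = 0 := hxsN.1
  have hρM : ((sieg Q a xs ha haxs : ↥(isometryGroup F ⇑Q)) : GL ι F) ∈ M :=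
    rootSp_sieg_mem Q M a xs ha hxsN
  have hau : polar Q a u = 2 * Q a₁ := by
    rw [hpa u huD, hudef, polar_add_right, qf_polar_self, ha₁p, add_zero]
  have hxsu : polar Q xs u = -(2 * Q a₁ * s) := by
    rw [hxsdef, hudef, polar_smul_left, polar_add_left, polar_add_right, polar_add_right,
      polar_comm Q p a₁, ha₁p, qf_polar_self, hpQ, polar_comm Q p' a₁, ha₁p',
      polar_comm Q p' p, hpp']
    simp only [smul_eq_mul]
    ring
  have hρu : act ⇑Q (sieg Q a xs ha haxs) u = u - (2 * Q a₁) • xs := by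
    rw [act_sieg, hau, hxsu, hxsQ]
    funext i
    simp only [Pi.add_apply, Pi.sub_apply, Pi.smul_apply, smul_eq_mul]
    ring
  have hap' : polar Q a p' = 0 := by
    rw [hpa p' hp']
    exact ha₁p'
  have hxsp' : polar Q xs p' = 2 * s * Q p' := by
    rw [hxsdef, polar_smul_left, polar_add_left, hpp', qf_polar_self]
    simp only [smul_eq_mul]
    ring
  have hρp' : act ⇑Q (sieg Q a xs ha haxs) p' = p' + (2 * s * Q p') • a := by
    rw [act_sieg, hap', hxsp']
    simp
  have h1 := rootSp_act Q M _ hρM u p' huQ (hM.block l u p' huD hp' huQ hup')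
  rw [hρu, hρp'] at h1
  refine ⟨l, u - (2 * Q a₁) • xs, (D l).sub_mem huD ((D l).smul_mem _ hxsD), ?_, ?_, _, h1, ?_⟩
  · rw [← hρu]
    exact act_ne_zero ⇑Q _ u hu0
  · rw [← hρu, act_Q ⇑Q]
    exact huQ
  · intro h
    have h6 : (2 * s * Q p') • a ∈ D l := by
      have h7 := (D l).sub_mem h hp'
      rwa [add_sub_cancel_left] at h7
    have h8 := (D l).smul_mem (2 * s * Q p')⁻¹ h6
    rw [smul_smul, inv_mul_cancel₀ (mul_ne_zero (mul_ne_zero h2 hsne) hp'Q0), one_smul] at h8
    exact haD h8

end DecSeed1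

end Cfsg.Agent.Helper16
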