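import Cfsg.Agent.Helper16.DecSeed1

set_option autoImplicit false
open Cfsg

namespace Cfsg.Agent.Helper16

open QuadraticMap Module

section DecSeed2
variable {ι : Type} [Fintype ι] [DecidableEq ι] {F : Type*} [Field F]

/-- a singular vector with a non-zero singular component in `D l` and a non-zero component
orthogonal to `D l`, having a root direction outside its own span, produces a seed -/
theorem seed_sing [Fintype F] (h2 : (2 : F) ≠ 0) {Q : QuadraticForm F (ι → F)}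
    (hQ : (polarBilin Q).Nondegenerate) {t k : ℕ} {D : Fin t → Submodule F (ι → F)}
    (hD : ODec Q k D) (hk : 3 ≤ k) (hq : 5 ≤ Fintype.card F ∨ 5 ≤ k) {M : Subgroup (GL ι F)}
    (hM : DHyp Q D M) (l : Fin t) (a a₁ a' b : ι → F) (ha : Q a = 0) (ha₁ : a₁ ∈ D l)
    (ha₁Q : Q a₁ = 0) (ha₁0 : a₁ ≠ 0) (ha' : a' ∈ orth Q (D l)) (ha'0 : a' ≠ 0)
    (haa : a = a₁ + a') (hb : b ∈ rootSp Q M a) (hba : b ∉ Submodule.span F {a}) :
    Seed Q D M := by
  have h3 : 3 ≤ finrank F (D l) := by rw [hD.fin l]; exact hk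
  have haD : a ∉ D l := by
    intro h
    have h1 : a' ∈ D l ⊓ orth Q (D l) := by
      refine Submodule.mem_inf.2 ⟨?_, ha'⟩
      have h4 := (D l).sub_mem h ha₁
      have e1 : a - a₁ = a' := by rw [haa, add_sub_cancel_left]
      rwa [e1] at h4
    rw [(hD.nd l).inf_orth, Submodule.mem_bot] at h1
    exact ha'0 h1
  have hpa : ∀ x ∈ D l, polar Q a x = polar Q a₁ x := by
    intro x hx
    rw [haa, polar_add_left, polar_comm Q a' x, (mem_orth Q _ a').1 ha' x hx, add_zero]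
  have ha'x : ∀ x ∈ D l, polar Q x a' = 0 := fun x hx => (mem_orth Q _ a').1 ha' x hx
  have ha₁a : polar Q a₁ a = 0 := by
    rw [haa, polar_add_right, qf_polar_self, ha₁Q, ha'x a₁ ha₁]
    simp
  have hfix : ∀ w ∈ D l, polar Q a₁ w = 0 → ∀ v ∈ rootSp Q M a,
      polar Q w v • a₁ - polar Q a₁ v • w - (Q w * polar Q a₁ v) • a₁ ∈ rootSp Q M a := by
    intro w hw ha₁w v hv
    exact rootSp_sieg Q M a ha a₁ w ha₁Q ha₁w (hM.hS l a₁ ha₁ w hw ha₁Q ha₁w) ha₁a
      (by rw [haa, polar_add_right, polar_comm Q w a₁, ha₁w, ha'x w hw, add_zero]) v hv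
  have hdone : a₁ ∈ rootSp Q M a → Seed Q D M := fun h =>
    seed_of_sing Q D M l a a₁ ha h ha₁ ha₁Q ha₁0 haD
  by_cases hc1 : ∃ v ∈ rootSp Q M a, polar Q a₁ v ≠ 0
  · obtain ⟨v, hv, hne⟩ := hc1
    obtain ⟨w, hw, w', hw', ha₁w, ha₁w', hww'⟩ :=
      (hD.nd l).exists_perp_pair hQ h3 a₁ ha₁ ha₁0 ha₁Q
    obtain ⟨w₀, hw₀, ha₁w₀, hw₀Q⟩ : ∃ w₀ ∈ D l, polar Q a₁ w₀ = 0 ∧ Q w₀ ≠ 0 := by
      by_cases h1 : Q w = 0
      · by_cases h1' : Q w' = 0
        · exact ⟨w + w', (D l).add_mem hw hw', by rw [polar_add_right, ha₁w, ha₁w', add_zero],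
            by rw [qf_add, h1, h1', zero_add, zero_add]; exact hww'⟩
        · exact ⟨w', hw', ha₁w', h1'⟩
      · exact ⟨w, hw, ha₁w, h1⟩
    apply hdone
    have e1 := hfix w₀ hw₀ ha₁w₀ v hv
    have e2 := hfix (-w₀) ((D l).neg_mem hw₀) (by rw [polar_neg_right, ha₁w₀, neg_zero]) v hv
    have e3 := (rootSp Q M a).add_mem e1 e2
    have e4 : polar Q w₀ v • a₁ - polar Q a₁ v • w₀ - (Q w₀ * polar Q a₁ v) • a₁ +
        (polar Q (-w₀) v • a₁ - polar Q a₁ v • (-w₀) - (Q (-w₀) * polar Q a₁ v) • a₁) =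
        (-(2 * Q w₀ * polar Q a₁ v)) • a₁ := by
      rw [polar_neg_left, QuadraticMap.map_neg]
      funext i
      simp only [Pi.add_apply, Pi.sub_apply, Pi.smul_apply, smul_eq_mul, Pi.neg_apply]
      ring
    rw [e4] at e3
    have e5 := (rootSp Q M a).smul_mem (-(2 * Q w₀ * polar Q a₁ v))⁻¹ e3
    rwa [smul_smul, inv_mul_cancel₀ (neg_ne_zero.2 (mul_ne_zero (mul_ne_zero h2 hw₀Q) hne)),
      one_smul] at e5
  push Not at hc1
  by_cases hc2 : ∃ v ∈ rootSp Q M a, ∃ w ∈ D l, polar Q a₁ w = 0 ∧ polar Q w v ≠ 0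
  · obtain ⟨v, hv, w, hw, ha₁w, hne⟩ := hc2
    apply hdone
    have e1 := hfix w hw ha₁w v hv
    rw [hc1 v hv] at e1
    simp only [zero_smul, mul_zero, sub_zero] at e1
    have e5 := (rootSp Q M a).smul_mem (polar Q w v)⁻¹ e1
    rwa [smul_smul, inv_mul_cancel₀ hne, one_smul] at e5
  push Not at hc2
  obtain ⟨b₁, hb₁, b', hb', hbb⟩ := (hD.nd l).decomp hQ b
  obtain ⟨β, hβ⟩ := (hD.nd l).eq_smul_of_double_orth a₁ ha₁ ha₁0 ha₁Q b₁ hb₁ (by
    intro w hw ha₁w
    have h1 := hc2 b hb w hw ha₁w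
    rw [hbb, polar_add_right, (mem_orth Q _ b').1 hb' w hw, add_zero] at h1
    exact h1)
  obtain ⟨c, hcdef⟩ : ∃ c, c = b' - β • a' := ⟨_, rfl⟩
  have hcO : c ∈ orth Q (D l) := by
    rw [hcdef]
    exact (orth Q (D l)).sub_mem hb' ((orth Q (D l)).smul_mem _ ha')
  have hcb : c = b - β • a := by
    rw [hcdef, hbb, hβ, haa, smul_add]
    abel
  have hcN : c ∈ rootSp Q M a := by
    rw [hcb]
    exact (rootSp Q M a).sub_mem hb ((rootSp Q M a).smul_mem _ (rootSp_self Q M a ha))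
  have hc0 : c ≠ 0 := by
    intro h0
    apply hba
    have h1 : b = β • a := by
      rw [hcb] at h0
      exact sub_eq_zero.1 h0
    rw [h1]
    exact Submodule.smul_mem _ _ (Submodule.mem_span_singleton_self a)
  by_cases hspan : c ∈ Submodule.span F {a'}
  · obtain ⟨d, hd⟩ := Submodule.mem_span_singleton.1 hspan
    have hd0 : d ≠ 0 := by
      rintro rfl
      exact hc0 (by rw [← hd, zero_smul])
    apply hdone
    have h1 : a' ∈ rootSp Q M a := by
      have h5 := (rootSp Q M a).smul_mem d⁻¹ hcN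
      rwa [← hd, smul_smul, inv_mul_cancel₀ hd0, one_smul] at h5
    have h6 := (rootSp Q M a).sub_mem (rootSp_self Q M a ha) h1
    have e1 : a - a' = a₁ := by rw [haa, add_sub_cancel_right]
    rwa [e1] at h6
  obtain ⟨u, hu, huQ, ha₁u⟩ := (hD.nd l).exists_partner a₁ ha₁ ha₁0 ha₁Q
  have hu0 : u ≠ 0 := by
    rintro rfl
    rw [qf_polar_zero_right] at ha₁u
    exact zero_ne_one ha₁u
  have hcx : ∀ x ∈ D l, polar Q c x = 0 := fun x hx => by
    rw [polar_comm]
    exact (mem_orth Q _ c).1 hcO x hx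
  have hac : polar Q a c = 0 := hcN.1
  have hρM : ((sieg Q a c ha hac : ↥(isometryGroup F ⇑Q)) : GL ι F) ∈ M :=
    rootSp_sieg_mem Q M a c ha hcN
  have hau : polar Q a u = 1 := by
    rw [hpa u hu]
    exact ha₁u
  have hρu : act ⇑Q (sieg Q a c ha hac) u = u - c - Q c • a := by
    rw [act_sieg, hau, hcx u hu]
    simp
  by_cases hcQ : Q c = 0
  · have hρu' : act ⇑Q (sieg Q a c ha hac) u = u - c := by
      rw [hρu, hcQ, zero_smul, sub_zero]
    obtain ⟨e, hedef⟩ : ∃ e, e = u - c := ⟨_, rfl⟩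
    have heQ : Q e = 0 := by
      rw [hedef, ← hρu', act_Q ⇑Q]
      exact huQ
    obtain ⟨w, hw, w', hw', huw, huw', hww'⟩ := (hD.nd l).exists_perp_pair hQ h3 u hu hu0 huQ
    have hρw : act ⇑Q (sieg Q a c ha hac) w = w - polar Q a₁ w • c := by
      rw [act_sieg, hcx w hw, hcQ, hpa w hw]
      simp
    have hv₁ : w - polar Q a₁ w • c ∈ rootSp Q M e := by
      have h1 := rootSp_act Q M _ hρM u w huQ (hM.block l u w hu hw huQ huw)
      rwa [hρu', hρw, ← hedef] at h1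
    have hue : polar Q u e = 0 := by
      rw [hedef, polar_sub_right, qf_polar_self, huQ, polar_comm Q u c, hcx u hu]
      simp
    have hw'e : polar Q w' e = 0 := by
      rw [hedef, polar_sub_right, polar_comm Q w' u, huw', polar_comm Q w' c, hcx w' hw']
      simp
    have h4 := rootSp_sieg Q M e heQ u w' huQ huw' (hM.hS l u hu w' hw' huQ huw') hue hw'e _ hv₁
    have e1 : polar Q u (w - polar Q a₁ w • c) = 0 := by
      rw [polar_sub_right, polar_smul_right, huw, polar_comm Q u c, hcx u hu]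
      simp
    have e2 : polar Q w' (w - polar Q a₁ w • c) = polar Q w w' := by
      rw [polar_sub_right, polar_smul_right, polar_comm Q w' c, hcx w' hw', polar_comm Q w' w]
      simp
    rw [e1, e2] at h4
    simp only [zero_smul, mul_zero, sub_zero] at h4
    have hu₁ : u ∈ rootSp Q M e := by
      have h5 := (rootSp Q M e).smul_mem (polar Q w w')⁻¹ h4
      rwa [smul_smul, inv_mul_cancel₀ hww', one_smul] at h5
    refine ⟨l, u, hu, hu0, huQ, e, rootSp_symm Q M e u heQ huQ hu₁, ?_⟩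
    intro heD
    have h6 : c ∈ D l := by
      have h7 := (D l).sub_mem hu heD
      have e3 : u - e = c := by rw [hedef, sub_sub_cancel]
      rwa [e3] at h7
    have h9 : c ∈ D l ⊓ orth Q (D l) := Submodule.mem_inf.2 ⟨h6, hcO⟩
    rw [(hD.nd l).inf_orth, Submodule.mem_bot] at h9
    exact hc0 h9
  · obtain ⟨e, hedef⟩ : ∃ e, e = u - c - Q c • a := ⟨_, rfl⟩
    have heQ : Q e = 0 := by
      rw [hedef, ← hρu, act_Q ⇑Q]
      exact huQ
    obtain ⟨e₁, he₁def⟩ : ∃ e₁, e₁ = u - Q c • a₁ := ⟨_, rfl⟩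
    obtain ⟨e', he'def⟩ : ∃ e', e' = -c - Q c • a' := ⟨_, rfl⟩
    have hee : e = e₁ + e' := by
      rw [hedef, he₁def, he'def]
      have e3 : Q c • a = Q c • a₁ + Q c • a' := by rw [haa, smul_add]
      rw [e3]
      abel
    have he₁D : e₁ ∈ D l := by
      rw [he₁def]
      exact (D l).sub_mem hu ((D l).smul_mem _ ha₁)
    have he'O : e' ∈ orth Q (D l) := by
      rw [he'def]
      exact (orth Q (D l)).sub_mem ((orth Q (D l)).neg_mem hcO) ((orth Q (D l)).smul_mem _ ha')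
    have he₁Q : Q e₁ = -Q c := by
      rw [he₁def, sub_eq_add_neg, ← neg_smul, qf_add, qf_smul, huQ, ha₁Q, polar_smul_right,
        polar_comm Q u a₁, ha₁u]
      simp
    have he₁Q0 : Q e₁ ≠ 0 := by
      rw [he₁Q]
      exact neg_ne_zero.2 hcQ
    have he'Q : Q e' ≠ 0 := by
      have h1 : Q e = Q e₁ + Q e' + polar Q e₁ e' := by rw [hee, qf_add]
      rw [heQ, he₁Q, (mem_orth Q _ e').1 he'O e₁ he₁D] at h1
      intro h0
      rw [h0] at h1
      apply hcQ
      linear_combination h1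
    have hfin := finrank_inf_orth_ge Q hQ (D l) (Submodule.span F {u} ⊔ Submodule.span F {a₁})
    have hf2 := finrank_span_pair_le (F := F) u a₁
    obtain ⟨w₀, hw₀S, hw₀0⟩ := Submodule.exists_mem_ne_zero_of_ne_bot
      (ne_bot_of_finrank_pos (D l ⊓ orth Q (Submodule.span F {u} ⊔ Submodule.span F {a₁}))
        (by omega))
    obtain ⟨hw₀, hw₀O⟩ := Submodule.mem_inf.1 hw₀S
    rw [orth_sup, Submodule.mem_inf, mem_orth_span_singleton, mem_orth_span_singleton] at hw₀O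
    obtain ⟨huw₀, ha₁w₀⟩ := hw₀O
    have hρw₀ : act ⇑Q (sieg Q a c ha hac) w₀ = w₀ := by
      rw [act_sieg, hcx w₀ hw₀, hpa w₀ hw₀, ha₁w₀]
      simp
    have hw₀N : w₀ ∈ rootSp Q M e := by
      have h1 := rootSp_act Q M _ hρM u w₀ huQ (hM.block l u w₀ hu hw₀ huQ huw₀)
      rwa [hρu, hρw₀, ← hedef] at h1
    obtain ⟨j, hjl, cj, hcj, cj', hcj', hecj, hcjQ⟩ := hD.exists_nonsing_comp l e' he'O he'Q
    exact seed_plane h2 hQ hD hk hq hM l j hjl e e₁ e' w₀ cj (e₁ + cj') heQ he₁D he₁Q0 he'O hee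
      hw₀N hw₀ hw₀0 hcj ((orth Q (D j)).add_mem (hD.le_orth hjl.symm he₁D) hcj')
      (by rw [hee, hecj]; abel) (Or.inr hcjQ)

/-- a singular vector lying in no block, with a root direction outside its own span,
produces a seed -/
theorem seed_gen [Fintype F] (h2 : (2 : F) ≠ 0) {Q : QuadraticForm F (ι → F)}
    (hQ : (polarBilin Q).Nondegenerate) {t k : ℕ} {D : Fin t → Submodule F (ι → F)}
    (hD : ODec Q k D) (ht : 2 ≤ t) (hk : 3 ≤ k) (hq : 5 ≤ Fintype.card F ∨ 5 ≤ k)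
    {M : Subgroup (GL ι F)} (hM : DHyp Q D M) (a b : ι → F) (ha : Q a = 0)
    (haD : ∀ l, a ∉ D l) (hb : b ∈ rootSp Q M a) (hba : b ∉ Submodule.span F {a}) :
    Seed Q D M := by
  by_contra hcon
  have ha0 : a ≠ 0 := by
    rintro rfl
    exact haD ⟨0, by omega⟩ (Submodule.zero_mem _)
  have S1 : ∀ l, ∀ a₁ ∈ D l, ∀ a' ∈ orth Q (D l), a = a₁ + a' → a₁ = 0 ∨ Q a₁ ≠ 0 := by
    intro l a₁ ha₁ a' ha' haa
    by_contra h
    push Not at h
    obtain ⟨h10, h1Q⟩ := h
    have ha'0 : a' ≠ 0 := by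
      rintro rfl
      rw [add_zero] at haa
      exact haD l (haa ▸ ha₁)
    exact hcon (seed_sing h2 hQ hD hk hq hM l a a₁ a' b ha ha₁ h1Q h10 ha' ha'0 haa hb hba)
  have S2 : ∀ l, a ∈ orth Q (D l) → ∀ v ∈ rootSp Q M a, v ∈ orth Q (D l) := by
    intro l haO v hv
    by_contra hvO
    exact hcon (seed_orth hQ hD hk hM l a v ha ha0 haO hv hvO)
  have S3 : ∀ l, ∀ a₁ ∈ D l, ∀ a' ∈ orth Q (D l), a = a₁ + a' → Q a₁ ≠ 0 →
      ∀ e ∈ rootSp Q M a, e ∈ D l → e = 0 := by
    intro l a₁ ha₁ a' ha' haa ha₁Q e he heD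
    by_contra he0
    obtain ⟨j, hjl⟩ := exists_fin_ne ht l
    obtain ⟨aj, haj, aj', haj', haaj⟩ := (hD.nd j).decomp hQ a
    exact hcon (seed_plane h2 hQ hD hk hq hM l j hjl a a₁ a' e aj aj' ha ha₁ ha₁Q ha' haa he heD
      he0 haj haj' haaj (S1 j aj haj aj' haj' haaj))
  have S4 : ∀ l, ∀ a₁ ∈ D l, ∀ a' ∈ orth Q (D l), a = a₁ + a' → ∀ v ∈ rootSp Q M a,
      ∀ v₁ ∈ D l, ∀ v' ∈ orth Q (D l), v = v₁ + v' → ∃ β : F, v₁ = β • a₁ := by
    intro l a₁ ha₁ a' ha' haa v hv v₁ hv₁ v' hv' hvv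
    rcases S1 l a₁ ha₁ a' ha' haa with h10 | h1Q
    · refine ⟨0, ?_⟩
      rw [zero_smul]
      have haO : a ∈ orth Q (D l) := by
        rw [haa, h10, zero_add]
        exact ha'
      have hvO := S2 l haO v hv
      have h1 : v₁ ∈ D l ⊓ orth Q (D l) := by
        refine Submodule.mem_inf.2 ⟨hv₁, ?_⟩
        have h4 := (orth Q (D l)).sub_mem hvO hv'
        have e1 : v - v' = v₁ := by rw [hvv, add_sub_cancel_right]
        rwa [e1] at h4
      rw [(hD.nd l).inf_orth, Submodule.mem_bot] at h1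
      exact h1
    · have hSnd : ND Q (D l ⊓ orth Q (Submodule.span F {a₁})) :=
        (hD.nd l).compl hQ (nd_span_nonsing h2 Q a₁ h1Q)
          ((Submodule.span_singleton_le_iff_mem _ _).2 ha₁)
      have hfin := finrank_inf_orth_ge Q hQ (D l) (Submodule.span F {a₁})
      have hf1 := finrank_span_one_le (F := F) a₁
      have hfl := hD.fin l
      have hpa : ∀ x ∈ D l, polar Q x a = polar Q x a₁ := by
        intro x hx
        rw [haa, polar_add_right, (mem_orth Q _ a').1 ha' x hx, add_zero]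
      have hpv : ∀ x ∈ D l, polar Q x v = polar Q x v₁ := by
        intro x hx
        rw [hvv, polar_add_right, (mem_orth Q _ v').1 hv' x hx, add_zero]
      have key : ∀ x₂ ∈ D l, polar Q a₁ x₂ = 0 → Q x₂ ≠ 0 → polar Q x₂ v = 0 := by
        intro x₂ hx₂ ha₁x₂ hx₂Q
        have hx₂S : x₂ ∈ D l ⊓ orth Q (Submodule.span F {a₁}) :=
          Submodule.mem_inf.2 ⟨hx₂, (mem_orth_span_singleton Q a₁ x₂).2 ha₁x₂⟩
        obtain ⟨x, hxS, hxQ, hxspan⟩ := hSnd.exists_mate h2 hQ (by omega) x₂ hx₂S hx₂Q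
        obtain ⟨hx, hxO⟩ := Submodule.mem_inf.1 hxS
        rw [mem_orth_span_singleton] at hxO
        have hxQ0 : Q x ≠ 0 := by
          rw [hxQ]
          exact hx₂Q
        have hR := hM.hR l l x hx x₂ hx₂ hxQ0 hxQ.symm
        have h1 := rootSp_refl Q M a ha x x₂ hxQ0 hx₂Q hR
          (by rw [hpa x hx, polar_comm]; exact hxO)
          (by rw [hpa x₂ hx₂, polar_comm]; exact ha₁x₂) v hv
        have h2' : qrefl Q x (qrefl Q x₂ v) - v ∈ D l := by
          rw [qrefl_apply, qrefl_apply]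
          have e : v - ((Q x₂)⁻¹ * polar Q x₂ v) • x₂ -
              ((Q x)⁻¹ * polar Q x (v - ((Q x₂)⁻¹ * polar Q x₂ v) • x₂)) • x - v =
              -(((Q x₂)⁻¹ * polar Q x₂ v) • x₂) -
              ((Q x)⁻¹ * polar Q x (v - ((Q x₂)⁻¹ * polar Q x₂ v) • x₂)) • x := by abel
          rw [e]
          exact (D l).sub_mem ((D l).neg_mem ((D l).smul_mem _ hx₂)) ((D l).smul_mem _ hx)
        have h0 := S3 l a₁ ha₁ a' ha' haa h1Q _ h1 h2'
        rw [qrefl_apply, qrefl_apply] at h0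
        by_contra hne
        apply hxspan
        have hc₂ : (Q x₂)⁻¹ * polar Q x₂ v ≠ 0 := mul_ne_zero (inv_ne_zero hx₂Q) hne
        generalize (Q x₂)⁻¹ * polar Q x₂ v = c₂ at h0 hc₂
        generalize (Q x)⁻¹ * polar Q x (v - c₂ • x₂) = c at h0
        have h5 : c • x = (-c₂) • x₂ := by
          have e : v - c₂ • x₂ - c • x - v = -(c₂ • x₂) - c • x := by abel
          rw [e] at h0
          rw [neg_smul]
          exact (sub_eq_zero.1 h0).symm
        have hx₂0 : x₂ ≠ 0 := by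
          rintro rfl
          exact hx₂Q (QuadraticMap.map_zero Q)
        have hc0 : c ≠ 0 := by
          rintro rfl
          rw [zero_smul] at h5
          have h6 := (smul_eq_zero.1 h5.symm).resolve_right hx₂0
          exact hc₂ (neg_eq_zero.1 h6)
        have h6 : x = (c⁻¹ * -c₂) • x₂ := by
          rw [← smul_smul, ← h5, smul_smul, inv_mul_cancel₀ hc0, one_smul]
        rw [h6]
        exact Submodule.smul_mem _ _ (Submodule.mem_span_singleton_self x₂)
      obtain ⟨β, hβdef⟩ : ∃ β, β = polar Q a₁ v₁ / (2 * Q a₁) := ⟨_, rfl⟩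
      refine ⟨β, ?_⟩
      obtain ⟨y, hydef⟩ : ∃ y, y = v₁ - β • a₁ := ⟨_, rfl⟩
      have hyD : y ∈ D l := by
        rw [hydef]
        exact (D l).sub_mem hv₁ ((D l).smul_mem _ ha₁)
      have ha₁y : polar Q a₁ y = 0 := by
        rw [hydef, polar_sub_right, polar_smul_right, qf_polar_self, hβdef, smul_eq_mul]
        field_simp
        ring
      have hyS : y ∈ D l ⊓ orth Q (Submodule.span F {a₁}) :=
        Submodule.mem_inf.2 ⟨hyD, (mem_orth_span_singleton Q a₁ y).2 ha₁y⟩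
      have hns : ∀ x₂ ∈ D l, polar Q a₁ x₂ = 0 → Q x₂ ≠ 0 → polar Q x₂ y = 0 := by
        intro x₂ hx₂ ha₁x₂ hx₂Q
        rw [hydef, polar_sub_right, polar_smul_right, polar_comm Q x₂ a₁, ha₁x₂, ← hpv x₂ hx₂,
          key x₂ hx₂ ha₁x₂ hx₂Q]
        simp
      obtain ⟨z, hzS, hzQ⟩ := hSnd.exists_nonsing (ne_bot_of_finrank_pos _ (by omega))
      obtain ⟨hz, hzO⟩ := Submodule.mem_inf.1 hzS
      rw [mem_orth_span_singleton] at hzO
      have hyO : y ∈ orth Q (D l ⊓ orth Q (Submodule.span F {a₁})) := by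
        rw [mem_orth]
        intro x hxS
        obtain ⟨hx, hxO⟩ := Submodule.mem_inf.1 hxS
        rw [mem_orth_span_singleton] at hxO
        by_cases hxQ : Q x = 0
        · have hsum : Q (x + z) ≠ 0 ∨ Q (x - z) ≠ 0 := by
            by_contra hcon2
            push Not at hcon2
            obtain ⟨h5, h6⟩ := hcon2
            rw [qf_add, hxQ] at h5
            rw [sub_eq_add_neg, qf_add, hxQ, QuadraticMap.map_neg, polar_neg_right] at h6
            apply hzQ
            have h7 : (2 : F) * Q z = 0 := by linear_combination h5 + h6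
            exact (mul_eq_zero.1 h7).resolve_left h2
          have hzy := hns z hz hzO hzQ
          rcases hsum with h5 | h5
          · have h6 := hns (x + z) ((D l).add_mem hx hz)
              (by rw [polar_add_right, hxO, hzO, add_zero]) h5
            rw [polar_add_left, hzy, add_zero] at h6
            exact h6
          · have h6 := hns (x - z) ((D l).sub_mem hx hz)
              (by rw [polar_sub_right, hxO, hzO, sub_zero]) h5
            rw [polar_sub_left, hzy, sub_zero] at h6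
            exact h6
        · exact hns x hx hxO hxQ
      have hy0 : y ∈ (D l ⊓ orth Q (Submodule.span F {a₁})) ⊓
          orth Q (D l ⊓ orth Q (Submodule.span F {a₁})) := Submodule.mem_inf.2 ⟨hyS, hyO⟩
      rw [hSnd.inf_orth, Submodule.mem_bot] at hy0
      rw [hydef] at hy0
      exact sub_eq_zero.1 hy0
  -- a block on which `a` has a non-zero component
  obtain ⟨l, hl⟩ : ∃ l, a ∉ orth Q (D l) := by
    by_contra hall
    push Not at hall
    exact ha0 (hD.eq_zero_of_orth_all hQ a hall)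
  obtain ⟨a₁, ha₁, a', ha', haa⟩ := (hD.nd l).decomp hQ a
  have ha₁0 : a₁ ≠ 0 := by
    rintro rfl
    rw [zero_add] at haa
    exact hl (haa ▸ ha')
  have ha₁Q : Q a₁ ≠ 0 := (S1 l a₁ ha₁ a' ha' haa).resolve_left ha₁0
  have ha'0 : a' ≠ 0 := by
    rintro rfl
    rw [add_zero] at haa
    exact haD l (haa ▸ ha₁)
  obtain ⟨b₁, hb₁, b', hb', hbb⟩ := (hD.nd l).decomp hQ b
  obtain ⟨β, hβ⟩ := S4 l a₁ ha₁ a' ha' haa b hb b₁ hb₁ b' hb' hbb
  have h3 : 3 ≤ finrank F (D l) := by rw [hD.fin l]; exact hk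
  obtain ⟨u, hu, huQ, hua₁⟩ := (hD.nd l).exists_sing_nonorth h3 a₁
    ⟨a₁, ha₁, by rw [qf_polar_self]; exact mul_ne_zero h2 ha₁Q⟩
  have hu0 : u ≠ 0 := by
    rintro rfl
    rw [polar_zero_left] at hua₁
    exact hua₁ rfl
  obtain ⟨lam, hlam⟩ : ∃ lam, lam = polar Q a₁ u := ⟨_, rfl⟩
  have hlam0 : lam ≠ 0 := by
    rw [hlam, polar_comm]
    exact hua₁
  have hpa : ∀ x ∈ D l, polar Q a x = polar Q a₁ x := by
    intro x hx
    rw [haa, polar_add_left, polar_comm Q a' x, (mem_orth Q _ a').1 ha' x hx, add_zero]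
  have hpb : ∀ x ∈ D l, polar Q b x = β * polar Q a₁ x := by
    intro x hx
    rw [hbb, hβ, polar_add_left, polar_smul_left, polar_comm Q b' x,
      (mem_orth Q _ b').1 hb' x hx, add_zero, smul_eq_mul]
  have hfin := finrank_inf_orth_ge Q hQ (D l) (Submodule.span F {u} ⊔ Submodule.span F {a₁})
  have hf2 := finrank_span_pair_le (F := F) u a₁
  obtain ⟨w₀, hw₀S, hw₀0⟩ := Submodule.exists_mem_ne_zero_of_ne_bot
    (ne_bot_of_finrank_pos (D l ⊓ orth Q (Submodule.span F {u} ⊔ Submodule.span F {a₁}))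
      (by omega))
  obtain ⟨hw₀, hw₀O⟩ := Submodule.mem_inf.1 hw₀S
  rw [orth_sup, Submodule.mem_inf, mem_orth_span_singleton, mem_orth_span_singleton] at hw₀O
  obtain ⟨huw₀, ha₁w₀⟩ := hw₀O
  obtain ⟨c, hc0, hcne⟩ : ∃ c : F, c ≠ 0 ∧ (β - c * Q b) • a' ≠ b' := by
    by_cases hbQ : Q b = 0
    · refine ⟨1, one_ne_zero, ?_⟩
      rw [hbQ, mul_zero, sub_zero]
      intro h
      apply hba
      have h1 : b = β • a := by
        rw [hbb, hβ, haa, smul_add, h]
      rw [h1]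
      exact Submodule.smul_mem _ _ (Submodule.mem_span_singleton_self a)
    · by_contra hcon2
      push Not at hcon2
      have e1 := hcon2 1 one_ne_zero
      have e2 := hcon2 (-1) (neg_ne_zero.2 one_ne_zero)
      have e3 : (2 * Q b) • a' = 0 := by
        have h1 : (β - -1 * Q b) • a' - (β - 1 * Q b) • a' = 0 := by rw [e1, e2, sub_self]
        rw [← sub_smul] at h1
        have e4 : β - -1 * Q b - (β - 1 * Q b) = 2 * Q b := by ring
        rwa [e4] at h1
      rcases smul_eq_zero.1 e3 with h | h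
      · exact (mul_ne_zero h2 hbQ) h
      · exact ha'0 h
  have hcbN : c • b ∈ rootSp Q M a := (rootSp Q M a).smul_mem c hb
  have hacb : polar Q a (c • b) = 0 := hcbN.1
  have hρM : ((sieg Q a (c • b) ha hacb : ↥(isometryGroup F ⇑Q)) : GL ι F) ∈ M :=
    rootSp_sieg_mem Q M a (c • b) ha hcbN
  have hau : polar Q a u = lam := by rw [hpa u hu, hlam]
  have hbu : polar Q (c • b) u = c * β * lam := by
    rw [polar_smul_left, hpb u hu, hlam, smul_eq_mul]
    ring
  obtain ⟨e, hedef⟩ : ∃ e, e = u + (c * lam) • ((β - c * Q b) • a - b) := ⟨_, rfl⟩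
  have hρu : act ⇑Q (sieg Q a (c • b) ha hacb) u = e := by
    rw [act_sieg, hau, hbu, qf_smul, hedef]
    funext i
    simp only [Pi.add_apply, Pi.sub_apply, Pi.smul_apply, smul_eq_mul]
    ring
  have heQ : Q e = 0 := by
    rw [← hρu, act_Q ⇑Q]
    exact huQ
  have hρw₀ : act ⇑Q (sieg Q a (c • b) ha hacb) w₀ = w₀ := by
    rw [act_sieg, polar_smul_left, hpb w₀ hw₀, hpa w₀ hw₀, ha₁w₀]
    simp
  have hw₀N : w₀ ∈ rootSp Q M e := by
    have h1 := rootSp_act Q M _ hρM u w₀ huQ (hM.block l u w₀ hu hw₀ huQ huw₀)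
    rwa [hρu, hρw₀] at h1
  obtain ⟨κ, hκ⟩ : ∃ κ, κ = β - c * Q b := ⟨_, rfl⟩
  rw [← hκ] at hedef hcne
  obtain ⟨e₁, he₁def⟩ : ∃ e₁, e₁ = u - (c * c * lam * Q b) • a₁ := ⟨_, rfl⟩
  obtain ⟨e', he'def⟩ : ∃ e', e' = (c * lam) • (κ • a' - b') := ⟨_, rfl⟩
  have hee : e = e₁ + e' := by
    have e3 : ∀ qb : F, (β - c * qb) • a - b =
        (-(c * qb)) • a₁ + ((β - c * qb) • a' - b') := by
      intro qb
      rw [haa, hbb, hβ, smul_add]
      funext i
      simp only [Pi.add_apply, Pi.sub_apply, Pi.smul_apply, smul_eq_mul]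
      ring
    rw [hedef, he₁def, he'def, hκ, e3 (Q b), smul_add, smul_smul]
    funext i
    simp only [Pi.add_apply, Pi.sub_apply, Pi.smul_apply, smul_eq_mul]
    ring
  have he₁D : e₁ ∈ D l := by
    rw [he₁def]
    exact (D l).sub_mem hu ((D l).smul_mem _ ha₁)
  have he'O : e' ∈ orth Q (D l) := by
    rw [he'def]
    exact (orth Q (D l)).smul_mem _ ((orth Q (D l)).sub_mem ((orth Q (D l)).smul_mem _ ha') hb')
  have he'0 : e' ≠ 0 := by
    rw [he'def]
    intro h
    rcases smul_eq_zero.1 h with h | h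
    · exact (mul_ne_zero hc0 hlam0) h
    · exact hcne (sub_eq_zero.1 h)
  have heD : e ∉ D l := by
    intro h
    have h1 : e' ∈ D l ⊓ orth Q (D l) := by
      refine Submodule.mem_inf.2 ⟨?_, he'O⟩
      have h4 := (D l).sub_mem h he₁D
      have e3 : e - e₁ = e' := by rw [hee, add_sub_cancel_left]
      rwa [e3] at h4
    rw [(hD.nd l).inf_orth, Submodule.mem_bot] at h1
    exact he'0 h1
  by_cases he₁Q : Q e₁ = 0
  · have he₁0 : e₁ ≠ 0 := by
      intro h0
      have h1 : u = (c * c * lam * Q b) • a₁ := by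
        rw [he₁def] at h0
        exact sub_eq_zero.1 h0
      have h4 : Q u = (c * c * lam * Q b) * (c * c * lam * Q b) * Q a₁ := by
        rw [h1, qf_smul]
      rw [huQ] at h4
      have h5 : c * c * lam * Q b = 0 := by
        rcases mul_eq_zero.1 h4.symm with h | h
        · exact mul_self_eq_zero.1 h
        · exact absurd h ha₁Q
      rw [h5, zero_smul] at h1
      exact hu0 h1
    have hw₀span : w₀ ∉ Submodule.span F {e} := by
      intro h
      obtain ⟨d, hd⟩ := Submodule.mem_span_singleton.1 h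
      have hd0 : d ≠ 0 := by
        rintro rfl
        rw [zero_smul] at hd
        exact hw₀0 hd.symm
      apply heD
      have h5 := (D l).smul_mem d⁻¹ hw₀
      rwa [← hd, smul_smul, inv_mul_cancel₀ hd0, one_smul] at h5
    exact hcon (seed_sing h2 hQ hD hk hq hM l e e₁ e' w₀ heQ he₁D he₁Q he₁0 he'O he'0 hee hw₀N
      hw₀span)
  · obtain ⟨j, hjl⟩ := exists_fin_ne ht l
    obtain ⟨aj, haj, aj', haj', haaj⟩ := (hD.nd j).decomp hQ a
    obtain ⟨bj, hbj, bj', hbj', hbbj⟩ := (hD.nd j).decomp hQ b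
    obtain ⟨βj, hβj⟩ := S4 j aj haj aj' haj' haaj b hb bj hbj bj' hbj' hbbj
    refine hcon (seed_plane h2 hQ hD hk hq hM l j hjl e e₁ e' w₀ ((c * lam * (κ - βj)) • aj)
      (u + (c * lam) • (κ • aj' - bj')) heQ he₁D he₁Q he'O hee hw₀N hw₀ hw₀0
      ((D j).smul_mem _ haj) ?_ ?_ ?_)
    · exact (orth Q (D j)).add_mem (hD.le_orth hjl.symm hu)
        ((orth Q (D j)).smul_mem _ ((orth Q (D j)).sub_mem ((orth Q (D j)).smul_mem _ haj')
          hbj'))
    · have ea : κ • a - b = (κ - βj) • aj + (κ • aj' - bj') := by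
        rw [haaj, hbbj, hβj, smul_add, sub_smul]
        abel
      rw [hedef, ea, smul_add, smul_smul]
      abel
    · rcases S1 j aj haj aj' haj' haaj with h | h
      · left
        rw [h, smul_zero]
      · by_cases hκ0 : c * lam * (κ - βj) = 0
        · left
          rw [hκ0, zero_smul]
        · right
          rw [qf_smul]
          exact mul_ne_zero (mul_ne_zero hκ0 hκ0) h

/-- an element of `M` which does not permute the blocks produces a seed -/
theorem seed_of_move [Fintype F] (h2 : (2 : F) ≠ 0) {Q : QuadraticForm F (ι → F)}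
    (hQ : (polarBilin Q).Nondegenerate) {t k : ℕ} {D : Fin t → Submodule F (ι → F)}
    (hD : ODec Q k D) (ht : 2 ≤ t) (hk : 3 ≤ k) (hq : 5 ≤ Fintype.card F ∨ 5 ≤ k)
    {M : Subgroup (GL ι F)} (hM : DHyp Q D M) (g : ↥(isometryGroup F ⇑Q))
    (hgM : (g : GL ι F) ∈ M) (hg : ¬ ∀ i, ∃ j, ∀ x ∈ D i, act ⇑Q g x ∈ D j) : Seed Q D M := by
  push Not at hg
  obtain ⟨i, hi⟩ := hg
  have h3 : 3 ≤ finrank F (D i) := by rw [hD.fin i]; exact hk
  by_cases H1 : ∀ u ∈ D i, u ≠ 0 → Q u = 0 → ∃ l, act ⇑Q g u ∈ D l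
  · by_cases H2 : ∀ u ∈ D i, u ≠ 0 → Q u = 0 → ∀ l, act ⇑Q g u ∈ D l →
        ∀ w ∈ D i, polar Q u w = 0 → act ⇑Q g w ∈ D l
    · exfalso
      obtain ⟨u₀, hu₀, hu₀0, hu₀Q⟩ := exists_sing_sub Q (D i) h3
      obtain ⟨l, hl⟩ := H1 u₀ hu₀ hu₀0 hu₀Q
      obtain ⟨v₀, hv₀, hv₀Q, huv⟩ := (hD.nd i).exists_partner u₀ hu₀ hu₀0 hu₀Q
      have hv₀0 : v₀ ≠ 0 := by
        rintro rfl
        rw [qf_polar_zero_right] at huv
        exact zero_ne_one huv
      obtain ⟨l', hl'⟩ := H1 v₀ hv₀ hv₀0 hv₀Q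
      have hfin := finrank_inf_orth_ge Q hQ (D i) (Submodule.span F {u₀} ⊔ Submodule.span F {v₀})
      have hf2 := finrank_span_pair_le (F := F) u₀ v₀
      obtain ⟨z, hzS, hz0⟩ := Submodule.exists_mem_ne_zero_of_ne_bot
        (ne_bot_of_finrank_pos (D i ⊓ orth Q (Submodule.span F {u₀} ⊔ Submodule.span F {v₀}))
          (by omega))
      obtain ⟨hz, hzO⟩ := Submodule.mem_inf.1 hzS
      rw [orth_sup, Submodule.mem_inf, mem_orth_span_singleton, mem_orth_span_singleton] at hzO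
      obtain ⟨hu₀z, hv₀z⟩ := hzO
      have hz1 := H2 u₀ hu₀ hu₀0 hu₀Q l hl z hz hu₀z
      have hz2 := H2 v₀ hv₀ hv₀0 hv₀Q l' hl' z hz hv₀z
      have hll' : l' = l := by
        by_contra hne
        exact act_ne_zero ⇑Q g z hz0 (hD.eq_zero_of_mem_mem hne hz2 hz1)
      rw [hll'] at hl'
      obtain ⟨x, hx, hxl⟩ := hi l
      apply hxl
      have hy := H2 u₀ hu₀ hu₀0 hu₀Q l hl (x - polar Q v₀ x • u₀ - polar Q u₀ x • v₀)
        ((D i).sub_mem ((D i).sub_mem hx ((D i).smul_mem _ hu₀)) ((D i).smul_mem _ hv₀))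
        (by
          rw [polar_sub_right, polar_sub_right, polar_smul_right, polar_smul_right,
            qf_polar_self, hu₀Q, huv]
          simp)
      have e : x = (x - polar Q v₀ x • u₀ - polar Q u₀ x • v₀) + polar Q v₀ x • u₀ +
          polar Q u₀ x • v₀ := by abel
      rw [e, act_add, act_add, act_smul, act_smul]
      exact (D l).add_mem ((D l).add_mem hy ((D l).smul_mem _ hl)) ((D l).smul_mem _ hl')
    · push Not at H2
      obtain ⟨u, hu, hu0, huQ, l, hl, w, hw, huw, hwl⟩ := H2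
      exact ⟨l, act ⇑Q g u, hl, act_ne_zero ⇑Q g u hu0, (act_Q ⇑Q g u).trans huQ, act ⇑Q g w,
        rootSp_act Q M g hgM u w huQ (hM.block i u w hu hw huQ huw), hwl⟩
  · push Not at H1
    obtain ⟨u, hu, hu0, huQ, hul⟩ := H1
    have hfin := finrank_inf_orth_ge Q hQ (D i) (Submodule.span F {u})
    have hf1 := finrank_span_one_le (F := F) u
    obtain ⟨w, hwS, hwu⟩ : ∃ w ∈ D i ⊓ orth Q (Submodule.span F {u}),
        w ∉ Submodule.span F {u} := by
      by_contra hcon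
      push Not at hcon
      have hle : D i ⊓ orth Q (Submodule.span F {u}) ≤ Submodule.span F {u} := hcon
      have h5 := Submodule.finrank_mono hle
      omega
    obtain ⟨hw, hwO⟩ := Submodule.mem_inf.1 hwS
    rw [mem_orth_span_singleton] at hwO
    apply seed_gen h2 hQ hD ht hk hq hM (act ⇑Q g u) (act ⇑Q g w) ((act_Q ⇑Q g u).trans huQ) hul
      (rootSp_act Q M g hgM u w huQ (hM.block i u w hu hw huQ hwO))
    intro h
    obtain ⟨d, hd⟩ := Submodule.mem_span_singleton.1 h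
    apply hwu
    have h5 : act ⇑Q g⁻¹ (d • act ⇑Q g u) = act ⇑Q g⁻¹ (act ⇑Q g w) := by rw [hd]
    rw [act_smul, act_inv_act, act_inv_act] at h5
    rw [← h5]
    exact Submodule.smul_mem _ _ (Submodule.mem_span_singleton_self u)

end DecSeed2

end Cfsg.Agent.Helper16
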