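import Cfsg.Agent.Helper16.DecPhase2

set_option autoImplicit false
open Cfsg

namespace Cfsg.Agent.Helper16

open QuadraticMap Module

section DecSwap
variable {ι : Type} [Fintype ι] [DecidableEq ι] {F : Type*} [Field F]

theorem card_eq_mul_of_dec {t k : ℕ} (D : Fin t → Submodule F (ι → F))
    (h : Geo.IsMDecomposition k D) : Fintype.card ι = t * k := by
  have hint : DirectSum.IsInternal D :=
    DirectSum.isInternal_submodule_of_iSupIndep_of_iSup_eq_top h.indep h.iSup_eq_top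
  have h1 := Module.finrank_eq_card_basis
    (hint.collectedBasis (fun i => Module.finBasis F (D i)))
  rw [Module.finrank_fintype_fun_eq_card, Fintype.card_sigma] at h1
  simp [h.finrank_eq] at h1
  exact h1

/-- correction of an isometry into `Ω` by reflections in a non-degenerate subspace -/
theorem exists_Omega_corr [Fintype F] (h2 : (2 : F) ≠ 0) (Q : QuadraticForm F (ι → F))
    (hQ : (polarBilin Q).Nondegenerate) (A : Submodule F (ι → F)) (hA : ND Q A)
    (hA2 : 2 ≤ finrank F A) (h₀ : ↥(isometryGroup F ⇑Q)) :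
    ∃ s : ↥(isometryGroup F ⇑Q), h₀ * s ∈ Omega F ⇑Q ∧ (∀ x ∈ A, act ⇑Q s x ∈ A) ∧
      ∀ x ∈ orth Q A, act ⇑Q s x = x := by
  obtain ⟨ν, hν⟩ := FiniteField.exists_nonsquare (ringChar_ne_two_of_two_ne_zero h2)
  have hν0 : ν ≠ 0 := by
    rintro rfl
    exact hν ⟨0, by simp⟩
  obtain ⟨a₁, ha₁A, ha₁⟩ := exists_rep_sub h2 Q A hA.inf_orth hA2 1 one_ne_zero
  obtain ⟨a₂, ha₂A, ha₂⟩ := exists_rep_sub h2 Q A hA.inf_orth hA2 ν hν0
  have hq₁ : Q a₁ ≠ 0 := by
    rw [ha₁]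
    exact one_ne_zero
  have hq₂ : Q a₂ ≠ 0 := by
    rw [ha₂]
    exact hν0
  have hsp₁ : spinorHom h2 Q hQ (reflElt Q a₁) = 1 := by
    rw [spinorHom_refl_eq_one_iff h2 Q hQ a₁ hq₁, ha₁]
    exact ⟨1, by simp⟩
  have hsp₂ : spinorHom h2 Q hQ (reflElt Q a₂) ≠ 1 := by
    rw [Ne, spinorHom_refl_eq_one_iff h2 Q hQ a₂ hq₂, ha₂]
    exact hν
  have hr1 : ∀ a ∈ A, Q a ≠ 0 → ∀ x ∈ A, act ⇑Q (reflElt Q a) x ∈ A := by
    intro a ha haQ x hx
    rw [act_refl Q a haQ, qrefl_apply]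
    exact A.sub_mem hx (A.smul_mem _ ha)
  have hr2 : ∀ a ∈ A, Q a ≠ 0 → ∀ x ∈ orth Q A, act ⇑Q (reflElt Q a) x = x := by
    intro a ha haQ x hx
    rw [act_refl Q a haQ, qrefl_of_orth Q a x ((mem_orth Q A x).1 hx a ha)]
  rcases det_iso_dichotomy h2 Q hQ h₀ with hd | hd
  · by_cases hsp : spinorHom h2 Q hQ h₀ = 1
    · refine ⟨1, ?_, fun x hx => ?_, fun x _ => act_one ⇑Q x⟩
      · rw [mul_one]
        exact (mem_Omega_iff_det_spinor h2 Q hQ h₀).2 ⟨hd, hsp⟩
      · rw [act_one]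
        exact hx
    · refine ⟨reflElt Q a₁ * reflElt Q a₂, (mem_Omega_iff_det_spinor h2 Q hQ _).2 ⟨?_, ?_⟩,
        ?_, ?_⟩
      · rw [Subgroup.coe_mul, Units.val_mul, Matrix.det_mul, hd, Subgroup.coe_mul,
          Units.val_mul, Matrix.det_mul, det_refl Q a₁ hq₁, det_refl Q a₂ hq₂]
        ring
      · rw [map_mul, map_mul, hsp₁, one_mul]
        exact zmod2_mul_eq_one _ _ hsp hsp₂
      · intro x hx
        rw [act_mul]
        exact hr1 a₁ ha₁A hq₁ _ (hr1 a₂ ha₂A hq₂ x hx)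
      · intro x hx
        rw [act_mul, hr2 a₂ ha₂A hq₂ x hx, hr2 a₁ ha₁A hq₁ x hx]
  · by_cases hsp : spinorHom h2 Q hQ h₀ = 1
    · refine ⟨reflElt Q a₁, (mem_Omega_iff_det_spinor h2 Q hQ _).2 ⟨?_, ?_⟩, hr1 a₁ ha₁A hq₁,
        hr2 a₁ ha₁A hq₁⟩
      · rw [Subgroup.coe_mul, Units.val_mul, Matrix.det_mul, hd, det_refl Q a₁ hq₁]
        ring
      · rw [map_mul, hsp₁, hsp, one_mul]
    · refine ⟨reflElt Q a₂, (mem_Omega_iff_det_spinor h2 Q hQ _).2 ⟨?_, ?_⟩, hr1 a₂ ha₂A hq₂,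
        hr2 a₂ ha₂A hq₂⟩
      · rw [Subgroup.coe_mul, Units.val_mul, Matrix.det_mul, hd, det_refl Q a₂ hq₂]
        ring
      · rw [map_mul]
        exact zmod2_mul_eq_one _ _ hsp hsp₂

/-- orthogonal bases of two blocks matched by an isometry -/
theorem ODec.exists_bases [Fintype F] (h2 : (2 : F) ≠ 0) {Q : QuadraticForm F (ι → F)}
    {t k : ℕ} {D : Fin t → Submodule F (ι → F)} (hD : ODec Q k D) (hk : 1 ≤ k) (j j' : Fin t) :
    ∃ x y : Fin k → (ι → F), (∀ i, x i ∈ D j) ∧ (∀ i, y i ∈ D j') ∧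
      (∀ i m, i ≠ m → polar Q (x i) (x m) = 0) ∧ (∀ i m, i ≠ m → polar Q (y i) (y m) = 0) ∧
      (∀ i, Q (x i) ≠ 0) ∧ (∀ i, Q (y i) = Q (x i)) ∧ Submodule.span F (Set.range x) = D j := by
  obtain ⟨n, rfl⟩ : ∃ n, k = n + 1 := ⟨k - 1, by omega⟩
  obtain ⟨φ, hφ⟩ := hD.iso j j'
  have hnd : (polarBilin (Q.comp (D j).subtype)).Nondegenerate := by
    apply ((polarBilin_isSymm _).isRefl.nondegenerate_iff_separatingLeft).2
    intro x hx
    by_contra hx0
    obtain ⟨y, hy, hne⟩ := hD.nd j (x : ι → F) x.2 (fun h => hx0 (Subtype.ext h))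
    exact hne (hx ⟨y, hy⟩)
  obtain ⟨d₀, hd₀, hbasis⟩ := exists_diag_basis h2 (Q.comp (D j).subtype) hnd (hD.fin j)
  obtain ⟨b, hborth, hbval⟩ := hbasis 1 one_ne_zero
  have hpol : ∀ i m, polar Q ((φ (b i) : D j') : ι → F) ((φ (b m) : D j') : ι → F) =
      polar Q ((b i : D j) : ι → F) ((b m : D j) : ι → F) := by
    intro i m
    have h1 : ((φ (b i) : D j') : ι → F) + ((φ (b m) : D j') : ι → F) =
        ((φ (b i + b m) : D j') : ι → F) := by
      rw [map_add]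
      rfl
    unfold polar
    rw [h1]
    simp only [hφ]
    rfl
  refine ⟨fun i => ((b i : D j) : ι → F), fun i => ((φ (b i) : D j') : ι → F), fun i => (b i).2,
    fun i => (φ (b i)).2, fun i m him => hborth i m him, ?_, ?_, fun i => hφ (b i), ?_⟩
  · intro i m him
    rw [hpol]
    exact hborth i m him
  · intro i
    have h1 : Q ((b i : D j) : ι → F) = if (i : ℕ) = n then 1 * 1 * d₀ else 1 := hbval i
    rw [h1]
    split_ifs
    · simpa using hd₀
    · exact one_ne_zero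
  · have h1 := b.span_eq
    have h2' : Set.range (fun i => ((b i : D j) : ι → F)) = (D j).subtype '' Set.range b := by
      rw [← Set.range_comp]
      rfl
    rw [h2', Submodule.span_image, h1, Submodule.map_top, Submodule.range_subtype]

/-- an isometry interchanging two blocks and fixing the others pointwise -/
theorem ODec.exists_swap_isom [Fintype F] (h2 : (2 : F) ≠ 0) {Q : QuadraticForm F (ι → F)}
    {t k : ℕ} {D : Fin t → Submodule F (ι → F)} (hD : ODec Q k D) (hk : 1 ≤ k) (j j' : Fin t)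
    (hjj' : j ≠ j') :
    ∃ s : ↥(isometryGroup F ⇑Q), (∀ x ∈ D j, act ⇑Q s x ∈ D j') ∧
      (∀ x ∈ D j', act ⇑Q s x ∈ D j) ∧ ∀ i, i ≠ j → i ≠ j' → ∀ x ∈ D i, act ⇑Q s x = x := by
  obtain ⟨x, y, hx, hy, hxx, hyy, hxQ, hyQ, hspan⟩ := hD.exists_bases h2 hk j j'
  have hxy : ∀ i m, polar Q (x i) (y m) = 0 :=
    fun i m => hD.perp j j' hjj' (x i) (hx i) (y m) (hy m)
  have hdQ : ∀ i, Q (x i - y i) = 2 * Q (x i) := by
    intro i
    rw [sub_eq_add_neg, qf_add, QuadraticMap.map_neg, polar_neg_right, hxy i i, hyQ i]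
    ring
  have hdQ0 : ∀ i, Q (x i - y i) ≠ 0 := by
    intro i
    rw [hdQ i]
    exact mul_ne_zero h2 (hxQ i)
  have hre : ∀ i m, act ⇑Q (reflElt Q (x i - y i)) (x m) = if m = i then y i else x m := by
    intro i m
    rw [act_refl Q _ (hdQ0 i), qrefl_apply, hdQ i, polar_sub_left, polar_comm Q (y i) (x m),
      hxy m i, sub_zero]
    by_cases hmi : m = i
    · rw [if_pos hmi, hmi, qf_polar_self]
      have h1 : (2 * Q (x i))⁻¹ * (2 * Q (x i)) = 1 := inv_mul_cancel₀ (mul_ne_zero h2 (hxQ i))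
      rw [h1, one_smul, sub_sub_cancel]
    · rw [if_neg hmi, hxx i m (fun h => hmi h.symm), mul_zero, zero_smul, sub_zero]
  have hrf : ∀ i m, act ⇑Q (reflElt Q (x i - y i)) (y m) = if m = i then x i else y m := by
    intro i m
    rw [act_refl Q _ (hdQ0 i), qrefl_apply, hdQ i, polar_sub_left, hxy i m, zero_sub]
    by_cases hmi : m = i
    · rw [if_pos hmi, hmi, qf_polar_self, hyQ i]
      have h1 : (2 * Q (x i))⁻¹ * -(2 * Q (x i)) = -1 := by
        rw [mul_neg, inv_mul_cancel₀ (mul_ne_zero h2 (hxQ i))]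
      rw [h1, neg_smul, one_smul, sub_neg_eq_add]
      abel
    · rw [if_neg hmi, hyy i m (fun h => hmi h.symm), neg_zero, mul_zero, zero_smul, sub_zero]
  have hfix : ∀ i z, polar Q (x i) z = 0 → polar Q (y i) z = 0 →
      act ⇑Q (reflElt Q (x i - y i)) z = z := by
    intro i z h1 h2'
    rw [act_refl Q _ (hdQ0 i), qrefl_of_orth Q _ z (by rw [polar_sub_left, h1, h2', sub_zero])]
  have main : ∀ S : Finset (Fin k), ∃ s : ↥(isometryGroup F ⇑Q),
      (∀ m, act ⇑Q s (x m) = if m ∈ S then y m else x m) ∧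
      (∀ m, act ⇑Q s (y m) = if m ∈ S then x m else y m) ∧
      (∀ z, (∀ i, polar Q (x i) z = 0) → (∀ i, polar Q (y i) z = 0) → act ⇑Q s z = z) := by
    intro S
    induction S using Finset.induction_on with
    | empty =>
      refine ⟨1, fun m => ?_, fun m => ?_, fun z _ _ => act_one ⇑Q z⟩
      · rw [act_one]
        simp
      · rw [act_one]
        simp
    | insert i S hi ih =>
      obtain ⟨s, hs3, hs4, hs5⟩ := ih
      refine ⟨s * reflElt Q (x i - y i), ?_, ?_, ?_⟩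
      · intro m
        rw [act_mul, hre i m]
        by_cases hmi : m = i
        · rw [if_pos hmi, hs4 i, if_neg hi, hmi, if_pos (Finset.mem_insert_self i S)]
        · rw [if_neg hmi, hs3 m]
          simp [Finset.mem_insert, hmi]
      · intro m
        rw [act_mul, hrf i m]
        by_cases hmi : m = i
        · rw [if_pos hmi, hs3 i, if_neg hi, hmi, if_pos (Finset.mem_insert_self i S)]
        · rw [if_neg hmi, hs4 m]
          simp [Finset.mem_insert, hmi]
      · intro z hz1 hz2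
        rw [act_mul, hfix i z (hz1 i) (hz2 i), hs5 z hz1 hz2]
  obtain ⟨s, hs3, hs4, hs5⟩ := main Finset.univ
  have hs3' : ∀ m, act ⇑Q s (x m) = y m := fun m => by rw [hs3 m, if_pos (Finset.mem_univ m)]
  have hs4' : ∀ m, act ⇑Q s (y m) = x m := fun m => by rw [hs4 m, if_pos (Finset.mem_univ m)]
  have hmap : ∀ a ∈ D j, act ⇑Q s a ∈ D j' ∧ act ⇑Q s (act ⇑Q s a) = a := by
    intro a ha
    rw [← hspan] at ha
    induction ha using Submodule.span_induction with
    | mem a ha =>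
      obtain ⟨m, rfl⟩ := ha
      rw [hs3', hs4']
      exact ⟨hy m, rfl⟩
    | zero =>
      rw [act_zero, act_zero]
      exact ⟨(D j').zero_mem, rfl⟩
    | add a b _ _ ha hb =>
      rw [act_add, act_add, ha.2, hb.2]
      exact ⟨(D j').add_mem ha.1 hb.1, rfl⟩
    | smul c a _ ha =>
      rw [act_smul, act_smul, ha.2]
      exact ⟨(D j').smul_mem c ha.1, rfl⟩
  refine ⟨s, fun a ha => (hmap a ha).1, ?_, ?_⟩
  · intro x' hx'
    have hm : mapG (s : GL ι F) (D j) = D j' :=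
      mapG_eq_of_act ⇑Q s _ _ ((hD.fin j).trans (hD.fin j').symm) (fun a ha => (hmap a ha).1)
    rw [← hm] at hx'
    obtain ⟨a, ha, hax'⟩ := (mem_mapG _ _ _).1 hx'
    have e : act ⇑Q s a = x' := hax'
    rw [← e, (hmap a ha).2]
    exact ha
  · intro i hij hij' z hz
    exact hs5 z (fun m => hD.perp j i hij.symm (x m) (hx m) z hz)
      (fun m => hD.perp j' i hij'.symm (y m) (hy m) z hz)

/-- an element of `Ω` interchanging two blocks and stabilising the others -/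
theorem ODec.exists_swap [Fintype F] (h2 : (2 : F) ≠ 0) {Q : QuadraticForm F (ι → F)}
    (hQ : (polarBilin Q).Nondegenerate) {t k : ℕ} {D : Fin t → Submodule F (ι → F)}
    (hD : ODec Q k D) (hk : 2 ≤ k) (j j' : Fin t) (hjj' : j ≠ j') :
    ∃ s : ↥(isometryGroup F ⇑Q), s ∈ Omega F ⇑Q ∧ (∀ x ∈ D j, act ⇑Q s x ∈ D j') ∧
      (∀ x ∈ D j', act ⇑Q s x ∈ D j) ∧ ∀ i, i ≠ j → i ≠ j' → ∀ x ∈ D i, act ⇑Q s x ∈ D i := by
  obtain ⟨h₀, h1, h2', h3⟩ := hD.exists_swap_isom h2 (by omega) j j' hjj'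
  obtain ⟨s, hs, hsA, hsO⟩ := exists_Omega_corr h2 Q hQ (D j) (hD.nd j)
    (by rw [hD.fin j]; exact hk) h₀
  refine ⟨h₀ * s, hs, ?_, ?_, ?_⟩
  · intro x hx
    rw [act_mul]
    exact h1 _ (hsA x hx)
  · intro x hx
    rw [act_mul, hsO x (hD.le_orth hjj'.symm hx)]
    exact h2' x hx
  · intro i hij hij' x hx
    rw [act_mul, hsO x (hD.le_orth hij hx), h3 i hij hij' x hx]
    exact hx

theorem mem_decStab_of_act {Q : QuadraticForm F (ι → F)} {t k : ℕ}
    {D : Fin t → Submodule F (ι → F)} (hD : ODec Q k D) (g : ↥(isometryGroup F ⇑Q))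
    (σ : Equiv.Perm (Fin t)) (h : ∀ i, ∀ x ∈ D i, act ⇑Q g x ∈ D (σ i)) :
    (g : GL ι F) ∈ Geo.decompositionStabilizer D :=
  ⟨σ, fun i => mapG_eq_of_act ⇑Q g (D i) (D (σ i)) ((hD.fin i).trans (hD.fin (σ i)).symm) (h i)⟩

/-- the stabiliser in `Ω` of a decomposition into pairwise orthogonal, pairwise isometric
non-degenerate subspaces of dimension `k ≥ 3` is maximal (odd `q`, `(q, k) ≠ (3, 3), (3, 4)`) -/
theorem dec_max [Fintype F] (h2 : (2 : F) ≠ 0) (hn : 7 ≤ Fintype.card ι)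
    (Q : QuadraticForm F (ι → F)) (hQ : (polarBilin Q).Nondegenerate) {t k : ℕ}
    (D : Fin t → Submodule F (ι → F)) (hD : ODec Q k D) (ht : 2 ≤ t) (hk : 3 ≤ k)
    (hq : 5 ≤ Fintype.card F ∨ 5 ≤ k) :
    Geo.IsMaximalIn (Geo.omegaGL ⇑Q) (Geo.decompositionStabilizer D ⊓ Geo.omegaGL ⇑Q) := by
  have hn5 : 5 ≤ Fintype.card ι := by omega
  have hfin3 : ∀ i, 3 ≤ finrank F (D i) := fun i => by rw [hD.fin i]; exact hk
  have hHS : ∀ l, ∀ u ∈ D l, ∀ w ∈ D l, ∀ (hu : Q u = 0) (huw : polar Q u w = 0),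
      ((sieg Q u w hu huw : ↥(isometryGroup F ⇑Q)) : GL ι F) ∈
        Geo.decompositionStabilizer D ⊓ Geo.omegaGL ⇑Q := by
    intro l u hu w hw huQ huw
    refine ⟨mem_decStab_of_act hD _ 1 ?_, mem_omegaGL ⇑Q _ (sieg_mem_Omega hn5 Q hQ u w huQ huw)⟩
    intro i x hx
    show act ⇑Q (sieg Q u w huQ huw) x ∈ D i
    rw [act_sieg]
    by_cases hil : i = l
    · rw [hil] at hx ⊢
      exact (D l).sub_mem ((D l).sub_mem ((D l).add_mem hx ((D l).smul_mem _ hu))
        ((D l).smul_mem _ hw)) ((D l).smul_mem _ hu)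
    · rw [hD.perp l i (Ne.symm hil) w hw x hx, hD.perp l i (Ne.symm hil) u hu x hx]
      simp only [zero_smul, mul_zero, add_zero, sub_zero]
      exact hx
  have hrefl : ∀ l, ∀ a ∈ D l, Q a ≠ 0 → ∀ i, ∀ x ∈ D i, act ⇑Q (reflElt Q a) x ∈ D i := by
    intro l a ha haQ i x hx
    rw [act_refl Q a haQ]
    by_cases hil : i = l
    · rw [hil] at hx ⊢
      rw [qrefl_apply]
      exact (D l).sub_mem hx ((D l).smul_mem _ ha)
    · rw [qrefl_of_orth Q a x (hD.perp l i (Ne.symm hil) a ha x hx)]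
      exact hx
  have mkHyp : ∀ M : Subgroup (GL ι F),
      Geo.decompositionStabilizer D ⊓ Geo.omegaGL ⇑Q ≤ M → DHyp Q D M := by
    intro M hHM
    refine ⟨?_, ?_, ?_⟩
    · intro l u hu w hw huQ huw
      rw [siegT_eq Q u w huQ huw]
      exact hHM (hHS l u hu w hw huQ huw)
    · intro l l' x hx x' hx' hxQ hx'Q
      apply hHM
      refine ⟨mem_decStab_of_act hD _ 1 ?_,
        mem_omegaGL ⇑Q _ (refl_pair_mem_Omega Q hQ x x' hxQ hx'Q)⟩
      intro i z hz
      show act ⇑Q (reflElt Q x * reflElt Q x') z ∈ D i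
      rw [act_mul]
      exact hrefl l x hx hxQ i _ (hrefl l' x' hx' (by rw [hx'Q]; exact hxQ) i z hz)
    · intro l j j' hjj' hlj hlj'
      obtain ⟨s, hsΩ, hs1, hs2, hs3⟩ := hD.exists_swap h2 hQ (by omega) j j' hjj'
      refine ⟨s, hHM ⟨mem_decStab_of_act hD s (Equiv.swap j j') ?_, mem_omegaGL ⇑Q s hsΩ⟩, hs2,
        hs3 l hlj hlj'⟩
      intro i x hx
      by_cases hij : i = j
      · rw [hij, Equiv.swap_apply_left]
        rw [hij] at hx
        exact hs1 x hx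
      · by_cases hij' : i = j'
        · rw [hij', Equiv.swap_apply_right]
          rw [hij'] at hx
          exact hs2 x hx
        · rw [Equiv.swap_apply_of_ne_of_ne hij hij']
          exact hs3 i hij hij' x hx
  constructor
  · refine lt_of_le_of_ne inf_le_right ?_
    intro heq
    obtain ⟨i0, i1, h01⟩ : ∃ i0 i1 : Fin t, i0 ≠ i1 :=
      ⟨⟨0, by omega⟩, ⟨1, by omega⟩, by simp [Fin.ext_iff]⟩
    obtain ⟨u, hu, hu0, huQ⟩ := exists_sing_sub Q (D i0) (hfin3 i0)
    obtain ⟨b, hb, hb0⟩ := Submodule.exists_mem_ne_zero_of_ne_bot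
      (ne_bot_of_finrank_pos (D i1) (by have := hfin3 i1; omega))
    have hub : polar Q u b = 0 := hD.perp i0 i1 h01 u hu b hb
    obtain ⟨x, hx, hbx⟩ := hD.nd i1 b hb hb0
    have hmem : ((sieg Q u b huQ hub : ↥(isometryGroup F ⇑Q)) : GL ι F) ∈
        Geo.decompositionStabilizer D ⊓ Geo.omegaGL ⇑Q := by
      rw [heq]
      exact mem_omegaGL ⇑Q _ (sieg_mem_Omega hn5 Q hQ u b huQ hub)
    obtain ⟨σ, hσ⟩ := hmem.1
    have hact : act ⇑Q (sieg Q u b huQ hub) x = x + polar Q b x • u := by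
      rw [act_sieg, hD.perp i0 i1 h01 u hu x hx]
      simp
    have hin : x + polar Q b x • u ∈ D (σ i1) := by
      rw [← hact, ← hσ i1]
      exact Submodule.mem_map_of_mem hx
    by_cases hσ1 : σ i1 = i1
    · rw [hσ1] at hin
      have h5 : polar Q b x • u ∈ D i1 := (Submodule.add_mem_iff_right _ hx).1 hin
      have h6 := (D i1).smul_mem (polar Q b x)⁻¹ h5
      rw [smul_smul, inv_mul_cancel₀ hbx, one_smul] at h6
      exact hu0 (hD.eq_zero_of_mem_mem h01 hu h6)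
    · have h5 : x + polar Q b x • u ∈ orth Q (D i1) := hD.le_orth hσ1 hin
      have h6 : polar Q b x • u ∈ orth Q (D i1) :=
        (orth Q (D i1)).smul_mem _ (hD.le_orth h01 hu)
      have h7 : x ∈ orth Q (D i1) := (Submodule.add_mem_iff_left _ h6).1 h5
      have h8 : x ∈ D i1 ⊓ orth Q (D i1) := Submodule.mem_inf.2 ⟨hx, h7⟩
      rw [(hD.nd i1).inf_orth, Submodule.mem_bot] at h8
      rw [h8, qf_polar_zero_right] at hbx
      exact hbx rfl
  · intro M hHM hMle
    by_cases hMH : M = Geo.decompositionStabilizer D ⊓ Geo.omegaGL ⇑Q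
    · exact Or.inl hMH
    right
    obtain ⟨g₀, hg₀M, hg₀H⟩ : ∃ g₀ ∈ M, g₀ ∉ Geo.decompositionStabilizer D ⊓ Geo.omegaGL ⇑Q := by
      by_contra hcon
      push Not at hcon
      exact hMH (le_antisymm hcon hHM)
    obtain ⟨g, hgΩ, rfl⟩ := exists_of_mem_omegaGL ⇑Q g₀ (hMle hg₀M)
    have hg : ¬ ∀ i, ∃ j, ∀ x ∈ D i, act ⇑Q g x ∈ D j := by
      intro hall
      choose σ hσ using hall
      have hinj : Function.Injective σ := by
        intro i i' hii'
        by_contra hne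
        obtain ⟨x, hx, hx0⟩ := Submodule.exists_mem_ne_zero_of_ne_bot
          (ne_bot_of_finrank_pos (D i) (by have := hfin3 i; omega))
        have hm : mapG (g : GL ι F) (D i') = D (σ i') :=
          mapG_eq_of_act ⇑Q g _ _ ((hD.fin i').trans (hD.fin (σ i')).symm) (hσ i')
        have h5 : act ⇑Q g x ∈ mapG (g : GL ι F) (D i') := by
          rw [hm, ← hii']
          exact hσ i x hx
        obtain ⟨x', hx', hxx'⟩ := (mem_mapG _ _ _).1 h5
        have h6 : x' = x := mulVecLin_injective (g : GL ι F) hxx'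
        rw [h6] at hx'
        exact hx0 (hD.eq_zero_of_mem_mem hne hx hx')
      have hbij : Function.Bijective σ := Finite.injective_iff_bijective.1 hinj
      exact hg₀H ⟨mem_decStab_of_act hD g (Equiv.ofBijective σ hbij) (fun i x hx => hσ i x hx),
        hMle hg₀M⟩
    have hDH := mkHyp M hHM
    exact le_antisymm hMle (omega_le_of_seed hn hQ hD hk hDH
      (seed_of_move h2 hQ hD ht hk hq hDH g hg₀M hg))

end DecSwap

end Cfsg.Agent.Helper16
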