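import Mathlib
import Cfsg.Prelude.Def_LocalEven

set_option autoImplicit false

namespace Cfsg.Agent.Helper16

open Cfsg DihedralGroup

section lift

variable {Q : Type*} [Group Q] {p : ℕ} [Fact p.Prime] (a b : Q)

/-- the candidate map `DihedralGroup p → Q` -/
def dihedralFun (a b : Q) : DihedralGroup p → Q
  | r i => a ^ i.val
  | sr i => b * a ^ i.val

variable {a b} (ha : a ^ p = 1) (hb : b * b = 1) (hab : b * a * b⁻¹ = a⁻¹)

include ha in
theorem pw_add (i j : ZMod p) : a ^ (i + j).val = a ^ i.val * a ^ j.val := by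
  rw [ZMod.val_add, ← pow_eq_pow_mod _ ha, pow_add]

include ha in
theorem pw_sub (i j : ZMod p) : a ^ (j - i).val = (a ^ i.val)⁻¹ * a ^ j.val := by
  have h := pw_add ha (j - i) i
  rw [sub_add_cancel] at h
  rw [h]
  have hc : Commute (a ^ (j - i).val) (a ^ i.val) := (Commute.refl a).pow_pow _ _
  rw [hc.eq]
  group

include hab in
theorem conj_pw (n : ℕ) : a ^ n * b = b * (a ^ n)⁻¹ := by
  have h1 : b * a ^ n * b⁻¹ = (a ^ n)⁻¹ := by
    rw [← conj_pow, hab, inv_pow]
  have h2 : b * (a ^ n)⁻¹ * b⁻¹ = a ^ n := by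
    have : b * (a ^ n)⁻¹ * b⁻¹ = (b * a ^ n * b⁻¹)⁻¹ := by group
    rw [this, h1, inv_inv]
  calc a ^ n * b = (b * (a ^ n)⁻¹ * b⁻¹) * b := by rw [h2]
    _ = b * (a ^ n)⁻¹ := by rw [inv_mul_cancel_right]

include ha hb hab in
theorem dihedralFun_mul (x y : DihedralGroup p) :
    dihedralFun a b (x * y) = dihedralFun a b x * dihedralFun a b y := by
  rcases x with i | i <;> rcases y with j | j
  · rw [r_mul_r]
    exact pw_add ha i j
  · rw [r_mul_sr]
    show b * a ^ (j - i).val = a ^ i.val * (b * a ^ j.val)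
    rw [pw_sub ha, ← mul_assoc (a ^ i.val), conj_pw hab]
    group
  · rw [sr_mul_r]
    show b * a ^ (i + j).val = b * a ^ i.val * a ^ j.val
    rw [pw_add ha, mul_assoc]
  · rw [sr_mul_sr]
    show a ^ (j - i).val = b * a ^ i.val * (b * a ^ j.val)
    rw [pw_sub ha]
    have : b * a ^ i.val * (b * a ^ j.val) = b * (a ^ i.val * b) * a ^ j.val := by group
    rw [this, conj_pw hab, ← mul_assoc, hb, one_mul]

/-- the homomorphism from the dihedral group determined by `a`, `b`. -/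
def dihedralLift : DihedralGroup p →* Q :=
  MonoidHom.mk' (dihedralFun a b) (dihedralFun_mul ha hb hab)

theorem dihedralLift_r (i : ZMod p) : dihedralLift ha hb hab (r i) = a ^ i.val := rfl

theorem dihedralLift_sr (i : ZMod p) : dihedralLift ha hb hab (sr i) = b * a ^ i.val := rfl

include ha hb hab in
theorem dihedralLift_injective (hp : p ≠ 2) (ha1 : a ≠ 1) :
    Function.Injective (dihedralLift ha hb hab) := by
  have hpp : p.Prime := Fact.out
  have hord : orderOf a = p := orderOf_eq_prime ha ha1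
  rw [injective_iff_map_eq_one]
  intro x hx
  rcases x with i | i
  · rw [dihedralLift_r] at hx
    have h1 : p ∣ i.val := by
      have := orderOf_dvd_of_pow_eq_one hx
      rwa [hord] at this
    have h2 : i.val < p := ZMod.val_lt i
    have h3 : i.val = 0 := Nat.eq_zero_of_dvd_of_lt h1 h2
    have h4 : i = 0 := (ZMod.val_eq_zero i).mp h3
    rw [h4]
    rfl
  · exfalso
    rw [dihedralLift_sr] at hx
    have hb' : b = (a ^ i.val)⁻¹ := eq_inv_of_mul_eq_one_left hx
    have hcomm : b * a = a * b := by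
      rw [hb']
      have hc : Commute (a ^ i.val)⁻¹ a := ((Commute.refl a).pow_left _).inv_left
      exact hc.eq
    have h1 : a = a⁻¹ := by
      rw [← hab, hcomm]
      group
    have h2 : a ^ 2 = 1 := by
      rw [pow_two]
      nth_rewrite 1 [h1]
      exact inv_mul_cancel a
    have h3 : p ∣ 2 := by
      have := orderOf_dvd_of_pow_eq_one h2
      rwa [hord] at this
    exact hp ((Nat.prime_dvd_prime_iff_eq hpp Nat.prime_two).mp h3)

end lift

/-- If a 2-element inverts an element of odd prime order `p`, the dihedral group of order `2p`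
is involved. -/
theorem involves_dihedral_of_inverts {G : Type*} [Group G] {p : ℕ} [Fact p.Prime] (hp : p ≠ 2)
    (x y : G) (hx : ∃ k : ℕ, orderOf x = 2 ^ k) (hy : orderOf y = p) (hxy : x * y * x⁻¹ = y⁻¹) :
    Involves (DihedralGroup p) G := by
  have hpp : p.Prime := Fact.out
  let K : Subgroup G := Subgroup.closure ({x, y} : Set G)
  let R : Subgroup G := Subgroup.zpowers (x * x)
  have hxK : x ∈ K := Subgroup.subset_closure (by simp)
  have hyK : y ∈ K := Subgroup.subset_closure (by simp)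
  have hxy' : x * y = y⁻¹ * x := by
    rw [← hxy]; group
  have hxy'' : x * y⁻¹ = y * x := by
    have : x * y⁻¹ * x⁻¹ = y := by
      have h1 : x * y⁻¹ * x⁻¹ = (x * y * x⁻¹)⁻¹ := by group
      rw [h1, hxy, inv_inv]
    calc x * y⁻¹ = (x * y⁻¹ * x⁻¹) * x := by rw [inv_mul_cancel_right]
      _ = y * x := by rw [this]
  have hcent : K ≤ Subgroup.centralizer ({x * x} : Set G) := by
    rw [Subgroup.closure_le]
    intro g hg
    rw [SetLike.mem_coe, Subgroup.mem_centralizer_iff]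
    intro h hh
    rw [Set.mem_singleton_iff] at hh
    subst hh
    rcases hg with rfl | hg
    · rw [mul_assoc]
    · rw [Set.mem_singleton_iff] at hg
      subst hg
      calc x * x * g = x * (x * g) := by group
        _ = x * (g⁻¹ * x) := by rw [hxy']
        _ = (x * g⁻¹) * x := by group
        _ = g * x * x := by rw [hxy'']
        _ = g * (x * x) := by group
  have hcomm : ∀ k ∈ K, ∀ n ∈ R, k * n * k⁻¹ = n := by
    intro k hk n hn
    obtain ⟨z, rfl⟩ := Subgroup.mem_zpowers_iff.mp hn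
    have h1 := (Subgroup.mem_centralizer_iff.mp (hcent hk)) (x * x) rfl
    have h2 : Commute k (x * x) := h1.symm
    have h3 : Commute k ((x * x) ^ z) := h2.zpow_right z
    rw [h3.eq]; group
  have hRK : R ≤ K := by
    rw [Subgroup.zpowers_le]
    exact K.mul_mem hxK hxK
  have hnorm : (R.subgroupOf K).Normal := by
    constructor
    intro n hn g
    rw [Subgroup.mem_subgroupOf] at hn ⊢
    have := hcomm g g.2 n hn
    simp only [Subgroup.coe_mul, Subgroup.coe_inv]
    rw [this]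
    exact hn
  let a : K ⧸ R.subgroupOf K := QuotientGroup.mk ⟨y, hyK⟩
  let b : K ⧸ R.subgroupOf K := QuotientGroup.mk ⟨x, hxK⟩
  have ha : a ^ p = 1 := by
    show (QuotientGroup.mk ⟨y, hyK⟩ : K ⧸ R.subgroupOf K) ^ p = 1
    rw [← QuotientGroup.mk_pow]
    have : (⟨y, hyK⟩ : K) ^ p = 1 := by
      apply Subtype.ext
      simp only [Subgroup.coe_pow, Subgroup.coe_one]
      rw [← hy, pow_orderOf_eq_one]
    rw [this]
    rfl
  have hb : b * b = 1 := by
    show (QuotientGroup.mk ⟨x, hxK⟩ : K ⧸ R.subgroupOf K) * QuotientGroup.mk ⟨x, hxK⟩ = 1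
    rw [← QuotientGroup.mk_mul, QuotientGroup.eq_one_iff, Subgroup.mem_subgroupOf]
    exact Subgroup.mem_zpowers (x * x)
  have hab : b * a * b⁻¹ = a⁻¹ := by
    show (QuotientGroup.mk ⟨x, hxK⟩ : K ⧸ R.subgroupOf K) * QuotientGroup.mk ⟨y, hyK⟩ *
      (QuotientGroup.mk ⟨x, hxK⟩)⁻¹ = (QuotientGroup.mk ⟨y, hyK⟩)⁻¹
    rw [← QuotientGroup.mk_inv, ← QuotientGroup.mk_mul, ← QuotientGroup.mk_mul,
      ← QuotientGroup.mk_inv]
    congr 1
    exact Subtype.ext hxy
  have ha1 : a ≠ 1 := by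
    intro h
    have h1 : (⟨y, hyK⟩ : K) ∈ R.subgroupOf K := (QuotientGroup.eq_one_iff _).mp h
    rw [Subgroup.mem_subgroupOf] at h1
    have h2 : orderOf y ∣ orderOf (x * x) := orderOf_dvd_of_mem_zpowers h1
    have h3 : orderOf (x * x) ∣ orderOf x := by
      rw [← pow_two]; exact orderOf_pow_dvd 2
    obtain ⟨k, hk⟩ := hx
    rw [hy] at h2
    have h4 : p ∣ 2 ^ k := hk ▸ (h2.trans h3)
    have h5 : p ∣ 2 := hpp.dvd_of_dvd_pow h4
    exact hp ((Nat.prime_dvd_prime_iff_eq hpp Nat.prime_two).mp h5)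
  have hinj := dihedralLift_injective ha hb hab hp ha1
  have hsurj : Function.Surjective (dihedralLift ha hb hab) := by
    have key : ∀ g (hg : g ∈ K), (QuotientGroup.mk ⟨g, hg⟩ : K ⧸ R.subgroupOf K) ∈
        (dihedralLift ha hb hab).range := by
      intro g hg
      induction hg using Subgroup.closure_induction with
      | mem g hg =>
        rcases hg with rfl | hg
        · refine ⟨sr 0, ?_⟩
          rw [dihedralLift_sr]
          simp [b]
        · rw [Set.mem_singleton_iff] at hg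
          subst hg
          refine ⟨r 1, ?_⟩
          rw [dihedralLift_r, ZMod.val_one'' hpp.ne_one, pow_one]
      | one => exact one_mem _
      | mul g h hg hh ihg ihh =>
        have : (QuotientGroup.mk ⟨g * h, K.mul_mem hg hh⟩ : K ⧸ R.subgroupOf K) =
            QuotientGroup.mk ⟨g, hg⟩ * QuotientGroup.mk ⟨h, hh⟩ := rfl
        rw [this]
        exact mul_mem ihg ihh
      | inv g hg ihg =>
        have : (QuotientGroup.mk ⟨g⁻¹, K.inv_mem hg⟩ : K ⧸ R.subgroupOf K) =
            (QuotientGroup.mk ⟨g, hg⟩)⁻¹ := rfl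
        rw [this]
        exact inv_mem ihg
    intro z
    obtain ⟨k, rfl⟩ := QuotientGroup.mk_surjective z
    exact key k.1 k.2
  exact ⟨K, R, hnorm, ⟨(MulEquiv.ofBijective (dihedralLift ha hb hab) ⟨hinj, hsurj⟩).symm⟩⟩

/-- the rotation subgroup -/
def rot (p : ℕ) : Subgroup (DihedralGroup p) where
  carrier := {d | ∃ i, d = r i}
  mul_mem' := by
    rintro _ _ ⟨i, rfl⟩ ⟨j, rfl⟩
    exact ⟨i + j, r_mul_r i j⟩
  one_mem' := ⟨0, rfl⟩
  inv_mem' := by
    rintro _ ⟨i, rfl⟩
    exact ⟨-i, rfl⟩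

instance rot_normal (p : ℕ) : (rot p).Normal := by
  constructor
  rintro _ ⟨i, rfl⟩ g
  rcases g with j | j
  · exact ⟨j + i + -j, rfl⟩
  · exact ⟨j - (j + i), rfl⟩

theorem mem_rot {p : ℕ} (d : DihedralGroup p) : d ∈ rot p ↔ ∃ i, d = r i := Iff.rfl

/-- A finite group mapping onto the dihedral group of order `2p`, `p` odd, has a 2-element
normalizing but not centralizing a `p`-subgroup. -/
theorem exists_two_elt_of_surj_dihedral {Kt : Type*} [Group Kt] [Finite Kt] {p : ℕ} [Fact p.Prime]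
    (hp : p ≠ 2) (π : Kt →* DihedralGroup p) (hπ : Function.Surjective π) :
    ∃ (x : Kt) (P : Subgroup Kt), (∃ k : ℕ, orderOf x = 2 ^ k) ∧ IsPGroup p P ∧
      x ∈ Subgroup.normalizer (P : Set Kt) ∧ x ∉ Subgroup.centralizer (P : Set Kt) := by
  have hpp : p.Prime := Fact.out
  let K₀ : Subgroup Kt := (rot p).comap π
  have hK₀ : ∀ g, g ∈ K₀ ↔ ∃ i, π g = r i := fun g => Iff.rfl
  obtain ⟨a, ha⟩ := hπ (r 1)
  have hn : orderOf a ≠ 0 := (orderOf_pos a).ne'
  obtain ⟨e, m', hm', hnm⟩ := Nat.exists_eq_pow_mul_and_not_dvd hn p hpp.ne_one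
  have hm'0 : m' ≠ 0 := by
    rintro rfl
    exact hm' (dvd_zero p)
  have ha'ord : orderOf (a ^ m') = p ^ e := by
    rw [orderOf_pow' a hm'0, hnm, Nat.gcd_eq_right (dvd_mul_left _ _),
      Nat.mul_div_cancel _ (Nat.pos_of_ne_zero hm'0)]
  have hπa' : π (a ^ m') = r (m' : ZMod p) := by
    rw [map_pow, ha, r_one_pow]
  have hm'p : (m' : ZMod p) ≠ 0 := by
    rwa [Ne, ZMod.natCast_eq_zero_iff]
  have ha'K₀ : a ^ m' ∈ K₀ := (hK₀ _).mpr ⟨_, hπa'⟩
  have hzp : IsPGroup p (Subgroup.zpowers (⟨a ^ m', ha'K₀⟩ : K₀)) := by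
    apply IsPGroup.of_card (n := e)
    rw [Nat.card_zpowers, Subgroup.orderOf_mk, ha'ord]
  obtain ⟨P, hP⟩ := hzp.exists_le_sylow
  have hfrat := Sylow.normalizer_sup_eq_top P
  have ht : ∃ t ∈ Subgroup.normalizer (((P : Subgroup K₀).map K₀.subtype : Subgroup Kt) : Set Kt),
      t ∉ K₀ := by
    by_contra hcon
    have hle : Subgroup.normalizer (((P : Subgroup K₀).map K₀.subtype : Subgroup Kt) : Set Kt) ≤ K₀ := by
      intro t ht
      by_contra h
      exact hcon ⟨t, ht, h⟩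
    have htop : K₀ = ⊤ := by
      rw [← hfrat]
      exact (sup_eq_right.mpr hle).symm
    obtain ⟨s, hs⟩ := hπ (sr 0)
    have hsK : s ∈ K₀ := by rw [htop]; trivial
    obtain ⟨i, hi⟩ := (hK₀ s).mp hsK
    rw [hs] at hi
    cases hi
  obtain ⟨t, htN, htK⟩ := ht
  have hπt : ∃ i, π t = sr i := by
    rcases h : π t with i | i
    · exact absurd ((hK₀ t).mpr ⟨i, h⟩) htK
    · exact ⟨i, rfl⟩
  obtain ⟨i, hi⟩ := hπt
  obtain ⟨k, m, hmodd, hkm⟩ := Nat.exists_eq_two_pow_mul_odd (orderOf_pos t).ne'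
  have hm0 : m ≠ 0 := by
    rintro rfl
    simp at hmodd
  have hxord : orderOf (t ^ m) = 2 ^ k := by
    rw [orderOf_pow' t hm0, hkm, Nat.gcd_eq_right (dvd_mul_left _ _),
      Nat.mul_div_cancel _ (Nat.pos_of_ne_zero hm0)]
  have hπx : π (t ^ m) = sr i := by
    rw [map_pow, hi]
    obtain ⟨j, rfl⟩ := hmodd
    rw [pow_succ, pow_mul, pow_two, sr_mul_self, one_pow, one_mul]
  have ha'P' : a ^ m' ∈ ((P : Subgroup K₀).map K₀.subtype : Subgroup Kt) :=
    ⟨⟨a ^ m', ha'K₀⟩, hP (Subgroup.mem_zpowers _), rfl⟩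
  refine ⟨t ^ m, (P : Subgroup K₀).map K₀.subtype, ⟨k, hxord⟩, P.isPGroup'.map _,
    pow_mem htN m, ?_⟩
  intro hxC
  have hc := (Subgroup.mem_centralizer_iff.mp hxC) (a ^ m') ha'P'
  have h1 := congrArg π hc
  rw [map_mul, map_mul, hπa', hπx, r_mul_sr, sr_mul_r] at h1
  injection h1 with h
  have h2 : (2 : ZMod p) * (m' : ZMod p) = 0 := by linear_combination -h
  have h2ne : (2 : ZMod p) ≠ 0 := by
    intro h0
    have h3 : ((2 : ℕ) : ZMod p) = 0 := by exact_mod_cast h0
    rw [ZMod.natCast_eq_zero_iff] at h3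
    exact hp ((Nat.prime_dvd_prime_iff_eq hpp Nat.prime_two).mp h3)
  rcases mul_eq_zero.mp h2 with h3 | h3
  · exact h2ne h3
  · exact hm'p h3

/-- A 2-element normalizing but not centralizing a `p`-subgroup yields a 2-element inverting a
nontrivial `p`-element. -/
theorem exists_inverted_of_normalizes {G : Type*} [Group G] {p : ℕ} [Fact p.Prime]
    (P : Subgroup G) (hP : IsPGroup p P) :
    ∀ (n : ℕ) (x : G), orderOf x = n → (∃ k : ℕ, orderOf x = 2 ^ k) →
      x ∈ Subgroup.normalizer (P : Set G) → x ∉ Subgroup.centralizer (P : Set G) →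
      ∃ x y : G, (∃ k : ℕ, orderOf x = 2 ^ k) ∧ (∃ k : ℕ, orderOf y = p ^ k) ∧ y ≠ 1 ∧
        x * y * x⁻¹ = y⁻¹ := by
  intro n
  induction n using Nat.strong_induction_on with
  | _ n ih =>
    rintro x hxn ⟨k, hk⟩ hxN hxC
    by_cases hsq : x ^ 2 ∈ Subgroup.centralizer (P : Set G)
    · have hex : ∃ u ∈ P, u * x ≠ x * u := by
        by_contra hcon
        apply hxC
        rw [Subgroup.mem_centralizer_iff]
        intro u hu
        by_contra h
        exact hcon ⟨u, hu, h⟩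
      obtain ⟨u, hu, hux⟩ := hex
      have hxu : x * u * x⁻¹ ∈ P := ((Subgroup.mem_normalizer_iff.mp hxN) u).mp hu
      have hwP : u⁻¹ * (x * u * x⁻¹) ∈ P := mul_mem (inv_mem hu) hxu
      have hw1 : u⁻¹ * (x * u * x⁻¹) ≠ 1 := by
        intro h
        apply hux
        have h1 : x * u * x⁻¹ = u := by
          have := congrArg (fun z => u * z) h
          simpa [mul_assoc] using this
        calc u * x = (x * u * x⁻¹) * x := by rw [h1]
          _ = x * u := by rw [inv_mul_cancel_right]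
      have hsq' : u * x ^ 2 = x ^ 2 * u := (Subgroup.mem_centralizer_iff.mp hsq) u hu
      have hinv : x * (u⁻¹ * (x * u * x⁻¹)) * x⁻¹ = (u⁻¹ * (x * u * x⁻¹))⁻¹ := by
        have h1 : x * (u⁻¹ * (x * u * x⁻¹)) * x⁻¹ = (x * u⁻¹ * x⁻¹) * ((x ^ 2 * u) * (x ^ 2)⁻¹) := by
          group
        rw [h1, ← hsq']
        group
      obtain ⟨j, hj⟩ := (IsPGroup.iff_orderOf.mp hP) ⟨u⁻¹ * (x * u * x⁻¹), hwP⟩
      refine ⟨x, u⁻¹ * (x * u * x⁻¹), ⟨k, hk⟩, ⟨j, ?_⟩, hw1, hinv⟩
      rw [← hj, Subgroup.orderOf_mk]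
    · have hk0 : k ≠ 0 := by
        rintro rfl
        rw [pow_zero, orderOf_eq_one_iff] at hk
        subst hk
        exact hxC (one_mem _)
      obtain ⟨k', rfl⟩ := Nat.exists_eq_succ_of_ne_zero hk0
      have hord2 : orderOf (x ^ 2) = 2 ^ k' := by
        rw [orderOf_pow' x two_ne_zero, hk, pow_succ, Nat.gcd_eq_right (dvd_mul_left 2 _)]
        simp
      refine ih (2 ^ k') ?_ (x ^ 2) hord2 ⟨k', hord2⟩ (pow_mem hxN 2) hsq
      rw [← hxn, hk]
      exact Nat.pow_lt_pow_right (by norm_num) (by omega)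

end Cfsg.Agent.Helper16
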