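import Cfsg.Agent.Helper16.EOB

set_option autoImplicit false
open Cfsg

namespace Cfsg.Agent.Helper16.EO

open QuadraticMap Module Matrix

section EOC0
variable {ι : Type} [Fintype ι] [DecidableEq ι] {F : Type*} [Field F]

/-- three vectors in the span of two are linearly dependent -/
theorem dep3 {V : Type*} [AddCommGroup V] [Module F V] (p q w₁ w₂ w₃ : V)
    (l₁ m₁ l₂ m₂ l₃ m₃ : F) (h₁ : w₁ = l₁ • p + m₁ • q) (h₂ : w₂ = l₂ • p + m₂ • q)
    (h₃ : w₃ = l₃ • p + m₃ • q) :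
    ∃ c₁ c₂ c₃ : F, (c₁ ≠ 0 ∨ c₂ ≠ 0 ∨ c₃ ≠ 0) ∧ c₁ • w₁ + c₂ • w₂ + c₃ • w₃ = 0 := by
  subst h₁ h₂ h₃
  by_cases hD : l₁ * m₂ - l₂ * m₁ = 0
  · by_cases hl : l₁ = 0 ∧ l₂ = 0
    · obtain ⟨rfl, rfl⟩ := hl
      by_cases hm : m₁ = 0 ∧ m₂ = 0
      · obtain ⟨rfl, rfl⟩ := hm
        exact ⟨1, 0, 0, Or.inl one_ne_zero, by module⟩
      · refine ⟨m₂, -m₁, 0, ?_, by module⟩
        by_contra h
        push Not at h
        exact hm ⟨by simpa using h.2.1, h.1⟩
    · refine ⟨l₂, -l₁, 0, ?_, ?_⟩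
      · by_contra h
        push Not at h
        exact hl ⟨by simpa using h.2.1, h.1⟩
      · have e : l₂ • (l₁ • p + m₁ • q) + (-l₁) • (l₂ • p + m₂ • q) + (0 : F) • (l₃ • p + m₃ • q)
            = (-(l₁ * m₂ - l₂ * m₁)) • q := by module
        rw [e, hD, neg_zero, zero_smul]
  · exact ⟨l₂ * m₃ - l₃ * m₂, l₃ * m₁ - l₁ * m₃, l₁ * m₂ - l₂ * m₁, Or.inr (Or.inr hD), by module⟩

/-- the norm of the displacement of a vector by a Siegel element -/
theorem sieg_Q_mov (Q : QuadraticForm F (ι → F)) (u w v : ι → F) (hu : Q u = 0)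
    (huw : polar Q u w = 0) :
    Q (((siegT Q u w : GL ι F) : Matrix ι ι F) *ᵥ v - v) = polar Q u v * polar Q u v * Q w := by
  rw [siegT_mulVec Q u w v hu huw]
  have e : v + polar Q w v • u - polar Q u v • w - (Q w * polar Q u v) • u - v
      = (polar Q w v - Q w * polar Q u v) • u + (-polar Q u v) • w := by module
  rw [e, qf_lin2, hu, huw]
  ring

/-- a short Siegel element determines its singular point (any characteristic) -/
theorem sieg_point (Q : QuadraticForm F (ι → F)) (hQ : (polarBilin Q).Nondegenerate)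
    (u w a w' : ι → F) (hu : Q u = 0) (huw : polar Q u w = 0) (ha : Q a = 0)
    (haw' : polar Q a w' = 0) (hw : Q w ≠ 0) (hu0 : u ≠ 0)
    (heq : siegT Q u w = siegT Q a w') : ∃ κ : F, u = κ • a := by
  have key : ∀ v, polar Q a v = 0 → polar Q u v = 0 := by
    intro v hav
    have h1 := sieg_Q_mov Q u w v hu huw
    rw [heq, sieg_Q_mov Q a w' v ha haw', hav] at h1
    have h2 : polar Q u v * polar Q u v * Q w = 0 := by
      rw [← h1]
      ring
    rcases mul_eq_zero.mp h2 with h3 | h3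
    · exact mul_self_eq_zero.mp h3
    · exact absurd h3 hw
  by_cases ha0 : a = 0
  · exfalso
    apply hu0
    apply hQ.1
    intro v
    show polar Q u v = 0
    exact key v (by rw [ha0, polar_zero_left])
  · obtain ⟨as, has⟩ := exists_polar_ne Q hQ a ha0
    refine ⟨polar Q u as / polar Q a as, ?_⟩
    have h0 : u - (polar Q u as / polar Q a as) • a = 0 := by
      apply hQ.1
      intro v
      show polar Q (u - (polar Q u as / polar Q a as) • a) v = 0
      have h1 := key (v - (polar Q a v / polar Q a as) • as) (by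
        rw [polar_sub_right, polar_smul_right, smul_eq_mul, div_mul_cancel₀ _ has, sub_self])
      rw [polar_sub_right, polar_smul_right, smul_eq_mul] at h1
      rw [polar_sub_left, polar_smul_left, smul_eq_mul]
      linear_combination h1
    exact sub_eq_zero.mp h0

/-- Siegel elements at the same point agree only if the vectors agree modulo the point -/
theorem sieg_eq_mod (Q : QuadraticForm F (ι → F)) (a w w' as : ι → F) (ha : Q a = 0)
    (haw : polar Q a w = 0) (haw' : polar Q a w' = 0) (haas : polar Q a as = 1)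
    (h : siegT Q a w = siegT Q a w') : ∃ τ : F, w' = w + τ • a := by
  have h1 : ((siegT Q a w : GL ι F) : Matrix ι ι F) *ᵥ as
      = ((siegT Q a w' : GL ι F) : Matrix ι ι F) *ᵥ as := by rw [h]
  rw [siegT_mulVec Q a w as ha haw, siegT_mulVec Q a w' as ha haw', haas] at h1
  refine ⟨polar Q w' as - polar Q w as - Q w' + Q w, ?_⟩
  have h2 : w' - (w + (polar Q w' as - polar Q w as - Q w' + Q w) • a) = 0 := by
    rw [← sub_eq_zero] at h1
    rw [← h1]
    module
  exact sub_eq_zero.mp h2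

/-- an isometry differing from the identity by maps into `⟨a, b⟩` and fixing `c₁` modulo `a` is a
Siegel element (any characteristic) -/
theorem sieg_of_shape0 (Q : QuadraticForm F (ι → F))
    (hQ : (polarBilin Q).Nondegenerate) (g : ↥(isometryGroup F ⇑Q)) (a b as c₁ : ι → F)
    (ha : Q a = 0) (hab : polar Q a b = 0) (has : Q as = 0)
    (haas : polar Q a as = 1) (hasb : polar Q as b = 0) (hbc : polar Q b c₁ = 1)
    (hac : polar Q a c₁ = 0) (hasc : polar Q as c₁ = 0)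
    (hshape : ∀ v, ∃ α β : F, act ⇑Q g v = v + α • a + β • b) (δ' : F)
    (hgc : act ⇑Q g c₁ = c₁ + δ' • a) :
    ∃ t : F, ∀ hp : polar Q a (t • b) = 0, g = sieg Q a (t • b) ha hp := by
  have hfix : ∀ v, polar Q a v = 0 → polar Q b v = 0 → act ⇑Q g v = v := by
    intro v hav hbv
    have hd : act ⇑Q g v - v = 0 := by
      apply hQ.1
      intro u'
      obtain ⟨α', β', hu⟩ := hshape (act ⇑Q g⁻¹ u')
      rw [act_act_inv] at hu
      have h1 : polar Q (act ⇑Q g v) u' = polar Q v (act ⇑Q g⁻¹ u') := by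
        conv_lhs => rw [← act_act_inv ⇑Q g u']
        exact act_polar ⇑Q g v _
      have h2' : polar Q v u' = polar Q v (act ⇑Q g⁻¹ u') := by
        conv_lhs => rw [hu]
        rw [polar_add_right, polar_add_right, polar_smul_right, polar_smul_right,
          polar_comm Q v a, hav, polar_comm Q v b, hbv]
        simp
      show polar Q (act ⇑Q g v - v) u' = 0
      rw [polar_sub_left, h1, h2', sub_self]
    exact sub_eq_zero.mp hd
  have haa : polar Q a a = 0 := by rw [qf_polar_self, ha, mul_zero]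
  have hba : polar Q b a = 0 := by rw [polar_comm]; exact hab
  have hasa : polar Q as a = 1 := by rw [polar_comm]; exact haas
  have hbas : polar Q b as = 0 := by rw [polar_comm]; exact hasb
  obtain ⟨δ, γ, hgas⟩ := hshape as
  have r1 : δ' = -γ := by
    have h1 := act_polar ⇑Q g as c₁
    rw [hgas, hgc, hasc] at h1
    simp only [polar_add_left, polar_add_right, polar_smul_left, polar_smul_right, smul_eq_mul,
      hasc, hasa, hab, hba, haa, hbc, hac] at h1
    linear_combination h1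
  have r2 : δ = -(γ * γ * Q b) := by
    have h0 : Q (act ⇑Q g as) = Q as := act_Q ⇑Q g as
    rw [hgas, has] at h0
    rw [qf_add, qf_add, qf_smul, qf_smul, has, ha] at h0
    simp only [polar_add_left, polar_smul_left, polar_smul_right, smul_eq_mul, hasb, hasa, hab,
      haas] at h0
    linear_combination h0
  refine ⟨-γ, fun hp => ?_⟩
  apply act_ext
  intro x
  obtain ⟨p, hp'⟩ : ∃ p : F, p = polar Q a x := ⟨_, rfl⟩
  obtain ⟨q, hq⟩ : ∃ q : F, q = polar Q b x := ⟨_, rfl⟩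
  have hx' := hfix (x - p • as - q • c₁) (by
    rw [polar_sub_right, polar_sub_right, polar_smul_right, polar_smul_right, haas, hac, hp']
    simp) (by
    rw [polar_sub_right, polar_sub_right, polar_smul_right, polar_smul_right, hbas, hbc, hq]
    simp)
  have hx : x = (x - p • as - q • c₁) + p • as + q • c₁ := by abel
  have e1 : act ⇑Q g x
      = (x - p • as - q • c₁) + p • (as + δ • a + γ • b) + q • (c₁ + δ' • a) := by
    conv_lhs => rw [hx]
    rw [act_add, act_add, act_smul, act_smul, hx', hgas, hgc]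
  rw [e1, act_sieg, polar_smul_left, qf_smul, ← hp', ← hq, r1, r2]
  simp only [smul_eq_mul]
  module

/-- an isometry differing from the identity by maps into `⟨a, b⟩` is a Siegel element, possibly
after multiplication by the reflection in `b` (any characteristic) -/
theorem sieg_of_shape (Q : QuadraticForm F (ι → F)) (hQ : (polarBilin Q).Nondegenerate)
    (g : ↥(isometryGroup F ⇑Q)) (a b as c₁ : ι → F) (ha : Q a = 0) (hab : polar Q a b = 0)
    (hb : Q b ≠ 0) (has : Q as = 0) (haas : polar Q a as = 1) (hasb : polar Q as b = 0)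
    (hbc : polar Q b c₁ = 1) (hac : polar Q a c₁ = 0) (hasc : polar Q as c₁ = 0)
    (hshape : ∀ v, ∃ α β : F, act ⇑Q g v = v + α • a + β • b) :
    ∃ t : F, (∀ hp : polar Q a (t • b) = 0, g = sieg Q a (t • b) ha hp) ∨
      (∀ hp : polar Q a (t • b) = 0, reflElt Q b * g = sieg Q a (t • b) ha hp) := by
  obtain ⟨δ', γ', hgc⟩ := hshape c₁
  have hγ : γ' = 0 ∨ γ' * Q b + 1 = 0 := by
    have h1 : Q (act ⇑Q g c₁) = Q c₁ := act_Q ⇑Q g c₁
    rw [hgc] at h1
    have e : c₁ + δ' • a + γ' • b = c₁ + (δ' • a + γ' • b) := by abel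
    rw [e, qf_add, qf_lin2, ha, hab, polar_add_right, polar_smul_right, polar_smul_right,
      polar_comm Q c₁ a, hac, polar_comm Q c₁ b, hbc] at h1
    have h3 : γ' * (γ' * Q b + 1) = 0 := by
      simp only [smul_eq_mul] at h1
      linear_combination h1
    exact mul_eq_zero.mp h3
  rcases hγ with rfl | hγ
  · obtain ⟨t, ht⟩ := sieg_of_shape0 Q hQ g a b as c₁ ha hab has haas hasb hbc hac hasc hshape δ'
      (by rw [hgc]; module)
    exact ⟨t, Or.inl ht⟩
  · have hsh2 : ∀ v, ∃ α' β' : F, act ⇑Q (reflElt Q b * g) v = v + α' • a + β' • b := by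
      intro v
      obtain ⟨α', β', hv⟩ := hshape v
      refine ⟨α', β' - (Q b)⁻¹ * polar Q b (act ⇑Q g v), ?_⟩
      rw [act_mul, act_refl Q b hb, qrefl_apply, hv]
      module
    have hgc2 : act ⇑Q (reflElt Q b * g) c₁ = c₁ + δ' • a := by
      rw [act_mul, act_refl Q b hb, qrefl_apply, hgc, polar_add_right, polar_add_right,
        polar_smul_right, polar_smul_right, polar_comm Q b a, hab, qf_polar_self, hbc]
      have e5 : (Q b)⁻¹ * (1 + δ' • (0 : F) + γ' • (2 * Q b)) = γ' := by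
        simp only [smul_eq_mul]
        field_simp
        linear_combination hγ
      rw [e5]
      module
    obtain ⟨t, ht⟩ := sieg_of_shape0 Q hQ (reflElt Q b * g) a b as c₁ ha hab has haas hasb hbc
      hac hasc hsh2 δ' hgc2
    exact ⟨t, Or.inr ht⟩

/-- reflections do not lie in `Ω` -/
theorem refl_not_mem_Omega [Fintype F] (hn : 5 ≤ Fintype.card ι) (Q : QuadraticForm F (ι → F))
    (hQ : (polarBilin Q).Nondegenerate) (b : ι → F) (hb : Q b ≠ 0) :
    reflElt Q b ∉ Omega F ⇑Q := by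
  intro hmem
  by_cases h2 : (2 : F) = 0
  · haveI : CharP F 2 := CharTwo.of_one_ne_zero_of_two_eq_zero one_ne_zero h2
    have h := (mem_Omega_iff_dickson Q hQ (Or.inr (by omega)) (by omega) (reflElt Q b)).1 hmem
    rw [dicksonHom_refl Q hQ _ b hb] at h
    exact absurd h (by decide)
  · have h1 := Omega_det h2 Q hQ ⟨_, hmem⟩
    rw [det_refl Q b hb] at h1
    exact h2 (by linear_combination -h1)

end EOC0

section EOC
variable {ι : Type} [Fintype ι] [DecidableEq ι] {F : Type*} [Field F] [Fintype F]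
variable {F₀ : Subfield F} {Q : QuadraticForm F (ι → F)} {Q₀ : QuadraticForm F₀ (ι → F₀)}
  {H : Subgroup (GL ι F)}

theorem OCtx.exists_sing_polar_ne (hC : OCtx F₀ Q Q₀ H) (v : ι → F) (hv : v ≠ 0) :
    ∃ a : ι → F₀, Q₀ a = 0 ∧ polar Q (upv F₀ a) v ≠ 0 := by
  classical
  have hn := hC.card
  by_contra hcon
  push Not at hcon
  apply hv
  apply eq_zero_of_polar_upv Q hC.nd (F₀ := F₀)
  intro u
  rw [polar_comm]
  by_cases huQ : Q₀ u = 0
  · exact hcon u huQ
  · obtain ⟨w, e, f, -, -, -, hwQ, heQ, hfQ, -, -, -, huw⟩ :=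
      sing_decomp Q₀ hC.nd₀ ⊥ (nd_bot Q₀) (by rw [finrank_bot]; omega) u
        (mem_orth_bot Q₀ u) huQ
    have e3 : upv F₀ u = upv F₀ w - upv F₀ e + ((Q₀ u : F₀) : F) • upv F₀ f := by
      conv_lhs => rw [huw]
      rw [upv_add, upv_sub, upv_smul]
    rw [e3, polar_add_left, polar_sub_left, polar_smul_left, hcon w hwQ, hcon e heQ,
      hcon f hfQ]
    simp

theorem OCtx.perp_span (hC : OCtx F₀ Q Q₀ H) (a₀ : ι → F₀) (ha₀0 : a₀ ≠ 0) (ha₀ : Q₀ a₀ = 0)
    (η : ι → F) (h : ∀ w : ι → F₀, polar Q₀ a₀ w = 0 → polar Q η (upv F₀ w) = 0) :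
    ∃ t : F, η = t • upv F₀ a₀ := by
  obtain ⟨as, -, hasQ, haas⟩ := (nd_top Q₀ hC.nd₀).exists_partner a₀ Submodule.mem_top ha₀0 ha₀
  refine ⟨polar Q η (upv F₀ as), ?_⟩
  have h0 : η - polar Q η (upv F₀ as) • upv F₀ a₀ = 0 := by
    apply eq_zero_of_polar_upv Q hC.nd (F₀ := F₀)
    intro v
    have hw : polar Q₀ a₀ (v - polar Q₀ a₀ v • as) = 0 := by
      rw [polar_sub_right, polar_smul_right, haas]
      simp
    have hv : upv F₀ v = upv F₀ (v - polar Q₀ a₀ v • as)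
        + ((polar Q₀ a₀ v : F₀) : F) • upv F₀ as := by
      rw [upv_sub, upv_smul]
      abel
    rw [hv, polar_sub_left, polar_add_right, polar_add_right, polar_smul_right, polar_smul_left,
      polar_smul_left, polar_smul_right, h _ hw, hC.pz hw, hC.p1 haas]
    simp only [smul_eq_mul]
    ring
  exact sub_eq_zero.mp h0

theorem OCtx.exists_config (hC : OCtx F₀ Q Q₀ H) (N : Submodule F₀ (ι → F₀)) (hN : ND Q₀ N)
    (hNfin : finrank F₀ N ≤ 6) (e' : ι → F₀) (he' : e' ∈ orth Q₀ N) (he'0 : e' ≠ 0)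
    (he'Q : Q₀ e' = 0) :
    ∃ e f e'' f'' : ι → F₀, e ∈ orth Q₀ N ∧ f ∈ orth Q₀ N ∧ e'' ∈ orth Q₀ N ∧ f'' ∈ orth Q₀ N ∧
      Q₀ e = 0 ∧ Q₀ f = 0 ∧ Q₀ e'' = 0 ∧ Q₀ f'' = 0 ∧ polar Q₀ e f = 1 ∧
      polar Q₀ e'' f'' = 1 ∧ polar Q₀ e' e = 0 ∧ polar Q₀ e' f = 0 ∧ polar Q₀ e' e'' = 0 ∧
      polar Q₀ e'' e = 0 ∧ polar Q₀ e'' f = 0 := by
  classical
  have hn := hC.card
  obtain ⟨f', hf', hf'Q, he'f'⟩ := (hN.orth_nd hC.nd₀).exists_partner e' he' he'0 he'Q
  obtain ⟨hN₂, hN₂fin⟩ := nd_add_hp Q₀ N hN e' f' he' hf' he'Q hf'Q he'f'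
  obtain ⟨e, f, he, hf, heQ, hfQ, hef⟩ := exists_hp Q₀ hC.nd₀ _ hN₂ (by omega)
  obtain ⟨hN₃, hN₃fin⟩ := nd_add_hp Q₀ _ hN₂ e f he hf heQ hfQ hef
  obtain ⟨e'', f'', he'', hf'', he''Q, hf''Q, he''f''⟩ := exists_hp Q₀ hC.nd₀ _ hN₃ (by omega)
  have sub1 : ∀ x, x ∈ orth Q₀ (N ⊔ (Submodule.span F₀ {e'} ⊔ Submodule.span F₀ {f'})) →
      x ∈ orth Q₀ N := fun x hx => by
    rw [mem_orth] at hx ⊢
    intro n hn'
    exact hx n (Submodule.mem_sup_left hn')
  have sub2 : ∀ x, x ∈ orth Q₀ (N ⊔ (Submodule.span F₀ {e'} ⊔ Submodule.span F₀ {f'}) ⊔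
      (Submodule.span F₀ {e} ⊔ Submodule.span F₀ {f})) →
      x ∈ orth Q₀ (N ⊔ (Submodule.span F₀ {e'} ⊔ Submodule.span F₀ {f'})) := fun x hx => by
    rw [mem_orth] at hx ⊢
    intro n hn'
    exact hx n (Submodule.mem_sup_left hn')
  have he'N₂ : e' ∈ N ⊔ (Submodule.span F₀ {e'} ⊔ Submodule.span F₀ {f'}) :=
    Submodule.mem_sup_right (Submodule.mem_sup_left (Submodule.mem_span_singleton_self e'))
  refine ⟨e, f, e'', f'', sub1 e he, sub1 f hf, sub1 _ (sub2 _ he''), sub1 _ (sub2 _ hf''), heQ,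
    hfQ, he''Q, hf''Q, hef, he''f'', (mem_orth Q₀ _ e).1 he e' he'N₂,
    (mem_orth Q₀ _ f).1 hf e' he'N₂, (mem_orth Q₀ _ e'').1 he'' e' (Submodule.mem_sup_left he'N₂),
    ?_, ?_⟩
  · rw [polar_comm]
    exact (mem_orth Q₀ _ e'').1 he'' e (Submodule.mem_sup_right
      (Submodule.mem_sup_left (Submodule.mem_span_singleton_self e)))
  · rw [polar_comm]
    exact (mem_orth Q₀ _ e'').1 he'' f (Submodule.mem_sup_right
      (Submodule.mem_sup_right (Submodule.mem_span_singleton_self f)))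

/-- an element of `H` moving every rational singular point off the rational points cannot send
a rational singular point into a vector orthogonal to the rational singular vectors of the
complement of a small rational subspace -/
theorem OCtx.Lx (hC : OCtx F₀ Q Q₀ H) (hR : RProp F₀ Q Q₀ H) (k : ↥(isometryGroup F ⇑Q))
    (hk : (k : GL ι F) ∈ H)
    (hB0 : ∀ (a a' : ι → F₀) (lam : F), a ≠ 0 → Q₀ a = 0 →
      act ⇑Q k (upv F₀ a) ≠ lam • upv F₀ a')
    (hB0' : ∀ (a a' : ι → F₀) (lam : F), a ≠ 0 → Q₀ a = 0 →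
      act ⇑Q k⁻¹ (upv F₀ a) ≠ lam • upv F₀ a')
    (N : Submodule F₀ (ι → F₀)) (hN : ND Q₀ N) (hNfin : finrank F₀ N ≤ 6) (a₀ : ι → F₀)
    (ha₀0 : a₀ ≠ 0) (ha₀ : Q₀ a₀ = 0)
    (hperp : ∀ u ∈ orth Q₀ N, Q₀ u = 0 →
      polar Q (act ⇑Q k (upv F₀ a₀)) (upv F₀ u) = 0) : False := by
  classical
  have hn := hC.card
  obtain ⟨e', f', he', hf', he'Q, hf'Q, he'f'⟩ := exists_hp Q₀ hC.nd₀ N hN (by omega)
  have he'0 : e' ≠ 0 := by
    rintro rfl
    rw [polar_zero_left] at he'f'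
    exact zero_ne_one he'f'
  obtain ⟨e, f, e'', f'', he, hf, he'', hf'', heQ, hfQ, he''Q, hf''Q, hef, he''f'', he'e, he'f,
    he'e'', he''e, he''f⟩ := hC.exists_config N hN hNfin e' he' he'0 he'Q
  have hη : ∃ w : ι → F₀, polar Q₀ a₀ w = 0 ∧
      polar Q (act ⇑Q k⁻¹ (upv F₀ e')) (upv F₀ w) ≠ 0 := by
    by_contra hcon
    push Not at hcon
    obtain ⟨t, ht⟩ := hC.perp_span a₀ ha₀0 ha₀ _ hcon
    exact hB0' e' a₀ t he'0 he'Q ht
  obtain ⟨w, ha₀w, hw⟩ := hη
  have hQa₀ := hC.Qz ha₀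
  have hT : siegT Q (act ⇑Q k (upv F₀ a₀)) (act ⇑Q k (upv F₀ w)) ∈ H := by
    rw [← siegT_conj Q k _ _ hQa₀ (hC.pz ha₀w)]
    exact H.mul_mem (H.mul_mem hk (hC.sieg_mem a₀ w ha₀ ha₀w)) (H.inv_mem hk)
  have hne : polar Q (upv F₀ e') (act ⇑Q k (upv F₀ w)) ≠ 0 := by
    have h1 := act_polar ⇑Q k (act ⇑Q k⁻¹ (upv F₀ e')) (upv F₀ w)
    rw [act_act_inv] at h1
    rw [h1]
    exact hw
  obtain ⟨c, z₀, hc, hz₀⟩ := hC.L1 hR _ _ ((act_Q ⇑Q k _).trans hQa₀)
    ((act_polar ⇑Q k _ _).trans (hC.pz ha₀w)) hT e f e' e'' f'' heQ hfQ he'Q he''Q hef he''f''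
    he'e he'f he'e'' he''e he''f (hperp e he heQ) (hperp f hf hfQ) (hperp e' he' he'Q)
    (hperp e'' he'' he''Q) (hperp f'' hf'' hf''Q) hne
  apply hB0 a₀ z₀ c⁻¹ ha₀0 ha₀
  rw [← hz₀, smul_smul, inv_mul_cancel₀ hc, one_smul]

end EOC


end Cfsg.Agent.Helper16.EO
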