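import Cfsg.Agent.Helper16.EOC

set_option autoImplicit false
open Cfsg

namespace Cfsg.Agent.Helper16.EO

open QuadraticMap Module Matrix

section EOD
variable {ι : Type} [Fintype ι] [DecidableEq ι] {F : Type*} [Field F] [Fintype F]
variable {F₀ : Subfield F} {Q : QuadraticForm F (ι → F)} {Q₀ : QuadraticForm F₀ (ι → F₀)}
  {H : Subgroup (GL ι F)}

set_option maxHeartbeats 4000000 in
/-- under the rigidity hypothesis every element of `H` is rational up to a scalar -/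
theorem OCtx.all_rat (hC : OCtx F₀ Q Q₀ H) (hR : RProp F₀ Q Q₀ H) (g : ↥(isometryGroup F ⇑Q))
    (hg : (g : GL ι F) ∈ H) :
    ∃ c : F, c ≠ 0 ∧ RMat F₀ (c • ((g : GL ι F) : Matrix ι ι F)) := by
  classical
  by_contra hbad
  have hn := hC.card
  have hn5 : 5 ≤ Fintype.card ι := by omega
  have hgi : ((g⁻¹ : ↥(isometryGroup F ⇑Q)) : GL ι F) ∈ H := by
    rw [Subgroup.coe_inv]
    exact H.inv_mem hg
  have hB0 : ∀ (a a' : ι → F₀) (lam : F), a ≠ 0 → Q₀ a = 0 →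
      act ⇑Q g (upv F₀ a) ≠ lam • upv F₀ a' := by
    intro a a' lam ha0 ha h
    have hne : act ⇑Q g (upv F₀ a) ≠ 0 := act_ne_zero ⇑Q g _ (upv_ne_zero ha0)
    have hlam : lam ≠ 0 := by
      rintro rfl
      rw [zero_smul] at h
      exact hne h
    exact hbad ⟨lam, hlam, hC.O2 hR g hg a a' ha0 ha lam h⟩
  have hB0' : ∀ (a a' : ι → F₀) (lam : F), a ≠ 0 → Q₀ a = 0 →
      act ⇑Q g⁻¹ (upv F₀ a) ≠ lam • upv F₀ a' := by
    intro a a' lam ha0 ha h
    have hne : act ⇑Q g⁻¹ (upv F₀ a) ≠ 0 := act_ne_zero ⇑Q g⁻¹ _ (upv_ne_zero ha0)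
    have hlam : lam ≠ 0 := by
      rintro rfl
      rw [zero_smul] at h
      exact hne h
    have ha'0 : a' ≠ 0 := by
      rintro rfl
      rw [upv_zero, smul_zero] at h
      exact hne h
    have hQ' : Q₀ a' = 0 := by
      apply hC.sing_of_coe
      have h1 : Q (act ⇑Q g⁻¹ (upv F₀ a)) = Q (upv F₀ a) := act_Q ⇑Q g⁻¹ _
      rw [h, hC.Qz ha, qf_smul] at h1
      rcases mul_eq_zero.mp h1 with h3 | h3
      · exact absurd (mul_self_eq_zero.mp h3) hlam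
      · exact h3
    apply hB0 a' a lam⁻¹ ha'0 hQ'
    have h2 := congrArg (act ⇑Q g) h
    rw [act_act_inv, act_smul] at h2
    rw [h2, smul_smul, inv_mul_cancel₀ hlam, one_smul]
  have hB0i : ∀ (a a' : ι → F₀) (lam : F), a ≠ 0 → Q₀ a = 0 →
      act ⇑Q (g⁻¹)⁻¹ (upv F₀ a) ≠ lam • upv F₀ a' := by
    rw [inv_inv]
    exact hB0
  -- the long root element `T`
  obtain ⟨a₂, a₂s, -, -, ha₂Q, ha₂sQ, ha₂a₂s⟩ :=
    exists_hp Q₀ hC.nd₀ ⊥ (nd_bot Q₀) (by rw [finrank_bot]; omega)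
  obtain ⟨hNa2, hNa2fin⟩ := nd_add_hp Q₀ ⊥ (nd_bot Q₀) a₂ a₂s (mem_orth_bot Q₀ _)
    (mem_orth_bot Q₀ _) ha₂Q ha₂sQ ha₂a₂s
  rw [finrank_bot] at hNa2fin
  obtain ⟨b₂, b₂s, hb₂, hb₂s, hb₂Q, hb₂sQ, hb₂b₂s⟩ := exists_hp Q₀ hC.nd₀ _ hNa2 (by omega)
  obtain ⟨hN₂, hN₂fin⟩ := nd_add_hp Q₀ _ hNa2 b₂ b₂s hb₂ hb₂s hb₂Q hb₂sQ hb₂b₂s
  obtain ⟨N₂, hN₂def⟩ : ∃ N₂ : Submodule F₀ (ι → F₀),
      N₂ = ⊥ ⊔ (Submodule.span F₀ {a₂} ⊔ Submodule.span F₀ {a₂s}) ⊔
        (Submodule.span F₀ {b₂} ⊔ Submodule.span F₀ {b₂s}) := ⟨_, rfl⟩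
  rw [← hN₂def] at hN₂ hN₂fin
  have ha₂Na : a₂ ∈ (⊥ : Submodule F₀ (ι → F₀)) ⊔
      (Submodule.span F₀ {a₂} ⊔ Submodule.span F₀ {a₂s}) :=
    Submodule.mem_sup_right (Submodule.mem_sup_left (Submodule.mem_span_singleton_self a₂))
  have ha₂sNa : a₂s ∈ (⊥ : Submodule F₀ (ι → F₀)) ⊔
      (Submodule.span F₀ {a₂} ⊔ Submodule.span F₀ {a₂s}) :=
    Submodule.mem_sup_right (Submodule.mem_sup_right (Submodule.mem_span_singleton_self a₂s))
  have ha₂N : a₂ ∈ N₂ := by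
    rw [hN₂def]
    exact Submodule.mem_sup_left ha₂Na
  have hb₂N : b₂ ∈ N₂ := by
    rw [hN₂def]
    exact Submodule.mem_sup_right (Submodule.mem_sup_left (Submodule.mem_span_singleton_self b₂))
  have ha₂b₂ : polar Q₀ a₂ b₂ = 0 := (mem_orth Q₀ _ b₂).1 hb₂ a₂ ha₂Na
  have ha₂sb₂ : polar Q₀ a₂s b₂ = 0 := (mem_orth Q₀ _ b₂).1 hb₂ a₂s ha₂sNa
  have ha₂b₂s : polar Q₀ a₂ b₂s = 0 := (mem_orth Q₀ _ b₂s).1 hb₂s a₂ ha₂Na
  have ha₂0 : a₂ ≠ 0 := by
    rintro rfl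
    rw [polar_zero_left] at ha₂a₂s
    exact zero_ne_one ha₂a₂s
  obtain ⟨x, hxdef⟩ : ∃ x : ι → F, x = act ⇑Q g (upv F₀ a₂) := ⟨_, rfl⟩
  obtain ⟨y, hydef⟩ : ∃ y : ι → F, y = act ⇑Q g (upv F₀ b₂) := ⟨_, rfl⟩
  have hxQ : Q x = 0 := by
    rw [hxdef]
    exact (act_Q ⇑Q g _).trans (hC.Qz ha₂Q)
  have hyQ : Q y = 0 := by
    rw [hydef]
    exact (act_Q ⇑Q g _).trans (hC.Qz hb₂Q)
  have hxy : polar Q x y = 0 := by
    rw [hxdef, hydef]
    exact (act_polar ⇑Q g _ _).trans (hC.pz ha₂b₂)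
  have hx0 : x ≠ 0 := by
    rw [hxdef]
    exact act_ne_zero ⇑Q g _ (upv_ne_zero ha₂0)
  have hTH : siegT Q x y ∈ H := by
    rw [hxdef, hydef, ← siegT_conj Q g _ _ (hC.Qz ha₂Q) (hC.pz ha₂b₂)]
    exact H.mul_mem (H.mul_mem hg (hC.sieg_mem a₂ b₂ ha₂Q ha₂b₂)) (H.inv_mem hg)
  have hind : ∀ γ δ : F, γ • x + δ • y = 0 → γ = 0 ∧ δ = 0 := by
    intro γ δ h
    have h1 : act ⇑Q g (γ • upv F₀ a₂ + δ • upv F₀ b₂) = 0 := by
      rw [act_add, act_smul, act_smul, ← hxdef, ← hydef]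
      exact h
    have h2 : γ • upv F₀ a₂ + δ • upv F₀ b₂ = 0 := by
      by_contra hne
      exact act_ne_zero ⇑Q g _ hne h1
    constructor
    · have h3 := congrArg (fun t => polar Q t (upv F₀ a₂s)) h2
      simp only [polar_add_left, polar_smul_left, hC.p1 ha₂a₂s, polar_zero_left, smul_eq_mul,
        polar_comm Q (upv F₀ b₂) (upv F₀ a₂s), hC.pz ha₂sb₂] at h3
      simpa using h3
    · have h3 := congrArg (fun t => polar Q t (upv F₀ b₂s)) h2
      simp only [polar_add_left, polar_smul_left, hC.p1 hb₂b₂s, polar_zero_left, smul_eq_mul,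
        hC.pz ha₂b₂s] at h3
      simpa using h3
  -- the short root group `P`
  obtain ⟨a, haQ, hax⟩ := hC.exists_sing_polar_ne x hx0
  have ha0 : a ≠ 0 := by
    rintro rfl
    rw [upv_zero, polar_zero_left] at hax
    exact hax rfl
  obtain ⟨as, -, hasQ, haas⟩ := (nd_top Q₀ hC.nd₀).exists_partner a Submodule.mem_top ha0 haQ
  obtain ⟨Na, hNadef⟩ : ∃ Na : Submodule F₀ (ι → F₀),
      Na = Submodule.span F₀ {a} ⊔ Submodule.span F₀ {as} := ⟨_, rfl⟩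
  have hNaND : ND Q₀ Na := by
    rw [hNadef]
    exact nd_hyp Q₀ a as haQ hasQ (by rw [haas]; exact one_ne_zero)
  have hNafin : finrank F₀ Na ≤ 2 := by
    rw [hNadef]
    have h1 := Submodule.finrank_add_le_finrank_add_finrank (Submodule.span F₀ {a})
      (Submodule.span F₀ {as})
    have h3 := finrank_span_one_le (F := F₀) a
    have h4 := finrank_span_one_le (F := F₀) as
    omega
  have haNa : a ∈ Na := by
    rw [hNadef]
    exact Submodule.mem_sup_left (Submodule.mem_span_singleton_self a)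
  have hasNa : as ∈ Na := by
    rw [hNadef]
    exact Submodule.mem_sup_right (Submodule.mem_span_singleton_self as)
  have hneNa : orth Q₀ Na ≠ ⊥ := ne_bot_of_finrank_pos _ (by
    rw [finrank_orth Q₀ hC.nd₀, Module.finrank_fintype_fun_eq_card]
    omega)
  obtain ⟨b₁, hb₁Na, hb₁Q⟩ := (hNaND.orth_nd hC.nd₀).exists_nonsing hneNa
  have hb₁0 : b₁ ≠ 0 := by
    rintro rfl
    exact hb₁Q (QuadraticMap.map_zero Q₀)
  obtain ⟨c₀, hc₀Na, hb₁c₀⟩ := (hNaND.orth_nd hC.nd₀) b₁ hb₁Na hb₁0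
  obtain ⟨c₁, hc₁def⟩ : ∃ c₁ : ι → F₀, c₁ = (polar Q₀ b₁ c₀)⁻¹ • c₀ := ⟨_, rfl⟩
  have hc₁Na : c₁ ∈ orth Q₀ Na := by
    rw [hc₁def]
    exact (orth Q₀ Na).smul_mem _ hc₀Na
  have hb₁c₁ : polar Q₀ b₁ c₁ = 1 := by
    rw [hc₁def, polar_smul_right, smul_eq_mul, inv_mul_cancel₀ hb₁c₀]
  have hac₁ : polar Q₀ a c₁ = 0 := (mem_orth Q₀ Na c₁).1 hc₁Na a haNa
  have hasc₁ : polar Q₀ as c₁ = 0 := (mem_orth Q₀ Na c₁).1 hc₁Na as hasNa
  have hab₁ : polar Q₀ a b₁ = 0 := (mem_orth Q₀ Na b₁).1 hb₁Na a haNa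
  have hasb₁ : polar Q₀ as b₁ = 0 := (mem_orth Q₀ Na b₁).1 hb₁Na as hasNa
  obtain ⟨NP, hNP, hleNaNP, hb₁NP, hNPfin⟩ := nd_extend Q₀ hC.nd₀ Na hNaND b₁
  -- genericity
  have hG1 : ∀ (v₀ : ι → F₀) (α β γ δ : F),
      upv F₀ v₀ = α • upv F₀ a + β • upv F₀ b₁ + γ • x + δ • y → γ = 0 ∧ δ = 0 := by
    intro v₀ α β γ δ hv
    by_contra hγδ
    obtain ⟨z, hzdef⟩ : ∃ z : ι → F, z = γ • x + δ • y := ⟨_, rfl⟩
    have hzQ : Q z = 0 := by
      rw [hzdef, qf_lin2, hxQ, hyQ, hxy]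
      ring
    have hzv : z = upv F₀ v₀ - α • upv F₀ a - β • upv F₀ b₁ := by
      rw [hzdef, hv]
      abel
    obtain ⟨NG, hNG, hle, hvNG, hNGfin⟩ := nd_extend Q₀ hC.nd₀ NP hNP v₀
    have haNG : a ∈ NG := hle (hleNaNP haNa)
    have hb₁NG : b₁ ∈ NG := hle hb₁NP
    have hzperp : ∀ u ∈ orth Q₀ NG, polar Q z (upv F₀ u) = 0 := by
      intro u hu
      rw [hzv, polar_sub_left, polar_sub_left, polar_smul_left, polar_smul_left,
        hC.pz ((mem_orth Q₀ NG u).1 hu v₀ hvNG), hC.pz ((mem_orth Q₀ NG u).1 hu a haNG),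
        hC.pz ((mem_orth Q₀ NG u).1 hu b₁ hb₁NG)]
      simp
    have hy'' : ∃ (y'' : ι → F) (p q : F), polar Q z y'' = 0 ∧ siegT Q z y'' ∈ H ∧
        x = p • z + q • y'' := by
      by_cases hγ : γ = 0
      · have hδ : δ ≠ 0 := fun h => hγδ ⟨hγ, h⟩
        refine ⟨(-δ⁻¹) • x, 0, -δ, ?_, ?_, ?_⟩
        · rw [hzdef, hγ, zero_smul, zero_add, polar_smul_left, polar_smul_right,
            polar_comm Q y x, hxy]
          simp
        · rw [hzdef, hγ, zero_smul, zero_add, siegT_wedge2 Q x y hxQ hyQ hxy δ hδ]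
          exact hTH
        · rw [smul_smul, neg_mul_neg, mul_inv_cancel₀ hδ, one_smul, zero_smul, zero_add]
      · refine ⟨γ⁻¹ • y, γ⁻¹, -δ, ?_, ?_, ?_⟩
        · rw [hzdef, polar_add_left, polar_smul_left, polar_smul_left, polar_smul_right,
            polar_smul_right, hxy, qf_polar_self, hyQ]
          simp
        · rw [hzdef, siegT_wedge1 Q x y hxQ hyQ hxy γ δ hγ]
          exact hTH
        · rw [hzdef, smul_add, smul_smul, smul_smul, smul_smul, inv_mul_cancel₀ hγ, one_smul]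
          module
    obtain ⟨y'', p, q, hzy'', hT'', hxpq⟩ := hy''
    by_cases hcase : ∃ e' : ι → F₀, e' ∈ orth Q₀ NG ∧ Q₀ e' = 0 ∧ polar Q (upv F₀ e') y'' ≠ 0
    · obtain ⟨e', he', he'Q, he'y⟩ := hcase
      have he'0 : e' ≠ 0 := by
        rintro rfl
        rw [upv_zero, polar_zero_left] at he'y
        exact he'y rfl
      obtain ⟨e, f, e'', f'', he, hf, he'', hf'', heQ, hfQ, he''Q, hf''Q, hef, he''f'', he'e,
        he'f, he'e'', he''e, he''f⟩ := hC.exists_config NG hNG (by omega) e' he' he'0 he'Q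
      obtain ⟨c, z₀, hc, hz₀⟩ := hC.L1 hR z y'' hzQ hzy'' hT'' e f e' e'' f'' heQ hfQ he'Q he''Q
        hef he''f'' he'e he'f he'e'' he''e he''f (hzperp e he) (hzperp f hf) (hzperp e' he')
        (hzperp e'' he'') (hzperp f'' hf'') he'y
      have hz0 : z ≠ 0 := by
        intro h0
        rw [hzdef] at h0
        exact hγδ (hind γ δ h0)
      have hz₀0 : z₀ ≠ 0 := by
        rintro rfl
        rw [upv_zero] at hz₀
        rcases smul_eq_zero.mp hz₀ with h | h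
        · exact hc h
        · exact hz0 h
      have hz₀Q : Q₀ z₀ = 0 := by
        apply hC.sing_of_coe
        rw [← hz₀, qf_smul, hzQ, mul_zero]
      have hgz : act ⇑Q g⁻¹ (upv F₀ z₀) = c • (γ • upv F₀ a₂ + δ • upv F₀ b₂) := by
        have h1 : act ⇑Q g (c • (γ • upv F₀ a₂ + δ • upv F₀ b₂)) = upv F₀ z₀ := by
          rw [act_smul, act_add, act_smul, act_smul, ← hxdef, ← hydef, ← hzdef, hz₀]
        rw [← h1, act_inv_act]
      apply hC.Lx hR g⁻¹ hgi hB0' hB0i N₂ hN₂ (by omega) z₀ hz₀0 hz₀Q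
      intro u hu huQ
      rw [hgz, polar_smul_left, polar_add_left, polar_smul_left, polar_smul_left,
        hC.pz ((mem_orth Q₀ N₂ u).1 hu a₂ ha₂N), hC.pz ((mem_orth Q₀ N₂ u).1 hu b₂ hb₂N)]
      simp
    · push Not at hcase
      apply hC.Lx hR g hg hB0 hB0' NG hNG (by omega) a₂ ha₂0 ha₂Q
      intro u hu huQ
      have h1 : polar Q (upv F₀ u) y'' = 0 := hcase u hu huQ
      rw [← hxdef, hxpq, polar_add_left, polar_smul_left, polar_smul_left, hzperp u hu,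
        polar_comm Q y'', h1]
      simp
  -- the group `X`
  have hAQ : Q (upv F₀ a) = 0 := hC.Qz haQ
  have hAB : polar Q (upv F₀ a) (upv F₀ b₁) = 0 := hC.pz hab₁
  have hABf : ∀ f : F, polar Q (upv F₀ a) (f • upv F₀ b₁) = 0 := fun f => by
    rw [polar_smul_right, hAB, smul_zero]
  have hBQ : Q (upv F₀ b₁) ≠ 0 := fun h => hb₁Q (hC.sing_of_coe h)
  obtain ⟨s, hsdef⟩ : ∃ s : F → GL ι F, ∀ f, s f = siegT Q (upv F₀ a) (f • upv F₀ b₁) :=
    ⟨_, fun f => rfl⟩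
  have hs_mul : ∀ f f' : F, s f * s f' = s (f + f') := by
    intro f f'
    rw [hsdef, hsdef, hsdef, siegT_mul Q _ _ _ hAQ (hABf f) (hABf f'), add_smul]
  have hs_zero : s 0 = 1 := by rw [hsdef, zero_smul, siegT_zero_right Q _ hAQ]
  have hs_inv : ∀ f : F, (s f)⁻¹ = s (-f) := by
    intro f
    rw [inv_eq_iff_eq_inv, eq_inv_iff_mul_eq_one, hs_mul, add_neg_cancel, hs_zero]
  have hsH : ∀ f : F₀, s (f : F) ∈ H := by
    intro f
    rw [hsdef, ← upv_smul]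
    exact hC.sieg_mem a (f • b₁) haQ (by rw [polar_smul_right, hab₁, smul_zero])
  obtain ⟨S, hS⟩ : ∃ S : Set (GL ι F),
      S = {k | k = siegT Q x y ∨ ∃ f : F₀, k = s (f : F)} := ⟨_, rfl⟩
  obtain ⟨X, hXdef⟩ : ∃ X : Subgroup (GL ι F), X = Subgroup.closure S := ⟨_, rfl⟩
  have hXH : X ≤ H := by
    rw [hXdef, Subgroup.closure_le]
    intro k hk
    rw [hS] at hk
    rcases hk with rfl | ⟨f, rfl⟩
    · exact hTH
    · exact hsH f
  have hTX : siegT Q x y ∈ X := by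
    rw [hXdef]
    apply Subgroup.subset_closure
    rw [hS]
    exact Or.inl rfl
  have hsX : ∀ f : F₀, s (f : F) ∈ X := fun f => by
    rw [hXdef]
    apply Subgroup.subset_closure
    rw [hS]
    exact Or.inr ⟨f, rfl⟩
  -- the shape of the elements of `X`
  obtain ⟨Sh, hSh⟩ : ∃ Sh : GL ι F → Prop, ∀ k, Sh k ↔ ∀ v, ∃ α β γ δ : F,
      (k : Matrix ι ι F) *ᵥ v = v + α • upv F₀ a + β • upv F₀ b₁ + γ • x + δ • y :=
    ⟨_, fun k => Iff.rfl⟩
  have hFm_mul : ∀ k k' : GL ι F, Sh k → Sh k' → Sh (k * k') := by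
    intro k k' hk hk'
    rw [hSh] at hk hk' ⊢
    intro v
    obtain ⟨α', β', γ', δ', e'⟩ := hk' v
    obtain ⟨α1, β1, γ1, δ1, e1⟩ := hk v
    obtain ⟨α2, β2, γ2, δ2, e2⟩ := hk (upv F₀ a)
    obtain ⟨α3, β3, γ3, δ3, e3⟩ := hk (upv F₀ b₁)
    obtain ⟨α4, β4, γ4, δ4, e4⟩ := hk x
    obtain ⟨α5, β5, γ5, δ5, e5⟩ := hk y
    refine ⟨α1 + α' * (1 + α2) + β' * α3 + γ' * α4 + δ' * α5,
      β1 + α' * β2 + β' * (1 + β3) + γ' * β4 + δ' * β5,
      γ1 + α' * γ2 + β' * γ3 + γ' * (1 + γ4) + δ' * γ5,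
      δ1 + α' * δ2 + β' * δ3 + γ' * δ4 + δ' * (1 + δ5), ?_⟩
    rw [Units.val_mul, ← Matrix.mulVec_mulVec, e', Matrix.mulVec_add, Matrix.mulVec_add,
      Matrix.mulVec_add, Matrix.mulVec_add, Matrix.mulVec_smul, Matrix.mulVec_smul,
      Matrix.mulVec_smul, Matrix.mulVec_smul, e1, e2, e3, e4, e5]
    module
  have hFm_one : Sh 1 := by
    rw [hSh]
    intro v
    refine ⟨0, 0, 0, 0, ?_⟩
    rw [Units.val_one, Matrix.one_mulVec]
    module
  have hFm_pow : ∀ k : GL ι F, Sh k → ∀ n : ℕ, Sh (k ^ n) := by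
    intro k hk n
    induction n with
    | zero => rw [pow_zero]; exact hFm_one
    | succ n ih => rw [pow_succ]; exact hFm_mul _ _ ih hk
  have hFm_inv : ∀ k : GL ι F, Sh k → Sh k⁻¹ := by
    intro k hk
    have hpos : 0 < orderOf k := orderOf_pos k
    have e : k⁻¹ = k ^ (orderOf k - 1) := by
      apply inv_eq_of_mul_eq_one_right
      rw [← pow_succ', Nat.sub_add_cancel hpos, pow_orderOf_eq_one]
    rw [e]
    exact hFm_pow k hk _
  have hFmX : ∀ k ∈ X, Sh k := by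
    intro k hk
    rw [hXdef] at hk
    induction hk using Subgroup.closure_induction with
    | mem k hk =>
      rw [hS] at hk
      rcases hk with rfl | ⟨f, rfl⟩
      · rw [hSh]
        intro v
        refine ⟨0, 0, polar Q y v - Q y * polar Q x v, -polar Q x v, ?_⟩
        rw [siegT_mulVec Q x y v hxQ hxy]
        module
      · rw [hSh]
        intro v
        refine ⟨polar Q ((f : F) • upv F₀ b₁) v
          - Q ((f : F) • upv F₀ b₁) * polar Q (upv F₀ a) v, -(polar Q (upv F₀ a) v * f), 0, 0, ?_⟩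
        rw [hsdef, siegT_mulVec Q _ _ v hAQ (hABf _)]
        module
    | one => exact hFm_one
    | mul k k' _ _ hk hk' => exact hFm_mul k k' hk hk'
    | inv k _ hk => exact hFm_inv k hk
  -- normalisers and centralisers
  have hNC : ∀ k ∈ X, ∀ f f' : F₀, f ≠ 0 → k * s (f : F) * k⁻¹ = s (f' : F) →
      ∃ f'' : F₀, k = s (f'' : F) := by
    intro k hkX f f' hf hconj
    have hkH := hXH hkX
    have hsh := (hSh _).1 (hFmX _ hkX)
    obtain ⟨k', hk'Ω, rfl⟩ := exists_of_mem_omegaGL ⇑Q k (hC.le hkH)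
    have hfF : (f : F) ≠ 0 := fun h => hf (Subtype.ext h)
    have c := siegT_conj Q k' (upv F₀ a) ((f : F) • upv F₀ b₁) hAQ (hABf _)
    rw [← hsdef, hconj, hsdef] at c
    have hwQ : Q (act ⇑Q k' ((f : F) • upv F₀ b₁)) ≠ 0 := by
      have h1 : Q (act ⇑Q k' ((f : F) • upv F₀ b₁)) = Q ((f : F) • upv F₀ b₁) := act_Q ⇑Q k' _
      rw [h1, qf_smul]
      exact mul_ne_zero (mul_ne_zero hfF hfF) hBQ
    obtain ⟨κ, hκ⟩ := sieg_point Q hC.nd (act ⇑Q k' (upv F₀ a))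
      (act ⇑Q k' ((f : F) • upv F₀ b₁)) (upv F₀ a) ((f' : F) • upv F₀ b₁)
      ((act_Q ⇑Q k' _).trans hAQ) ((act_polar ⇑Q k' _ _).trans (hABf _)) hAQ (hABf _) hwQ
      (act_ne_zero ⇑Q k' _ (upv_ne_zero ha0)) c.symm
    have hκ0 : κ ≠ 0 := by
      rintro rfl
      rw [zero_smul] at hκ
      exact act_ne_zero ⇑Q k' _ (upv_ne_zero ha0) hκ
    have hpk : polar Q (upv F₀ a) (act ⇑Q k' ((f : F) • upv F₀ b₁)) = 0 := by
      have h1 := act_polar ⇑Q k' (upv F₀ a) ((f : F) • upv F₀ b₁)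
      rw [hκ, hABf, polar_smul_left, smul_eq_mul] at h1
      exact (mul_eq_zero.mp h1).resolve_left hκ0
    have c' := c
    rw [hκ, siegT_smul Q (upv F₀ a) _ κ hAQ hpk] at c'
    obtain ⟨τ, hτ⟩ := sieg_eq_mod Q (upv F₀ a) ((f' : F) • upv F₀ b₁)
      (κ • act ⇑Q k' ((f : F) • upv F₀ b₁)) (upv F₀ as) hAQ (hABf _)
      (by rw [polar_smul_right, hpk, smul_zero]) (hC.p1 haas) c'
    have hκF : κ ∈ F₀ := by
      have hQk : Q (act ⇑Q k' ((f : F) • upv F₀ b₁)) = Q ((f : F) • upv F₀ b₁) := act_Q ⇑Q k' _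
      have h1 : Q (κ • act ⇑Q k' ((f : F) • upv F₀ b₁))
          = Q ((f' : F) • upv F₀ b₁ + τ • upv F₀ a) := by rw [hτ]
      rw [qf_smul, hQk, qf_smul, qf_add, qf_smul, qf_smul, hAQ, polar_smul_left,
        polar_smul_right, polar_comm Q (upv F₀ b₁) (upv F₀ a), hAB] at h1
      have h2 : (κ * (f : F) - (f' : F)) * (κ * (f : F) + (f' : F)) = 0 := by
        have h3 : (κ * (f : F) - (f' : F)) * (κ * (f : F) + (f' : F)) * Q (upv F₀ b₁) = 0 := by
          simp only [smul_eq_mul] at h1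
          linear_combination h1
        exact (mul_eq_zero.mp h3).resolve_right hBQ
      rcases mul_eq_zero.mp h2 with h3 | h3
      · have e : κ = (f' : F) / (f : F) := by
          rw [eq_div_iff hfF]
          linear_combination h3
        rw [e]
        exact F₀.div_mem f'.2 f.2
      · have e : κ = -(f' : F) / (f : F) := by
          rw [eq_div_iff hfF]
          linear_combination h3
        rw [e]
        exact F₀.div_mem (F₀.neg_mem f'.2) f.2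
    have hRk : RMat F₀ ((k' : GL ι F) : Matrix ι ι F) := by
      have h1 := hC.O2 hR k' hkH a a ha0 haQ κ hκ
      have h2 := h1.smul (F₀.inv_mem hκF)
      rwa [smul_smul, inv_mul_cancel₀ hκ0, one_smul] at h2
    have hrat_shape : ∀ v₀ : ι → F₀, ∃ α β : F,
        act ⇑Q k' (upv F₀ v₀) = upv F₀ v₀ + α • upv F₀ a + β • upv F₀ b₁ := by
      intro v₀
      obtain ⟨α, β, γ, δ, e⟩ := hsh (upv F₀ v₀)
      obtain ⟨w, hw⟩ := hRk.mulVec_upv v₀
      have e' : upv F₀ (w - v₀) = α • upv F₀ a + β • upv F₀ b₁ + γ • x + δ • y := by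
        rw [upv_sub, ← hw, e]
        abel
      obtain ⟨hγ, hδ⟩ := hG1 (w - v₀) α β γ δ e'
      refine ⟨α, β, ?_⟩
      show ((k' : GL ι F) : Matrix ι ι F) *ᵥ upv F₀ v₀ = _
      rw [e, hγ, hδ, zero_smul, zero_smul, add_zero, add_zero]
    have hW : ∀ v : ι → F, act ⇑Q k' v - v ∈ Submodule.span F {upv F₀ a, upv F₀ b₁} := by
      intro v
      have hv : v = ∑ i, v i • (Pi.single i (1 : F) : ι → F) := by
        funext j
        simp [Finset.sum_apply, Pi.single_apply]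
      have h1 : act ⇑Q k' v - v
          = ∑ i, v i • (act ⇑Q k' (Pi.single i (1 : F)) - Pi.single i (1 : F)) := by
        conv_lhs => rw [hv]
        unfold act
        rw [Matrix.mulVec_sum, ← Finset.sum_sub_distrib]
        apply Finset.sum_congr rfl
        intro i _
        rw [Matrix.mulVec_smul, smul_sub]
      rw [h1]
      apply Submodule.sum_mem
      intro i _
      apply Submodule.smul_mem
      obtain ⟨α, β, e⟩ := hrat_shape (Pi.single i 1)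
      rw [upv_single] at e
      rw [e, Submodule.mem_span_pair]
      exact ⟨α, β, by abel⟩
    have hshape : ∀ v : ι → F, ∃ α β : F,
        act ⇑Q k' v = v + α • upv F₀ a + β • upv F₀ b₁ := by
      intro v
      obtain ⟨α, β, e⟩ := Submodule.mem_span_pair.1 (hW v)
      exact ⟨α, β, by rw [add_assoc, e]; abel⟩
    obtain ⟨t, ht⟩ := sieg_of_shape Q hC.nd k' (upv F₀ a) (upv F₀ b₁) (upv F₀ as) (upv F₀ c₁)
      hAQ hAB hBQ (hC.Qz hasQ) (hC.p1 haas) (hC.pz hasb₁) (hC.p1 hb₁c₁) (hC.pz hac₁)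
      (hC.pz hasc₁) hshape
    rcases ht with ht | ht
    · have ht' := ht (hABf t)
      obtain ⟨w, hw⟩ := hRk.mulVec_upv as
      have e1 : act ⇑Q k' (upv F₀ as) = upv F₀ w := hw
      rw [ht', act_sieg] at e1
      have e2 := congrArg (fun z => polar Q z (upv F₀ c₁)) e1
      have hwc : polar Q (upv F₀ w) (upv F₀ c₁) = ((polar Q₀ w c₁ : F₀) : F) := hC.res.pol w c₁
      simp only [polar_add_left, polar_sub_left, polar_smul_left, smul_eq_mul, hC.pz hasc₁,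
        hC.pz hac₁, hC.p1 haas, hC.p1 hb₁c₁, hwc] at e2
      have htF : t ∈ F₀ := by
        have e3 : t = -((polar Q₀ w c₁ : F₀) : F) := by linear_combination -e2
        rw [e3]
        exact F₀.neg_mem (polar Q₀ w c₁).2
      refine ⟨⟨t, htF⟩, ?_⟩
      rw [hsdef, siegT_eq Q _ _ hAQ (hABf t), ht']
    · exfalso
      have ht' := ht (hABf t)
      have h1 : reflElt Q (upv F₀ b₁) * k' ∈ Omega F ⇑Q := by
        rw [ht']
        exact sieg_mem_Omega hn5 Q hC.nd _ _ hAQ (hABf t)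
      have h2 : reflElt Q (upv F₀ b₁) ∈ Omega F ⇑Q := by
        have h3 := (Omega F ⇑Q).mul_mem h1 ((Omega F ⇑Q).inv_mem hk'Ω)
        rwa [mul_inv_cancel_right] at h3
      exact refl_not_mem_Omega hn5 Q hC.nd _ hBQ h2
  obtain ⟨P, hP⟩ : ∃ P : Subgroup X, ∀ z : X, z ∈ P ↔ ∃ f : F₀, (z : GL ι F) = s (f : F) :=
    ⟨{ carrier := {z | ∃ f : F₀, (z : GL ι F) = s (f : F)}
       mul_mem' := by
         rintro z z' ⟨f, hz⟩ ⟨f', hz'⟩
         exact ⟨f + f', by rw [Subgroup.coe_mul, hz, hz', hs_mul]; rfl⟩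
       one_mem' := ⟨0, by rw [Subgroup.coe_one]; exact hs_zero.symm⟩
       inv_mem' := by
         rintro z ⟨f, hz⟩
         exact ⟨-f, by rw [Subgroup.coe_inv, hz, hs_inv]; rfl⟩ }, fun z => Iff.rfl⟩
  obtain ⟨p, hpdef⟩ : ∃ p : ℕ, p = ringChar F := ⟨_, rfl⟩
  haveI hcharP : CharP F p := by rw [hpdef]; exact ringChar.charP F
  haveI hpp : Fact p.Prime := ⟨CharP.char_is_prime F p⟩
  have hs_pow : ∀ (f : F) (n : ℕ), s f ^ n = s ((n : F) * f) := by
    intro f n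
    induction n with
    | zero => rw [pow_zero, Nat.cast_zero, zero_mul, hs_zero]
    | succ n ih =>
      rw [pow_succ, ih, hs_mul]
      congr 1
      push_cast
      ring
  have hpgrp : IsPGroup p P := by
    rintro ⟨z, hz⟩
    obtain ⟨f, hzf⟩ := (hP z).1 hz
    refine ⟨1, ?_⟩
    apply Subtype.ext
    apply Subtype.ext
    rw [pow_one]
    show ((z ^ p : X) : GL ι F) = 1
    rw [Subgroup.coe_pow, hzf, hs_pow, CharP.cast_eq_zero F p, zero_mul, hs_zero]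
  have hcomm : ∀ z ∈ P, ∀ z' ∈ P, z * z' = z' * z := by
    intro z hz z' hz'
    obtain ⟨f, hzf⟩ := (hP z).1 hz
    obtain ⟨f', hzf'⟩ := (hP z').1 hz'
    apply Subtype.ext
    rw [Subgroup.coe_mul, Subgroup.coe_mul, hzf, hzf', hs_mul, hs_mul, add_comm]
  have hNP : ∀ k : X, (∀ z ∈ P, k * z * k⁻¹ ∈ P) → k ∈ P := by
    intro k hk
    have hs1 : (⟨s ((1 : F₀) : F), hsX 1⟩ : X) ∈ P := (hP _).2 ⟨1, rfl⟩
    obtain ⟨f', heq⟩ := (hP _).1 (hk _ hs1)
    rw [Subgroup.coe_mul, Subgroup.coe_mul, Subgroup.coe_inv] at heq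
    exact (hP k).2 (hNC k k.2 1 f' one_ne_zero heq)
  have hCP : ∀ z ∈ P, z ≠ 1 → ∀ k : X, k * z * k⁻¹ = z → k ∈ P := by
    intro z hz hz1 k hkz
    obtain ⟨f, hzf⟩ := (hP z).1 hz
    have hf0 : f ≠ 0 := by
      rintro rfl
      apply hz1
      apply Subtype.ext
      rw [hzf, Subgroup.coe_one]
      exact hs_zero
    have heq := congrArg (fun t : X => (t : GL ι F)) hkz
    rw [Subgroup.coe_mul, Subgroup.coe_mul, Subgroup.coe_inv, hzf] at heq
    exact (hP k).2 (hNC k k.2 f f hf0 heq)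
  obtain ⟨K, hKP, hK⟩ := frob_kernel p P hpgrp hcomm hNP hCP
  -- conjugates of elements of `P` are Siegel elements
  have hconjP : ∀ z : X, z ∉ K → ∃ (p' q' : ι → F), Q p' = 0 ∧ polar Q p' q' = 0 ∧ p' ≠ 0 ∧
      (z : GL ι F) = siegT Q p' q' ∧ (Q q' = 0 → (z : GL ι F) = 1) := by
    intro z hz
    obtain ⟨k, s₀, hs₀, rfl⟩ := hK z hz
    obtain ⟨f, hf⟩ := (hP s₀).1 hs₀
    obtain ⟨k', hk'Ω, hk'⟩ := exists_of_mem_omegaGL ⇑Q (k : GL ι F) (hC.le (hXH k.2))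
    refine ⟨act ⇑Q k' (upv F₀ a), act ⇑Q k' ((f : F) • upv F₀ b₁), (act_Q ⇑Q k' _).trans hAQ,
      (act_polar ⇑Q k' _ _).trans (hABf _), act_ne_zero ⇑Q k' _ (upv_ne_zero ha0), ?_, ?_⟩
    · rw [Subgroup.coe_mul, Subgroup.coe_mul, Subgroup.coe_inv, hf, hsdef, ← hk',
        siegT_conj Q k' _ _ hAQ (hABf _)]
    · intro hq0
      have h1 : Q (act ⇑Q k' ((f : F) • upv F₀ b₁)) = Q ((f : F) • upv F₀ b₁) := act_Q ⇑Q k' _
      rw [hq0, qf_smul] at h1
      have hf0 : (f : F) = 0 := by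
        rcases mul_eq_zero.mp h1.symm with h3 | h3
        · exact mul_self_eq_zero.mp h3
        · exact absurd h3 hBQ
      rw [Subgroup.coe_mul, Subgroup.coe_mul, Subgroup.coe_inv, hf, hf0, hs_zero, mul_one,
        mul_inv_cancel]
  have hxv₂ : polar Q x (act ⇑Q g (upv F₀ a₂s)) = 1 := by
    rw [hxdef]
    exact (act_polar ⇑Q g _ _).trans (hC.p1 ha₂a₂s)
  have hyv₂ : polar Q y (act ⇑Q g (upv F₀ a₂s)) = 0 := by
    rw [hydef]
    exact (act_polar ⇑Q g _ _).trans ((polar_comm Q _ _).trans (hC.pz ha₂sb₂))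
  have hxv₁ : polar Q x (act ⇑Q g (upv F₀ b₂s)) = 0 := by
    rw [hxdef]
    exact (act_polar ⇑Q g _ _).trans (hC.pz ha₂b₂s)
  have hyv₁ : polar Q y (act ⇑Q g (upv F₀ b₂s)) = 1 := by
    rw [hydef]
    exact (act_polar ⇑Q g _ _).trans (hC.p1 hb₂b₂s)
  -- `T ∈ K`
  have hTK : (⟨siegT Q x y, hTX⟩ : X) ∈ K := by
    by_contra hnot
    obtain ⟨p', q', hp'Q, hp'q', hp'0, heq, hq1⟩ := hconjP _ hnot
    have heq' : siegT Q x y = siegT Q p' q' := heq
    have hq'Q : Q q' = 0 := by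
      obtain ⟨v, hv⟩ := exists_polar_ne Q hC.nd p' hp'0
      have h1 := sieg_Q_mov Q p' q' v hp'Q hp'q'
      rw [← heq', sieg_Q_mov Q x y v hxQ hxy, hyQ, mul_zero] at h1
      rcases mul_eq_zero.mp h1.symm with h3 | h3
      · exact absurd (mul_self_eq_zero.mp h3) hv
      · exact h3
    have hT1 : siegT Q x y = 1 := hq1 hq'Q
    have h2 : ((siegT Q x y : GL ι F) : Matrix ι ι F) *ᵥ act ⇑Q g (upv F₀ a₂s)
        = act ⇑Q g (upv F₀ a₂s) := by rw [hT1, Units.val_one, Matrix.one_mulVec]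
    rw [siegT_mulVec Q x y _ hxQ hxy, hyQ, hxv₂, hyv₂] at h2
    have h3 : (0 : F) • x + (1 : F) • y = 0 := by
      have e : (0 : F) • x + (1 : F) • y = -(act ⇑Q g (upv F₀ a₂s) + (0 : F) • x - (1 : F) • y
          - ((0 : F) * 1) • x - act ⇑Q g (upv F₀ a₂s)) := by module
      rw [e, h2, sub_self, neg_zero]
    exact one_ne_zero (hind 0 1 h3).2
  -- `s 1 * T ∉ K`
  have hs1P : (⟨s ((1 : F₀) : F), hsX 1⟩ : X) ∈ P := (hP _).2 ⟨1, rfl⟩
  have h1X := X.mul_mem (hsX 1) hTX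
  have e11 : ((1 : F₀) : F) = 1 := rfl
  have hzK : (⟨s ((1 : F₀) : F) * siegT Q x y, h1X⟩ : X) ∉ K := by
    intro hzK
    have h5 := K.mul_mem hzK (K.inv_mem hTK)
    have e : (⟨s ((1 : F₀) : F) * siegT Q x y, h1X⟩ : X) * (⟨siegT Q x y, hTX⟩ : X)⁻¹
        = ⟨s ((1 : F₀) : F), hsX 1⟩ := by
      apply Subtype.ext
      rw [Subgroup.coe_mul, Subgroup.coe_inv]
      show s ((1 : F₀) : F) * siegT Q x y * (siegT Q x y)⁻¹ = s ((1 : F₀) : F)
      rw [mul_inv_cancel_right]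
    rw [e] at h5
    have h6 : (⟨s ((1 : F₀) : F), hsX 1⟩ : X) ∈ K ⊓ P := ⟨h5, hs1P⟩
    rw [hKP, Subgroup.mem_bot] at h6
    have h7 : s ((1 : F₀) : F) = 1 := congrArg (fun t : X => (t : GL ι F)) h6
    rw [e11] at h7
    have h8 : ((s (1 : F) : GL ι F) : Matrix ι ι F) *ᵥ upv F₀ as = upv F₀ as := by
      rw [h7, Units.val_one, Matrix.one_mulVec]
    have h9 := sieg_Q_mov Q (upv F₀ a) ((1 : F) • upv F₀ b₁) (upv F₀ as) hAQ (hABf 1)
    rw [← hsdef, h8, sub_self, QuadraticMap.map_zero, hC.p1 haas, one_smul] at h9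
    exact hBQ (by linear_combination -h9)
  obtain ⟨p', q', hp'Q, hp'q', hp'0, heq, -⟩ := hconjP _ hzK
  have heq' : s ((1 : F₀) : F) * siegT Q x y = siegT Q p' q' := heq
  rw [e11] at heq'
  have hmov : ∀ v, ∃ l m : F,
      ((s (1 : F) * siegT Q x y : GL ι F) : Matrix ι ι F) *ᵥ v - v = l • p' + m • q' := by
    intro v
    refine ⟨polar Q q' v - Q q' * polar Q p' v, -polar Q p' v, ?_⟩
    rw [heq', siegT_mulVec Q p' q' v hp'Q hp'q']
    module
  have hz : ∀ v, ∃ α β : F, ((s (1 : F) * siegT Q x y : GL ι F) : Matrix ι ι F) *ᵥ v - v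
      = polar Q y v • x - polar Q x v • y + α • upv F₀ a + β • upv F₀ b₁ ∧
        (polar Q x v = 0 → polar Q y v = 0 → β = -polar Q (upv F₀ a) v) := by
    intro v
    refine ⟨polar Q ((1 : F) • upv F₀ b₁) (v + polar Q y v • x - polar Q x v • y)
      - Q ((1 : F) • upv F₀ b₁) * polar Q (upv F₀ a) (v + polar Q y v • x - polar Q x v • y),
      -polar Q (upv F₀ a) (v + polar Q y v • x - polar Q x v • y), ?_, ?_⟩
    · rw [Units.val_mul, ← Matrix.mulVec_mulVec, siegT_mulVec Q x y v hxQ hxy, hyQ, hsdef]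
      have e : v + polar Q y v • x - polar Q x v • y - (0 * polar Q x v) • x
          = v + polar Q y v • x - polar Q x v • y := by module
      rw [e, siegT_mulVec Q _ _ _ hAQ (hABf 1)]
      module
    · intro h1 h2
      rw [h1, h2, zero_smul, zero_smul, add_zero, sub_zero]
  have hv₃ : ∃ v₃ : ι → F, polar Q x v₃ = 0 ∧ polar Q y v₃ = 0 ∧
      polar Q (upv F₀ a) v₃ ≠ 0 := by
    by_contra hcon
    push Not at hcon
    have h0 : upv F₀ a - polar Q (upv F₀ a) (act ⇑Q g (upv F₀ a₂s)) • x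
        - polar Q (upv F₀ a) (act ⇑Q g (upv F₀ b₂s)) • y = 0 := by
      apply hC.nd.1
      intro w
      show polar Q (upv F₀ a - polar Q (upv F₀ a) (act ⇑Q g (upv F₀ a₂s)) • x
        - polar Q (upv F₀ a) (act ⇑Q g (upv F₀ b₂s)) • y) w = 0
      have h1 := hcon (w - polar Q x w • act ⇑Q g (upv F₀ a₂s)
          - polar Q y w • act ⇑Q g (upv F₀ b₂s)) (by
        rw [polar_sub_right, polar_sub_right, polar_smul_right, polar_smul_right, hxv₂, hxv₁]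
        simp) (by
        rw [polar_sub_right, polar_sub_right, polar_smul_right, polar_smul_right, hyv₂, hyv₁]
        simp)
      rw [polar_sub_right, polar_sub_right, polar_smul_right, polar_smul_right] at h1
      rw [polar_sub_left, polar_sub_left, polar_smul_left, polar_smul_left]
      simp only [smul_eq_mul] at h1 ⊢
      linear_combination h1
    have h0' : upv F₀ a = polar Q (upv F₀ a) (act ⇑Q g (upv F₀ a₂s)) • x
        + polar Q (upv F₀ a) (act ⇑Q g (upv F₀ b₂s)) • y := by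
      rw [← sub_eq_zero, ← h0]
      abel
    obtain ⟨hγ, hδ⟩ := hG1 a 0 0 _ _ (by
      rw [zero_smul, zero_smul, zero_add, zero_add]
      exact h0')
    rw [hγ, hδ, zero_smul, zero_smul, add_zero] at h0'
    exact ha0 (upv_eq_zero h0')
  obtain ⟨v₃, hxv₃, hyv₃, hav₃⟩ := hv₃
  obtain ⟨l₁, m₁, e₁⟩ := hmov (act ⇑Q g (upv F₀ b₂s))
  obtain ⟨l₂, m₂, e₂⟩ := hmov (act ⇑Q g (upv F₀ a₂s))
  obtain ⟨l₃, m₃, e₃⟩ := hmov v₃
  obtain ⟨c₁', c₂', c₃', hcne, hdep⟩ := dep3 p' q' _ _ _ l₁ m₁ l₂ m₂ l₃ m₃ e₁ e₂ e₃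
  obtain ⟨α₁, β₁, z₁, -⟩ := hz (act ⇑Q g (upv F₀ b₂s))
  obtain ⟨α₂, β₂, z₂, -⟩ := hz (act ⇑Q g (upv F₀ a₂s))
  obtain ⟨α₃, β₃, z₃, hβ₃⟩ := hz v₃
  rw [z₁, z₂, z₃, hyv₁, hxv₁, hyv₂, hxv₂, hyv₃, hxv₃] at hdep
  obtain ⟨hc1, hc2⟩ := hG1 0 (c₁' * α₁ + c₂' * α₂ + c₃' * α₃) (c₁' * β₁ + c₂' * β₂ + c₃' * β₃)
    c₁' (-c₂') (by
      rw [upv_zero, ← hdep]
      module)
  have hc2' : c₂' = 0 := neg_eq_zero.mp hc2
  have hc3 : c₃' ≠ 0 := by
    rcases hcne with h | h | h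
    · exact absurd hc1 h
    · exact absurd hc2' h
    · exact h
  rw [hc1, hc2', zero_smul, zero_smul, zero_add, zero_add] at hdep
  have hw3 : (0 : F) • x - (0 : F) • y + α₃ • upv F₀ a + β₃ • upv F₀ b₁ = 0 :=
    (smul_eq_zero.mp hdep).resolve_left hc3
  have h9 : β₃ = 0 := by
    have h := congrArg (fun t => polar Q t (upv F₀ c₁)) hw3
    simp only [polar_add_left, polar_sub_left, polar_smul_left, polar_zero_left, smul_eq_mul,
      hC.pz hac₁, hC.p1 hb₁c₁] at h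
    linear_combination h
  rw [hβ₃ hxv₃ hyv₃] at h9
  exact hav₃ (neg_eq_zero.mp h9)

end EOD


end Cfsg.Agent.Helper16.EO
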