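import Cfsg.Agent.Helper16.EOD

set_option autoImplicit false
open Cfsg

namespace Cfsg.Agent.Helper16.EO

open QuadraticMap Module Matrix

section EOE1
variable {ι : Type} [Fintype ι] [DecidableEq ι] {F : Type*} [Field F] [Fintype F]
variable {F₀ : Subfield F} {Q : QuadraticForm F (ι → F)} {Q₀ : QuadraticForm F₀ (ι → F₀)}
  {H : Subgroup (GL ι F)}

theorem OCtx.full_T1 (hC : OCtx F₀ Q Q₀ H) (a b a' b' : ι → F₀) (ha : Q₀ a = 0)
    (hab : polar Q₀ a b = 0) (ha' : Q₀ a' = 0) (hb' : Q₀ b' = 0) (ha'b' : polar Q₀ a' b' = 0)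
    (haa' : polar Q₀ a a' = 0) (hab' : polar Q₀ a b' = 0) (hb'b : polar Q₀ b' b = 0)
    (ha'b : polar Q₀ a' b = 1) (h : FullP F₀ Q H a b) : FullP F₀ Q H a b' := by
  intro μ
  have h1 := siegT_K1 Q H (upv F₀ a) (upv F₀ b) (upv F₀ a') (upv F₀ b') μ 1 (hC.Qz ha)
    (hC.pz hab) (hC.Qz ha') (hC.Qz hb') (hC.pz ha'b') (hC.pz haa') (hC.pz hab') (hC.pz hb'b)
    (hC.p1 ha'b) (h μ) (by rw [one_smul]; exact hC.sieg_mem a' b' ha' ha'b')
  rwa [mul_one] at h1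

theorem OCtx.full_T2 (hC : OCtx F₀ Q Q₀ H) (a b : ι → F₀) (ha : Q₀ a = 0) (hb : Q₀ b = 0)
    (hab : polar Q₀ a b = 0) (h : FullP F₀ Q H a b) : FullP F₀ Q H b a := by
  intro μ
  have h1 := h (-μ)
  rw [siegT_swap Q _ _ (-μ) (hC.Qz ha) (hC.Qz hb) (hC.pz hab), neg_neg] at h1
  exact h1

/-- without rigidity some long root group is full -/
theorem OCtx.full_seed (hC : OCtx F₀ Q Q₀ H) (r : ℕ) (hr : r.Prime)
    (hcard : Fintype.card F = Nat.card F₀ ^ r) (hnR : ¬ RProp F₀ Q Q₀ H) :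
    ∃ e1 f1 e2 f2 : ι → F₀, Q₀ e1 = 0 ∧ Q₀ f1 = 0 ∧ Q₀ e2 = 0 ∧ Q₀ f2 = 0 ∧
      polar Q₀ e1 f1 = 1 ∧ polar Q₀ e2 f2 = 1 ∧ polar Q₀ e1 e2 = 0 ∧ polar Q₀ e1 f2 = 0 ∧
      polar Q₀ f1 e2 = 0 ∧ polar Q₀ f1 f2 = 0 ∧ FullP F₀ Q H e1 e2 := by
  classical
  have hn := hC.card
  unfold RProp at hnR
  push Not at hnR
  obtain ⟨e1, e2, f2, he10, he1Q, he2Q, hf2Q, he1e2, he2f2, he1f2, μ₀, hμ₀H, hμ₀⟩ := hnR
  have hN₂ : ND Q₀ (Submodule.span F₀ {e2} ⊔ Submodule.span F₀ {f2}) :=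
    nd_hyp Q₀ e2 f2 he2Q hf2Q (by rw [he2f2]; exact one_ne_zero)
  have he1N : e1 ∈ orth Q₀ (Submodule.span F₀ {e2} ⊔ Submodule.span F₀ {f2}) :=
    mem_orth_hyp Q₀ e2 f2 e1 ((polar_comm Q₀ e2 e1).trans he1e2)
      ((polar_comm Q₀ f2 e1).trans he1f2)
  obtain ⟨f1, hf1N, hf1Q, he1f1⟩ := (hN₂.orth_nd hC.nd₀).exists_partner e1 he1N he10 he1Q
  have he2f1 : polar Q₀ e2 f1 = 0 :=
    (mem_orth Q₀ _ f1).1 hf1N e2 (Submodule.mem_sup_left (Submodule.mem_span_singleton_self e2))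
  have hf2f1 : polar Q₀ f2 f1 = 0 :=
    (mem_orth Q₀ _ f1).1 hf1N f2 (Submodule.mem_sup_right (Submodule.mem_span_singleton_self f2))
  obtain ⟨hN₄, hN₄fin⟩ := nd_add_hp Q₀ _ hN₂ e1 f1 he1N hf1N he1Q hf1Q he1f1
  have hN₂fin := finrank_hyp_le e2 f2
  obtain ⟨e3, f3, he3N, hf3N, he3Q, hf3Q, he3f3⟩ := exists_hp Q₀ hC.nd₀ _ hN₄ (by omega)
  have m_e2 : e2 ∈ (Submodule.span F₀ {e2} ⊔ Submodule.span F₀ {f2}) ⊔
      (Submodule.span F₀ {e1} ⊔ Submodule.span F₀ {f1}) :=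
    Submodule.mem_sup_left (Submodule.mem_sup_left (Submodule.mem_span_singleton_self e2))
  have m_f2 : f2 ∈ (Submodule.span F₀ {e2} ⊔ Submodule.span F₀ {f2}) ⊔
      (Submodule.span F₀ {e1} ⊔ Submodule.span F₀ {f1}) :=
    Submodule.mem_sup_left (Submodule.mem_sup_right (Submodule.mem_span_singleton_self f2))
  have m_e1 : e1 ∈ (Submodule.span F₀ {e2} ⊔ Submodule.span F₀ {f2}) ⊔
      (Submodule.span F₀ {e1} ⊔ Submodule.span F₀ {f1}) :=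
    Submodule.mem_sup_right (Submodule.mem_sup_left (Submodule.mem_span_singleton_self e1))
  have m_f1 : f1 ∈ (Submodule.span F₀ {e2} ⊔ Submodule.span F₀ {f2}) ⊔
      (Submodule.span F₀ {e1} ⊔ Submodule.span F₀ {f1}) :=
    Submodule.mem_sup_right (Submodule.mem_sup_right (Submodule.mem_span_singleton_self f1))
  have o3 := (mem_orth Q₀ _ e3).1 he3N
  have o3' := (mem_orth Q₀ _ f3).1 hf3N
  -- the `F`-vectors
  have hE1 : Q (upv F₀ e1) = 0 := hC.Qz he1Q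
  have hE2 : Q (upv F₀ e2) = 0 := hC.Qz he2Q
  have hE3 : Q (upv F₀ e3) = 0 := hC.Qz he3Q
  have hF1 : Q (upv F₀ f1) = 0 := hC.Qz hf1Q
  have hF2 : Q (upv F₀ f2) = 0 := hC.Qz hf2Q
  have hF3 : Q (upv F₀ f3) = 0 := hC.Qz hf3Q
  have hE1E2 : polar Q (upv F₀ e1) (upv F₀ e2) = 0 := hC.pz he1e2
  have hF2E3 : polar Q (upv F₀ f2) (upv F₀ e3) = 0 := hC.pz (o3 f2 m_f2)
  have hE1F2 : polar Q (upv F₀ e1) (upv F₀ f2) = 0 := hC.pz he1f2
  have hE1E3 : polar Q (upv F₀ e1) (upv F₀ e3) = 0 := hC.pz (o3 e1 m_e1)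
  have hE3E2 : polar Q (upv F₀ e3) (upv F₀ e2) = 0 :=
    hC.pz ((polar_comm Q₀ e3 e2).trans (o3 e2 m_e2))
  have hF2E2 : polar Q (upv F₀ f2) (upv F₀ e2) = 1 := hC.p1 ((polar_comm Q₀ f2 e2).trans he2f2)
  have hE3E1 : polar Q (upv F₀ e3) (upv F₀ e1) = 0 :=
    hC.pz ((polar_comm Q₀ e3 e1).trans (o3 e1 m_e1))
  have hf1f2 : polar Q₀ f1 f2 = 0 := (polar_comm Q₀ f1 f2).trans hf2f1
  have hF1F2 : polar Q (upv F₀ f1) (upv F₀ f2) = 0 := hC.pz hf1f2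
  have hE3F1 : polar Q (upv F₀ e3) (upv F₀ f1) = 0 :=
    hC.pz ((polar_comm Q₀ e3 f1).trans (o3 f1 m_f1))
  have hE3F2 : polar Q (upv F₀ e3) (upv F₀ f2) = 0 :=
    hC.pz ((polar_comm Q₀ e3 f2).trans (o3 f2 m_f2))
  have hF2E1 : polar Q (upv F₀ f2) (upv F₀ e1) = 0 :=
    hC.pz ((polar_comm Q₀ f2 e1).trans he1f2)
  have hF1E1 : polar Q (upv F₀ f1) (upv F₀ e1) = 1 := hC.p1 ((polar_comm Q₀ f1 e1).trans he1f1)
  have hf3e2 : polar Q₀ f3 e2 = 0 := (polar_comm Q₀ f3 e2).trans (o3' e2 m_e2)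
  have hF3E2 : polar Q (upv F₀ f3) (upv F₀ e2) = 0 := hC.pz hf3e2
  have hE1F3 : polar Q (upv F₀ e1) (upv F₀ f3) = 0 := hC.pz (o3' e1 m_e1)
  have hE2E3 : polar Q (upv F₀ e2) (upv F₀ e3) = 0 := hC.pz (o3 e2 m_e2)
  have hF3E3 : polar Q (upv F₀ f3) (upv F₀ e3) = 1 := hC.p1 ((polar_comm Q₀ f3 e3).trans he3f3)
  have r1 : siegT Q (upv F₀ f2) ((1 : F) • upv F₀ e3) ∈ H := by
    rw [one_smul]
    exact hC.sieg_mem f2 e3 hf2Q (o3 f2 m_f2)
  have r2 : siegT Q (upv F₀ f1) ((1 : F) • upv F₀ f2) ∈ H := by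
    rw [one_smul]
    exact hC.sieg_mem f1 f2 hf1Q hf1f2
  have r3 : siegT Q (upv F₀ f3) ((1 : F) • upv F₀ e2) ∈ H := by
    rw [one_smul]
    exact hC.sieg_mem f3 e2 hf3Q hf3e2
  have key : ∀ μ ν : F, siegT Q (upv F₀ e1) (μ • upv F₀ e2) ∈ H →
      siegT Q (upv F₀ e1) (ν • upv F₀ e2) ∈ H →
      siegT Q (upv F₀ e1) ((μ * ν) • upv F₀ e2) ∈ H := by
    intro μ ν hμ hν
    have s1 : siegT Q (upv F₀ e1) (ν • upv F₀ e3) ∈ H := by
      have := siegT_K1 Q H (upv F₀ e1) (upv F₀ e2) (upv F₀ f2) (upv F₀ e3) ν 1 hE1 hE1E2 hF2 hE3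
        hF2E3 hE1F2 hE1E3 hE3E2 hF2E2 hν r1
      rwa [mul_one] at this
    have s2 : siegT Q (upv F₀ e3) ((-ν) • upv F₀ e1) ∈ H := by
      rw [← siegT_swap Q (upv F₀ e1) (upv F₀ e3) ν hE1 hE3 hE1E3]
      exact s1
    have s3 : siegT Q (upv F₀ e3) ((-ν) • upv F₀ f2) ∈ H := by
      have := siegT_K1 Q H (upv F₀ e3) (upv F₀ e1) (upv F₀ f1) (upv F₀ f2) (-ν) 1 hE3 hE3E1 hF1
        hF2 hF1F2 hE3F1 hE3F2 hF2E1 hF1E1 s2 r2
      rwa [mul_one] at this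
    have s4 : siegT Q (upv F₀ f2) (ν • upv F₀ e3) ∈ H := by
      rw [siegT_swap Q (upv F₀ e3) (upv F₀ f2) (-ν) hE3 hF2 hE3F2, neg_neg] at s3
      exact s3
    have s5 : siegT Q (upv F₀ e1) ((μ * ν) • upv F₀ e3) ∈ H :=
      siegT_K1 Q H (upv F₀ e1) (upv F₀ e2) (upv F₀ f2) (upv F₀ e3) μ ν hE1 hE1E2 hF2 hE3
        hF2E3 hE1F2 hE1E3 hE3E2 hF2E2 hμ s4
    have := siegT_K1 Q H (upv F₀ e1) (upv F₀ e3) (upv F₀ f3) (upv F₀ e2) (μ * ν) 1 hE1 hE1E3 hF3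
      hE2 hF3E2 hE1F3 hE1E2 hE2E3 hF3E3 s5 r3
    rwa [mul_one] at this
  have hratm : ∀ f : F₀, siegT Q (upv F₀ e1) ((f : F) • upv F₀ e2) ∈ H := by
    intro f
    rw [← upv_smul]
    exact hC.sieg_mem e1 (f • e2) he1Q (by rw [polar_smul_right, he1e2, smul_zero])
  have hpolm : ∀ μ : F, polar Q (upv F₀ e1) (μ • upv F₀ e2) = 0 := fun μ => by
    rw [polar_smul_right, hE1E2, smul_zero]
  obtain ⟨A, hA⟩ : ∃ A : Subalgebra F₀ F, ∀ lam : F, lam ∈ A ↔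
      siegT Q (upv F₀ e1) (lam • upv F₀ e2) ∈ H :=
    ⟨{ carrier := {lam | siegT Q (upv F₀ e1) (lam • upv F₀ e2) ∈ H}
       mul_mem' := fun {μ ν} hμ hν => key μ ν hμ hν
       one_mem' := hratm 1
       add_mem' := by
         intro μ ν hμ hν
         show siegT Q (upv F₀ e1) ((μ + ν) • upv F₀ e2) ∈ H
         rw [add_smul, ← siegT_mul Q _ _ _ hE1 (hpolm μ) (hpolm ν)]
         exact H.mul_mem hμ hν
       zero_mem' := by
         show siegT Q (upv F₀ e1) ((0 : F) • upv F₀ e2) ∈ H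
         rw [zero_smul, siegT_zero_right Q _ hE1]
         exact H.one_mem
       algebraMap_mem' := fun f => hratm f }, fun lam => Iff.rfl⟩
  have hAtop := subalg_top F₀ r hr hcard A μ₀ hμ₀ ((hA μ₀).2 hμ₀H)
  exact ⟨e1, f1, e2, f2, he1Q, hf1Q, he2Q, hf2Q, he1f1, he2f2, he1e2, he1f2,
    (polar_comm Q₀ f1 e2).trans he2f1, hf1f2, fun μ => (hA μ).1 (hAtop μ)⟩

end EOE1


section EOE2
variable {ι : Type} [Fintype ι] [DecidableEq ι] {F : Type*} [Field F] [Fintype F]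
variable {F₀ : Subfield F} {Q : QuadraticForm F (ι → F)} {Q₀ : QuadraticForm F₀ (ι → F₀)}
  {H : Subgroup (GL ι F)}

/-- one full long root group makes all rational long root groups full -/
theorem OCtx.full_all (hC : OCtx F₀ Q Q₀ H) (e1 f1 e2 f2 : ι → F₀) (he1 : Q₀ e1 = 0)
    (hf1 : Q₀ f1 = 0) (he2 : Q₀ e2 = 0) (hf2 : Q₀ f2 = 0) (he1f1 : polar Q₀ e1 f1 = 1)
    (he2f2 : polar Q₀ e2 f2 = 1) (he1e2 : polar Q₀ e1 e2 = 0) (he1f2 : polar Q₀ e1 f2 = 0)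
    (hf1e2 : polar Q₀ f1 e2 = 0) (hf1f2 : polar Q₀ f1 f2 = 0) (hfull : FullP F₀ Q H e1 e2)
    (c d : ι → F₀) (hc : Q₀ c = 0) (hd : Q₀ d = 0) (hcd : polar Q₀ c d = 0) :
    FullP F₀ Q H c d := by
  classical
  have hn := hC.card
  have hN₁ : ND Q₀ (Submodule.span F₀ {e1} ⊔ Submodule.span F₀ {f1}) :=
    nd_hyp Q₀ e1 f1 he1 hf1 (by rw [he1f1]; exact one_ne_zero)
  have hN₁fin := finrank_hyp_le e1 f1
  obtain ⟨hN₄, hN₄fin⟩ := nd_add_hp Q₀ _ hN₁ e2 f2 (mem_orth_hyp Q₀ e1 f1 e2 he1e2 hf1e2)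
    (mem_orth_hyp Q₀ e1 f1 f2 he1f2 hf1f2) he2 hf2 he2f2
  have m_e1 : e1 ∈ (Submodule.span F₀ {e1} ⊔ Submodule.span F₀ {f1}) ⊔
      (Submodule.span F₀ {e2} ⊔ Submodule.span F₀ {f2}) :=
    Submodule.mem_sup_left (Submodule.mem_sup_left (Submodule.mem_span_singleton_self e1))
  have m_f1 : f1 ∈ (Submodule.span F₀ {e1} ⊔ Submodule.span F₀ {f1}) ⊔
      (Submodule.span F₀ {e2} ⊔ Submodule.span F₀ {f2}) :=
    Submodule.mem_sup_left (Submodule.mem_sup_right (Submodule.mem_span_singleton_self f1))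
  have m_e2 : e2 ∈ (Submodule.span F₀ {e1} ⊔ Submodule.span F₀ {f1}) ⊔
      (Submodule.span F₀ {e2} ⊔ Submodule.span F₀ {f2}) :=
    Submodule.mem_sup_right (Submodule.mem_sup_left (Submodule.mem_span_singleton_self e2))
  have m_f2 : f2 ∈ (Submodule.span F₀ {e1} ⊔ Submodule.span F₀ {f1}) ⊔
      (Submodule.span F₀ {e2} ⊔ Submodule.span F₀ {f2}) :=
    Submodule.mem_sup_right (Submodule.mem_sup_right (Submodule.mem_span_singleton_self f2))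
  obtain ⟨NA, hNA, hle4A, hcA, hNAfin⟩ := nd_extend Q₀ hC.nd₀ _ hN₄ c
  obtain ⟨g, gs, hgN, hgsN, hgQ, hgsQ, hggs⟩ := exists_hp Q₀ hC.nd₀ NA hNA (by omega)
  obtain ⟨hNB, hNBfin⟩ := nd_add_hp Q₀ NA hNA g gs hgN hgsN hgQ hgsQ hggs
  obtain ⟨NC, hNC, hleBC, hdC, hNCfin⟩ := nd_extend Q₀ hC.nd₀ _ hNB d
  obtain ⟨g2, g2s, hg2N, hg2sN, hg2Q, hg2sQ, hg2g2s⟩ := exists_hp Q₀ hC.nd₀ NC hNC (by omega)
  have oA := (mem_orth Q₀ _ g).1 hgN
  have oAs := (mem_orth Q₀ _ gs).1 hgsN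
  have oC := (mem_orth Q₀ _ g2).1 hg2N
  have oCs := (mem_orth Q₀ _ g2s).1 hg2sN
  have hAC : ∀ x, x ∈ NA → x ∈ NC := fun x hx => hleBC (Submodule.mem_sup_left hx)
  have m_g : g ∈ NC :=
    hleBC (Submodule.mem_sup_right (Submodule.mem_sup_left (Submodule.mem_span_singleton_self g)))
  have m_gs : gs ∈ NC :=
    hleBC (Submodule.mem_sup_right (Submodule.mem_sup_right
      (Submodule.mem_span_singleton_self gs)))
  -- step 1
  have s1 : FullP F₀ Q H e1 g :=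
    hC.full_T1 e1 e2 f2 g he1 he1e2 hf2 hgQ (oA f2 (hle4A m_f2)) he1f2 (oA e1 (hle4A m_e1))
      ((polar_comm Q₀ g e2).trans (oA e2 (hle4A m_e2))) ((polar_comm Q₀ f2 e2).trans he2f2) hfull
  have s2 : FullP F₀ Q H g e1 := hC.full_T2 e1 g he1 hgQ (oA e1 (hle4A m_e1)) s1
  have s3 : FullP F₀ Q H g g2 :=
    hC.full_T1 g e1 f1 g2 hgQ ((polar_comm Q₀ g e1).trans (oA e1 (hle4A m_e1))) hf1 hg2Q
      (oC f1 (hAC _ (hle4A m_f1))) ((polar_comm Q₀ g f1).trans (oA f1 (hle4A m_f1)))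
      (oC g m_g) ((polar_comm Q₀ g2 e1).trans (oC e1 (hAC _ (hle4A m_e1))))
      ((polar_comm Q₀ f1 e1).trans he1f1) s2
  have s4 : FullP F₀ Q H g2 g := hC.full_T2 g g2 hgQ hg2Q (oC g m_g) s3
  have s5 : FullP F₀ Q H g2 c :=
    hC.full_T1 g2 g gs c hg2Q ((polar_comm Q₀ g2 g).trans (oC g m_g)) hgsQ hc
      ((polar_comm Q₀ gs c).trans (oAs c hcA)) ((polar_comm Q₀ g2 gs).trans (oC gs m_gs))
      ((polar_comm Q₀ g2 c).trans (oC c (hAC _ hcA))) (oA c hcA)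
      ((polar_comm Q₀ gs g).trans hggs) s4
  have s6 : FullP F₀ Q H c g2 :=
    hC.full_T2 g2 c hg2Q hc ((polar_comm Q₀ g2 c).trans (oC c (hAC _ hcA))) s5
  exact hC.full_T1 c g2 g2s d hc (oC c (hAC _ hcA)) hg2sQ hd
    ((polar_comm Q₀ g2s d).trans (oCs d hdC)) (oCs c (hAC _ hcA)) hcd (oC d hdC)
    ((polar_comm Q₀ g2s g2).trans hg2g2s) s6

/-- all long root elements at a rational singular point lie in `H` -/
theorem OCtx.c2 (hC : OCtx F₀ Q Q₀ H)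
    (hfull : ∀ c d : ι → F₀, Q₀ c = 0 → Q₀ d = 0 → polar Q₀ c d = 0 → FullP F₀ Q H c d)
    (a : ι → F₀) (ha : Q₀ a = 0) (w : ι → F) (haw : polar Q (upv F₀ a) w = 0) :
    siegT Q (upv F₀ a) w ∈ H := by
  classical
  have hn := hC.card
  by_cases ha0 : a = 0
  · rw [ha0, upv_zero, siegT_zero_left]
    exact H.one_mem
  obtain ⟨as, -, hasQ, haas⟩ := (nd_top Q₀ hC.nd₀).exists_partner a Submodule.mem_top ha0 ha
  have hN : ND Q₀ (Submodule.span F₀ {a} ⊔ Submodule.span F₀ {as}) :=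
    nd_hyp Q₀ a as ha hasQ (by rw [haas]; exact one_ne_zero)
  have hNfin := finrank_hyp_le a as
  have hA : Q (upv F₀ a) = 0 := hC.Qz ha
  have hAs : Q (upv F₀ as) = 0 := hC.Qz hasQ
  have hAAs : polar Q (upv F₀ a) (upv F₀ as) = 1 := hC.p1 haas
  have m_a : a ∈ Submodule.span F₀ {a} ⊔ Submodule.span F₀ {as} :=
    Submodule.mem_sup_left (Submodule.mem_span_singleton_self a)
  have claim : ∀ p : ι → F₀, p ∈ orth Q₀ (Submodule.span F₀ {a} ⊔ Submodule.span F₀ {as}) →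
      ∀ μ : F, siegT Q (upv F₀ a) (μ • upv F₀ p) ∈ H := by
    intro p hp μ
    have hap : polar Q₀ a p = 0 := (mem_orth Q₀ _ p).1 hp a m_a
    by_cases hpQ : Q₀ p = 0
    · exact hfull a p ha hpQ hap μ
    · obtain ⟨w, e, f, hw, he, hf, hwQ, heQ, hfQ, -, -, -, hdec⟩ :=
        sing_decomp Q₀ hC.nd₀ _ hN (by omega) p hp hpQ
      have haw' : polar Q₀ a w = 0 := (mem_orth Q₀ _ w).1 hw a m_a
      have hae : polar Q₀ a e = 0 := (mem_orth Q₀ _ e).1 he a m_a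
      have haf : polar Q₀ a f = 0 := (mem_orth Q₀ _ f).1 hf a m_a
      obtain ⟨t, ht⟩ : ∃ t : F₀, t = Q₀ p := ⟨_, rfl⟩
      rw [← ht] at hdec
      have e1 : μ • upv F₀ p
          = μ • upv F₀ w + ((-μ) • upv F₀ e + (μ * (t : F)) • upv F₀ f) := by
        rw [hdec, upv_add, upv_sub, upv_smul]
        simp only [smul_add, smul_sub, neg_smul, mul_smul]
        abel
      have pol1 : polar Q (upv F₀ a) (μ • upv F₀ w) = 0 := by
        rw [polar_smul_right, hC.pz haw', smul_zero]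
      have pol2 : polar Q (upv F₀ a) ((-μ) • upv F₀ e) = 0 := by
        rw [polar_smul_right, hC.pz hae, smul_zero]
      have pol3 : polar Q (upv F₀ a) ((μ * (t : F)) • upv F₀ f) = 0 := by
        rw [polar_smul_right, hC.pz haf, smul_zero]
      have pol23 : polar Q (upv F₀ a) ((-μ) • upv F₀ e + (μ * (t : F)) • upv F₀ f) = 0 := by
        rw [polar_add_right, pol2, pol3, add_zero]
      rw [e1, ← siegT_mul Q _ _ _ hA pol1 pol23, ← siegT_mul Q _ _ _ hA pol2 pol3]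
      exact H.mul_mem (hfull a w ha hwQ haw' μ)
        (H.mul_mem (hfull a e ha heQ hae (-μ)) (hfull a f ha hfQ haf _))
  -- the projection
  obtain ⟨p, hp⟩ : ∃ p : ι → ι → F₀, ∀ i, p i = Pi.single i 1
      - polar Q₀ (Pi.single i 1) as • a - polar Q₀ (Pi.single i 1) a • as := ⟨_, fun i => rfl⟩
  have hporth : ∀ i, p i ∈ orth Q₀ (Submodule.span F₀ {a} ⊔ Submodule.span F₀ {as}) := by
    intro i
    apply mem_orth_hyp
    · rw [hp, polar_sub_right, polar_sub_right, polar_smul_right, polar_smul_right, qf_polar_self,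
        ha, haas, polar_comm Q₀ a (Pi.single i 1)]
      simp
    · rw [hp, polar_sub_right, polar_sub_right, polar_smul_right, polar_smul_right, qf_polar_self,
        hasQ, polar_comm Q₀ as a, haas, polar_comm Q₀ as (Pi.single i 1)]
      simp
  have hpi : ∀ i, upv F₀ (p i) = Pi.single i (1 : F)
      - polar Q (Pi.single i (1 : F)) (upv F₀ as) • upv F₀ a
      - polar Q (Pi.single i (1 : F)) (upv F₀ a) • upv F₀ as := by
    intro i
    rw [hp, ← upv_single (F₀ := F₀) i, hC.res.pol, hC.res.pol]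
    rfl
  obtain ⟨L, hL⟩ : ∃ L : (ι → F) →ₗ[F] (ι → F), ∀ x, L x = x
      - polar Q x (upv F₀ as) • upv F₀ a - polar Q x (upv F₀ a) • upv F₀ as :=
    ⟨{ toFun := fun x => x - polar Q x (upv F₀ as) • upv F₀ a
         - polar Q x (upv F₀ a) • upv F₀ as
       map_add' := fun x y => by
         simp only [polar_add_left, add_smul]
         abel
       map_smul' := fun c x => by
         simp only [polar_smul_left, RingHom.id_apply, smul_sub, smul_smul, smul_eq_mul] },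
      fun x => rfl⟩
  have hw : w = ∑ i, w i • (Pi.single i (1 : F) : ι → F) := by
    funext j
    simp [Finset.sum_apply, Pi.single_apply]
  have hLsum : L w = ∑ i, w i • upv F₀ (p i) := by
    have h1 : L w = ∑ i, w i • L (Pi.single i (1 : F)) := by
      conv_lhs => rw [hw]
      rw [map_sum]
      exact Finset.sum_congr rfl fun i _ => map_smul L _ _
    rw [h1]
    exact Finset.sum_congr rfl fun i _ => by rw [hL, hpi]
  obtain ⟨Z, hZ⟩ : ∃ Z : AddSubmonoid (ι → F), ∀ x, x ∈ Z ↔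
      (polar Q (upv F₀ a) x = 0 ∧ siegT Q (upv F₀ a) x ∈ H) :=
    ⟨{ carrier := {x | polar Q (upv F₀ a) x = 0 ∧ siegT Q (upv F₀ a) x ∈ H}
       zero_mem' := ⟨qf_polar_zero_right Q _, by
         rw [siegT_zero_right Q _ hA]
         exact H.one_mem⟩
       add_mem' := by
         rintro x y ⟨hx1, hx2⟩ ⟨hy1, hy2⟩
         refine ⟨by rw [polar_add_right, hx1, hy1, add_zero], ?_⟩
         rw [← siegT_mul Q _ _ _ hA hx1 hy1]
         exact H.mul_mem hx2 hy2 }, fun x => Iff.rfl⟩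
  have hLw : L w ∈ Z := by
    rw [hLsum]
    apply AddSubmonoid.sum_mem
    intro i _
    rw [hZ]
    have hapi : polar Q₀ a (p i) = 0 := (mem_orth Q₀ _ (p i)).1 (hporth i) a m_a
    exact ⟨by rw [polar_smul_right, hC.pz hapi, smul_zero], claim (p i) (hporth i) (w i)⟩
  have e : w = L w + polar Q w (upv F₀ as) • upv F₀ a := by
    rw [hL, polar_comm Q w (upv F₀ a), haw, zero_smul, sub_zero, sub_add_cancel]
  rw [e, siegT_add_self Q _ (L w) _ hA ((hZ _).1 hLw).1]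
  exact ((hZ _).1 hLw).2

/-- all long root elements lie in `H` -/
theorem OCtx.c3 (hC : OCtx F₀ Q Q₀ H)
    (hc2 : ∀ a : ι → F₀, Q₀ a = 0 → ∀ w : ι → F, polar Q (upv F₀ a) w = 0 →
      siegT Q (upv F₀ a) w ∈ H)
    (x w : ι → F) (hx0 : x ≠ 0) (hx : Q x = 0) (hxw : polar Q x w = 0) : siegT Q x w ∈ H := by
  obtain ⟨a, haQ, hax⟩ := hC.exists_sing_polar_ne x hx0
  have ha0 : a ≠ 0 := by
    rintro rfl
    rw [upv_zero, polar_zero_left] at hax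
    exact hax rfl
  obtain ⟨as, -, hasQ, haas⟩ := (nd_top Q₀ hC.nd₀).exists_partner a Submodule.mem_top ha0 haQ
  have hA : Q (upv F₀ a) = 0 := hC.Qz haQ
  have hAs : Q (upv F₀ as) = 0 := hC.Qz hasQ
  have hAAs : polar Q (upv F₀ a) (upv F₀ as) = 1 := hC.p1 haas
  obtain ⟨c, hc⟩ : ∃ c : F, c = polar Q (upv F₀ a) x := ⟨_, rfl⟩
  have hc0 : c ≠ 0 := by
    rw [hc]
    exact hax
  have hr' : Q (c⁻¹ • x) = 0 := by rw [qf_smul, hx, mul_zero]
  have hAr' : polar Q (upv F₀ a) (c⁻¹ • x) = 1 := by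
    rw [polar_smul_right, ← hc, smul_eq_mul, inv_mul_cancel₀ hc0]
  have hpol : polar Q (upv F₀ a) (upv F₀ as - c⁻¹ • x) = 0 := by
    rw [polar_sub_right, hAAs, hAr', sub_self]
  have hmove := sieg_move Q (upv F₀ a) (upv F₀ as) (c⁻¹ • x) hA hAs hr' hAAs hAr'
  obtain ⟨g, hg⟩ : ∃ g : ↥(isometryGroup F ⇑Q),
      g = sieg Q (upv F₀ a) (upv F₀ as - c⁻¹ • x) hA hpol := ⟨_, rfl⟩
  rw [← hg] at hmove
  have hgH : (g : GL ι F) ∈ H := by
    rw [hg, ← siegT_eq Q _ _ hA hpol]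
    exact hc2 a haQ _ hpol
  have hw' : polar Q (upv F₀ as) (act ⇑Q g⁻¹ (c • w)) = 0 := by
    rw [← act_polar ⇑Q g, hmove, act_act_inv, polar_smul_left, polar_smul_right, hxw, smul_zero,
      smul_zero]
  have hconj := siegT_conj Q g (upv F₀ as) (act ⇑Q g⁻¹ (c • w)) hAs hw'
  rw [hmove, act_act_inv] at hconj
  have h1 : siegT Q (c⁻¹ • x) (c • w) ∈ H := by
    rw [← hconj]
    exact H.mul_mem (H.mul_mem hgH (hc2 as hasQ _ hw')) (H.inv_mem hgH)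
  rw [siegT_smul Q x (c • w) c⁻¹ hx (by rw [polar_smul_right, hxw, smul_zero]), smul_smul,
    inv_mul_cancel₀ hc0, one_smul] at h1
  exact h1

/-- without rigidity the overgroup is everything -/
theorem OCtx.top_of_notR (hC : OCtx F₀ Q Q₀ H) (r : ℕ) (hr : r.Prime)
    (hcard : Fintype.card F = Nat.card F₀ ^ r) (hnR : ¬ RProp F₀ Q Q₀ H) :
    Cfsg.Geo.omegaGL ⇑Q ≤ H := by
  have hn := hC.card
  obtain ⟨e1, f1, e2, f2, h1, h2, h3, h4, h5, h6, h7, h8, h9, h10, hfull⟩ :=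
    hC.full_seed r hr hcard hnR
  have hall : ∀ c d : ι → F₀, Q₀ c = 0 → Q₀ d = 0 → polar Q₀ c d = 0 → FullP F₀ Q H c d :=
    fun c d hc hd hcd => hC.full_all e1 f1 e2 f2 h1 h2 h3 h4 h5 h6 h7 h8 h9 h10 hfull c d hc hd hcd
  have hc2 : ∀ a : ι → F₀, Q₀ a = 0 → ∀ w : ι → F, polar Q (upv F₀ a) w = 0 →
      siegT Q (upv F₀ a) w ∈ H := fun a ha w haw => hC.c2 hall a ha w haw
  unfold Cfsg.Geo.omegaGL
  rw [Omega_eq_siegel_all (by omega) Q hC.nd, Subgroup.map_le_iff_le_comap, Subgroup.closure_le]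
  intro g hg
  obtain ⟨u, v, c, hu, hv, huv, -, rfl⟩ := siegelSet_eq_sieg Q g hg
  show ((sieg Q v (c • u) hv huv : ↥(isometryGroup F ⇑Q)) : GL ι F) ∈ H
  rw [← siegT_eq Q v (c • u) hv huv]
  by_cases hv0 : v = 0
  · rw [hv0, siegT_zero_left]
    exact H.one_mem
  · exact hC.c3 hc2 v (c • u) hv0 hv huv

/-- **the subfield subgroup of `Ω_n(q)`, `n ≥ 14`, any characteristic, is maximal** (standard
frame) -/
theorem osub_core (F₀ : Subfield F) (r : ℕ) (hr : r.Prime)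
    (hcard : Fintype.card F = Nat.card F₀ ^ r) (Q : QuadraticForm F (ι → F))
    (hQ : (polarBilin Q).Nondegenerate) (hn : 14 ≤ Fintype.card ι)
    (hrat : ∀ v : ι → F₀, Q (upv F₀ v) ∈ F₀) :
    Cfsg.Geo.IsMaximalIn (Cfsg.Geo.omegaGL ⇑Q)
      (Cfsg.Geo.subfieldSubgroup F₀ (1 : GL ι F) ⊓ Cfsg.Geo.omegaGL ⇑Q) := by
  classical
  obtain ⟨Q₀, hres⟩ := exists_res Q hrat
  have hnd₀ := hres.nondeg hQ
  have hctx : ∀ K : Subgroup (GL ι F),
      Cfsg.Geo.subfieldSubgroup F₀ (1 : GL ι F) ⊓ Cfsg.Geo.omegaGL ⇑Q ≤ K →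
      K ≤ Cfsg.Geo.omegaGL ⇑Q → OCtx F₀ Q Q₀ K := fun K hMK hK =>
    ⟨hres, hQ, hnd₀, hn, hK, fun g hg c hc hR =>
      hMK ⟨sfg_one_of_rmat g c hc hR, hg⟩⟩
  constructor
  · refine lt_of_le_of_ne inf_le_right ?_
    intro heq
    have hC := hctx _ le_rfl inf_le_right
    have hR : RProp F₀ Q Q₀
        (Cfsg.Geo.subfieldSubgroup F₀ (1 : GL ι F) ⊓ Cfsg.Geo.omegaGL ⇑Q) :=
      rprop_sfg Q Q₀ hres _ inf_le_left
    obtain ⟨e, f, -, -, heQ, hfQ, hef⟩ :=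
      exists_hp Q₀ hnd₀ ⊥ (nd_bot Q₀) (by rw [finrank_bot]; omega)
    have hN := nd_hyp Q₀ e f heQ hfQ (by rw [hef]; exact one_ne_zero)
    have hNfin := finrank_hyp_le e f
    obtain ⟨e', f', he', hf', he'Q, hf'Q, he'f'⟩ := exists_hp Q₀ hnd₀ _ hN (by omega)
    have he'0 : e' ≠ 0 := by
      rintro rfl
      rw [polar_zero_left] at he'f'
      exact zero_ne_one he'f'
    have h1 : polar Q₀ e' e = 0 := by
      rw [polar_comm]
      exact (mem_orth Q₀ _ e').1 he' e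
        (Submodule.mem_sup_left (Submodule.mem_span_singleton_self e))
    have h2' : polar Q₀ e' f = 0 := by
      rw [polar_comm]
      exact (mem_orth Q₀ _ e').1 he' f
        (Submodule.mem_sup_right (Submodule.mem_span_singleton_self f))
    obtain ⟨μ, hμ⟩ : ∃ μ : F, μ ∉ F₀ := by
      by_contra hall
      push Not at hall
      have h1 : Nat.card F₀ = Fintype.card F := by
        rw [← Nat.card_eq_fintype_card]
        exact Nat.card_congr ⟨fun x => x.1, fun x => ⟨x, hall x⟩, fun x => rfl, fun x => rfl⟩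
      rw [← h1] at hcard
      have h2 : 2 ≤ Nat.card F₀ := by
        rw [h1]
        exact Fintype.one_lt_card
      have h3 : Nat.card F₀ ^ 1 = Nat.card F₀ ^ r := by
        rw [pow_one]
        exact hcard
      have h4 := Nat.pow_right_injective h2 h3
      exact hr.one_lt.ne h4
    apply hμ
    refine hR e' e f he'0 he'Q heQ hfQ h1 hef h2' μ ?_
    rw [heq]
    have hE' : Q (upv F₀ e') = 0 := hC.Qz he'Q
    have hpol : polar Q (upv F₀ e') (μ • upv F₀ e) = 0 := by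
      rw [polar_smul_right, hC.pz h1, smul_zero]
    rw [siegT_eq Q _ _ hE' hpol]
    exact mem_omegaGL ⇑Q _ (sieg_mem_Omega (by omega) Q hQ _ _ hE' hpol)
  · intro K hMK hK
    have hC := hctx K hMK hK
    by_cases hR : RProp F₀ Q Q₀ K
    · left
      apply le_antisymm _ hMK
      intro k hk
      obtain ⟨g, hg, rfl⟩ := exists_of_mem_omegaGL ⇑Q k (hK hk)
      obtain ⟨c, hc, h1⟩ := hC.all_rat hR g hk
      exact ⟨sfg_one_of_rmat _ c hc h1, hK hk⟩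
    · right
      exact le_antisymm hK (hC.top_of_notR r hr hcard hR)

end EOE2


end Cfsg.Agent.Helper16.EO
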