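import Cfsg.Agent.Helper16.Dickson
import Cfsg.Agent.Helper16.NondegTrans

set_option autoImplicit false
open Cfsg

namespace Cfsg.Agent.Helper16

open QuadraticMap Module
open scoped commutatorElement

section SubgroupAux
variable {G : Type*} [Group G]

theorem subgroupOf_le_of_le_map (K N : Subgroup G) (H : Subgroup ↥K)
    (h : N ≤ H.map K.subtype) : N.subgroupOf K ≤ H := by
  intro x hx
  obtain ⟨y, hy, hyx⟩ := h (Subgroup.mem_subgroupOf.1 hx)
  have : y = x := Subtype.ext hyx
  rw [← this]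
  exact hy

end SubgroupAux

section SOIndex
variable {ι : Type} [Fintype ι] [DecidableEq ι] {F : Type*} [Field F]

theorem mem_SO_iff (Q : (ι → F) → F) (g : ↥(isometryGroup F Q)) :
    g ∈ specialIsometryGroup F Q ↔ ((g : GL ι F) : Matrix ι ι F).det = 1 := by
  constructor
  · intro hg
    have h1 : Matrix.GeneralLinearGroup.det (g : GL ι F) = 1 := hg
    have h3 := congrArg (fun u : Fˣ => (u : F)) h1
    simpa using h3
  · intro hg
    show Matrix.GeneralLinearGroup.det (g : GL ι F) = 1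
    apply Units.ext
    rw [Matrix.GeneralLinearGroup.val_det_apply, hg]
    rfl

/-- products of two reflections in vectors of the same norm -/
def goodPairs (Q : QuadraticForm F (ι → F)) : Set ↥(isometryGroup F ⇑Q) :=
  {g | ∃ a b : ι → F, Q a ≠ 0 ∧ Q b = Q a ∧ g = reflElt Q a * reflElt Q b}

theorem goodPairs_conj (Q : QuadraticForm F (ι → F)) (h k : ↥(isometryGroup F ⇑Q))
    (hk : k ∈ Subgroup.closure (goodPairs Q)) :
    h * k * h⁻¹ ∈ Subgroup.closure (goodPairs Q) := by
  induction hk using Subgroup.closure_induction with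
  | mem x hx =>
    obtain ⟨u, v, hu, hv, rfl⟩ := hx
    have hv' : Q v ≠ 0 := by rw [hv]; exact hu
    have e : h * (reflElt Q u * reflElt Q v) * h⁻¹ =
        (h * reflElt Q u * h⁻¹) * (h * reflElt Q v * h⁻¹) := by group
    rw [e, reflElt_conj Q h u hu, reflElt_conj Q h v hv']
    exact Subgroup.subset_closure ⟨_, _, by rw [(mem_isometryGroup_iff _ _).1 h.2 u]; exact hu,
      by rw [(mem_isometryGroup_iff _ _).1 h.2 u, (mem_isometryGroup_iff _ _).1 h.2 v]; exact hv,
      rfl⟩
  | one =>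
    rw [mul_one, mul_inv_cancel]
    exact Subgroup.one_mem _
  | mul x y _ _ hx hy =>
    have e : h * (x * y) * h⁻¹ = (h * x * h⁻¹) * (h * y * h⁻¹) := by group
    rw [e]
    exact Subgroup.mul_mem _ hx hy
  | inv x _ hx =>
    have e : h * x⁻¹ * h⁻¹ = (h * x * h⁻¹)⁻¹ := by group
    rw [e]
    exact Subgroup.inv_mem _ hx

theorem refl_comm_mem (Q : QuadraticForm F (ι → F)) (a b : ι → F) (ha : Q a ≠ 0) (hb : Q b ≠ 0) :
    (reflElt Q a * reflElt Q b)⁻¹ * (reflElt Q b * reflElt Q a) ∈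
      Subgroup.closure (goodPairs Q) := by
  have e : (reflElt Q a * reflElt Q b)⁻¹ * (reflElt Q b * reflElt Q a) =
      reflElt Q b * (reflElt Q a * reflElt Q b * (reflElt Q a)⁻¹) := by
    rw [mul_inv_rev, reflElt_inv, reflElt_inv]
    group
  rw [e, reflElt_conj Q (reflElt Q a) b hb]
  exact Subgroup.subset_closure ⟨_, _, hb,
    (mem_isometryGroup_iff _ _).1 (reflElt Q a).2 b, rfl⟩

theorem Omega_le_goodPairs (h2 : (2 : F) ≠ 0) (Q : QuadraticForm F (ι → F))
    (hQ : (polarBilin Q).Nondegenerate) : Omega F ⇑Q ≤ Subgroup.closure (goodPairs Q) := by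
  haveI : (Subgroup.closure (goodPairs Q)).Normal := ⟨fun k hk h => goodPairs_conj Q h k hk⟩
  have hA : ∀ a b, Q a ≠ 0 → Q b ≠ 0 →
      Commute (QuotientGroup.mk' (Subgroup.closure (goodPairs Q)) (reflElt Q a))
        (QuotientGroup.mk' (Subgroup.closure (goodPairs Q)) (reflElt Q b)) := by
    intro a b ha hb
    show QuotientGroup.mk' (Subgroup.closure (goodPairs Q)) (reflElt Q a) *
      QuotientGroup.mk' (Subgroup.closure (goodPairs Q)) (reflElt Q b) =
      QuotientGroup.mk' (Subgroup.closure (goodPairs Q)) (reflElt Q b) *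
      QuotientGroup.mk' (Subgroup.closure (goodPairs Q)) (reflElt Q a)
    rw [← map_mul, ← map_mul]
    exact QuotientGroup.eq.2 (refl_comm_mem Q a b ha hb)
  have hB : ∀ a, Q a ≠ 0 → ∀ vs : List (ι → F), (∀ v ∈ vs, Q v ≠ 0) →
      Commute (QuotientGroup.mk' (Subgroup.closure (goodPairs Q)) (reflElt Q a))
        (QuotientGroup.mk' (Subgroup.closure (goodPairs Q)) ((vs.map (reflElt Q)).prod)) := by
    intro a ha vs
    induction vs with
    | nil =>
      intro _
      rw [List.map_nil, List.prod_nil, map_one]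
      exact Commute.one_right _
    | cons v vs ih =>
      intro hvs
      rw [List.map_cons, List.prod_cons, map_mul]
      exact (hA a v ha (hvs v List.mem_cons_self)).mul_right
        (ih (fun w hw => hvs w (List.mem_cons_of_mem _ hw)))
  have hC : ∀ vs : List (ι → F), (∀ v ∈ vs, Q v ≠ 0) → ∀ ws : List (ι → F),
      (∀ v ∈ ws, Q v ≠ 0) →
      Commute (QuotientGroup.mk' (Subgroup.closure (goodPairs Q)) ((vs.map (reflElt Q)).prod))
        (QuotientGroup.mk' (Subgroup.closure (goodPairs Q)) ((ws.map (reflElt Q)).prod)) := by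
    intro vs
    induction vs with
    | nil =>
      intro _ ws _
      rw [List.map_nil, List.prod_nil, map_one]
      exact Commute.one_left _
    | cons v vs ih =>
      intro hvs ws hws
      rw [List.map_cons, List.prod_cons, map_mul]
      exact (hB v (hvs v List.mem_cons_self) ws hws).mul_left
        (ih (fun w hw => hvs w (List.mem_cons_of_mem _ hw)) ws hws)
  show commutator _ ≤ _
  rw [commutator_eq_closure, Subgroup.closure_le]
  rintro _ ⟨x, y, rfl⟩
  obtain ⟨vs, hvs, rfl⟩ := exists_refl_list h2 Q hQ x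
  obtain ⟨ws, hws, rfl⟩ := exists_refl_list h2 Q hQ y
  have h1 : QuotientGroup.mk' (Subgroup.closure (goodPairs Q))
      ⁅(vs.map (reflElt Q)).prod, (ws.map (reflElt Q)).prod⁆ = 1 := by
    rw [map_commutatorElement, commutatorElement_eq_one_iff_commute]
    exact hC vs hvs ws hws
  exact (QuotientGroup.eq_one_iff _).1 h1

theorem refl_sq_aux (Q : QuadraticForm F (ι → F)) (a b : ι → F) (ha : Q a ≠ 0) (hb : Q b = Q a)
    (hc : Q (a + b) ≠ 0) :
    reflElt Q a * reflElt Q b =
      (reflElt Q a * reflElt Q (a + b)) * (reflElt Q a * reflElt Q (a + b)) := by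
  have hb' : Q b ≠ 0 := by rw [hb]; exact ha
  have h1 : reflElt Q (a + b) * reflElt Q a * (reflElt Q (a + b))⁻¹ = reflElt Q b := by
    rw [reflElt_conj Q _ a ha, reflElt_mulVec Q _ hc, qrefl_apply]
    have hp : polar Q (a + b) a = Q (a + b) := by
      rw [polar_add_left, qf_polar_self, qf_add, hb, polar_comm Q b a]
      ring
    rw [hp, inv_mul_cancel₀ hc, one_smul]
    have e : a - (a + b) = (-1 : F) • b := by
      rw [neg_one_smul]
      abel
    rw [e, reflElt_smul Q b (-1) (by simp) hb']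
  rw [reflElt_inv] at h1
  rw [← h1]
  group

theorem goodPair_eq_sq (h2 : (2 : F) ≠ 0) (Q : QuadraticForm F (ι → F)) (a b : ι → F)
    (ha : Q a ≠ 0) (hb : Q b = Q a) :
    ∃ c, Q c ≠ 0 ∧ reflElt Q a * reflElt Q b =
      (reflElt Q a * reflElt Q c) * (reflElt Q a * reflElt Q c) := by
  have hb' : Q b ≠ 0 := by rw [hb]; exact ha
  by_cases hc : Q (a + b) = 0
  · have hnb : Q (-b) = Q a := by rw [QuadraticMap.map_neg, hb]
    have hc' : Q (a + -b) ≠ 0 := by
      rw [qf_add, hnb, polar_neg_right]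
      rw [qf_add, hb] at hc
      intro h0
      apply mul_ne_zero (mul_ne_zero h2 h2) ha
      linear_combination hc + h0
    refine ⟨a + -b, hc', ?_⟩
    have := refl_sq_aux Q a (-b) ha hnb hc'
    have e : reflElt Q (-b) = reflElt Q b := by
      have := reflElt_smul Q b (-1) (by simp) hb'
      rw [neg_one_smul] at this
      exact this
    rw [e] at this
    exact this
  · exact ⟨a + b, hc, refl_sq_aux Q a b ha hb hc⟩

theorem SO_eq_top_char2 [Fintype F] [CharP F 2] (Q : QuadraticForm F (ι → F))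
    (hQ : (polarBilin Q).Nondegenerate) (h : Fintype.card F ≠ 2 ∨ Fintype.card ι ≠ 4) :
    specialIsometryGroup F ⇑Q = ⊤ := by
  rw [eq_top_iff, ← cd2 Q hQ h, Subgroup.closure_le]
  rintro x ⟨v, hv, hmat⟩
  rw [SetLike.mem_coe, mem_SO_iff, hmat, det_reflMatrix Q v hv]
  exact CharTwo.neg_eq 1

theorem SO_index_two_unique [Fintype F] (hn : 2 ≤ Fintype.card ι) (Q : QuadraticForm F (ι → F))
    (hQ : (polarBilin Q).Nondegenerate) (h : Fintype.card F ≠ 2 ∨ Fintype.card ι ≠ 4) :
    ∃! H : Subgroup ↥(specialIsometryGroup F ⇑Q), H.index = 2 := by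
  by_cases h2 : (2 : F) = 0
  · haveI : CharP F 2 := CharTwo.of_one_ne_zero_of_two_eq_zero one_ne_zero h2
    have htop := SO_eq_top_char2 Q hQ h
    have hidx : ((Omega F ⇑Q).subgroupOf (specialIsometryGroup F ⇑Q)).index = 2 := by
      show (Omega F ⇑Q).relIndex (specialIsometryGroup F ⇑Q) = 2
      rw [htop, Subgroup.relIndex_top_right]
      exact Omega_index_char2 Q hQ h (by omega)
    refine ⟨_, hidx, fun H hH => (eq_of_le_of_index_two _ H hidx hH ?_).symm⟩
    apply subgroupOf_le_of_le_map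
    apply commutator_le_of_index_two
    rw [Subgroup.index_map_subtype, hH, htop, Subgroup.index_top]
  · have hker : (Omega F ⇑Q).subgroupOf (specialIsometryGroup F ⇑Q) =
        ((spinorHom h2 Q hQ).comp (specialIsometryGroup F ⇑Q).subtype).ker := by
      ext x
      rw [Subgroup.mem_subgroupOf, MonoidHom.mem_ker, mem_Omega_iff_det_spinor h2 Q hQ]
      have := (mem_SO_iff ⇑Q (x : ↥(isometryGroup F ⇑Q))).1 x.2
      constructor
      · intro hx
        exact hx.2
      · intro hx
        exact ⟨this, hx⟩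
    obtain ⟨ν, hν⟩ := FiniteField.exists_nonsquare (ringChar_ne_two_of_two_ne_zero h2)
    have hν0 : ν ≠ 0 := by
      rintro rfl
      exact hν ⟨0, by simp⟩
    obtain ⟨a₁, ha₁⟩ := exists_rep h2 Q hQ hn 1 one_ne_zero
    obtain ⟨a₂, ha₂⟩ := exists_rep h2 Q hQ hn ν hν0
    have hq₁ : Q a₁ ≠ 0 := by rw [ha₁]; exact one_ne_zero
    have hq₂ : Q a₂ ≠ 0 := by rw [ha₂]; exact hν0
    have hsp₁ : spinorHom h2 Q hQ (reflElt Q a₁) = 1 := by
      rw [spinorHom_refl_eq_one_iff h2 Q hQ a₁ hq₁, ha₁]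
      exact ⟨1, by simp⟩
    have hsp₂ : spinorHom h2 Q hQ (reflElt Q a₂) ≠ 1 := by
      rw [Ne, spinorHom_refl_eq_one_iff h2 Q hQ a₂ hq₂, ha₂]
      exact hν
    have hpair : ∀ a c : ι → F, Q a ≠ 0 → Q c ≠ 0 →
        reflElt Q a * reflElt Q c ∈ specialIsometryGroup F ⇑Q := by
      intro a c ha hc
      rw [mem_SO_iff, Subgroup.coe_mul, Units.val_mul, Matrix.det_mul, det_refl Q a ha,
        det_refl Q c hc]
      ring
    have hidx : ((Omega F ⇑Q).subgroupOf (specialIsometryGroup F ⇑Q)).index = 2 := by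
      rw [hker]
      apply index_ker_zmod2 _ ⟨reflElt Q a₁ * reflElt Q a₂, hpair a₁ a₂ hq₁ hq₂⟩
      show spinorHom h2 Q hQ (reflElt Q a₁ * reflElt Q a₂) ≠ 1
      rw [map_mul, hsp₁, one_mul]
      exact hsp₂
    refine ⟨_, hidx, fun H hH => (eq_of_le_of_index_two _ H hidx hH ?_).symm⟩
    apply subgroupOf_le_of_le_map
    refine le_trans (Omega_le_goodPairs h2 Q hQ) ?_
    rw [Subgroup.closure_le]
    rintro g ⟨a, b, ha, hb, rfl⟩
    obtain ⟨c, hc, hsq⟩ := goodPair_eq_sq h2 Q a b ha hb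
    rw [hsq]
    exact ⟨⟨reflElt Q a * reflElt Q c, hpair a c ha hc⟩ * ⟨reflElt Q a * reflElt Q c, hpair a c ha hc⟩,
      Subgroup.mul_self_mem_of_index_two hH _, rfl⟩

end SOIndex

end Cfsg.Agent.Helper16
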