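import Cfsg.Prelude.Def_FischerSpaces
import Cfsg.Agent.Helper16.SOIndex

set_option autoImplicit false
open Cfsg

namespace Cfsg.Agent.Helper16

open QuadraticMap Module

section ReflNorm
variable {ι : Type} [Fintype ι] [DecidableEq ι] {F : Type*} [Field F]

theorem mem_reflectionsOfNorm (Q : QuadraticForm F (ι → F)) (c : F) (hc : c ≠ 0)
    (g : ↥(isometryGroup F ⇑Q)) :
    g ∈ reflectionsOfNorm ⇑Q c ↔ ∃ v, Q v = c ∧ g = reflElt Q v := by
  constructor
  · rintro ⟨v, hv, hmat⟩
    exact ⟨v, hv, isom_ext _ _ _ (by rw [hmat, reflElt_coe Q v (by rw [hv]; exact hc)])⟩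
  · rintro ⟨v, hv, rfl⟩
    exact ⟨v, hv, reflElt_coe Q v (by rw [hv]; exact hc)⟩

theorem refl_mem_reflectionSubgroup (Q : QuadraticForm F (ι → F)) (c : F) (hc : c ≠ 0)
    (v : ι → F) (hv : Q v = c) : reflElt Q v ∈ reflectionSubgroup ⇑Q c :=
  Subgroup.subset_closure ((mem_reflectionsOfNorm Q c hc _).2 ⟨v, hv, rfl⟩)

theorem reflectionSubgroup_conj (Q : QuadraticForm F (ι → F)) (c : F) (hc : c ≠ 0)
    (h k : ↥(isometryGroup F ⇑Q)) (hk : k ∈ reflectionSubgroup ⇑Q c) :
    h * k * h⁻¹ ∈ reflectionSubgroup ⇑Q c := by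
  have hk' : k ∈ Subgroup.closure (reflectionsOfNorm ⇑Q c) := hk
  induction hk' using Subgroup.closure_induction with
  | mem x hx =>
    obtain ⟨v, hv, rfl⟩ := (mem_reflectionsOfNorm Q c hc x).1 hx
    rw [reflElt_conj Q h v (by rw [hv]; exact hc)]
    exact refl_mem_reflectionSubgroup Q c hc _ (by rw [(mem_isometryGroup_iff _ _).1 h.2 v]; exact hv)
  | one =>
    rw [mul_one, mul_inv_cancel]
    exact Subgroup.one_mem _
  | mul x y hx' hy' hx hy =>
    have e : h * (x * y) * h⁻¹ = (h * x * h⁻¹) * (h * y * h⁻¹) := by group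
    rw [e]
    exact Subgroup.mul_mem _ (hx hx') (hy hy')
  | inv x hx' hx =>
    have e : h * x⁻¹ * h⁻¹ = (h * x * h⁻¹)⁻¹ := by group
    rw [e]
    exact Subgroup.inv_mem _ (hx hx')

/-- for orthogonal `w, w'` of the same norm, `r_w r_w' = r_(w+w') r_(w-w')` -/
theorem refl_orth_pair (h2 : (2 : F) ≠ 0) (Q : QuadraticForm F (ι → F)) (w w' : ι → F)
    (hw : Q w ≠ 0) (hw' : Q w' = Q w) (hperp : polar Q w w' = 0) :
    Q (w + w') = 2 * Q w ∧ Q (w - w') = 2 * Q w ∧
      reflElt Q w * reflElt Q w' = reflElt Q (w + w') * reflElt Q (w - w') := by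
  have hw'0 : Q w' ≠ 0 := by rw [hw']; exact hw
  have h1 : Q (w + w') = 2 * Q w := by rw [qf_add, hw', hperp]; ring
  have h2' : Q (w - w') = 2 * Q w := by
    rw [sub_eq_add_neg, qf_add, QuadraticMap.map_neg, hw', polar_neg_right, hperp]
    ring
  have h20 : (2 : F) * Q w ≠ 0 := mul_ne_zero h2 hw
  refine ⟨h1, h2', ?_⟩
  apply act_ext
  intro x
  rw [act_mul, act_mul, act_refl Q w hw, act_refl Q w' hw'0, act_refl Q _ (by rw [h1]; exact h20),
    act_refl Q _ (by rw [h2']; exact h20), qrefl_apply, qrefl_apply, qrefl_apply, qrefl_apply,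
    h1, h2', hw']
  have e1 : polar Q w (x - ((Q w)⁻¹ * polar Q w' x) • w') = polar Q w x := by
    rw [polar_sub_right, polar_smul_right, hperp, smul_zero, sub_zero]
  have e2 : polar Q (w + w') (x - ((2 * Q w)⁻¹ * polar Q (w - w') x) • (w - w')) =
      polar Q w x + polar Q w' x := by
    rw [polar_sub_right, polar_smul_right, polar_add_left, polar_add_left, polar_sub_right,
      polar_sub_right, qf_polar_self, qf_polar_self, hw', polar_comm Q w' w, hperp]
    simp
  have e3 : polar Q (w - w') x = polar Q w x - polar Q w' x := by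
    rw [polar_sub_left]
  rw [e1, e2, e3]
  funext i
  simp only [Pi.sub_apply, Pi.add_apply, Pi.smul_apply, smul_eq_mul]
  field_simp
  ring

theorem reflElt_neg (Q : QuadraticForm F (ι → F)) (b : ι → F) (hb : Q b ≠ 0) :
    reflElt Q (-b) = reflElt Q b := by
  have := reflElt_smul Q b (-1) (by simp) hb
  rw [neg_one_smul] at this
  exact this

end ReflNorm

section F3
variable {ι : Type} [Fintype ι] [DecidableEq ι] {F : Type*} [Field F] [Fintype F]

theorem reflElt_ne_one (h2 : (2 : F) ≠ 0) (Q : QuadraticForm F (ι → F)) (v : ι → F)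
    (hv : Q v ≠ 0) : reflElt Q v ≠ 1 := by
  intro h
  have h1 := det_refl Q v hv
  rw [h] at h1
  simp at h1
  apply h2
  linear_combination h1

theorem two_ne_zero_of_three (h3 : (3 : F) = 0) : (2 : F) ≠ 0 := by
  have : (2 : F) = -1 := by linear_combination h3
  rw [this]
  exact neg_ne_zero.2 one_ne_zero

theorem vals_of_F3 (hF : ∀ x : F, x = 0 ∨ x = 1 ∨ x = -1) (c x : F) (hc : c ≠ 0) (hx : x ≠ 0) :
    x = c ∨ x = -c := by
  rcases hF x with h | h | h <;> rcases hF c with h' | h' | h'
  · exact absurd h hx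
  · exact absurd h hx
  · exact absurd h hx
  · exact absurd h' hc
  · left; rw [h, h']
  · right; rw [h, h', neg_neg]
  · exact absurd h' hc
  · right; rw [h, h']
  · left; rw [h, h']

/-- orthogonal bad pairs lie in the reflection subgroup -/
theorem bad_pair_orth (h3 : (3 : F) = 0) (Q : QuadraticForm F (ι → F)) (c : F) (hc : c ≠ 0)
    (w w' : ι → F) (hw : Q w = -c) (hw' : Q w' = -c) (hperp : polar Q w w' = 0) :
    reflElt Q w * reflElt Q w' ∈ reflectionSubgroup ⇑Q c := by
  have h2 := two_ne_zero_of_three h3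
  obtain ⟨h1, h2', h⟩ := refl_orth_pair h2 Q w w' (by rw [hw]; exact neg_ne_zero.2 hc)
    (by rw [hw, hw']) hperp
  rw [h]
  have e : 2 * Q w = c := by rw [hw]; linear_combination (-c) * h3
  exact Subgroup.mul_mem _ (refl_mem_reflectionSubgroup Q c hc _ (by rw [h1, e]))
    (refl_mem_reflectionSubgroup Q c hc _ (by rw [h2', e]))

/-- a non-degenerate complement of a small subspace represents everything -/
theorem exists_rep_orth_range (h2 : (2 : F) ≠ 0) (Q : QuadraticForm F (ι → F))
    (hQ : (polarBilin Q).Nondegenerate) {k : ℕ} (b : Fin k → ι → F)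
    (hk : k + 2 ≤ Fintype.card ι)
    (hnd : ∀ s ∈ Submodule.span F (Set.range b), (∀ i, polar Q (b i) s = 0) → s = 0)
    (d : F) (hd : d ≠ 0) :
    ∃ x, Q x = d ∧ ∀ i, polar Q (b i) x = 0 := by
  have hA : orth Q (Submodule.span F (Set.range b)) ⊓
      orth Q (orth Q (Submodule.span F (Set.range b))) = ⊥ := by
    rw [orth_orth Q hQ, eq_bot_iff]
    rintro s ⟨hs1, hs2⟩
    rw [Submodule.mem_bot]
    apply hnd s hs2
    intro i
    exact hs1 (b i) (Submodule.subset_span (Set.mem_range_self i))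
  have hdim : 2 ≤ finrank F (orth Q (Submodule.span F (Set.range b))) := by
    rw [finrank_orth Q hQ, Module.finrank_fintype_fun_eq_card]
    have := finrank_range_le_card (R := F) b
    rw [Fintype.card_fin] at this
    have h' : finrank F (Submodule.span F (Set.range b)) ≤ k := this
    omega
  obtain ⟨x, hxA, hx⟩ := exists_rep_sub h2 Q _ hA hdim d hd
  exact ⟨x, hx, fun i => hxA (b i) (Submodule.subset_span (Set.mem_range_self i))⟩

theorem bad_pair_sing (h3 : (3 : F) = 0) (hn : 5 ≤ Fintype.card ι) (Q : QuadraticForm F (ι → F))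
    (hQ : (polarBilin Q).Nondegenerate) (c : F) (hc : c ≠ 0)
    (w u : ι → F) (hw : Q w = -c) (hu : Q u = 0) (hperp : polar Q w u = 0) :
    reflElt Q w * reflElt Q (w + u) ∈ reflectionSubgroup ⇑Q c := by
  have h2 := two_ne_zero_of_three h3
  have hwu : Q (w + u) = -c := by rw [qf_add, hw, hu, hperp]; ring
  by_cases hu0 : u = 0
  · rw [hu0, add_zero, reflElt_mul_self]
    exact Subgroup.one_mem _
  · obtain ⟨y₀, hy₀⟩ : ∃ y, polar Q u y ≠ 0 := by
      by_contra hcon
      push Not at hcon
      exact hu0 (hQ.1 u hcon)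
    have hww : polar Q w w ≠ 0 := by
      rw [qf_polar_self, hw]
      exact mul_ne_zero h2 (neg_ne_zero.2 hc)
    have hwy : polar Q w (y₀ - (polar Q w y₀ / polar Q w w) • w) = 0 := by
      rw [polar_sub_right, polar_smul_right, smul_eq_mul, div_mul_cancel₀ _ hww, sub_self]
    have huy : polar Q u (y₀ - (polar Q w y₀ / polar Q w w) • w) ≠ 0 := by
      rw [polar_sub_right, polar_smul_right, polar_comm Q u w, hperp, smul_zero, sub_zero]
      exact hy₀
    generalize y₀ - (polar Q w y₀ / polar Q w w) • w = y at hwy huy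
    obtain ⟨x, hx, hxperp⟩ := exists_rep_orth_range h2 Q hQ ![w, u, y] (by omega) (by
      intro s hs hsperp
      obtain ⟨cf, rfl⟩ := (Submodule.mem_span_range_iff_exists_fun F).1 hs
      rw [Fin.sum_univ_three] at hsperp ⊢
      simp only [Matrix.cons_val_zero, Matrix.cons_val_one, Matrix.cons_val_two,
        Matrix.head_cons, Matrix.tail_cons] at hsperp ⊢
      have hs0 := hsperp 0
      have hs1 := hsperp 1
      have hs2 := hsperp 2
      simp only [Matrix.cons_val_zero, Matrix.cons_val_one, Matrix.cons_val_two,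
        Matrix.head_cons, Matrix.tail_cons] at hs0 hs1 hs2
      rw [polar_add_right, polar_add_right, polar_smul_right, polar_smul_right,
        polar_smul_right] at hs0 hs1 hs2
      rw [hperp, hwy] at hs0
      rw [polar_comm Q u w, hperp, qf_polar_self, hu] at hs1
      rw [polar_comm Q y w, hwy, polar_comm Q y u] at hs2
      simp only [smul_eq_mul, mul_zero, add_zero, zero_add] at hs0 hs1 hs2
      have c0 : cf 0 = 0 := by
        rcases mul_eq_zero.1 hs0 with h | h
        · exact h
        · exact absurd h hww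
      have c2 : cf 2 = 0 := by
        rcases mul_eq_zero.1 hs1 with h | h
        · exact h
        · exact absurd h huy
      rw [c2] at hs2
      simp only [zero_mul, add_zero, zero_add] at hs2
      have c1 : cf 1 = 0 := by
        rcases mul_eq_zero.1 hs2 with h | h
        · exact h
        · exact absurd h huy
      rw [c0, c1, c2]
      simp) (-c) (neg_ne_zero.2 hc)
    have hxw : polar Q w x = 0 := hxperp 0
    have hxu : polar Q u x = 0 := hxperp 1
    have e : reflElt Q w * reflElt Q (w + u) =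
        (reflElt Q w * reflElt Q x) * (reflElt Q x * reflElt Q (w + u)) := by
      rw [mul_assoc, ← mul_assoc (reflElt Q x), reflElt_mul_self, one_mul]
    rw [e]
    exact Subgroup.mul_mem _ (bad_pair_orth h3 Q c hc w x hw hx hxw)
      (bad_pair_orth h3 Q c hc x (w + u) hx hwu (by
        rw [polar_add_right, polar_comm Q x w, hxw, polar_comm Q x u, hxu, add_zero]))

theorem bad_pair_mem (h3 : (3 : F) = 0) (hF : ∀ x : F, x = 0 ∨ x = 1 ∨ x = -1)
    (hn : 5 ≤ Fintype.card ι) (Q : QuadraticForm F (ι → F))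
    (hQ : (polarBilin Q).Nondegenerate) (c : F) (hc : c ≠ 0)
    (w w' : ι → F) (hw : Q w = -c) (hw' : Q w' = -c) :
    reflElt Q w * reflElt Q w' ∈ reflectionSubgroup ⇑Q c := by
  have hnc : -c ≠ 0 := neg_ne_zero.2 hc
  by_cases h0 : polar Q w w' = 0
  · exact bad_pair_orth h3 Q c hc w w' hw hw' h0
  · -- `polar w w' = c` or `-c`
    rcases vals_of_F3 hF c (polar Q w w') hc h0 with hβ | hβ
    · -- `u = w' - w` is singular and orthogonal to `w`
      have e : w' = w + (w' - w) := by abel
      rw [e]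
      apply bad_pair_sing h3 hn Q hQ c hc w (w' - w) hw
      · rw [sub_eq_add_neg, qf_add, QuadraticMap.map_neg, hw, hw', polar_neg_right,
          polar_comm Q w' w, hβ]
        linear_combination (-c) * h3
      · rw [polar_sub_right, hβ, qf_polar_self, hw]
        linear_combination c * h3
    · -- use `-w'`
      rw [← reflElt_neg Q w' (by rw [hw']; exact hnc)]
      have e : -w' = w + (-w' - w) := by abel
      rw [e]
      apply bad_pair_sing h3 hn Q hQ c hc w (-w' - w) hw
      · rw [sub_eq_add_neg, qf_add, QuadraticMap.map_neg, QuadraticMap.map_neg, hw, hw',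
          polar_neg_right, polar_neg_left, polar_comm Q w' w, hβ]
        linear_combination (-c) * h3
      · rw [polar_sub_right, polar_neg_right, hβ, qf_polar_self, hw]
        linear_combination c * h3

theorem reflNorm_dichotomy (h2 : (2 : F) ≠ 0) (Q : QuadraticForm F (ι → F))
    (hQ : (polarBilin Q).Nondegenerate) (c : F) (hc : c ≠ 0)
    (hvals : ∀ v, Q v ≠ 0 → Q v = c ∨ Q v = -c)
    (hbad : ∀ w w', Q w = -c → Q w' = -c →
      reflElt Q w * reflElt Q w' ∈ reflectionSubgroup ⇑Q c)
    (w₀ : ι → F) (hw₀ : Q w₀ = -c) (g : ↥(isometryGroup F ⇑Q)) :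
    g ∈ reflectionSubgroup ⇑Q c ∨ reflElt Q w₀ * g ∈ reflectionSubgroup ⇑Q c := by
  obtain ⟨vs, hvs, rfl⟩ := exists_refl_list h2 Q hQ g
  induction vs with
  | nil =>
    left
    rw [List.map_nil, List.prod_nil]
    exact Subgroup.one_mem _
  | cons v vs ih =>
    have hv := hvs v List.mem_cons_self
    have ih' := ih (fun w hw => hvs w (List.mem_cons_of_mem _ hw))
    rw [List.map_cons, List.prod_cons]
    rcases hvals v hv with hvc | hvc
    · rcases ih' with h | h
      · left
        exact Subgroup.mul_mem _ (refl_mem_reflectionSubgroup Q c hc v hvc) h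
      · right
        have e : reflElt Q w₀ * (reflElt Q v * (vs.map (reflElt Q)).prod) =
            (reflElt Q w₀ * reflElt Q v * (reflElt Q w₀)⁻¹) *
              (reflElt Q w₀ * (vs.map (reflElt Q)).prod) := by group
        rw [e]
        exact Subgroup.mul_mem _ (reflectionSubgroup_conj Q c hc _ _
          (refl_mem_reflectionSubgroup Q c hc v hvc)) h
    · rcases ih' with h | h
      · right
        rw [← mul_assoc]
        exact Subgroup.mul_mem _ (hbad w₀ v hw₀ hvc) h
      · left
        have e : reflElt Q v * (vs.map (reflElt Q)).prod =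
            (reflElt Q v * reflElt Q w₀) * (reflElt Q w₀ * (vs.map (reflElt Q)).prod) := by
          rw [mul_assoc, ← mul_assoc (reflElt Q w₀), reflElt_mul_self, one_mul]
        rw [e]
        exact Subgroup.mul_mem _ (hbad v w₀ hvc hw₀) h

theorem reflNorm_index (Q : QuadraticForm F (ι → F)) (c : F) (hc : c ≠ 0)
    (ψ : ↥(isometryGroup F ⇑Q) →* Multiplicative (ZMod 2))
    (hψc : ∀ v, Q v = c → ψ (reflElt Q v) = 1)
    (w₀ : ι → F) (hψb : ψ (reflElt Q w₀) ≠ 1)
    (hdich : ∀ g, g ∈ reflectionSubgroup ⇑Q c ∨ reflElt Q w₀ * g ∈ reflectionSubgroup ⇑Q c) :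
    (reflectionSubgroup ⇑Q c).index = 2 := by
  have hle : reflectionSubgroup ⇑Q c ≤ ψ.ker := by
    show Subgroup.closure _ ≤ _
    rw [Subgroup.closure_le]
    intro g hg
    obtain ⟨v, hv, rfl⟩ := (mem_reflectionsOfNorm Q c hc g).1 hg
    exact hψc v hv
  have hker : reflectionSubgroup ⇑Q c = ψ.ker := by
    apply le_antisymm hle
    intro g hg
    rcases hdich g with h | h
    · exact h
    · have := hle h
      rw [MonoidHom.mem_ker, map_mul, MonoidHom.mem_ker.1 hg, mul_one] at this
      exact absurd this hψb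
  rw [hker]
  exact index_ker_zmod2 ψ _ hψb

theorem reflNorm_index_F3 (h3 : (3 : F) = 0) (hF : ∀ x : F, x = 0 ∨ x = 1 ∨ x = -1)
    (hn : 5 ≤ Fintype.card ι) (Q : QuadraticForm F (ι → F))
    (hQ : (polarBilin Q).Nondegenerate) (c : F) (hc : c ≠ 0) :
    (reflectionSubgroup ⇑Q c).index = 2 := by
  have h2 := two_ne_zero_of_three h3
  have hnsq : ¬ IsSquare (-1 : F) := by
    rintro ⟨r, hr⟩
    rcases hF r with h | h | h
    · rw [h, mul_zero] at hr
      exact neg_ne_zero.2 one_ne_zero hr
    · rw [h, mul_one] at hr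
      apply h2
      linear_combination -hr
    · rw [h] at hr
      apply h2
      linear_combination -hr
  obtain ⟨w₀, hw₀⟩ := exists_rep h2 Q hQ (by omega) (-c) (neg_ne_zero.2 hc)
  have hq₀ : Q w₀ ≠ 0 := by rw [hw₀]; exact neg_ne_zero.2 hc
  have hdich := reflNorm_dichotomy h2 Q hQ c hc (fun v hv => vals_of_F3 hF c (Q v) hc hv)
    (bad_pair_mem h3 hF hn Q hQ c hc) w₀ hw₀
  have hdetne : ∀ v, Q v ≠ 0 → detZ2 h2 Q hQ (reflElt Q v) ≠ 1 := by
    intro v hv h
    rw [detZ2_eq_one_iff, det_refl Q v hv] at h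
    apply h2
    linear_combination -h
  rcases hF c with h | h | h
  · exact absurd h hc
  · -- `c = 1`: the spinor norm
    apply reflNorm_index Q c hc (spinorHom h2 Q hQ) _ w₀ _ hdich
    · intro v hv
      rw [spinorHom_refl_eq_one_iff h2 Q hQ v (by rw [hv]; exact hc), hv, h]
      exact ⟨1, by simp⟩
    · rw [Ne, spinorHom_refl_eq_one_iff h2 Q hQ w₀ hq₀, hw₀, h]
      exact hnsq
  · -- `c = -1`: spinor norm times determinant
    apply reflNorm_index Q c hc (spinorHom h2 Q hQ * detZ2 h2 Q hQ) _ w₀ _ hdich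
    · intro v hv
      have hv0 : Q v ≠ 0 := by rw [hv]; exact hc
      rw [MonoidHom.mul_apply]
      apply zmod2_mul_eq_one _ _ _ (hdetne v hv0)
      rw [Ne, spinorHom_refl_eq_one_iff h2 Q hQ v hv0, hv, h]
      exact hnsq
    · rw [MonoidHom.mul_apply]
      have hs : spinorHom h2 Q hQ (reflElt Q w₀) = 1 := by
        rw [spinorHom_refl_eq_one_iff h2 Q hQ w₀ hq₀, hw₀, h, neg_neg]
        exact ⟨1, by simp⟩
      rw [hs, one_mul]
      exact hdetne w₀ hq₀

end F3

end Cfsg.Agent.Helper16
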