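import Cfsg.Agent.Helper16.NotMax2
import Cfsg.Agent.Helper16.QuadDiag
import Cfsg.Agent.Helper16.ReflNorm

set_option autoImplicit false
open Cfsg

namespace Cfsg.Agent.Helper16

open QuadraticMap Module

section Frame
variable {ι : Type} [Fintype ι] [DecidableEq ι] {F : Type*} [Field F]

/-- vectors of norm `c` lying in a member of the family -/
def normSet (Q : QuadraticForm F (ι → F)) {t : ℕ} (D : Fin t → Submodule F (ι → F)) (c : F) :
    Set (ι → F) :=
  {v | ∃ i, v ∈ D i ∧ Q v = c}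

theorem mem_stabilizing (g : GL ι F) (S : Set (ι → F)) :
    g ∈ stabilizing (glToMat ι F) S ↔ ∀ v, v ∈ S ↔ (g : Matrix ι ι F).mulVec v ∈ S := Iff.rfl

theorem mem_stabilizing_of_maps (g : GL ι F) (S : Set (ι → F))
    (h1 : ∀ v ∈ S, (g : Matrix ι ι F).mulVec v ∈ S)
    (h2 : ∀ v ∈ S, ((g⁻¹ : GL ι F) : Matrix ι ι F).mulVec v ∈ S) :
    g ∈ stabilizing (glToMat ι F) S := by
  rw [mem_stabilizing]
  intro v
  constructor
  · exact h1 v
  · intro hv
    have := h2 _ hv
    rw [Matrix.mulVec_mulVec, ← Units.val_mul, inv_mul_cancel, Units.val_one,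
      Matrix.one_mulVec] at this
    exact this

/-- the reflection swapping two frame vectors of different blocks preserves the norm set -/
theorem swap_refl_maps (h2 : (2 : F) ≠ 0) (Q : QuadraticForm F (ι → F)) {t : ℕ}
    (D : Fin t → Submodule F (ι → F))
    (horth : ∀ i j, i ≠ j → ∀ u ∈ D i, ∀ v ∈ D j, polar Q u v = 0) (c : F) (hc : c ≠ 0)
    (i j : Fin t) (hij : i ≠ j) (a b : ι → F) (ha : a ∈ D i) (hb : b ∈ D j) (hQa : Q a = c)
    (hQb : Q b = c)
    (hHa : ∀ v ∈ D i, Q v = c → v = a ∨ v = -a ∨ polar Q a v = 0)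
    (hHb : ∀ v ∈ D j, Q v = c → v = b ∨ v = -b ∨ polar Q b v = 0)
    (v : ι → F) (hv : v ∈ normSet Q D c) : qrefl Q (a - b) v ∈ normSet Q D c := by
  have hab : polar Q a b = 0 := horth i j hij a ha b hb
  have hQab : Q (a - b) = 2 * c := by
    rw [sub_eq_add_neg, qf_add, QuadraticMap.map_neg, hQa, hQb, polar_neg_right, hab]
    ring
  have h2c : (2 : F) * c ≠ 0 := mul_ne_zero h2 hc
  obtain ⟨l, hvl, hQv⟩ := hv
  have ra : qrefl Q (a - b) a = b := by
    rw [qrefl_apply, hQab, polar_sub_left, qf_polar_self, hQa, polar_comm Q b a, hab]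
    have : (2 * c)⁻¹ * (2 * c - 0) = 1 := by
      rw [sub_zero, inv_mul_cancel₀ h2c]
    rw [this, one_smul]
    abel
  have rb : qrefl Q (a - b) b = a := by
    rw [qrefl_apply, hQab, polar_sub_left, qf_polar_self, hQb, hab]
    have : (2 * c)⁻¹ * (0 - 2 * c) = -1 := by
      rw [zero_sub, mul_neg, inv_mul_cancel₀ h2c]
    rw [this, neg_one_smul]
    abel
  have rfix : ∀ x, polar Q a x = 0 → polar Q b x = 0 → qrefl Q (a - b) x = x := by
    intro x h1 h2'
    exact qrefl_of_orth Q _ _ (by rw [polar_sub_left, h1, h2', sub_zero])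
  by_cases hli : l = i
  · subst hli
    have hbv : polar Q b v = 0 := by
      rw [polar_comm]
      exact horth l j hij v hvl b hb
    rcases hHa v hvl hQv with h | h | h
    · rw [h, ra]
      exact ⟨j, hb, hQb⟩
    · rw [h, map_neg, ra]
      exact ⟨j, (D j).neg_mem hb, by rw [QuadraticMap.map_neg, hQb]⟩
    · rw [rfix v h hbv]
      exact ⟨l, hvl, hQv⟩
  · by_cases hlj : l = j
    · subst hlj
      have hav : polar Q a v = 0 := horth i l hij a ha v hvl
      rcases hHb v hvl hQv with h | h | h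
      · rw [h, rb]
        exact ⟨i, ha, hQa⟩
      · rw [h, map_neg, rb]
        exact ⟨i, (D i).neg_mem ha, by rw [QuadraticMap.map_neg, hQa]⟩
      · rw [rfix v hav h]
        exact ⟨l, hvl, hQv⟩
    · have hav : polar Q a v = 0 := horth i l (Ne.symm hli) a ha v hvl
      have hbv : polar Q b v = 0 := horth j l (Ne.symm hlj) b hb v hvl
      rw [rfix v hav hbv]
      exact ⟨l, hvl, hQv⟩

/-- over the field with three elements, the stabiliser in `Ω` of an orthogonal decomposition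
whose blocks carry distinguished frame vectors is not maximal -/
theorem frame_not_max [Fintype F] (h3 : (3 : F) = 0) (Q : QuadraticForm F (ι → F))
    (hQ : (polarBilin Q).Nondegenerate) {t : ℕ} (D : Fin t → Submodule F (ι → F))
    (horth : ∀ i j, i ≠ j → ∀ u ∈ D i, ∀ v ∈ D j, polar Q u v = 0) (c : F) (hc : c ≠ 0)
    (i₀ i₁ i₂ i₃ : Fin t) (h01 : i₀ ≠ i₁) (h02 : i₀ ≠ i₂) (h03 : i₀ ≠ i₃) (h12 : i₁ ≠ i₂)
    (h13 : i₁ ≠ i₃) (h23 : i₂ ≠ i₃) (a₀ a₁ a₂ a₃ : ι → F)
    (ha₀ : a₀ ∈ D i₀) (ha₁ : a₁ ∈ D i₁) (ha₂ : a₂ ∈ D i₂) (ha₃ : a₃ ∈ D i₃)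
    (hQ₀ : Q a₀ = c) (hQ₁ : Q a₁ = c) (hQ₂ : Q a₂ = c) (hQ₃ : Q a₃ = c)
    (hH₀ : ∀ v ∈ D i₀, Q v = c → v = a₀ ∨ v = -a₀ ∨ polar Q a₀ v = 0)
    (hH₁ : ∀ v ∈ D i₁, Q v = c → v = a₁ ∨ v = -a₁ ∨ polar Q a₁ v = 0)
    (hH₂ : ∀ v ∈ D i₂, Q v = c → v = a₂ ∨ v = -a₂ ∨ polar Q a₂ v = 0)
    (hH₃ : ∀ v ∈ D i₃, Q v = c → v = a₃ ∨ v = -a₃ ∨ polar Q a₃ v = 0)
    (w : ι → F) (hw : w ∈ D i₀) (hwa : polar Q a₀ w = 0) (hQw : Q w ≠ 0) :
    ∃ K : Subgroup (GL ι F), Geo.decompositionStabilizer D ⊓ Geo.omegaGL ⇑Q < K ∧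
      K < Geo.omegaGL ⇑Q := by
  have h2 : (2 : F) ≠ 0 := two_ne_zero_of_three h3
  have h2c : (2 : F) * c ≠ 0 := mul_ne_zero h2 hc
  have p01 : polar Q a₀ a₁ = 0 := horth _ _ h01 _ ha₀ _ ha₁
  have p02 : polar Q a₀ a₂ = 0 := horth _ _ h02 _ ha₀ _ ha₂
  have p03 : polar Q a₀ a₃ = 0 := horth _ _ h03 _ ha₀ _ ha₃
  have p12 : polar Q a₁ a₂ = 0 := horth _ _ h12 _ ha₁ _ ha₂
  have p13 : polar Q a₁ a₃ = 0 := horth _ _ h13 _ ha₁ _ ha₃
  have p23 : polar Q a₂ a₃ = 0 := horth _ _ h23 _ ha₂ _ ha₃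
  have pw1 : polar Q a₁ w = 0 := horth _ _ (Ne.symm h01) _ ha₁ _ hw
  have pw2 : polar Q a₂ w = 0 := horth _ _ (Ne.symm h02) _ ha₂ _ hw
  have pw3 : polar Q a₃ w = 0 := horth _ _ (Ne.symm h03) _ ha₃ _ hw
  have hQ01 : Q (a₀ - a₁) = 2 * c := by
    rw [sub_eq_add_neg, qf_add, QuadraticMap.map_neg, hQ₀, hQ₁, polar_neg_right, p01]
    ring
  have hQ23 : Q (a₂ - a₃) = 2 * c := by
    rw [sub_eq_add_neg, qf_add, QuadraticMap.map_neg, hQ₂, hQ₃, polar_neg_right, p23]
    ring
  have hne01 : Q (a₀ - a₁) ≠ 0 := by rw [hQ01]; exact h2c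
  have hne23 : Q (a₂ - a₃) ≠ 0 := by rw [hQ23]; exact h2c
  refine ⟨stabilizing (glToMat ι F) (normSet Q D c) ⊓ Geo.omegaGL ⇑Q, ?_, ?_⟩
  · rw [SetLike.lt_iff_le_and_exists]
    constructor
    · rintro g ⟨⟨σ, hσ⟩, hgΩ⟩
      obtain ⟨g', hg', rfl⟩ := exists_of_mem_omegaGL ⇑Q g hgΩ
      refine ⟨(mem_stabilizing _ _).2 ?_, hgΩ⟩
      intro v
      constructor
      · rintro ⟨i, hvi, hQv⟩
        refine ⟨σ i, ?_, ?_⟩
        · rw [← hσ i, map_toLin'_eq_mapG]
          exact (mem_mapG _ _ _).2 ⟨v, hvi, rfl⟩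
        · rw [(mem_isometryGroup_iff _ _).1 g'.2 v, hQv]
      · rintro ⟨j, hvj, hQv⟩
        have hj := hσ (σ.symm j)
        rw [Equiv.apply_symm_apply, map_toLin'_eq_mapG] at hj
        rw [← hj] at hvj
        obtain ⟨e, he, hev⟩ := (mem_mapG _ _ _).1 hvj
        have hev' : e = v := mulVecLin_injective _ hev
        refine ⟨σ.symm j, hev' ▸ he, ?_⟩
        rw [← (mem_isometryGroup_iff _ _).1 g'.2 v]
        exact hQv
    · have hgS : ∀ v ∈ normSet Q D c,
          act ⇑Q (reflElt Q (a₀ - a₁) * reflElt Q (a₂ - a₃)) v ∈ normSet Q D c := by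
        intro v hv
        rw [act_mul, act_refl Q (a₂ - a₃) hne23, act_refl Q (a₀ - a₁) hne01]
        exact swap_refl_maps h2 Q D horth c hc i₀ i₁ h01 a₀ a₁ ha₀ ha₁ hQ₀ hQ₁ hH₀ hH₁ _
          (swap_refl_maps h2 Q D horth c hc i₂ i₃ h23 a₂ a₃ ha₂ ha₃ hQ₂ hQ₃ hH₂ hH₃ v hv)
      have hgS' : ∀ v ∈ normSet Q D c,
          act ⇑Q (reflElt Q (a₀ - a₁) * reflElt Q (a₂ - a₃))⁻¹ v ∈ normSet Q D c := by
        intro v hv
        rw [mul_inv_rev, reflElt_inv, reflElt_inv, act_mul, act_refl Q (a₀ - a₁) hne01,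
          act_refl Q (a₂ - a₃) hne23]
        exact swap_refl_maps h2 Q D horth c hc i₂ i₃ h23 a₂ a₃ ha₂ ha₃ hQ₂ hQ₃ hH₂ hH₃ _
          (swap_refl_maps h2 Q D horth c hc i₀ i₁ h01 a₀ a₁ ha₀ ha₁ hQ₀ hQ₁ hH₀ hH₁ v hv)
      refine ⟨((reflElt Q (a₀ - a₁) * reflElt Q (a₂ - a₃) : ↥(isometryGroup F ⇑Q)) : GL ι F),
        ⟨mem_stabilizing_of_maps _ _ hgS hgS', mem_omegaGL _ _ (refl_pair_mem_Omega Q hQ _ _
          hne01 (by rw [hQ23, hQ01]))⟩, ?_⟩
      rintro ⟨⟨σ, hσ⟩, -⟩
      have h0 := hσ i₀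
      rw [map_toLin'_eq_mapG] at h0
      have hga : act ⇑Q (reflElt Q (a₀ - a₁) * reflElt Q (a₂ - a₃)) a₀ = a₁ := by
        rw [act_mul, act_refl Q (a₂ - a₃) hne23, qrefl_of_orth Q _ _ (by
          rw [polar_sub_left, polar_comm Q a₂ a₀, polar_comm Q a₃ a₀, p02, p03, sub_zero]),
          act_refl Q (a₀ - a₁) hne01, qrefl_apply, hQ01, polar_sub_left, qf_polar_self, hQ₀,
          polar_comm Q a₁ a₀, p01]
        have : (2 * c)⁻¹ * (2 * c - 0) = 1 := by
          rw [sub_zero, inv_mul_cancel₀ h2c]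
        rw [this, one_smul]
        abel
      have hgw : act ⇑Q (reflElt Q (a₀ - a₁) * reflElt Q (a₂ - a₃)) w = w := by
        rw [act_mul, act_refl Q (a₂ - a₃) hne23, qrefl_of_orth Q _ _ (by
          rw [polar_sub_left, pw2, pw3, sub_zero]),
          act_refl Q (a₀ - a₁) hne01, qrefl_of_orth Q _ _ (by
          rw [polar_sub_left, hwa, pw1, sub_zero])]
      have h1 : a₁ ∈ D (σ i₀) := by
        rw [← h0]
        exact (mem_mapG _ _ _).2 ⟨a₀, ha₀, hga⟩
      have h2' : w ∈ D (σ i₀) := by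
        rw [← h0]
        exact (mem_mapG _ _ _).2 ⟨w, hw, hgw⟩
      have hs1 : σ i₀ = i₁ := by
        by_contra hne
        have := horth _ _ hne a₁ h1 a₁ ha₁
        rw [qf_polar_self, hQ₁] at this
        exact h2c this
      have hs0 : σ i₀ = i₀ := by
        by_contra hne
        have := horth _ _ hne w h2' w hw
        rw [qf_polar_self] at this
        exact (mul_ne_zero h2 hQw) this
      exact h01 (hs0.symm.trans hs1)
  · rw [SetLike.lt_iff_le_and_exists]
    refine ⟨inf_le_right, ?_⟩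
    have hQz : Q (a₀ + a₁ + a₂ + a₃) = c := by
      rw [qf_add, qf_add, qf_add, polar_add_left, polar_add_left, polar_add_left, hQ₀, hQ₁, hQ₂,
        hQ₃, p01, p02, p03, p12, p13, p23]
      linear_combination c * h3
    have hz0 : Q (a₀ + a₁ + a₂ + a₃) ≠ 0 := by rw [hQz]; exact hc
    have hc1 : Q a₁ ≠ 0 := by rw [hQ₁]; exact hc
    refine ⟨((reflElt Q (a₀ + a₁ + a₂ + a₃) * reflElt Q a₁ : ↥(isometryGroup F ⇑Q)) : GL ι F),
      mem_omegaGL _ _ (refl_pair_mem_Omega Q hQ _ _ hz0 (by rw [hQz, hQ₁])), ?_⟩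
    rintro ⟨hmem, -⟩
    have h1 : act ⇑Q (reflElt Q (a₀ + a₁ + a₂ + a₃) * reflElt Q a₁) a₀ ∈ normSet Q D c :=
      ((mem_stabilizing _ _).1 hmem a₀).1 ⟨i₀, ha₀, hQ₀⟩
    have hga : act ⇑Q (reflElt Q (a₀ + a₁ + a₂ + a₃) * reflElt Q a₁) a₀ =
        a₀ + (a₀ + a₁ + a₂ + a₃) := by
      rw [act_mul, act_refl Q a₁ hc1, qrefl_of_orth Q _ _ (by rw [polar_comm]; exact p01),
        act_refl Q _ hz0, qrefl_apply, hQz]
      have hp : polar Q (a₀ + a₁ + a₂ + a₃) a₀ = 2 * c := by
        rw [polar_add_left, polar_add_left, polar_add_left, qf_polar_self, hQ₀,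
          polar_comm Q a₁ a₀, polar_comm Q a₂ a₀, polar_comm Q a₃ a₀, p01, p02, p03]
        ring
      rw [hp]
      have : c⁻¹ * (2 * c) = -1 := by
        field_simp
        linear_combination h3
      rw [this, neg_one_smul]
      abel
    rw [hga] at h1
    obtain ⟨j, hj, -⟩ := h1
    have hj0 : j = i₀ := by
      by_contra hne
      have := horth _ _ hne _ hj a₀ ha₀
      rw [polar_add_left, polar_add_left, polar_add_left, polar_add_left, qf_polar_self, hQ₀,
        polar_comm Q a₁ a₀, polar_comm Q a₂ a₀, polar_comm Q a₃ a₀, p01, p02, p03] at this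
      apply hc
      linear_combination this - c * h3
    have hj1 : j = i₁ := by
      by_contra hne
      have := horth _ _ hne _ hj a₁ ha₁
      rw [polar_add_left, polar_add_left, polar_add_left, polar_add_left, qf_polar_self, hQ₁,
        p01, polar_comm Q a₂ a₁, polar_comm Q a₃ a₁, p12, p13] at this
      apply h2c
      linear_combination this
    exact h01 (hj0.symm.trans hj1)

theorem finrank_biSup_le {V : Type*} [AddCommGroup V] [Module F V] [FiniteDimensional F V]
    {κ : Type*} [DecidableEq κ] (D : κ → Submodule F V) (k : ℕ) (h : ∀ i, finrank F (D i) ≤ k)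
    (s : Finset κ) : finrank F (⨆ i ∈ s, D i : Submodule F V) ≤ s.card * k := by
  induction s using Finset.induction_on with
  | empty => simp
  | insert a s ha ih =>
    rw [Finset.iSup_insert, Finset.card_insert_of_notMem ha]
    have h1 := Submodule.finrank_add_le_finrank_add_finrank (D a) (⨆ i ∈ s, D i)
    have h2 := h a
    have h3 : (s.card + 1) * k = s.card * k + k := by ring
    omega

/-- a distinguished frame vector in a non-degenerate space of dimension two or three over the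
field with three elements -/
theorem exists_frame_vec [Fintype F] (hq : Fintype.card F = 3) {V : Type*} [AddCommGroup V]
    [Module F V] [FiniteDimensional F V] (Q : QuadraticForm F V)
    (hQ : (polarBilin Q).Nondegenerate) (hV : finrank F V = 2 ∨ finrank F V = 3) :
    ∃ (a w : V) (c : F), c ≠ 0 ∧ Q a = c ∧ polar Q a w = 0 ∧ Q w ≠ 0 ∧
      ∀ v, Q v = c → v = a ∨ v = -a ∨ polar Q a v = 0 := by
  have h3 : (3 : F) = 0 := by
    have := Nat.cast_card_eq_zero F
    rw [hq] at this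
    exact_mod_cast this
  have h2 : (2 : F) ≠ 0 := two_ne_zero_of_three h3
  have hsq := sq_eq_one_of_card_le_three (F := F) (by rw [hq])
  have hpm : ∀ y : F, y * y = 1 → y = 1 ∨ y = -1 := by
    intro y hy
    have : (y - 1) * (y + 1) = 0 := by linear_combination hy
    rcases mul_eq_zero.1 this with h | h
    · left
      linear_combination h
    · right
      linear_combination h
  rcases hV with hV | hV
  · obtain ⟨d, hd, hb⟩ := exists_diag_basis h2 Q hQ (n := 1) hV
    obtain ⟨b, horth, hval⟩ := hb 1 one_ne_zero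
    have hQ0 : Q (b 0) = 1 := by
      have := hval 0
      simpa using this
    have hQ1 : Q (b 1) = d := by
      have := hval 1
      simpa using this
    have h01 : polar Q (b 0) (b 1) = 0 := horth 0 1 (by decide)
    have h10 : polar Q (b 1) (b 0) = 0 := horth 1 0 (by decide)
    refine ⟨b 1, b 0, d, hd, hQ1, h10, by rw [hQ0]; exact one_ne_zero, ?_⟩
    intro v hv
    have hrep := b.sum_repr v
    rw [Fin.sum_univ_two] at hrep
    generalize b.repr v 0 = x at hrep
    generalize b.repr v 1 = y at hrep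
    rw [← hrep] at hv ⊢
    rw [qf_lin2, hQ0, hQ1, h01] at hv
    by_cases hy : y = 0
    · right
      right
      rw [polar_add_right, polar_smul_right, polar_smul_right, h10, hy]
      simp
    · have hy1 := hsq y hy
      have hx : x = 0 := by
        have : x * x = 0 := by linear_combination hv - d * hy1
        exact mul_self_eq_zero.1 this
      rcases hpm y hy1 with h | h
      · left
        rw [hx, h]
        simp
      · right
        left
        rw [hx, h]
        simp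
  · obtain ⟨d, hd, hb⟩ := exists_diag_basis h2 Q hQ (n := 2) hV
    obtain ⟨b, horth, hval⟩ := hb 1 one_ne_zero
    have hQ0 : Q (b 0) = 1 := by
      have := hval 0
      simpa using this
    have hQ1 : Q (b 1) = 1 := by
      have := hval 1
      simpa using this
    have hQ2 : Q (b 2) = d := by
      have := hval 2
      simpa using this
    have h01 : polar Q (b 0) (b 1) = 0 := horth 0 1 (by decide)
    have h02 : polar Q (b 0) (b 2) = 0 := horth 0 2 (by decide)
    have h12 : polar Q (b 1) (b 2) = 0 := horth 1 2 (by decide)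
    have h20 : polar Q (b 2) (b 0) = 0 := horth 2 0 (by decide)
    have h21 : polar Q (b 2) (b 1) = 0 := horth 2 1 (by decide)
    refine ⟨b 2, b 0, d, hd, hQ2, h20, by rw [hQ0]; exact one_ne_zero, ?_⟩
    intro v hv
    have hrep := b.sum_repr v
    rw [Fin.sum_univ_three] at hrep
    generalize b.repr v 0 = x at hrep
    generalize b.repr v 1 = y at hrep
    generalize b.repr v 2 = z at hrep
    rw [← hrep] at hv ⊢
    rw [qf_add, qf_lin2, qf_smul, hQ0, hQ1, hQ2, h01, polar_add_left, polar_smul_left,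
      polar_smul_left, polar_smul_right, polar_smul_right, h02, h12] at hv
    simp only [smul_eq_mul, mul_zero, add_zero, mul_one] at hv
    by_cases hz : z = 0
    · right
      right
      rw [polar_add_right, polar_add_right, polar_smul_right, polar_smul_right, polar_smul_right,
        h20, h21, hz]
      simp
    · have hz1 := hsq z hz
      have hxy : x * x + y * y = 0 := by linear_combination hv - d * hz1
      have hx : x = 0 := by
        by_contra hx
        have hx1 := hsq x hx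
        have hy : y ≠ 0 := by
          rintro rfl
          rw [hx1] at hxy
          simp at hxy
        have hy1 := hsq y hy
        apply h2
        linear_combination hxy - hx1 - hy1
      have hy : y = 0 := by
        rw [hx] at hxy
        simp at hxy
        exact hxy
      rcases hpm z hz1 with h | h
      · left
        rw [hx, hy, h]
        simp
      · right
        left
        rw [hx, hy, h]
        simp

/-- transport of a frame vector along an isometry of subspaces -/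
theorem frame_transport (Q : QuadraticForm F (ι → F)) (U U' : Submodule F (ι → F))
    (e : U ≃ₗ[F] U') (he : ∀ w : U, Q ((e w : U') : ι → F) = Q (w : ι → F))
    (a : ι → F) (ha : a ∈ U) (c : F) (hQa : Q a = c)
    (hH : ∀ v ∈ U, Q v = c → v = a ∨ v = -a ∨ polar Q a v = 0) :
    ∃ a' ∈ U', Q a' = c ∧ ∀ v ∈ U', Q v = c → v = a' ∨ v = -a' ∨ polar Q a' v = 0 := by
  have hpol : ∀ x y : U, polar Q ((e x : U') : ι → F) ((e y : U') : ι → F) =
      polar Q (x : ι → F) (y : ι → F) := by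
    intro x y
    unfold polar
    rw [← Submodule.coe_add, ← map_add, he, he, he, Submodule.coe_add]
  refine ⟨(e ⟨a, ha⟩ : U'), (e ⟨a, ha⟩).2, by rw [he]; exact hQa, ?_⟩
  intro v hv hQv
  have hx : e (e.symm ⟨v, hv⟩) = ⟨v, hv⟩ := e.apply_symm_apply _
  have hx' : ((e (e.symm ⟨v, hv⟩) : U') : ι → F) = v := by rw [hx]
  have hQx : Q ((e.symm ⟨v, hv⟩ : U) : ι → F) = c := by rw [← he, hx']; exact hQv
  rcases hH _ (e.symm ⟨v, hv⟩).2 hQx with h | h | h
  · left
    rw [← hx']
    congr 2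
    exact Subtype.ext h
  · right
    left
    rw [← hx']
    have : e.symm ⟨v, hv⟩ = -⟨a, ha⟩ := Subtype.ext h
    rw [this, map_neg]
    rfl
  · right
    right
    rw [← hx', hpol]
    exact h

/-- over the field with three elements, the stabiliser in `Ω` of a decomposition into pairwise
orthogonal isometric non-degenerate subspaces of dimension two or three is not maximal -/
theorem frame_decomp_not_max [Fintype F] (hq : Fintype.card F = 3) (Q : QuadraticForm F (ι → F))
    (hQ : (polarBilin Q).Nondegenerate) {t : ℕ} (k : ℕ) (hk : k = 2 ∨ k = 3)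
    (hn : 13 ≤ Fintype.card ι) (D : Fin t → Submodule F (ι → F))
    (hD : Geo.IsOrthogonalMDecomposition ⇑Q k D) :
    ∃ K : Subgroup (GL ι F), Geo.decompositionStabilizer D ⊓ Geo.omegaGL ⇑Q < K ∧
      K < Geo.omegaGL ⇑Q := by
  have h3 : (3 : F) = 0 := by
    have := Nat.cast_card_eq_zero F
    rw [hq] at this
    exact_mod_cast this
  have ht : 5 ≤ t := by
    have h1 := finrank_biSup_le D k (fun i => (hD.decomp.decomp.finrank_eq i).le) Finset.univ
    have h2 : (⨆ i ∈ (Finset.univ : Finset (Fin t)), D i) = ⊤ := by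
      rw [← hD.decomp.decomp.iSup_eq_top]
      simp
    rw [h2, finrank_top, Module.finrank_fintype_fun_eq_card, Finset.card_univ,
      Fintype.card_fin] at h1
    have h4 : t * k ≤ t * 3 := Nat.mul_le_mul_left t (by omega)
    omega
  have horth : ∀ i j, i ≠ j → ∀ u ∈ D i, ∀ v ∈ D j, polar Q u v = 0 :=
    fun i j hij u hu v hv => hD.decomp.orthogonal i j hij u hu v hv
  -- the frame vector of the first block
  have hnd : (polarBilin (Q.comp (D ⟨0, by omega⟩).subtype)).Nondegenerate := by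
    apply ((polarBilin_isSymm _).isRefl.nondegenerate_iff_separatingLeft).2
    intro x hx
    by_contra hx0
    have hx0' : (x : ι → F) ≠ 0 := fun h => hx0 (Subtype.ext h)
    obtain ⟨-, ⟨y, hy, hxy⟩⟩ := hD.decomp.nondegenerate ⟨0, by omega⟩ (x : ι → F) x.2 hx0'
    apply hxy
    have := hx ⟨y, hy⟩
    exact this
  obtain ⟨a', w', c, hc, hQa', haw', hQw', hH'⟩ := exists_frame_vec hq
    (Q.comp (D ⟨0, by omega⟩).subtype) hnd (by
      rw [hD.decomp.decomp.finrank_eq]
      exact hk)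
  have hH₀ : ∀ v ∈ D ⟨0, by omega⟩, Q v = c → v = (a' : ι → F) ∨ v = -(a' : ι → F) ∨
      polar Q (a' : ι → F) v = 0 := by
    intro v hv hQv
    rcases hH' ⟨v, hv⟩ hQv with h | h | h
    · left
      exact congrArg Subtype.val h
    · right
      left
      exact congrArg Subtype.val h
    · right
      right
      exact h
  obtain ⟨a₁, ha₁, hQ₁, hH₁⟩ := (hD.isometric ⟨0, by omega⟩ ⟨1, by omega⟩).elim fun e he =>
    frame_transport Q _ _ e he (a' : ι → F) a'.2 c hQa' hH₀
  obtain ⟨a₂, ha₂, hQ₂, hH₂⟩ := (hD.isometric ⟨0, by omega⟩ ⟨2, by omega⟩).elim fun e he =>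
    frame_transport Q _ _ e he (a' : ι → F) a'.2 c hQa' hH₀
  obtain ⟨a₃, ha₃, hQ₃, hH₃⟩ := (hD.isometric ⟨0, by omega⟩ ⟨3, by omega⟩).elim fun e he =>
    frame_transport Q _ _ e he (a' : ι → F) a'.2 c hQa' hH₀
  exact frame_not_max h3 Q hQ D horth c hc ⟨0, by omega⟩ ⟨1, by omega⟩ ⟨2, by omega⟩
    ⟨3, by omega⟩ (by simp [Fin.ext_iff]) (by simp [Fin.ext_iff]) (by simp [Fin.ext_iff])
    (by simp [Fin.ext_iff]) (by simp [Fin.ext_iff]) (by simp [Fin.ext_iff])
    (a' : ι → F) a₁ a₂ a₃ a'.2 ha₁ ha₂ ha₃ hQa' hQ₁ hQ₂ hQ₃ hH₀ hH₁ hH₂ hH₃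
    (w' : ι → F) w'.2 haw' hQw'

end Frame

end Cfsg.Agent.Helper16
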