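import Mathlib

set_option autoImplicit false

namespace Cfsg.Agent.Helper16

/-- **Frobenius kernel for an abelian self-normalising TI `p`-subgroup** (via Burnside transfer).
Let `X` be a finite group and `P` an abelian `p`-subgroup such that `N_X(P) ≤ P` and
`C_X(s) ≤ P` for every `1 ≠ s ∈ P`.  Then there is a subgroup `K` with `K ⊓ P = ⊥` such that every
element outside `K` is conjugate to an element of `P`. -/
theorem frob_kernel {X : Type*} [Group X] [Finite X] (p : ℕ) [Fact p.Prime] (P : Subgroup X)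
    (hp : IsPGroup p P) (hc : ∀ a ∈ P, ∀ b ∈ P, a * b = b * a)
    (hN : ∀ g : X, (∀ s ∈ P, g * s * g⁻¹ ∈ P) → g ∈ P)
    (hC : ∀ s ∈ P, s ≠ 1 → ∀ g : X, g * s * g⁻¹ = s → g ∈ P) :
    ∃ K : Subgroup X, K ⊓ P = ⊥ ∧ ∀ x, x ∉ K → ∃ g : X, ∃ s ∈ P, x = g * s * g⁻¹ := by
  classical
  obtain ⟨Q, hQ⟩ := hp.exists_le_sylow
  -- `Q = P`
  have hQP : (Q : Subgroup X) ≤ P := by
    have hnil : Group.IsNilpotent (Q : Subgroup X) := Q.2.isNilpotent
    have hnc : NormalizerCondition (Q : Subgroup X) := Group.normalizerCondition_of_isNilpotent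
    rw [normalizerCondition_iff_only_full_group_self_normalizing] at hnc
    have h1 : P.subgroupOf (Q : Subgroup X) = ⊤ := by
      apply hnc
      apply le_antisymm _ Subgroup.le_normalizer
      intro q hq
      rw [Subgroup.mem_normalizer_iff] at hq
      rw [Subgroup.mem_subgroupOf]
      apply hN
      intro s hs
      have h2 := (hq ⟨s, hQ hs⟩).1 (by rw [Subgroup.mem_subgroupOf]; exact hs)
      rw [Subgroup.mem_subgroupOf] at h2
      exact h2
    exact Subgroup.subgroupOf_eq_top.mp h1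
  have hQeq : (Q : Subgroup X) = P := le_antisymm hQP hQ
  have hNC : Subgroup.normalizer ((Q : Subgroup X) : Set X)
      ≤ Subgroup.centralizer ((Q : Subgroup X) : Set X) := by
    intro g hg
    rw [Subgroup.mem_normalizer_iff] at hg
    have hgP : g ∈ P := by
      apply hN
      intro s hs
      have h2 := (hg s).1 (hQ hs)
      exact hQP h2
    rw [Subgroup.mem_centralizer_iff]
    intro h hh
    exact hc h (hQP hh) g hgP
  obtain ⟨K, hK⟩ : ∃ K : Subgroup X, K = (MonoidHom.transferSylow Q hNC).ker := ⟨_, rfl⟩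
  have hKn : K.Normal := by rw [hK]; infer_instance
  have hcomp : Subgroup.IsComplement' K (Q : Subgroup X) := by
    rw [hK]
    exact MonoidHom.ker_transferSylow_isComplement' Q hNC
  have hdisj : K ⊓ P = ⊥ := by
    have := hcomp.disjoint
    rw [hQeq] at this
    exact disjoint_iff.mp this
  refine ⟨K, hdisj, ?_⟩
  intro x hx
  obtain ⟨⟨⟨k, hk⟩, ⟨s, hs⟩⟩, hks, -⟩ := (Subgroup.isComplement'_def.mp hcomp).existsUnique x
  have hks' : k * s = x := hks
  have hsP : s ∈ P := hQP hs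
  have hs1 : s ≠ 1 := by
    rintro rfl
    apply hx
    rw [← hks', mul_one]
    exact hk
  -- the map `g ↦ g s g⁻¹ s⁻¹` on `K`
  have hmem : ∀ g : K, (g : X) * s * (g : X)⁻¹ * s⁻¹ ∈ K := by
    intro g
    have h1 : s * (g : X)⁻¹ * s⁻¹ ∈ K := hKn.conj_mem _ (K.inv_mem g.2) s
    have h2 := K.mul_mem g.2 h1
    have e : (g : X) * (s * (g : X)⁻¹ * s⁻¹) = (g : X) * s * (g : X)⁻¹ * s⁻¹ := by group
    rwa [e] at h2
  have hinj : Function.Injective (fun g : K => (⟨(g : X) * s * (g : X)⁻¹ * s⁻¹, hmem g⟩ : K)) := by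
    intro g g' hgg
    have h1 : (g : X) * s * (g : X)⁻¹ * s⁻¹ = (g' : X) * s * (g' : X)⁻¹ * s⁻¹ :=
      congrArg Subtype.val hgg
    have h2 : ((g' : X)⁻¹ * (g : X)) * s * ((g' : X)⁻¹ * (g : X))⁻¹ = s := by
      have h3 : (g : X) * s * (g : X)⁻¹ = (g' : X) * s * (g' : X)⁻¹ := mul_right_cancel h1
      calc ((g' : X)⁻¹ * (g : X)) * s * ((g' : X)⁻¹ * (g : X))⁻¹
          = (g' : X)⁻¹ * ((g : X) * s * (g : X)⁻¹) * (g' : X) := by group
        _ = (g' : X)⁻¹ * ((g' : X) * s * (g' : X)⁻¹) * (g' : X) := by rw [h3]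
        _ = s := by group
    have h4 : (g' : X)⁻¹ * (g : X) ∈ P := hC s hsP hs1 _ h2
    have h5 : (g' : X)⁻¹ * (g : X) ∈ K := K.mul_mem (K.inv_mem g'.2) g.2
    have h6 : (g' : X)⁻¹ * (g : X) ∈ K ⊓ P := ⟨h5, h4⟩
    rw [hdisj, Subgroup.mem_bot] at h6
    apply Subtype.ext
    have h7 : (g : X) = (g' : X) := by
      have := congrArg (fun t => (g' : X) * t) h6
      simpa using this
    exact h7
  have hsurj := Finite.injective_iff_surjective.mp hinj
  obtain ⟨g, hg⟩ := hsurj ⟨k, hk⟩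
  have hg' : (g : X) * s * (g : X)⁻¹ * s⁻¹ = k := congrArg Subtype.val hg
  refine ⟨(g : X), s, hsP, ?_⟩
  rw [← hks', ← hg']
  group

end Cfsg.Agent.Helper16
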