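import Cfsg.Agent.Helper16.PermIso
import Cfsg.Agent.Helper16.IndexTwo

set_option autoImplicit false
open Cfsg

namespace Cfsg.Agent.Helper16

open QuadraticMap
open scoped commutatorElement

section GLEmbed
variable {m : ℕ} {F : Type*} [Field F]

/-- block-diagonal matrix `diag(A, A⁻ᵀ)` -/
def blockMat (A : GL (Fin m) F) : Matrix (Fin m ⊕ Fin m) (Fin m ⊕ Fin m) F :=
  Matrix.fromBlocks (A : Matrix (Fin m) (Fin m) F) 0 0
    ((A⁻¹ : GL (Fin m) F) : Matrix (Fin m) (Fin m) F).transpose

theorem blockMat_eq (A : GL (Fin m) F) :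
    blockMat A = Matrix.fromBlocks (A : Matrix (Fin m) (Fin m) F) 0 0
      ((A : Matrix (Fin m) (Fin m) F)⁻¹).transpose := by
  unfold blockMat
  rw [Matrix.coe_units_inv]

theorem blockMat_mul (A B : GL (Fin m) F) : blockMat (A * B) = blockMat A * blockMat B := by
  unfold blockMat
  rw [Matrix.fromBlocks_multiply, mul_inv_rev, Units.val_mul, Units.val_mul, Matrix.transpose_mul]
  simp

theorem blockMat_one : blockMat (1 : GL (Fin m) F) = 1 := by
  unfold blockMat
  rw [inv_one, Units.val_one, Matrix.transpose_one, Matrix.fromBlocks_one]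

theorem blockMat_mulVec_inl (A : GL (Fin m) F) (v : Fin m ⊕ Fin m → F) :
    ((blockMat A).mulVec v) ∘ Sum.inl = (A : Matrix (Fin m) (Fin m) F).mulVec (v ∘ Sum.inl) := by
  unfold blockMat
  rw [Matrix.fromBlocks_mulVec]
  funext i
  simp

theorem blockMat_mulVec_inr (A : GL (Fin m) F) (v : Fin m ⊕ Fin m → F) :
    ((blockMat A).mulVec v) ∘ Sum.inr =
      (((A⁻¹ : GL (Fin m) F) : Matrix (Fin m) (Fin m) F).transpose).mulVec (v ∘ Sum.inr) := by
  unfold blockMat
  rw [Matrix.fromBlocks_mulVec]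
  funext i
  simp

theorem quadFormPlus_eq_dot (v : Fin m ⊕ Fin m → F) :
    quadFormPlus m F v = (v ∘ Sum.inl) ⬝ᵥ (v ∘ Sum.inr) := rfl

theorem quadFormPlus_blockMat (A : GL (Fin m) F) (v : Fin m ⊕ Fin m → F) :
    quadFormPlus m F ((blockMat A).mulVec v) = quadFormPlus m F v := by
  rw [quadFormPlus_eq_dot, quadFormPlus_eq_dot, blockMat_mulVec_inl, blockMat_mulVec_inr,
    dotProduct_comm, Matrix.mulVec_transpose, Matrix.dotProduct_mulVec, Matrix.vecMul_vecMul,
    ← Units.val_mul, inv_mul_cancel, Units.val_one, Matrix.vecMul_one, dotProduct_comm]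

/-- the embedding `A ↦ diag(A, A⁻ᵀ)` of `GL_m` in the orthogonal group of the hyperbolic form -/
noncomputable def glEmbed (m : ℕ) (F : Type*) [Field F] :
    GL (Fin m) F →* ↥(isometryGroup F (quadFormPlus m F)) where
  toFun A := ⟨⟨blockMat A, blockMat A⁻¹, by rw [← blockMat_mul, mul_inv_cancel, blockMat_one],
    by rw [← blockMat_mul, inv_mul_cancel, blockMat_one]⟩,
    (mem_isometryGroup_iff _ _).2 (quadFormPlus_blockMat A)⟩
  map_one' := isom_ext _ _ _ blockMat_one
  map_mul' A B := isom_ext _ _ _ (blockMat_mul A B)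

theorem glEmbed_coe (A : GL (Fin m) F) :
    ((glEmbed m F A : GL (Fin m ⊕ Fin m) F) : Matrix (Fin m ⊕ Fin m) (Fin m ⊕ Fin m) F) =
      blockMat A := rfl

/-- the diagonal embedding -/
noncomputable def dg (m : ℕ) (F : Type*) [Field F] : (Fin m → Fˣ) →* GL (Fin m) F where
  toFun d := ⟨Matrix.diagonal (fun i => (d i : F)), Matrix.diagonal (fun i => ((d i)⁻¹ : Fˣ)),
    by rw [Matrix.diagonal_mul_diagonal]; simp, by rw [Matrix.diagonal_mul_diagonal]; simp⟩
  map_one' := Units.ext (by simp)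
  map_mul' a b := Units.ext (by
    show Matrix.diagonal (fun i => ((a i * b i : Fˣ) : F)) = Matrix.diagonal (fun i => (a i : F)) *
      Matrix.diagonal (fun i => (b i : F))
    rw [Matrix.diagonal_mul_diagonal]
    simp)

theorem dg_coe (d : Fin m → Fˣ) :
    ((dg m F d : GL (Fin m) F) : Matrix (Fin m) (Fin m) F) =
      Matrix.diagonal (fun i => (d i : F)) := rfl

/-- elementary transvections as elements of `GL` -/
def tv (i j : Fin m) (hij : i ≠ j) (c : F) : GL (Fin m) F :=
  ⟨Matrix.transvection i j c, Matrix.transvection i j (-c),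
    by rw [Matrix.transvection_mul_transvection_same _ _ hij, add_neg_cancel,
      Matrix.transvection_zero],
    by rw [Matrix.transvection_mul_transvection_same _ _ hij, neg_add_cancel,
      Matrix.transvection_zero]⟩

theorem tv_coe (i j : Fin m) (hij : i ≠ j) (c : F) :
    ((tv i j hij c : GL (Fin m) F) : Matrix (Fin m) (Fin m) F) = Matrix.transvection i j c := rfl

/-- the subgroup of `GL_m` mapping into `Ω` -/
noncomputable def NGrp (m : ℕ) (F : Type*) [Field F] : Subgroup (GL (Fin m) F) :=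
  (Omega F (quadFormPlus m F)).comap (glEmbed m F)

theorem mem_NGrp (A : GL (Fin m) F) : A ∈ NGrp m F ↔ glEmbed m F A ∈ Omega F (quadFormPlus m F) :=
  Iff.rfl

theorem commutator_mem_NGrp (A B : GL (Fin m) F) : ⁅A, B⁆ ∈ NGrp m F := by
  rw [mem_NGrp, map_commutatorElement]
  exact Subgroup.commutator_mem_commutator (Subgroup.mem_top _) (Subgroup.mem_top _)

end GLEmbed

end Cfsg.Agent.Helper16
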