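import Cfsg.Agent.Helper16.GLEmbed
import Cfsg.Agent.S0836

set_option autoImplicit false
open Cfsg

namespace Cfsg.Agent.Helper16

open QuadraticMap
open scoped commutatorElement

section GLEmbed2
variable {m : ℕ} {F : Type*} [Field F]

instance NGrp_normal : (NGrp m F).Normal := by
  unfold NGrp
  infer_instance

theorem tv_mem_NGrp_of_comm (hn : 3 ≤ m ∨ (m = 2 ∧ ∃ x : F, x ≠ 0 ∧ x ^ 2 ≠ 1)) (i j : Fin m)
    (hij : i ≠ j) (c : F) : tv i j hij c ∈ NGrp m F := by
  have h := Cfsg.Agent.S0836.result m hn i j hij c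
    ⟨Matrix.transvection i j c, Matrix.det_transvection_of_ne i j hij c⟩ rfl
  obtain ⟨g₁, g₂, hg⟩ := h
  have h1 : tv i j hij c = ⁅Matrix.SpecialLinearGroup.toGL g₁, Matrix.SpecialLinearGroup.toGL g₂⁆ := by
    rw [← map_commutatorElement, hg]
    exact Units.ext rfl
  rw [h1]
  exact commutator_mem_NGrp _ _

theorem blockMat_dg_mulVec (d : Fin m → Fˣ) (v : Fin m ⊕ Fin m → F) :
    (blockMat (dg m F d)).mulVec v = Sum.elim (fun i => (d i : F) * v (Sum.inl i))
      (fun i => (((d i)⁻¹ : Fˣ) : F) * v (Sum.inr i)) := by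
  have h1 := blockMat_mulVec_inl (dg m F d) v
  have h3 := blockMat_mulVec_inr (dg m F d) v
  rw [← map_inv, dg_coe, Matrix.diagonal_transpose] at h3
  rw [dg_coe] at h1
  funext k
  rcases k with i | i
  · have := congrFun h1 i
    rw [Matrix.mulVec_diagonal] at this
    exact this
  · have := congrFun h3 i
    rw [Matrix.mulVec_diagonal] at this
    exact this

theorem permElt_tau_mul_self (b : Fin m → Bool) :
    permElt (quadFormPlus m F) (tauPerm b) (plus_comp_tau b) *
      permElt (quadFormPlus m F) (tauPerm b) (plus_comp_tau b) = 1 := by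
  apply isom_ext
  show (permMat (tauPerm b) : Matrix _ _ F) * permMat (tauPerm b) = 1
  rw [permMat_mul]
  have : tauPerm b * tauPerm b = 1 := by
    ext x
    exact tauFun_invol b x
  rw [this, permMat_one]

/-- `diag(c², c⁻²)` on one hyperbolic pair is a commutator -/
theorem dg_sq_mem_NGrp (j : Fin m) (c : Fˣ) : dg m F (Pi.mulSingle j (c * c)) ∈ NGrp m F := by
  rw [mem_NGrp]
  have key : glEmbed m F (dg m F (Pi.mulSingle j (c * c))) =
      ⁅glEmbed m F (dg m F (Pi.mulSingle j c)),
        permElt (quadFormPlus m F) (tauPerm (fun i => decide (i = j))) (plus_comp_tau _)⁆ := by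
    rw [commutatorElement_def, inv_eq_of_mul_eq_one_left (permElt_tau_mul_self _), ← map_inv,
      ← map_inv]
    apply isom_ext
    apply mat_ext
    intro v
    show (blockMat (dg m F (Pi.mulSingle j (c * c)))).mulVec v =
      (blockMat (dg m F (Pi.mulSingle j c)) * permMat (tauPerm (fun i => decide (i = j))) *
        blockMat (dg m F (Pi.mulSingle j c)⁻¹) *
          permMat (tauPerm (fun i => decide (i = j)))).mulVec v
    rw [← Matrix.mulVec_mulVec, ← Matrix.mulVec_mulVec, ← Matrix.mulVec_mulVec, permMat_mulVec,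
      blockMat_dg_mulVec, blockMat_dg_mulVec, blockMat_dg_mulVec, permMat_mulVec]
    funext k
    rcases k with i | i
    · by_cases hi : i = j
      · subst hi
        simp [tauPerm, tauFun, mul_assoc]
      · simp [tauPerm, tauFun, hi, Pi.mulSingle_apply]
    · by_cases hi : i = j
      · subst hi
        simp [tauPerm, tauFun, mul_assoc]
      · simp [tauPerm, tauFun, hi, Pi.mulSingle_apply]
  rw [key]
  exact Subgroup.commutator_mem_commutator (Subgroup.mem_top _) (Subgroup.mem_top _)

/-- generation: a normal subgroup of `GL` containing the transvections and the one-coordinate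
diagonal matrices is everything -/
theorem mem_of_tv_dg (N : Subgroup (GL (Fin m) F)) [N.Normal]
    (htv : ∀ (i j : Fin m) (hij : i ≠ j) (c : F), tv i j hij c ∈ N)
    (hdg : ∀ (j : Fin m) (a : Fˣ), dg m F (Pi.mulSingle j a) ∈ N) (A : GL (Fin m) F) : A ∈ N := by
  have hdiag : ∀ d : Fin m → Fˣ, dg m F d ∈ N := by
    have h1 : (QuotientGroup.mk' N).comp (dg m F) = 1 := by
      apply MonoidHom.pi_ext
      intro i x
      rw [MonoidHom.one_apply, MonoidHom.comp_apply, QuotientGroup.mk'_apply,
        QuotientGroup.eq_one_iff]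
      exact hdg i x
    intro d
    have h3 := DFunLike.congr_fun h1 d
    rw [MonoidHom.one_apply, MonoidHom.comp_apply, QuotientGroup.mk'_apply,
      QuotientGroup.eq_one_iff] at h3
    exact h3
  have key : ∀ M : Matrix (Fin m) (Fin m) F, M.det ≠ 0 →
      ∀ A : GL (Fin m) F, (A : Matrix (Fin m) (Fin m) F) = M → A ∈ N := by
    intro M hM
    refine Matrix.diagonal_transvection_induction_of_det_ne_zero
      (fun M => ∀ A : GL (Fin m) F, (A : Matrix (Fin m) (Fin m) F) = M → A ∈ N) M hM ?_ ?_ ?_
    · intro D hD A hA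
      rw [Matrix.det_diagonal] at hD
      have hD0 : ∀ i, D i ≠ 0 := fun i => (Finset.prod_ne_zero_iff.1 hD) i (Finset.mem_univ i)
      have : A = dg m F (fun i => Units.mk0 (D i) (hD0 i)) := by
        apply Units.ext
        rw [hA, dg_coe]
        rfl
      rw [this]
      exact hdiag _
    · intro t A hA
      have : A = tv t.i t.j t.hij t.c := Units.ext hA
      rw [this]
      exact htv _ _ _ _
    · intro A B hA hB hPA hPB C hC
      have : C = Matrix.GeneralLinearGroup.mkOfDetNeZero A hA *
          Matrix.GeneralLinearGroup.mkOfDetNeZero B hB := Units.ext hC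
      rw [this]
      exact N.mul_mem (hPA _ rfl) (hPB _ rfl)
  refine key _ ?_ A rfl
  have h := A.isUnit
  exact ((Matrix.isUnit_iff_isUnit_det _).1 h).ne_zero

end GLEmbed2

end Cfsg.Agent.Helper16
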