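import Cfsg.Agent.Helper16.OmegaOrder
import Cfsg.Agent.Helper16.DihedralLift
import Cfsg.Agent.S0288

set_option autoImplicit false
open Cfsg

namespace Cfsg.Agent.Helper16

open Matrix

/-- the index type of the binary minus-type form -/
abbrev I2 : Type := (Fin 0 ⊕ Fin 0) ⊕ Fin 2

def i2e : Fin 2 ≃ I2 := (Equiv.emptySum (Fin 0 ⊕ Fin 0) (Fin 2)).symm

section GOM
variable {F : Type*} [Field F]

/-- two by two matrices on the index type `I2` -/
def mk2 (p r s t : F) : Matrix I2 I2 F := Matrix.reindex i2e i2e !![p, r; s, t]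

theorem mk2_mul (p r s t p' r' s' t' : F) :
    mk2 p r s t * mk2 p' r' s' t' =
      mk2 (p * p' + r * s') (p * r' + r * t') (s * p' + t * s') (s * r' + t * t') := by
  unfold mk2
  rw [Matrix.reindex_apply, Matrix.reindex_apply, Matrix.submatrix_mul_equiv, Matrix.mul_fin_two]
  rfl

theorem mk2_one : mk2 (1 : F) 0 0 1 = 1 := by
  unfold mk2
  rw [← Matrix.one_fin_two, Matrix.reindex_apply, Matrix.submatrix_one_equiv]

@[simp] theorem mk2_00 (p r s t : F) : mk2 p r s t (Sum.inr 0) (Sum.inr 0) = p := rfl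
@[simp] theorem mk2_01 (p r s t : F) : mk2 p r s t (Sum.inr 0) (Sum.inr 1) = r := rfl
@[simp] theorem mk2_10 (p r s t : F) : mk2 p r s t (Sum.inr 1) (Sum.inr 0) = s := rfl
@[simp] theorem mk2_11 (p r s t : F) : mk2 p r s t (Sum.inr 1) (Sum.inr 1) = t := rfl

theorem mk2_eta (M : Matrix I2 I2 F) :
    M = mk2 (M (Sum.inr 0) (Sum.inr 0)) (M (Sum.inr 0) (Sum.inr 1)) (M (Sum.inr 1) (Sum.inr 0))
      (M (Sum.inr 1) (Sum.inr 1)) := by
  ext i j
  rcases i with (i | i) | i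
  · exact i.elim0
  · exact i.elim0
  rcases j with (j | j) | j
  · exact j.elim0
  · exact j.elim0
  fin_cases i <;> fin_cases j <;> rfl

theorem mk2_mulVec0 (p r s t : F) (v : I2 → F) :
    (mk2 p r s t *ᵥ v) (Sum.inr 0) = p * v (Sum.inr 0) + r * v (Sum.inr 1) := by
  simp [Matrix.mulVec, dotProduct, Fintype.sum_sum_type, Fin.sum_univ_two]

theorem mk2_mulVec1 (p r s t : F) (v : I2 → F) :
    (mk2 p r s t *ᵥ v) (Sum.inr 1) = s * v (Sum.inr 0) + t * v (Sum.inr 1) := by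
  simp [Matrix.mulVec, dotProduct, Fintype.sum_sum_type, Fin.sum_univ_two]

/-- the binary norm form -/
def nrm (a b x y : F) : F := x ^ 2 + a * x * y + b * y ^ 2

theorem qfm0 (a b : F) (v : I2 → F) :
    quadFormMinus 0 F a b v = nrm a b (v (Sum.inr 0)) (v (Sum.inr 1)) := by
  simp [quadFormMinus, nrm]

/-- vectors on `I2` -/
def vec2 (x y : F) : I2 → F := Sum.elim (fun i => Sum.elim Fin.elim0 Fin.elim0 i) ![x, y]

@[simp] theorem vec2_0 (x y : F) : vec2 x y (Sum.inr 0) = x := rfl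
@[simp] theorem vec2_1 (x y : F) : vec2 x y (Sum.inr 1) = y := rfl

theorem mem_iso_mk2 (a b : F) (g : GL I2 F) (p r s t : F)
    (hg : (g : Matrix I2 I2 F) = mk2 p r s t) :
    g ∈ isometryGroup F (quadFormMinus 0 F a b) ↔
      ∀ x y, nrm a b (p * x + r * y) (s * x + t * y) = nrm a b x y := by
  constructor
  · intro h x y
    have h1 := h (vec2 x y) (vec2 x y)
    have h2 : quadFormMinus 0 F a b ((g : Matrix I2 I2 F) *ᵥ vec2 x y) =
        quadFormMinus 0 F a b (vec2 x y) := h1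
    rw [qfm0, qfm0, hg, mk2_mulVec0, mk2_mulVec1] at h2
    simpa using h2
  · intro h u v
    show quadFormMinus 0 F a b ((g : Matrix I2 I2 F) *ᵥ u) = quadFormMinus 0 F a b u
    rw [qfm0, qfm0, hg, mk2_mulVec0, mk2_mulVec1]
    exact h _ _

/-- multiplication by `u₁ + u₂ θ` where `θ² = a θ - b` -/
def rotM (a b u₁ u₂ : F) : Matrix I2 I2 F := mk2 u₁ (-b * u₂) u₂ (u₁ + a * u₂)

theorem rotM_mul (a b u₁ u₂ v₁ v₂ : F) :
    rotM a b u₁ u₂ * rotM a b v₁ v₂ =
      rotM a b (u₁ * v₁ - b * u₂ * v₂) (u₁ * v₂ + u₂ * v₁ + a * u₂ * v₂) := by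
  unfold rotM
  rw [mk2_mul]
  congr 1 <;> ring

theorem rotM_one (a b : F) : rotM a b 1 0 = 1 := by
  unfold rotM
  rw [← mk2_one]
  congr 1 <;> ring

theorem nrm_mul (a b u₁ u₂ v₁ v₂ : F) :
    nrm a b (u₁ * v₁ - b * u₂ * v₂) (u₁ * v₂ + u₂ * v₁ + a * u₂ * v₂) =
      nrm a b u₁ u₂ * nrm a b v₁ v₂ := by
  unfold nrm
  ring

theorem nrm_conj (a b u₁ u₂ : F) : nrm a b (u₁ + a * u₂) (-u₂) = nrm a b u₁ u₂ := by
  unfold nrm
  ring

/-- rotations as invertible matrices -/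
def rotGL (a b u₁ u₂ : F) (h : nrm a b u₁ u₂ = 1) : GL I2 F :=
  ⟨rotM a b u₁ u₂, rotM a b (u₁ + a * u₂) (-u₂), by
    rw [rotM_mul, ← rotM_one a b]
    unfold nrm at h
    congr 1
    · linear_combination h
    · ring, by
    rw [rotM_mul, ← rotM_one a b]
    unfold nrm at h
    congr 1
    · linear_combination h
    · ring⟩

theorem rotGL_mem (a b u₁ u₂ : F) (h : nrm a b u₁ u₂ = 1) :
    rotGL a b u₁ u₂ h ∈ isometryGroup F (quadFormMinus 0 F a b) := by
  rw [mem_iso_mk2 a b _ u₁ (-b * u₂) u₂ (u₁ + a * u₂) rfl]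
  intro x y
  have e : nrm a b (u₁ * x + -b * u₂ * y) (u₂ * x + (u₁ + a * u₂) * y) =
      nrm a b u₁ u₂ * nrm a b x y := by
    unfold nrm
    ring
  rw [e, h, one_mul]

/-- the reflection `z ↦ conj z` -/
def sGL (a : F) : GL I2 F :=
  ⟨mk2 1 a 0 (-1), mk2 1 a 0 (-1), by
    rw [mk2_mul, ← mk2_one]
    congr 1 <;> ring, by
    rw [mk2_mul, ← mk2_one]
    congr 1 <;> ring⟩

theorem sGL_mem (a b : F) : sGL a ∈ isometryGroup F (quadFormMinus 0 F a b) := by
  rw [mem_iso_mk2 a b _ 1 a 0 (-1) rfl]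
  intro x y
  unfold nrm
  ring

/-- rotations in the isometry group -/
def rotO (a b u₁ u₂ : F) (h : nrm a b u₁ u₂ = 1) : ↥(isometryGroup F (quadFormMinus 0 F a b)) :=
  ⟨rotGL a b u₁ u₂ h, rotGL_mem a b u₁ u₂ h⟩

/-- the reflection in the isometry group -/
def sO (a b : F) : ↥(isometryGroup F (quadFormMinus 0 F a b)) := ⟨sGL a, sGL_mem a b⟩

theorem iso_ext2 (a b : F) (g h : ↥(isometryGroup F (quadFormMinus 0 F a b)))
    (e : ((g : GL I2 F) : Matrix I2 I2 F) = ((h : GL I2 F) : Matrix I2 I2 F)) : g = h :=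
  Subtype.ext (Units.ext e)

theorem rotO_mul (a b u₁ u₂ v₁ v₂ : F) (hu : nrm a b u₁ u₂ = 1) (hv : nrm a b v₁ v₂ = 1) :
    rotO a b u₁ u₂ hu * rotO a b v₁ v₂ hv =
      rotO a b (u₁ * v₁ - b * u₂ * v₂) (u₁ * v₂ + u₂ * v₁ + a * u₂ * v₂)
        (by rw [nrm_mul, hu, hv, one_mul]) := by
  apply iso_ext2
  exact rotM_mul a b u₁ u₂ v₁ v₂

theorem rotO_one (a b : F) : rotO a b 1 0 (by unfold nrm; ring) = 1 := by
  apply iso_ext2
  exact rotM_one a b

theorem rotO_inv (a b u₁ u₂ : F) (hu : nrm a b u₁ u₂ = 1) :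
    (rotO a b u₁ u₂ hu)⁻¹ = rotO a b (u₁ + a * u₂) (-u₂) (by rw [nrm_conj, hu]) := by
  apply inv_eq_of_mul_eq_one_right
  apply iso_ext2
  show rotM a b u₁ u₂ * rotM a b (u₁ + a * u₂) (-u₂) = 1
  rw [rotM_mul, ← rotM_one a b]
  unfold nrm at hu
  congr 1
  · linear_combination hu
  · ring

theorem sO_mul_self (a b : F) : sO a b * sO a b = 1 := by
  apply iso_ext2
  show mk2 1 a 0 (-1) * mk2 1 a 0 (-1) = (1 : Matrix I2 I2 F)
  rw [mk2_mul, ← mk2_one]
  congr 1 <;> ring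

theorem sO_inv (a b : F) : (sO a b)⁻¹ = sO a b :=
  inv_eq_of_mul_eq_one_right (sO_mul_self a b)

theorem sO_conj (a b u₁ u₂ : F) (hu : nrm a b u₁ u₂ = 1) :
    sO a b * rotO a b u₁ u₂ hu * (sO a b)⁻¹ = (rotO a b u₁ u₂ hu)⁻¹ := by
  rw [rotO_inv, sO_inv]
  apply iso_ext2
  show mk2 1 a 0 (-1) * rotM a b u₁ u₂ * mk2 1 a 0 (-1) = rotM a b (u₁ + a * u₂) (-u₂)
  unfold rotM
  rw [mk2_mul, mk2_mul]
  congr 1 <;> ring

/-- every isometry is a rotation or a rotation times the reflection -/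
theorem iso_classify (a b : F) (hab : ∀ z₁ z₂ : F, z₁ ^ 2 + a * z₁ * z₂ + b * z₂ ^ 2 = 0 → z₁ = 0 ∧ z₂ = 0)
    (hdisc : 4 * b - a ^ 2 ≠ 0)
    (g : ↥(isometryGroup F (quadFormMinus 0 F a b))) :
    ∃ (u₁ u₂ : F) (hu : nrm a b u₁ u₂ = 1), g = rotO a b u₁ u₂ hu ∨
      g = rotO a b u₁ u₂ hu * sO a b := by
  obtain ⟨p, hp⟩ : ∃ p, p = ((g : GL I2 F) : Matrix I2 I2 F) (Sum.inr 0) (Sum.inr 0) := ⟨_, rfl⟩
  obtain ⟨r, hr⟩ : ∃ r, r = ((g : GL I2 F) : Matrix I2 I2 F) (Sum.inr 0) (Sum.inr 1) := ⟨_, rfl⟩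
  obtain ⟨s, hs⟩ : ∃ s, s = ((g : GL I2 F) : Matrix I2 I2 F) (Sum.inr 1) (Sum.inr 0) := ⟨_, rfl⟩
  obtain ⟨t, ht⟩ : ∃ t, t = ((g : GL I2 F) : Matrix I2 I2 F) (Sum.inr 1) (Sum.inr 1) := ⟨_, rfl⟩
  have hM : ((g : GL I2 F) : Matrix I2 I2 F) = mk2 p r s t := by
    rw [hp, hr, hs, ht]
    exact mk2_eta _
  have hpres := (mem_iso_mk2 a b (g : GL I2 F) p r s t hM).1 g.2
  have h10 := hpres 1 0
  have h01 := hpres 0 1
  have h11 := hpres 1 1
  unfold nrm at h10 h01 h11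
  have e1 : p ^ 2 + a * p * s + b * s ^ 2 = 1 := by linear_combination h10
  have e2 : r ^ 2 + a * r * t + b * t ^ 2 = b := by linear_combination h01
  have e3 : 2 * p * r + a * (p * t + r * s) + 2 * b * s * t = a := by
    linear_combination h11 - h10 - h01
  have hu : nrm a b p s = 1 := e1
  obtain ⟨x, hx⟩ : ∃ x, x = (p + a * s) * r + b * s * t := ⟨_, rfl⟩
  obtain ⟨y, hy⟩ : ∃ y, y = -s * r + p * t := ⟨_, rfl⟩
  have f1 : 2 * x + a * y = a := by rw [hx, hy]; linear_combination e3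
  have f2 : x ^ 2 + a * x * y + b * y ^ 2 = b := by
    rw [hx, hy]
    linear_combination (r ^ 2 + a * r * t + b * t ^ 2) * e1 + e2
  have fr : r = p * x - b * s * y := by rw [hx, hy]; linear_combination (-r) * e1
  have ft : t = s * x + (p + a * s) * y := by rw [hx, hy]; linear_combination (-t) * e1
  have hy2 : y ^ 2 = 1 := by
    have h3 : (4 * b - a ^ 2) * (1 - y ^ 2) = 0 := by
      linear_combination (-4 : F) * f2 + (2 * x + a * y + a) * f1
    rcases mul_eq_zero.1 h3 with h | h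
    · exact absurd h hdisc
    · linear_combination -h
  have hcases : (x = 0 ∧ y = 1) ∨ (x = a ∧ y = -1) := by
    have hy' : (y - 1) * (y + 1) = 0 := by linear_combination hy2
    rcases mul_eq_zero.1 hy' with h | h
    · have hy1 : y = 1 := by linear_combination h
      rw [hy1] at f1 f2
      have hx' : x * (x + a) = 0 := by linear_combination f2
      rcases mul_eq_zero.1 hx' with h0 | h0
      · exact Or.inl ⟨h0, hy1⟩
      · have hxa : x = -a := by linear_combination h0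
        have h2a : 2 * a = 0 := by rw [hxa] at f1; linear_combination -f1
        rcases mul_eq_zero.1 h2a with h2 | ha
        · right
          refine ⟨by rw [hxa]; linear_combination (-a) * h2, by rw [hy1]; linear_combination h2⟩
        · left
          exact ⟨by rw [hxa, ha, neg_zero], hy1⟩
    · have hy1 : y = -1 := by linear_combination h
      rw [hy1] at f1 f2
      have hx' : x * (x - a) = 0 := by linear_combination f2
      rcases mul_eq_zero.1 hx' with h0 | h0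
      · have h2a : 2 * a = 0 := by rw [h0] at f1; linear_combination -f1
        rcases mul_eq_zero.1 h2a with h2 | ha
        · left
          exact ⟨h0, by rw [hy1]; linear_combination -h2⟩
        · right
          exact ⟨by rw [h0, ha], hy1⟩
      · exact Or.inr ⟨by linear_combination h0, hy1⟩
  refine ⟨p, s, hu, ?_⟩
  rcases hcases with ⟨hx0, hy1⟩ | ⟨hxa, hy1⟩
  · left
    apply iso_ext2
    rw [hM]
    show mk2 p r s t = rotM a b p s
    unfold rotM
    rw [fr, ft, hx0, hy1]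
    congr 1 <;> ring
  · right
    apply iso_ext2
    rw [hM]
    show mk2 p r s t = rotM a b p s * mk2 1 a 0 (-1)
    unfold rotM
    rw [mk2_mul, fr, ft, hxa, hy1]
    congr 1 <;> ring

/-- the rotation subgroup -/
def rotSub (a b : F) : Subgroup ↥(isometryGroup F (quadFormMinus 0 F a b)) where
  carrier := {g | ∃ (u₁ u₂ : F) (hu : nrm a b u₁ u₂ = 1), g = rotO a b u₁ u₂ hu}
  mul_mem' := by
    rintro g h ⟨u₁, u₂, hu, rfl⟩ ⟨v₁, v₂, hv, rfl⟩
    exact ⟨_, _, _, rotO_mul a b u₁ u₂ v₁ v₂ hu hv⟩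
  one_mem' := ⟨1, 0, _, (rotO_one a b).symm⟩
  inv_mem' := by
    rintro g ⟨u₁, u₂, hu, rfl⟩
    exact ⟨_, _, _, rotO_inv a b u₁ u₂ hu⟩

theorem mem_rotSub (a b : F) (g : ↥(isometryGroup F (quadFormMinus 0 F a b))) :
    g ∈ rotSub a b ↔ ∃ (u₁ u₂ : F) (hu : nrm a b u₁ u₂ = 1), g = rotO a b u₁ u₂ hu := Iff.rfl

theorem sO_not_mem (a b : F) (hdisc : 4 * b - a ^ 2 ≠ 0) : sO a b ∉ rotSub a b := by
  rintro ⟨u₁, u₂, hu, h⟩
  have hm : mk2 (1 : F) a 0 (-1) = rotM a b u₁ u₂ := congrArg (fun g : ↥(isometryGroup F (quadFormMinus 0 F a b)) => ((g : GL I2 F) : Matrix I2 I2 F)) h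
  unfold rotM at hm
  have h00 := congrFun (congrFun hm (Sum.inr 0)) (Sum.inr 0)
  have h01 := congrFun (congrFun hm (Sum.inr 0)) (Sum.inr 1)
  have h10 := congrFun (congrFun hm (Sum.inr 1)) (Sum.inr 0)
  have h11 := congrFun (congrFun hm (Sum.inr 1)) (Sum.inr 1)
  simp only [mk2_00, mk2_01, mk2_10, mk2_11] at h00 h01 h10 h11
  rw [← h10] at h01 h11
  rw [← h00] at h11
  have ha : a = 0 := by rw [h01]; ring
  have h2 : (2 : F) = 0 := by linear_combination -h11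
  apply hdisc
  rw [ha]
  linear_combination (2 * b) * h2

end GOM

section GOMfin
variable {F : Type*} [Field F] [Fintype F]

theorem rotSub_cyclic (a b : F)
    (hab : ∀ z₁ z₂ : F, z₁ ^ 2 + a * z₁ * z₂ + b * z₂ ^ 2 = 0 → z₁ = 0 ∧ z₂ = 0) :
    IsCyclic ↥(rotSub a b) := by
  classical
  obtain ⟨θ, hθ⟩ := IsAlgClosed.exists_root
    (Polynomial.C (1 : AlgebraicClosure F) * Polynomial.X ^ 2 +
      Polynomial.C (-(algebraMap F (AlgebraicClosure F) a)) * Polynomial.X +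
      Polynomial.C (algebraMap F (AlgebraicClosure F) b))
    (by rw [Polynomial.degree_quadratic one_ne_zero]; decide)
  have hθ2 : θ ^ 2 = algebraMap F (AlgebraicClosure F) a * θ - algebraMap F (AlgebraicClosure F) b := by
    have h := hθ
    simp only [Polynomial.IsRoot, Polynomial.eval_add, Polynomial.eval_mul, Polynomial.eval_C,
      Polynomial.eval_pow, Polynomial.eval_X] at h
    linear_combination h
  let ψ : ↥(rotSub a b) → AlgebraicClosure F := fun g =>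
    algebraMap F (AlgebraicClosure F) ((((g : ↥(isometryGroup F (quadFormMinus 0 F a b))) : GL I2 F) :
        Matrix I2 I2 F) (Sum.inr 0) (Sum.inr 0)) +
      algebraMap F (AlgebraicClosure F) ((((g : ↥(isometryGroup F (quadFormMinus 0 F a b))) : GL I2 F) :
        Matrix I2 I2 F) (Sum.inr 1) (Sum.inr 0)) * θ
  have hψ : ∀ (g : ↥(rotSub a b)) (u₁ u₂ : F) (hu : nrm a b u₁ u₂ = 1),
      (g : ↥(isometryGroup F (quadFormMinus 0 F a b))) = rotO a b u₁ u₂ hu →
      ψ g = algebraMap F (AlgebraicClosure F) u₁ +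
        algebraMap F (AlgebraicClosure F) u₂ * θ := by
    intro g u₁ u₂ hu hg
    show algebraMap F (AlgebraicClosure F) ((((g : ↥(isometryGroup F (quadFormMinus 0 F a b))) :
        GL I2 F) : Matrix I2 I2 F) (Sum.inr 0) (Sum.inr 0)) +
      algebraMap F (AlgebraicClosure F) ((((g : ↥(isometryGroup F (quadFormMinus 0 F a b))) :
        GL I2 F) : Matrix I2 I2 F) (Sum.inr 1) (Sum.inr 0)) * θ = _
    rw [hg]
    rfl
  have hmul : ∀ x y, ψ (x * y) = ψ x * ψ y := by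
    rintro ⟨x, u₁, u₂, hu, rfl⟩ ⟨y, v₁, v₂, hv, rfl⟩
    have e1 := hψ ⟨rotO a b u₁ u₂ hu, ⟨u₁, u₂, hu, rfl⟩⟩ u₁ u₂ hu rfl
    have e2 := hψ ⟨rotO a b v₁ v₂ hv, ⟨v₁, v₂, hv, rfl⟩⟩ v₁ v₂ hv rfl
    have e3 := hψ (⟨rotO a b u₁ u₂ hu, ⟨u₁, u₂, hu, rfl⟩⟩ *
      ⟨rotO a b v₁ v₂ hv, ⟨v₁, v₂, hv, rfl⟩⟩) _ _ (by rw [nrm_mul, hu, hv, one_mul])
      (rotO_mul a b u₁ u₂ v₁ v₂ hu hv)
    rw [e1, e2, e3]
    simp only [map_sub, map_add, map_mul]
    linear_combination (-(algebraMap F (AlgebraicClosure F) u₂ *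
      algebraMap F (AlgebraicClosure F) v₂)) * hθ2
  have hone : ψ 1 = 1 := by
    rw [hψ 1 1 0 (by unfold nrm; ring) (rotO_one a b).symm]
    simp
  let Ψ : ↥(rotSub a b) →* AlgebraicClosure F := ⟨⟨ψ, hone⟩, hmul⟩
  have hinj : Function.Injective Ψ := by
    rintro ⟨x, u₁, u₂, hu, rfl⟩ ⟨y, v₁, v₂, hv, rfl⟩ hxy
    have h1 : algebraMap F (AlgebraicClosure F) u₁ + algebraMap F (AlgebraicClosure F) u₂ * θ =
        algebraMap F (AlgebraicClosure F) v₁ + algebraMap F (AlgebraicClosure F) v₂ * θ := hxy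
    have hu2 : u₂ = v₂ := by
      by_contra hne
      have hne' : u₂ - v₂ ≠ 0 := sub_ne_zero.2 hne
      obtain ⟨c, hc⟩ : ∃ c, c = (v₁ - u₁) / (u₂ - v₂) := ⟨_, rfl⟩
      have hθc : θ = algebraMap F (AlgebraicClosure F) c := by
        have h2 : algebraMap F (AlgebraicClosure F) (u₂ - v₂) * θ =
            algebraMap F (AlgebraicClosure F) (v₁ - u₁) := by
          simp only [map_sub]
          linear_combination h1
        have h3 : algebraMap F (AlgebraicClosure F) (u₂ - v₂) ≠ 0 := by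
          rw [Ne, map_eq_zero]
          exact hne'
        rw [hc, map_div₀, eq_div_iff h3, mul_comm]
        exact h2
      have h4 : algebraMap F (AlgebraicClosure F) (c ^ 2 - a * c + b) = 0 := by
        simp only [map_sub, map_add, map_mul, map_pow]
        rw [← hθc]
        linear_combination hθ2
      rw [map_eq_zero] at h4
      have h5 := hab (-c) 1 (by linear_combination h4)
      exact one_ne_zero h5.2
    have hu1 : u₁ = v₁ := by
      rw [hu2] at h1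
      exact (algebraMap F (AlgebraicClosure F)).injective (add_right_cancel h1)
    subst hu2
    subst hu1
    rfl
  exact isCyclic_of_subgroup_isDomain Ψ hinj

theorem rotSub_index (a b : F)
    (hab : ∀ z₁ z₂ : F, z₁ ^ 2 + a * z₁ * z₂ + b * z₂ ^ 2 = 0 → z₁ = 0 ∧ z₂ = 0) :
    (rotSub a b).index = 2 := by
  have hdisc := minus_disc_ne_all a b hab
  rw [Subgroup.index_eq_two_iff]
  refine ⟨sO a b, fun g => ?_⟩
  obtain ⟨u₁, u₂, hu, h | h⟩ := iso_classify a b hab hdisc g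
  · right
    refine ⟨⟨u₁, u₂, hu, h⟩, fun hgs => ?_⟩
    have h1 : g⁻¹ * (g * sO a b) ∈ rotSub a b :=
      Subgroup.mul_mem _ (Subgroup.inv_mem _ ⟨u₁, u₂, hu, h⟩) hgs
    rw [inv_mul_cancel_left] at h1
    exact sO_not_mem a b hdisc h1
  · left
    have hgs : g * sO a b = rotO a b u₁ u₂ hu := by
      rw [h, mul_assoc, sO_mul_self, mul_one]
    refine ⟨⟨u₁, u₂, hu, hgs⟩, fun hg => ?_⟩
    have h1 : (rotO a b u₁ u₂ hu)⁻¹ * g ∈ rotSub a b :=
      Subgroup.mul_mem _ (Subgroup.inv_mem _ ⟨u₁, u₂, hu, rfl⟩) hg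
    rw [h, inv_mul_cancel_left] at h1
    exact sO_not_mem a b hdisc h1

/-- `GO⁻₂(q)` is dihedral of order `2(q+1)` -/
theorem goMinus2_dihedral {q : ℕ} (hF : Fintype.card F = q) (a b : F)
    (hab : ∀ z₁ z₂ : F, z₁ ^ 2 + a * z₁ * z₂ + b * z₂ ^ 2 = 0 → z₁ = 0 ∧ z₂ = 0) :
    Nonempty (↥(isometryGroup F (quadFormMinus 0 F a b)) ≃* DihedralGroup (q + 1)) := by
  classical
  have hdisc := minus_disc_ne_all a b hab
  have hcardO : Nat.card ↥(isometryGroup F (quadFormMinus 0 F a b)) = 2 * (q + 1) := by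
    have h := Cfsg.Agent.S0288.result hF 1 (le_refl 1) a b hab
    simpa using h
  have hcardR : Nat.card ↥(rotSub a b) = q + 1 := by
    have h := Subgroup.card_mul_index (rotSub a b)
    rw [rotSub_index a b hab, hcardO] at h
    omega
  haveI := rotSub_cyclic a b hab
  obtain ⟨ρ, hρ⟩ := IsCyclic.exists_generator (α := ↥(rotSub a b))
  have hord : orderOf ρ = q + 1 := by
    rw [orderOf_eq_card_of_forall_mem_zpowers hρ, hcardR]
  have ha : (ρ : ↥(isometryGroup F (quadFormMinus 0 F a b))) ^ (q + 1) = 1 := by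
    rw [← Subgroup.coe_pow, ← hord, pow_orderOf_eq_one, Subgroup.coe_one]
  have hb : sO a b * sO a b = 1 := sO_mul_self a b
  have hconj : sO a b * (ρ : ↥(isometryGroup F (quadFormMinus 0 F a b))) * (sO a b)⁻¹ =
      (ρ : ↥(isometryGroup F (quadFormMinus 0 F a b)))⁻¹ := by
    obtain ⟨u₁, u₂, hu, h⟩ := ρ.2
    rw [h]
    exact sO_conj a b u₁ u₂ hu
  have hrot : ∀ x ∈ rotSub a b, ∃ m : ℕ,
      (ρ : ↥(isometryGroup F (quadFormMinus 0 F a b))) ^ m = x := by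
    intro x hx
    have h1 : (⟨x, hx⟩ : ↥(rotSub a b)) ∈ Subgroup.zpowers ρ := hρ _
    have h2 : (⟨x, hx⟩ : ↥(rotSub a b)) ∈ Submonoid.powers ρ := by
      rw [mem_powers_iff_mem_zpowers]
      exact h1
    obtain ⟨m, hm⟩ := h2
    have hm' : ρ ^ m = ⟨x, hx⟩ := hm
    refine ⟨m, ?_⟩
    rw [← Subgroup.coe_pow, hm']
  have hsurj : Function.Surjective (dLift ha hb hconj) := by
    intro g
    obtain ⟨u₁, u₂, hu, h | h⟩ := iso_classify a b hab hdisc g
    · obtain ⟨m, hm⟩ := hrot g ⟨u₁, u₂, hu, h⟩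
      refine ⟨DihedralGroup.r (m : ZMod (q + 1)), ?_⟩
      rw [dLift_r, ZMod.val_natCast, ← pow_eq_pow_mod _ ha, hm]
    · have h1 : g = sO a b * (rotO a b u₁ u₂ hu)⁻¹ := by
        rw [h, ← sO_conj a b u₁ u₂ hu, sO_inv, ← mul_assoc, ← mul_assoc, sO_mul_self, one_mul]
      obtain ⟨m, hm⟩ := hrot ((rotO a b u₁ u₂ hu)⁻¹) (Subgroup.inv_mem _ ⟨u₁, u₂, hu, rfl⟩)
      refine ⟨DihedralGroup.sr (m : ZMod (q + 1)), ?_⟩
      rw [dLift_sr, ZMod.val_natCast, ← pow_eq_pow_mod _ ha, hm, h1]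
  have hbij : Function.Bijective (dLift ha hb hconj) := by
    refine (Nat.bijective_iff_surjective_and_card _).2 ⟨hsurj, ?_⟩
    rw [DihedralGroup.nat_card, hcardO]
  exact ⟨(MulEquiv.ofBijective _ hbij).symm⟩

end GOMfin

end Cfsg.Agent.Helper16
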