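import Cfsg.Agent.Helper16.OSubA

set_option autoImplicit false
open Cfsg

namespace Cfsg.Agent.Helper16.Jord

open Module Submodule

section J3
variable {K : Type*} [Field K] {V : Type*} [AddCommGroup V] [Module K V] [FiniteDimensional K V]

/-- index type of a chain family with `a` chains of length 3, `b` of length 2, `c` of length 1 -/
abbrev JI (a b c : ℕ) : Type := Fin a ⊕ ((Fin a ⊕ Fin b) ⊕ ((Fin a ⊕ Fin b) ⊕ Fin c))

/-- the chain family -/
def fam (N : V →ₗ[K] V) {a b c : ℕ} (u : Fin a → V) (v : Fin b → V) (w : Fin c → V) :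
    JI a b c → V :=
  Sum.elim u (Sum.elim (Sum.elim (fun i => N (u i)) v)
    (Sum.elim (Sum.elim (fun i => N (N (u i))) (fun j => N (v j))) w))

theorem exists_fam (W : Submodule K V) :
    ∃ (m : ℕ) (u : Fin m → V), LinearIndependent K u ∧ span K (Set.range u) = W := by
  refine ⟨finrank K W, fun i => (Module.finBasis K W i : V), ?_, ?_⟩
  · exact (Module.finBasis K W).linearIndependent.map' W.subtype W.ker_subtype
  · have h1 : Set.range (fun i => (Module.finBasis K W i : V))
        = W.subtype '' Set.range (Module.finBasis K W) := by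
      rw [← Set.range_comp]
      rfl
    rw [h1, Submodule.span_image, (Module.finBasis K W).span_eq, Submodule.map_top,
      Submodule.range_subtype]

theorem span_comp (N : V →ₗ[K] V) {ι : Type*} (u : ι → V) :
    span K (Set.range (fun i => N (u i))) = (span K (Set.range u)).map N := by
  rw [Submodule.map_span, ← Set.range_comp]
  rfl

/-- Jordan chain basis for a nilpotent endomorphism with `N ^ 3 = 0`. -/
theorem jordan3 (N : V →ₗ[K] V) (hN : ∀ x, N (N (N x)) = 0) :
    ∃ (a b c : ℕ) (u : Fin a → V) (v : Fin b → V) (w : Fin c → V),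
      LinearIndependent K (fam N u v w) ∧ span K (Set.range (fam N u v w)) = ⊤ ∧
      (∀ j, N (N (v j)) = 0) ∧ (∀ l, N (w l) = 0) := by
  classical
  have hK12 : LinearMap.ker N ≤ LinearMap.ker (N ∘ₗ N) := fun x hx => by
    rw [LinearMap.mem_ker] at hx ⊢
    rw [LinearMap.comp_apply, hx, map_zero]
  obtain ⟨C3, hC3⟩ := Submodule.exists_isCompl (LinearMap.ker (N ∘ₗ N))
  have hM3K2 : C3.map N ≤ LinearMap.ker (N ∘ₗ N) := by
    rintro x ⟨y, -, rfl⟩
    rw [LinearMap.mem_ker, LinearMap.comp_apply]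
    exact hN y
  have hD3 : Disjoint (C3.map N) (LinearMap.ker N) := by
    rw [Submodule.disjoint_def]
    rintro x ⟨y, hy, rfl⟩ hx
    rw [LinearMap.mem_ker] at hx
    have hy2 : y ∈ LinearMap.ker (N ∘ₗ N) := by
      rw [LinearMap.mem_ker, LinearMap.comp_apply]
      exact hx
    have h0 : y = 0 := (Submodule.disjoint_def.mp hC3.disjoint) y hy2 hy
    rw [h0, map_zero]
  obtain ⟨D2, hD2⟩ := Submodule.exists_isCompl (LinearMap.ker N ⊔ C3.map N)
  have hle2 : LinearMap.ker N ⊔ C3.map N ≤ LinearMap.ker (N ∘ₗ N) := sup_le hK12 hM3K2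
  have hC2d : Disjoint (LinearMap.ker N ⊔ C3.map N) (D2 ⊓ LinearMap.ker (N ∘ₗ N)) :=
    hD2.disjoint.mono_right inf_le_left
  have hC2s : LinearMap.ker N ⊔ C3.map N ⊔ (D2 ⊓ LinearMap.ker (N ∘ₗ N))
      = LinearMap.ker (N ∘ₗ N) := by
    rw [← sup_inf_assoc_of_le D2 hle2, hD2.sup_eq_top, top_inf_eq]
  generalize hC2 : D2 ⊓ LinearMap.ker (N ∘ₗ N) = C2 at hC2d hC2s
  have hC2K2 : C2 ≤ LinearMap.ker (N ∘ₗ N) := by
    rw [← hC2]
    exact inf_le_right
  have hM2K1 : C2.map N ≤ LinearMap.ker N := by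
    rintro x ⟨y, hy, rfl⟩
    have h1 : y ∈ LinearMap.ker (N ∘ₗ N) := hC2K2 hy
    rw [LinearMap.mem_ker, LinearMap.comp_apply] at h1
    rw [LinearMap.mem_ker]
    exact h1
  have hM3'K1 : (C3.map N).map N ≤ LinearMap.ker N := by
    rintro x ⟨y, ⟨z, -, rfl⟩, rfl⟩
    rw [LinearMap.mem_ker]
    exact hN z
  obtain ⟨D1, hD1⟩ := Submodule.exists_isCompl ((C3.map N).map N ⊔ C2.map N)
  have hle1 : (C3.map N).map N ⊔ C2.map N ≤ LinearMap.ker N := sup_le hM3'K1 hM2K1
  have hC1d : Disjoint ((C3.map N).map N ⊔ C2.map N) (D1 ⊓ LinearMap.ker N) :=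
    hD1.disjoint.mono_right inf_le_left
  have hC1s : (C3.map N).map N ⊔ C2.map N ⊔ (D1 ⊓ LinearMap.ker N) = LinearMap.ker N := by
    rw [← sup_inf_assoc_of_le D1 hle1, hD1.sup_eq_top, top_inf_eq]
  generalize hC1 : D1 ⊓ LinearMap.ker N = C1 at hC1d hC1s
  have hC1K1 : C1 ≤ LinearMap.ker N := by
    rw [← hC1]
    exact inf_le_right
  -- further disjointness
  have hD5 : Disjoint (C2 ⊔ C3.map N) (LinearMap.ker N) := by
    apply Disjoint.disjoint_sup_left_of_disjoint_sup_right hD3
    rw [sup_comm]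
    exact hC2d.symm
  have hD6 : Disjoint ((C3.map N).map N) (C2.map N) := by
    rw [Submodule.disjoint_def]
    rintro x ⟨y, hy, rfl⟩ ⟨d, hd, hde⟩
    have h1 : d - y ∈ LinearMap.ker N := by
      rw [LinearMap.mem_ker, map_sub, hde, sub_self]
    have h2 : d - y ∈ C2 ⊔ C3.map N :=
      Submodule.sub_mem _ (Submodule.mem_sup_left hd) (Submodule.mem_sup_right hy)
    have h3 : d - y = 0 := (Submodule.disjoint_def.mp hD5) _ h2 h1
    have h4 : d = y := sub_eq_zero.mp h3
    have h5 : y = 0 := by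
      refine (Submodule.disjoint_def.mp hC2d) y (Submodule.mem_sup_right hy) ?_
      rw [← h4]
      exact hd
    rw [h5, map_zero]
  obtain ⟨a, u, hu, hus⟩ := exists_fam C3
  obtain ⟨b, v, hv, hvs⟩ := exists_fam C2
  obtain ⟨c, w, hw, hws⟩ := exists_fam C1
  have hsNu : span K (Set.range (fun i => N (u i))) = C3.map N := by
    rw [span_comp, hus]
  have hsNNu : span K (Set.range (fun i => N (N (u i)))) = (C3.map N).map N := by
    rw [span_comp N (fun i => N (u i)), hsNu]
  have hsNv : span K (Set.range (fun j => N (v j))) = C2.map N := by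
    rw [span_comp, hvs]
  have hNu : LinearIndependent K (fun i => N (u i)) := by
    refine hu.map (f := N) ?_
    rw [hus]
    exact (hC3.disjoint.mono_left hK12).symm
  have hNNu : LinearIndependent K (fun i => N (N (u i))) := by
    refine hNu.map (f := N) ?_
    rw [hsNu]
    exact hD3
  have hNv : LinearIndependent K (fun j => N (v j)) := by
    refine hv.map (f := N) ?_
    rw [hvs]
    exact (hC2d.mono_left le_sup_left).symm
  have h1 : LinearIndependent K (Sum.elim (fun i => N (N (u i))) (fun j => N (v j))) := by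
    refine hNNu.sum_type hNv ?_
    rw [hsNNu, hsNv]
    exact hD6
  have hs1 : span K (Set.range (Sum.elim (fun i => N (N (u i))) (fun j => N (v j))))
      = (C3.map N).map N ⊔ C2.map N := by
    rw [Set.Sum.elim_range, Submodule.span_union, hsNNu, hsNv]
  have h2 : LinearIndependent K
      (Sum.elim (Sum.elim (fun i => N (N (u i))) (fun j => N (v j))) w) := by
    refine h1.sum_type hw ?_
    rw [hs1, hws]
    exact hC1d
  have hs2 : span K (Set.range
      (Sum.elim (Sum.elim (fun i => N (N (u i))) (fun j => N (v j))) w)) = LinearMap.ker N := by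
    rw [Set.Sum.elim_range, Submodule.span_union, hs1, hws, hC1s]
  have h3 : LinearIndependent K (Sum.elim (fun i => N (u i)) v) := by
    refine hNu.sum_type hv ?_
    rw [hsNu, hvs]
    exact hC2d.mono_left le_sup_right
  have hs3 : span K (Set.range (Sum.elim (fun i => N (u i)) v)) = C3.map N ⊔ C2 := by
    rw [Set.Sum.elim_range, Submodule.span_union, hsNu, hvs]
  have h4 : LinearIndependent K (Sum.elim (Sum.elim (fun i => N (u i)) v)
      (Sum.elim (Sum.elim (fun i => N (N (u i))) (fun j => N (v j))) w)) := by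
    refine h3.sum_type h2 ?_
    rw [hs3, hs2, sup_comm]
    exact hD5
  have hs4 : span K (Set.range (Sum.elim (Sum.elim (fun i => N (u i)) v)
      (Sum.elim (Sum.elim (fun i => N (N (u i))) (fun j => N (v j))) w)))
      = LinearMap.ker (N ∘ₗ N) := by
    rw [Set.Sum.elim_range, Submodule.span_union, hs3, hs2, ← hC2s, sup_comm, sup_assoc]
  refine ⟨a, b, c, u, v, w, ?_, ?_, ?_, ?_⟩
  · unfold fam
    refine hu.sum_type h4 ?_
    rw [hus, hs4]
    exact hC3.disjoint.symm
  · unfold fam
    rw [Set.Sum.elim_range, Submodule.span_union, hus, hs4, sup_comm]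
    exact hC3.sup_eq_top
  · intro j
    have h5 : v j ∈ LinearMap.ker (N ∘ₗ N) := by
      apply hC2K2
      rw [← hvs]
      exact Submodule.subset_span ⟨j, rfl⟩
    rw [LinearMap.mem_ker, LinearMap.comp_apply] at h5
    exact h5
  · intro l
    have h5 : w l ∈ LinearMap.ker N := by
      apply hC1K1
      rw [← hws]
      exact Submodule.subset_span ⟨l, rfl⟩
    rw [LinearMap.mem_ker] at h5
    exact h5

end J3

end Cfsg.Agent.Helper16.Jord
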