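import Cfsg.Agent.Helper16.JordA

set_option autoImplicit false
open Cfsg

namespace Cfsg.Agent.Helper16.Jord

open Module Submodule

section Mat
variable {F : Type*} [Field F]

theorem toMatrix_rat {ι : Type*} [Fintype ι] [DecidableEq ι] {V : Type*} [AddCommGroup V]
    [Module F V] (F₀ : Subfield F) (B : Basis ι F V) (f : V →ₗ[F] V)
    (h : ∀ j, ∃ j' r, r ∈ F₀ ∧ f (B j) = r • B j') (i j : ι) :
    LinearMap.toMatrix B B f i j ∈ F₀ := by
  obtain ⟨j', r, hr, hf⟩ := h j
  rw [LinearMap.toMatrix_apply, hf, map_smul, Basis.repr_self, Finsupp.smul_apply,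
    Finsupp.single_apply]
  split_ifs
  · rw [smul_eq_mul, mul_one]
    exact hr
  · rw [smul_zero]
    exact F₀.zero_mem

theorem conj_rat_of_basis {n : ℕ} (F₀ : Subfield F) (N : Matrix (Fin n) (Fin n) F)
    (B : Basis (Fin n) F (Fin n → F))
    (hdet : (Matrix.of (fun i k => B k i)).det = 1)
    (h : ∀ j, ∃ j' r, r ∈ F₀ ∧ Matrix.mulVec N (B j) = r • B j') :
    ∃ P : Matrix (Fin n) (Fin n) F, P.det = 1 ∧ RMat F₀ (P⁻¹ * N * P) := by
  classical
  have hP : (Pi.basisFun F (Fin n)).toMatrix B = Matrix.of (fun i k => B k i) := by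
    ext i k
    rw [Basis.toMatrix_apply, Pi.basisFun_repr]
    rfl
  refine ⟨Matrix.of (fun i k => B k i), hdet, ?_⟩
  have hinv : (Matrix.of (fun i k => B k i))⁻¹ = B.toMatrix (Pi.basisFun F (Fin n)) := by
    apply Matrix.inv_eq_left_inv
    rw [← hP]
    exact Basis.toMatrix_mul_toMatrix_flip _ _
  have hmid : LinearMap.toMatrix (Pi.basisFun F (Fin n)) (Pi.basisFun F (Fin n))
      (Matrix.toLin' N) = N := by
    rw [LinearMap.toMatrix_eq_toMatrix', LinearMap.toMatrix'_toLin']
  have key : (Matrix.of (fun i k => B k i))⁻¹ * N * Matrix.of (fun i k => B k i)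
      = LinearMap.toMatrix B B (Matrix.toLin' N) := by
    have h1 := basis_toMatrix_mul_linearMap_toMatrix_mul_basis_toMatrix B
      (Pi.basisFun F (Fin n)) B (Pi.basisFun F (Fin n)) (Matrix.toLin' N)
    rw [hmid, hP, ← hinv] at h1
    exact h1
  rw [key]
  intro i j
  apply toMatrix_rat F₀ B (Matrix.toLin' N)
  intro j
  obtain ⟨j', r, hr, hf⟩ := h j
  exact ⟨j', r, hr, by rw [Matrix.toLin'_apply]; exact hf⟩

theorem card_JI (a b c : ℕ) : Fintype.card (JI a b c) = 3 * a + 2 * b + c := by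
  simp only [JI, Fintype.card_sum, Fintype.card_fin]
  ring

theorem conj_rat_of_fam {n : ℕ} (F₀ : Subfield F) (N : Matrix (Fin n) (Fin n) F)
    (hN : ∀ x, Matrix.mulVec N (Matrix.mulVec N (Matrix.mulVec N x)) = 0)
    {a b c : ℕ} (u : Fin a → (Fin n → F)) (v : Fin b → (Fin n → F)) (w : Fin c → (Fin n → F))
    (hli : LinearIndependent F (fam (Matrix.toLin' N) u v w))
    (hsp : span F (Set.range (fam (Matrix.toLin' N) u v w)) = ⊤)
    (hv : ∀ j, Matrix.mulVec N (Matrix.mulVec N (v j)) = 0)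
    (hw : ∀ l, Matrix.mulVec N (w l) = 0) :
    3 * a + 2 * b + c = n ∧ ∃ δ : F, δ ≠ 0 ∧
      ∀ (f1 f2 f3 : Fin a → F) (g1 g2 : Fin b → F) (h : Fin c → F),
        (∀ i, f1 i ≠ 0) → (∀ i, f2 i ≠ 0) → (∀ i, f3 i ≠ 0) → (∀ j, g1 j ≠ 0) →
        (∀ j, g2 j ≠ 0) → (∀ l, h l ≠ 0) →
        (∀ i, f1 i / f2 i ∈ F₀) → (∀ i, f2 i / f3 i ∈ F₀) → (∀ j, g1 j / g2 j ∈ F₀) →
        (∏ i, f1 i) * (∏ i, f2 i) * (∏ i, f3 i) * (∏ j, g1 j) * (∏ j, g2 j) * (∏ l, h l) = δ →
        ∃ P : Matrix (Fin n) (Fin n) F, P.det = 1 ∧ RMat F₀ (P⁻¹ * N * P) := by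
  classical
  have hB0 : ∀ j, (Basis.mk hli hsp.ge) j = fam (Matrix.toLin' N) u v w j := fun j => by
    rw [Basis.mk_apply]
  generalize Basis.mk hli hsp.ge = B0 at hB0
  have hcard : Fintype.card (JI a b c) = n := by
    have h1 := Module.finrank_eq_card_basis B0
    rw [Module.finrank_fintype_fun_eq_card, Fintype.card_fin] at h1
    exact h1.symm
  have hn : 3 * a + 2 * b + c = n := by rw [← hcard, card_JI]
  refine ⟨hn, ?_⟩
  obtain ⟨e⟩ : Nonempty (Fin n ≃ JI a b c) := ⟨(Fintype.equivFinOfCardEq hcard).symm⟩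
  have hM0det : (Matrix.of (fun i k => B0 (e k) i) : Matrix (Fin n) (Fin n) F).det ≠ 0 := by
    have h1 : (Matrix.of (fun i k => B0 (e k) i) : Matrix (Fin n) (Fin n) F)
        = (Pi.basisFun F (Fin n)).toMatrix (B0.reindex e.symm) := by
      ext i k
      rw [Basis.toMatrix_apply, Pi.basisFun_repr, Basis.reindex_apply, Equiv.symm_symm]
      rfl
    have h2 := Basis.toMatrix_mul_toMatrix_flip (Pi.basisFun F (Fin n)) (B0.reindex e.symm)
    rw [← h1] at h2
    intro h0
    have h3 := congrArg Matrix.det h2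
    rw [Matrix.det_mul, h0, zero_mul, Matrix.det_one] at h3
    exact zero_ne_one h3
  generalize hM0 : (Matrix.of (fun i k => B0 (e k) i) : Matrix (Fin n) (Fin n) F) = M0
    at hM0det
  refine ⟨M0.det⁻¹, inv_ne_zero hM0det, ?_⟩
  intro f1 f2 f3 g1 g2 h hf1 hf2 hf3 hg1 hg2 hh r12 r23 rg hprod
  obtain ⟨dd, hdd⟩ : ∃ dd : JI a b c → F,
      dd = Sum.elim f1 (Sum.elim (Sum.elim f2 g1) (Sum.elim (Sum.elim f3 g2) h)) := ⟨_, rfl⟩
  have hdd0 : ∀ j, dd j ≠ 0 := by
    rw [hdd]
    rintro (i | ((i | jj) | ((i | jj) | l)))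
    · exact hf1 i
    · exact hf2 i
    · exact hg1 jj
    · exact hf3 i
    · exact hg2 jj
    · exact hh l
  have hddu : ∀ j, IsUnit (dd j) := fun j => (hdd0 j).isUnit
  have hBk : ∀ k, ((B0.isUnitSMul hddu).reindex e.symm) k = dd (e k) • B0 (e k) := fun k => by
    rw [Basis.reindex_apply, Equiv.symm_symm, Basis.isUnitSMul_apply]
  apply conj_rat_of_basis F₀ N ((B0.isUnitSMul hddu).reindex e.symm)
  · have h1 : (Matrix.of (fun i k => ((B0.isUnitSMul hddu).reindex e.symm) k i) :
        Matrix (Fin n) (Fin n) F) = M0 * Matrix.diagonal (fun k => dd (e k)) := by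
      ext i k
      rw [Matrix.mul_diagonal, ← hM0, Matrix.of_apply, Matrix.of_apply, hBk, Pi.smul_apply,
        smul_eq_mul, mul_comm]
    rw [h1, Matrix.det_mul, Matrix.det_diagonal, Equiv.prod_comp e dd]
    have h2 : ∏ j, dd j = M0.det⁻¹ := by
      rw [← hprod, hdd]
      simp only [Fintype.prod_sum_type, Sum.elim_inl, Sum.elim_inr]
      ring
    rw [h2, mul_inv_cancel₀ hM0det]
  · intro k
    have key : ∀ j : JI a b c, ∃ j' r, r ∈ F₀ ∧
        Matrix.mulVec N (dd j • B0 j) = r • (dd j' • B0 j') := by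
      rw [hdd]
      rintro (i | ((i | jj) | ((i | jj) | l)))
      · refine ⟨Sum.inr (Sum.inl (Sum.inl i)), f1 i / f2 i, r12 i, ?_⟩
        rw [hB0, hB0, Matrix.mulVec_smul, smul_smul]
        show f1 i • Matrix.mulVec N (u i) = (f1 i / f2 i * f2 i) • Matrix.toLin' N (u i)
        rw [div_mul_cancel₀ _ (hf2 i), Matrix.toLin'_apply]
      · refine ⟨Sum.inr (Sum.inr (Sum.inl (Sum.inl i))), f2 i / f3 i, r23 i, ?_⟩
        rw [hB0, hB0, Matrix.mulVec_smul, smul_smul]
        show f2 i • Matrix.mulVec N (Matrix.toLin' N (u i))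
          = (f2 i / f3 i * f3 i) • Matrix.toLin' N (Matrix.toLin' N (u i))
        rw [div_mul_cancel₀ _ (hf3 i), Matrix.toLin'_apply, Matrix.toLin'_apply]
      · refine ⟨Sum.inr (Sum.inr (Sum.inl (Sum.inr jj))), g1 jj / g2 jj, rg jj, ?_⟩
        rw [hB0, hB0, Matrix.mulVec_smul, smul_smul]
        show g1 jj • Matrix.mulVec N (v jj) = (g1 jj / g2 jj * g2 jj) • Matrix.toLin' N (v jj)
        rw [div_mul_cancel₀ _ (hg2 jj), Matrix.toLin'_apply]
      · refine ⟨Sum.inl i, 0, F₀.zero_mem, ?_⟩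
        rw [hB0, Matrix.mulVec_smul, zero_smul]
        show f3 i • Matrix.mulVec N (Matrix.toLin' N (Matrix.toLin' N (u i))) = 0
        rw [Matrix.toLin'_apply, Matrix.toLin'_apply, hN, smul_zero]
      · refine ⟨Sum.inr (Sum.inr (Sum.inl (Sum.inr jj))), 0, F₀.zero_mem, ?_⟩
        rw [hB0, Matrix.mulVec_smul, zero_smul]
        show g2 jj • Matrix.mulVec N (Matrix.toLin' N (v jj)) = 0
        rw [Matrix.toLin'_apply, hv, smul_zero]
      · refine ⟨Sum.inr (Sum.inr (Sum.inr l)), 0, F₀.zero_mem, ?_⟩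
        rw [hB0, Matrix.mulVec_smul, zero_smul]
        show h l • Matrix.mulVec N (w l) = 0
        rw [hw, smul_zero]
    obtain ⟨j', r, hr, hj⟩ := key (e k)
    refine ⟨e.symm j', r, hr, ?_⟩
    rw [hBk, hBk, hj, Equiv.apply_symm_apply]

/-- A nonzero nilpotent matrix with `N ^ 3 = 0` is conjugate, by a matrix of determinant one,
to a matrix with entries in the subfield `F₀`, provided cube roots exist and either the
dimension is odd or every unit is a square times an element of `F₀`. -/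
theorem conj_rat {n : ℕ} (F₀ : Subfield F) (N : Matrix (Fin n) (Fin n) F)
    (hN : N * N * N = 0) (hn : 1 ≤ n)
    (hcube : ∀ δ : F, ∃ α, α ^ 3 = δ)
    (hcase : Odd n ∨ ∀ δ : F, δ ≠ 0 → ∃ α β, α ≠ 0 ∧ β ∈ F₀ ∧ δ = α ^ 2 * β) :
    ∃ P : Matrix (Fin n) (Fin n) F, P.det = 1 ∧ RMat F₀ (P⁻¹ * N * P) := by
  classical
  have hN' : ∀ x, Matrix.mulVec N (Matrix.mulVec N (Matrix.mulVec N x)) = 0 := fun x => by
    rw [Matrix.mulVec_mulVec, Matrix.mulVec_mulVec, hN, Matrix.zero_mulVec]
  obtain ⟨a, b, c, u, v, w, hli, hsp, hv, hw⟩ := jordan3 (Matrix.toLin' N) (fun x => by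
    rw [Matrix.toLin'_apply, Matrix.toLin'_apply, Matrix.toLin'_apply]
    exact hN' x)
  obtain ⟨hcard, δ, hδ, H⟩ := conj_rat_of_fam F₀ N hN' u v w hli hsp
    (fun j => by
      have := hv j
      rw [Matrix.toLin'_apply, Matrix.toLin'_apply] at this
      exact this)
    (fun l => by
      have := hw l
      rw [Matrix.toLin'_apply] at this
      exact this)
  by_cases hc : 0 < c
  · refine H (fun _ => 1) (fun _ => 1) (fun _ => 1) (fun _ => 1) (fun _ => 1)
      (fun l => if l = ⟨0, hc⟩ then δ else 1) (fun _ => one_ne_zero) (fun _ => one_ne_zero)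
      (fun _ => one_ne_zero) (fun _ => one_ne_zero) (fun _ => one_ne_zero) ?_ ?_ ?_ ?_ ?_
    · intro l
      split_ifs
      · exact hδ
      · exact one_ne_zero
    · intro i
      rw [div_one]
      exact F₀.one_mem
    · intro i
      rw [div_one]
      exact F₀.one_mem
    · intro i
      rw [div_one]
      exact F₀.one_mem
    · simp
  by_cases ha : 0 < a
  · obtain ⟨α, hα⟩ := hcube δ
    have hα0 : α ≠ 0 := by
      rintro rfl
      rw [zero_pow (by norm_num)] at hα
      exact hδ hα.symm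
    have hne : ∀ i : Fin a, (if i = (⟨0, ha⟩ : Fin a) then α else 1) ≠ 0 := by
      intro i
      split_ifs
      · exact hα0
      · exact one_ne_zero
    have hdiv : ∀ i : Fin a, (if i = (⟨0, ha⟩ : Fin a) then α else 1)
        / (if i = (⟨0, ha⟩ : Fin a) then α else 1) ∈ F₀ := by
      intro i
      rw [div_self (hne i)]
      exact F₀.one_mem
    refine H (fun i => if i = ⟨0, ha⟩ then α else 1) (fun i => if i = ⟨0, ha⟩ then α else 1)
      (fun i => if i = ⟨0, ha⟩ then α else 1) (fun _ => 1) (fun _ => 1) (fun _ => 1)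
      hne hne hne (fun _ => one_ne_zero) (fun _ => one_ne_zero) (fun _ => one_ne_zero)
      hdiv hdiv ?_ ?_
    · intro i
      rw [div_one]
      exact F₀.one_mem
    · simp only [Finset.prod_ite_eq', Finset.mem_univ, if_true, Finset.prod_const_one, mul_one]
      rw [← hα]
      ring
  · have ha0 : a = 0 := by omega
    have hc0 : c = 0 := by omega
    have hb : 0 < b := by omega
    rcases hcase with hodd | hsq
    · exfalso
      rw [Nat.odd_iff] at hodd
      omega
    · obtain ⟨α, β, hα0, hβ, hδe⟩ := hsq δ hδ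
      have hβ0 : β ≠ 0 := by
        rintro rfl
        rw [mul_zero] at hδe
        exact hδ hδe
      refine H (fun _ => 1) (fun _ => 1) (fun _ => 1)
        (fun j => if j = ⟨0, hb⟩ then α * β else 1) (fun j => if j = ⟨0, hb⟩ then α else 1)
        (fun _ => 1) (fun _ => one_ne_zero) (fun _ => one_ne_zero) (fun _ => one_ne_zero)
        ?_ ?_ (fun _ => one_ne_zero) ?_ ?_ ?_ ?_
      · intro j
        split_ifs
        · exact mul_ne_zero hα0 hβ0
        · exact one_ne_zero
      · intro j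
        split_ifs
        · exact hα0
        · exact one_ne_zero
      · intro i
        rw [div_one]
        exact F₀.one_mem
      · intro i
        rw [div_one]
        exact F₀.one_mem
      · intro j
        split_ifs
        · rw [mul_div_cancel_left₀ _ hα0]
          exact hβ
        · rw [div_one]
          exact F₀.one_mem
      · simp only [Finset.prod_ite_eq', Finset.mem_univ, if_true, Finset.prod_const_one, mul_one,
          one_mul]
        rw [hδe]
        ring

end Mat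

end Cfsg.Agent.Helper16.Jord
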