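import Cfsg.Agent.Helper16.JordB

set_option autoImplicit false
open Cfsg

namespace Cfsg.Agent.Helper16.Jord

open Module Submodule

section NoConj
variable {F : Type*} [Field F]

/-- an `F₀`-linear projection of `F` onto `F₀` (after helper6's `exists_proj`) -/
theorem exists_projJ (F₀ : Subfield F) : ∃ π : F →+ F, (∀ a, π a ∈ F₀) ∧
    (∀ c ∈ F₀, ∀ a, π (c * a) = c * π a) ∧ (∀ c ∈ F₀, π c = c) := by
  obtain ⟨g, hg⟩ := LinearMap.exists_leftInverse_of_injective (Algebra.linearMap F₀ F)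
    (LinearMap.ker_eq_bot.mpr (FaithfulSMul.algebraMap_injective F₀ F))
  refine ⟨(F₀.subtype : F₀ →+ F).comp g.toAddMonoidHom, ?_, ?_, ?_⟩
  · intro a
    exact (g a).2
  · intro c hc a
    have h1 : g ((⟨c, hc⟩ : F₀) • a) = (⟨c, hc⟩ : F₀) • g a := map_smul g _ _
    have h2 : ((⟨c, hc⟩ : F₀) • a : F) = c * a := rfl
    rw [h2] at h1
    show ((g (c * a) : F₀) : F) = c * ((g a : F₀) : F)
    rw [h1]
    rfl
  · intro c hc
    have h1 := LinearMap.congr_fun hg (⟨c, hc⟩ : F₀)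
    show ((g c : F₀) : F) = c
    have h2 : g c = (⟨c, hc⟩ : F₀) := h1
    rw [h2]

variable {m : ℕ}

/-- The nilpotent matrix `[[0,0],[D,0]]` with `det D` a non-square is not conjugate, by a matrix
of determinant one, to a matrix with entries in a subfield all of whose elements are squares. -/
theorem no_conj (F₀ : Subfield F) (hsq : ∀ a ∈ F₀, IsSquare a)
    (D : Matrix (Fin m) (Fin m) F) (hD : ¬ IsSquare D.det)
    (P : Matrix (Fin m ⊕ Fin m) (Fin m ⊕ Fin m) F) (hP : P.det = 1)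
    (hR : RMat F₀ (P⁻¹ * Matrix.fromBlocks 0 0 D 0 * P)) : False := by
  classical
  have hD0 : D.det ≠ 0 := fun h => hD (by rw [h]; exact IsSquare.zero)
  have hPu : IsUnit P.det := by rw [hP]; exact isUnit_one
  have hPP : P * P⁻¹ = 1 := Matrix.mul_nonsing_inv P hPu
  have hPP' : P⁻¹ * P = 1 := Matrix.nonsing_inv_mul P hPu
  obtain ⟨N, hNdef⟩ : ∃ N : Matrix (Fin m ⊕ Fin m) (Fin m ⊕ Fin m) F,
      N = Matrix.fromBlocks 0 0 D 0 := ⟨_, rfl⟩
  rw [← hNdef] at hR
  have hNN : N * N = 0 := by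
    rw [hNdef, Matrix.fromBlocks_multiply]
    simp
  obtain ⟨N', hN'⟩ : ∃ N' : Matrix (Fin m ⊕ Fin m) (Fin m ⊕ Fin m) F, N' = P⁻¹ * N * P :=
    ⟨_, rfl⟩
  rw [← hN'] at hR
  have hN'N' : N' * N' = 0 := by
    rw [hN']
    calc P⁻¹ * N * P * (P⁻¹ * N * P) = P⁻¹ * (N * (P * P⁻¹) * N) * P := by
          simp only [Matrix.mul_assoc]
      _ = 0 := by rw [hPP, Matrix.mul_one, hNN, Matrix.mul_zero, Matrix.zero_mul]
  have hPN : P * N' = N * P := by
    rw [hN', ← Matrix.mul_assoc, ← Matrix.mul_assoc, hPP, Matrix.one_mul]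
  obtain ⟨N0, hN0⟩ : ∃ N0 : Matrix (Fin m ⊕ Fin m) (Fin m ⊕ Fin m) F₀,
      ∀ i j, (N0 i j : F) = N' i j := ⟨fun i j => ⟨N' i j, hR i j⟩, fun i j => rfl⟩
  have hup : ∀ y : Fin m ⊕ Fin m → F₀,
      Matrix.mulVec N' (upv F₀ y) = upv F₀ (Matrix.mulVec N0 y) := by
    intro y
    funext i
    show ∑ j, N' i j * (y j : F) = ((∑ j, N0 i j * y j : F₀) : F)
    push_cast
    exact Finset.sum_congr rfl (fun j _ => by rw [hN0])
  have hN0N0 : ∀ y, Matrix.mulVec N0 (Matrix.mulVec N0 y) = 0 := by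
    intro y
    apply upv_injective (F₀ := F₀)
    rw [← hup, ← hup, Matrix.mulVec_mulVec, hN'N', Matrix.zero_mulVec]
    rfl
  obtain ⟨a, b, c, u, v, w, hli, hsp, hv, hw⟩ := jordan3 (Matrix.toLin' N0) (fun x => by
    rw [Matrix.toLin'_apply, Matrix.toLin'_apply, Matrix.toLin'_apply, hN0N0])
  -- no chains of length three
  have ha : a = 0 := by
    by_contra ha
    have h1 := hli.ne_zero
      (Sum.inr (Sum.inr (Sum.inl (Sum.inl (⟨0, Nat.pos_of_ne_zero ha⟩ : Fin a)))))
    apply h1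
    show Matrix.toLin' N0 (Matrix.toLin' N0 (u _)) = 0
    rw [Matrix.toLin'_apply, Matrix.toLin'_apply, hN0N0]
  subst ha
  -- no chains of length one
  have hc : c = 0 := by
    by_contra hc
    obtain ⟨l0⟩ : Nonempty (Fin c) := ⟨⟨0, Nat.pos_of_ne_zero hc⟩⟩
    have hwl : Matrix.mulVec N0 (w l0) = 0 := by
      have := hw l0
      rw [Matrix.toLin'_apply] at this
      exact this
    obtain ⟨y0, hy0⟩ : ∃ y0 : Fin m ⊕ Fin m → F₀, Matrix.mulVec N0 y0 = w l0 := by
      obtain ⟨π, hπ1, hπ2, hπ3⟩ := exists_projJ F₀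
      have hz : Matrix.mulVec N (Matrix.mulVec P (upv F₀ (w l0))) = 0 := by
        rw [Matrix.mulVec_mulVec, ← hPN, ← Matrix.mulVec_mulVec, hup, hwl, upv_zero,
          Matrix.mulVec_zero]
      obtain ⟨z, hzdef⟩ : ∃ z, z = Matrix.mulVec P (upv F₀ (w l0)) := ⟨_, rfl⟩
      rw [← hzdef] at hz
      have hz1 : z ∘ Sum.inl = 0 := by
        have h1 : Matrix.mulVec N (Sum.elim (z ∘ Sum.inl) (z ∘ Sum.inr)) = 0 := by
          rw [Sum.elim_comp_inl_inr]
          exact hz
        rw [hNdef, Matrix.fromBlocks_mulVec] at h1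
        have h2 := congrArg (fun f => f ∘ Sum.inr) h1
        simp only [Sum.elim_comp_inr] at h2
        rw [Matrix.zero_mulVec, add_zero] at h2
        exact Matrix.eq_zero_of_mulVec_eq_zero hD0 h2
      have hNy1 : Matrix.mulVec N (Sum.elim (Matrix.mulVec D⁻¹ (z ∘ Sum.inr)) 0) = z := by
        rw [hNdef, Matrix.fromBlocks_mulVec]
        simp only [Matrix.zero_mulVec, add_zero, Sum.elim_comp_inl, Matrix.mulVec_mulVec,
          Matrix.zero_mul]
        rw [Matrix.mul_nonsing_inv D (isUnit_iff_ne_zero.mpr hD0), Matrix.one_mulVec]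
        have h3 := Sum.elim_comp_inl_inr z
        rw [hz1] at h3
        exact h3
      have hwy : upv F₀ (w l0) = Matrix.mulVec N'
          (Matrix.mulVec P⁻¹ (Sum.elim (Matrix.mulVec D⁻¹ (z ∘ Sum.inr)) 0)) := by
        rw [Matrix.mulVec_mulVec, hN', Matrix.mul_assoc, hPP, Matrix.mul_one,
          ← Matrix.mulVec_mulVec, hNy1, hzdef, Matrix.mulVec_mulVec, hPP', Matrix.one_mulVec]
      obtain ⟨y, hy⟩ : ∃ y, y = Matrix.mulVec P⁻¹
          (Sum.elim (Matrix.mulVec D⁻¹ (z ∘ Sum.inr)) 0) := ⟨_, rfl⟩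
      rw [← hy] at hwy
      refine ⟨fun j => ⟨π (y j), hπ1 _⟩, ?_⟩
      apply upv_injective (F₀ := F₀)
      rw [← hup]
      funext i
      show ∑ j, N' i j * π (y j) = upv F₀ (w l0) i
      have h1 : ∀ j, N' i j * π (y j) = π (N' i j * y j) := fun j => (hπ2 _ (hR i j) _).symm
      simp only [h1]
      rw [← map_sum]
      have h2 : ∑ j, N' i j * y j = upv F₀ (w l0) i := by
        rw [hwy]
        rfl
      rw [h2]
      exact hπ3 _ (w l0 i).2
    have hmem : w l0 ∈ span F₀ (Set.range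
        (Sum.elim (fun i : Fin 0 => Matrix.toLin' N0 (Matrix.toLin' N0 (u i)))
          (fun j => Matrix.toLin' N0 (v j)))) := by
      have h1 : y0 ∈ span F₀ (Set.range (fam (Matrix.toLin' N0) u v w)) := by
        rw [hsp]
        exact Submodule.mem_top
      have h2 := Submodule.apply_mem_span_image_of_mem_span (Matrix.toLin' N0) h1
      rw [Matrix.toLin'_apply, hy0] at h2
      refine (Submodule.span_le.mpr ?_) h2
      rintro _ ⟨_, ⟨j, rfl⟩, rfl⟩
      rcases j with i | ((i | jj) | ((i | jj) | l))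
      · exact i.elim0
      · exact i.elim0
      · exact Submodule.subset_span ⟨Sum.inr jj, rfl⟩
      · exact i.elim0
      · have h3 : Matrix.toLin' N0 (fam (Matrix.toLin' N0) u v w
            (Sum.inr (Sum.inr (Sum.inl (Sum.inr jj))))) = 0 := hv jj
        rw [h3]
        exact Submodule.zero_mem _
      · have h3 : Matrix.toLin' N0 (fam (Matrix.toLin' N0) u v w
            (Sum.inr (Sum.inr (Sum.inr l)))) = 0 := hw l
        rw [h3]
        exact Submodule.zero_mem _
    have hdis : Disjoint (span F₀ (Set.range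
        (Sum.elim (fun i : Fin 0 => Matrix.toLin' N0 (Matrix.toLin' N0 (u i)))
          (fun j => Matrix.toLin' N0 (v j))))) (span F₀ (Set.range w)) :=
      (linearIndependent_sum.mp (linearIndependent_sum.mp
        (linearIndependent_sum.mp hli).2.1).2.1).2.2
    have hw0 : w l0 = 0 :=
      Submodule.disjoint_def.mp hdis _ hmem (Submodule.subset_span ⟨l0, rfl⟩)
    exact hli.ne_zero (Sum.inr (Sum.inr (Sum.inr l0))) hw0
  subst hc
  have hb : b = m := by
    have h1 := Module.finrank_eq_card_basis (Basis.mk hli hsp.ge)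
    rw [Module.finrank_fintype_fun_eq_card, card_JI, Fintype.card_sum, Fintype.card_fin] at h1
    omega
  subst hb
  -- the rational basis matrix
  obtain ⟨T0, hT0def⟩ : ∃ T0 : Matrix (Fin b ⊕ Fin b) (Fin b ⊕ Fin b) F₀,
      T0 = Matrix.of (fun s t => Sum.elim v (fun j => Matrix.mulVec N0 (v j)) t s) := ⟨_, rfl⟩
  have hT0 : IsUnit T0 := by
    rw [← Matrix.linearIndependent_cols_iff_isUnit]
    have h1 : T0.col = fam (Matrix.toLin' N0) u v w ∘
        (Sum.elim (fun j => Sum.inr (Sum.inl (Sum.inr j)))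
          (fun j => Sum.inr (Sum.inr (Sum.inl (Sum.inr j))))) := by
      funext t
      rcases t with j | j
      · funext s
        rw [hT0def]
        rfl
      · funext s
        rw [hT0def]
        show Matrix.mulVec N0 (v j) s = Matrix.toLin' N0 (v j) s
        rw [Matrix.toLin'_apply]
    rw [h1]
    refine hli.comp _ ?_
    intro x y h
    rcases x with j | j <;> rcases y with j' | j' <;> simpa using h
  have hT0det : T0.det ≠ 0 := ((Matrix.isUnit_iff_isUnit_det T0).mp hT0).ne_zero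
  obtain ⟨T, hTdef⟩ : ∃ T : Matrix (Fin b ⊕ Fin b) (Fin b ⊕ Fin b) F,
      T = (F₀.subtype : F₀ →+* F).mapMatrix T0 := ⟨_, rfl⟩
  have hTdet : T.det = (T0.det : F) := by
    rw [hTdef, ← RingHom.map_det]
    rfl
  have hTl : ∀ j, (fun k => T k (Sum.inl j)) = upv F₀ (v j) := by
    intro j
    rw [hTdef, hT0def]
    rfl
  have hTr : ∀ j, (fun k => T k (Sum.inr j)) = upv F₀ (Matrix.mulVec N0 (v j)) := by
    intro j
    rw [hTdef, hT0def]
    rfl
  have hv' : ∀ j, Matrix.mulVec N0 (Matrix.mulVec N0 (v j)) = 0 := fun j => hN0N0 _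
  have hNT : N' * T = T * Matrix.fromBlocks 0 0 1 0 := by
    ext s t
    have e1 : (N' * T) s t = Matrix.mulVec N' (fun k => T k t) s := rfl
    rcases t with j | j
    · rw [e1, hTl, hup]
      have e2 : (T * (Matrix.fromBlocks 0 0 1 0 :
          Matrix (Fin b ⊕ Fin b) (Fin b ⊕ Fin b) F)) s (Sum.inl j) = T s (Sum.inr j) := by
        rw [Matrix.mul_apply, Fintype.sum_sum_type]
        simp [Matrix.one_apply]
      rw [e2]
      exact (congrFun (hTr j) s).symm
    · rw [e1, hTr, hup, hv']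
      have e2 : (T * (Matrix.fromBlocks 0 0 1 0 :
          Matrix (Fin b ⊕ Fin b) (Fin b ⊕ Fin b) F)) s (Sum.inr j) = 0 := by
        rw [Matrix.mul_apply, Fintype.sum_sum_type]
        simp
      rw [e2]
      rfl
  obtain ⟨G, hGdef⟩ : ∃ G, G = P * T := ⟨_, rfl⟩
  have hNG : N * G = G * Matrix.fromBlocks 0 0 1 0 := by
    rw [hGdef, ← Matrix.mul_assoc, ← hPN, Matrix.mul_assoc, hNT, Matrix.mul_assoc]
  have hGdet : G.det = (T0.det : F) := by
    rw [hGdef, Matrix.det_mul, hP, one_mul, hTdet]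
  have hGb := (Matrix.fromBlocks_toBlocks G).symm
  generalize G.toBlocks₁₁ = G11 at hGb
  generalize G.toBlocks₁₂ = G12 at hGb
  generalize G.toBlocks₂₁ = G21 at hGb
  generalize G.toBlocks₂₂ = G22 at hGb
  rw [hGb, hNdef, Matrix.fromBlocks_multiply, Matrix.fromBlocks_multiply] at hNG
  simp only [Matrix.zero_mul, Matrix.mul_zero, add_zero, zero_add, Matrix.mul_one] at hNG
  rw [Matrix.fromBlocks_inj] at hNG
  obtain ⟨h12, -, h22, -⟩ := hNG
  rw [← h12, ← h22] at hGb
  rw [hGb, Matrix.det_fromBlocks_zero₁₂, Matrix.det_mul] at hGdet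
  obtain ⟨s, hs⟩ := hsq (T0.det : F) (T0.det).2
  have hT0F : (T0.det : F) ≠ 0 := fun h => hT0det (Subtype.ext h)
  have hg : G11.det ≠ 0 := by
    intro h
    rw [h, zero_mul] at hGdet
    exact hT0F hGdet.symm
  apply hD
  refine ⟨s / G11.det, ?_⟩
  field_simp
  rw [hs] at hGdet
  linear_combination hGdet

end NoConj

end Cfsg.Agent.Helper16.Jord
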