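import Cfsg.Agent.Helper16.JordC

set_option autoImplicit false
open Cfsg

namespace Cfsg.Agent.Helper16.Jord

section Fld
variable {F : Type*} [Field F] [Fintype F] [CharP F 3]

theorem cube_inj : Function.Injective (fun a : F => a ^ 3) := by
  intro a b h
  haveI : Fact (Nat.Prime 3) := ⟨by norm_num⟩
  have h1 : (a - b) ^ 3 = 0 := by
    rw [sub_pow_char a b]
    exact sub_eq_zero.mpr h
  exact sub_eq_zero.mp ((pow_eq_zero_iff (by norm_num)).mp h1)

theorem cube_surj (δ : F) : ∃ α : F, α ^ 3 = δ :=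
  (Finite.injective_iff_surjective.mp cube_inj) δ

theorem cube_mem (F₀ : Subfield F) (c : F) (hc : c ^ 3 ∈ F₀) : c ∈ F₀ := by
  have hinj : Function.Injective (fun a : F₀ => a ^ 3) := by
    intro a b h
    apply Subtype.ext
    apply cube_inj (F := F)
    show (a : F) ^ 3 = (b : F) ^ 3
    have h1 : ((a ^ 3 : F₀) : F) = ((b ^ 3 : F₀) : F) := congrArg Subtype.val h
    rw [SubmonoidClass.coe_pow, SubmonoidClass.coe_pow] at h1
    exact h1
  obtain ⟨c', hc'⟩ := (Finite.injective_iff_surjective.mp hinj) ⟨c ^ 3, hc⟩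
  have h1 : (c' : F) ^ 3 = c ^ 3 := by
    have h2 : ((c' ^ 3 : F₀) : F) = c ^ 3 := congrArg Subtype.val hc'
    rw [SubmonoidClass.coe_pow] at h2
    exact h2
  have h2 : (c' : F) = c := cube_inj h1
  rw [← h2]
  exact c'.2

theorem three_eq_zero : (3 : F) = 0 := by
  exact_mod_cast CharP.cast_eq_zero F 3

theorem ringChar_ne_two : ringChar F ≠ 2 := by
  rw [ringChar.eq F 3]
  norm_num

/-- every element of the subfield of index 2 is a square -/
theorem sq_of_mem (F₀ : Subfield F) (q₀ : ℕ) (hF₀ : Nat.card F₀ = q₀)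
    (hq : Fintype.card F = q₀ ^ 2) (a : F) (ha : a ∈ F₀) : IsSquare a := by
  classical
  haveI : Fintype F₀ := Fintype.ofFinite _
  by_cases h0 : a = 0
  · rw [h0]
    exact IsSquare.zero
  rw [FiniteField.isSquare_iff ringChar_ne_two h0, hq]
  have hodd : q₀ % 2 = 1 := by
    have h1 := FiniteField.odd_card_of_char_ne_two (ringChar_ne_two (F := F))
    rw [hq] at h1
    rcases Nat.mod_two_eq_zero_or_one q₀ with h | h
    · exfalso
      rw [Nat.pow_mod, h] at h1
      norm_num at h1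
    · exact h
  have h1 : (⟨a, ha⟩ : F₀) ^ (q₀ - 1) = 1 := by
    rw [← hF₀, Nat.card_eq_fintype_card]
    exact FiniteField.pow_card_sub_one_eq_one _ (fun h => h0 (congrArg Subtype.val h))
  have h2 : a ^ (q₀ - 1) = 1 := by
    have h3 : (((⟨a, ha⟩ : F₀) ^ (q₀ - 1) : F₀) : F) = ((1 : F₀) : F) :=
      congrArg Subtype.val h1
    rw [SubmonoidClass.coe_pow] at h3
    exact h3
  have h3 : q₀ ^ 2 / 2 = (q₀ - 1) * ((q₀ + 1) / 2) := by
    obtain ⟨t, ht⟩ : ∃ t, q₀ = 2 * t + 1 := ⟨q₀ / 2, by omega⟩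
    subst ht
    have e1 : (2 * t + 1) ^ 2 = 2 * (2 * t * (t + 1)) + 1 := by ring
    have e2 : (2 * t + 1 + 1) / 2 = t + 1 := by omega
    have e3 : 2 * t + 1 - 1 = 2 * t := by omega
    rw [e1, e2, e3]
    omega
  rw [h3, pow_mul, h2, one_pow]

omit [Fintype F] [CharP F 3] in
theorem pow_half (q₀ : ℕ) (hodd : q₀ % 2 = 1) (β : F) (hβ : β ^ (q₀ / 2) = -1) (j : ℕ) :
    β ^ (q₀ ^ j / 2) = (-1) ^ j := by
  induction j with
  | zero => simp
  | succ j ih =>
    have h1 : q₀ ^ (j + 1) / 2 = q₀ * (q₀ ^ j / 2) + q₀ / 2 := by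
      have ho : q₀ ^ j % 2 = 1 := by
        rw [Nat.pow_mod, hodd]
        simp
      obtain ⟨t, ht⟩ : ∃ t, q₀ = 2 * t + 1 := ⟨q₀ / 2, by omega⟩
      obtain ⟨s, hs⟩ : ∃ s, q₀ ^ j = 2 * s + 1 := ⟨q₀ ^ j / 2, by omega⟩
      rw [pow_succ, hs, ht]
      have e1 : (2 * s + 1) * (2 * t + 1) = 2 * ((2 * t + 1) * s + t) + 1 := by ring
      have e2 : (2 * s + 1) / 2 = s := by omega
      have e3 : (2 * t + 1) / 2 = t := by omega
      rw [e1, e2, e3]
      omega
    rw [h1, pow_add, pow_mul', ih, hβ, ← pow_mul, mul_comm j q₀, pow_mul,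
      Odd.neg_one_pow (Nat.odd_iff.mpr hodd), pow_succ]

/-- if `F` has odd degree over `F₀`, every unit is a square times an element of `F₀` -/
theorem sq_decomp (F₀ : Subfield F) (q₀ k : ℕ) (hF₀ : Nat.card F₀ = q₀)
    (hq : Fintype.card F = q₀ ^ k) (hk : Odd k) (δ : F) (hδ : δ ≠ 0) :
    ∃ α β : F, α ≠ 0 ∧ β ∈ F₀ ∧ δ = α ^ 2 * β := by
  classical
  haveI : Fintype F₀ := Fintype.ofFinite _
  have hch := ringChar_ne_two (F := F)
  by_cases hsq : IsSquare δ
  · obtain ⟨α, hα⟩ := hsq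
    refine ⟨α, 1, ?_, F₀.one_mem, by rw [hα]; ring⟩
    rintro rfl
    exact hδ (by rw [hα]; ring)
  · have hch0 : ringChar F₀ ≠ 2 := by
      intro h
      have h2 : ((ringChar F₀ : ℕ) : F₀) = 0 := ringChar.Nat.cast_ringChar
      rw [h] at h2
      have h3 : (2 : F) = 0 := by
        have h5 : (((2 : ℕ) : F₀) : F) = ((0 : F₀) : F) := congrArg Subtype.val h2
        push_cast at h5
        exact h5
      have h4 : (3 : F) = 0 := three_eq_zero
      have h6 : (1 : F) = 0 := by
        linear_combination h4 - h3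
      exact one_ne_zero h6
    obtain ⟨β0, hβ0⟩ := FiniteField.exists_nonsquare hch0
    have hβ00 : β0 ≠ 0 := by
      rintro rfl
      exact hβ0 IsSquare.zero
    have h1 : β0 ^ (Fintype.card F₀ / 2) = -1 := by
      rcases FiniteField.pow_dichotomy hch0 hβ00 with h | h
      · exact absurd ((FiniteField.isSquare_iff hch0 hβ00).mpr h) hβ0
      · exact h
    have hq0 : Fintype.card F₀ = q₀ := by rw [← hF₀, Nat.card_eq_fintype_card]
    rw [hq0] at h1
    have h2 : (β0 : F) ^ (q₀ / 2) = -1 := by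
      have h5 : ((β0 ^ (q₀ / 2) : F₀) : F) = ((-1 : F₀) : F) := congrArg Subtype.val h1
      rw [SubmonoidClass.coe_pow] at h5
      rw [h5]
      rfl
    have hodd : q₀ % 2 = 1 := by
      have h3 := FiniteField.odd_card_of_char_ne_two hch
      rw [hq] at h3
      rcases Nat.mod_two_eq_zero_or_one q₀ with h | h
      · exfalso
        have hk0 : k ≠ 0 := by
          rintro rfl
          simp at hk
        rw [Nat.pow_mod, h, zero_pow hk0] at h3
        norm_num at h3
      · exact h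
    have h4 : (β0 : F) ^ (Fintype.card F / 2) = -1 := by
      rw [hq, pow_half q₀ hodd _ h2 k, hk.neg_one_pow]
    have h5 : δ ^ (Fintype.card F / 2) = -1 := by
      rcases FiniteField.pow_dichotomy hch hδ with h | h
      · exact absurd ((FiniteField.isSquare_iff hch hδ).mpr h) hsq
      · exact h
    have hβF : (β0 : F) ≠ 0 := fun h => hβ00 (Subtype.ext h)
    have h6 : IsSquare (δ / (β0 : F)) := by
      rw [FiniteField.isSquare_iff hch (div_ne_zero hδ hβF), div_pow, h4, h5]
      norm_num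
    obtain ⟨α, hα⟩ := h6
    refine ⟨α, β0, ?_, β0.2, ?_⟩
    · rintro rfl
      rw [mul_zero] at hα
      exact (div_ne_zero hδ hβF) hα
    · field_simp at hα
      rw [hα]
      ring

theorem add_three {n : Type*} (M : Matrix n n F) : M + M + M = 0 := by
  ext i j
  have h := three_eq_zero (F := F)
  simp only [Matrix.add_apply, Matrix.zero_apply]
  linear_combination (M i j) * h

theorem nil_of_cube {n : Type*} [Fintype n] [DecidableEq n] (A : Matrix n n F)
    (hA : A * A * A = 1) : (A - 1) * (A - 1) * (A - 1) = 0 := by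
  have h3 : ∀ M : Matrix n n F, M + M + M = 0 := by
    intro M
    ext i j
    have h := three_eq_zero (F := F)
    simp only [Matrix.add_apply, Matrix.zero_apply]
    linear_combination (M i j) * h
  have e : (A - 1) * (A - 1) * (A - 1)
      = A * A * A - 1 - (A * A + A * A + A * A) + (A + A + A) := by
    noncomm_ring
  rw [e, hA, h3, h3]
  simp

end Fld

section RM
variable {ι : Type} [Fintype ι] [DecidableEq ι] {F : Type*} [Field F] {F₀ : Subfield F}

theorem rmat_one : RMat F₀ (1 : Matrix ι ι F) := by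
  intro i j
  rw [Matrix.one_apply]
  split_ifs
  · exact F₀.one_mem
  · exact F₀.zero_mem

theorem rmat_add {A B : Matrix ι ι F} (hA : RMat F₀ A) (hB : RMat F₀ B) : RMat F₀ (A + B) :=
  fun i j => F₀.add_mem (hA i j) (hB i j)

theorem rmat_sub {A B : Matrix ι ι F} (hA : RMat F₀ A) (hB : RMat F₀ B) : RMat F₀ (A - B) :=
  fun i j => F₀.sub_mem (hA i j) (hB i j)

end RM

end Cfsg.Agent.Helper16.Jord
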