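import Cfsg.Agent.Helper16.JordD

set_option autoImplicit false
open Cfsg

namespace Cfsg.Agent.Helper16.Jord

section OddChar
variable {F : Type*} [Field F] [Fintype F]

/-- every element of the subfield of index 2 is a square (odd characteristic) -/
theorem sq_of_mem' (hch : ringChar F ≠ 2) (F₀ : Subfield F) (q₀ : ℕ) (hF₀ : Nat.card F₀ = q₀)
    (hq : Fintype.card F = q₀ ^ 2) (a : F) (ha : a ∈ F₀) : IsSquare a := by
  classical
  haveI : Fintype F₀ := Fintype.ofFinite _
  by_cases h0 : a = 0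
  · rw [h0]
    exact IsSquare.zero
  rw [FiniteField.isSquare_iff hch h0, hq]
  have hodd : q₀ % 2 = 1 := by
    have h1 := FiniteField.odd_card_of_char_ne_two hch
    rw [hq] at h1
    rcases Nat.mod_two_eq_zero_or_one q₀ with h | h
    · exfalso
      rw [Nat.pow_mod, h] at h1
      norm_num at h1
    · exact h
  have h1 : (⟨a, ha⟩ : F₀) ^ (q₀ - 1) = 1 := by
    rw [← hF₀, Nat.card_eq_fintype_card]
    exact FiniteField.pow_card_sub_one_eq_one _ (fun h => h0 (congrArg Subtype.val h))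
  have h2 : a ^ (q₀ - 1) = 1 := by
    have h3 : (((⟨a, ha⟩ : F₀) ^ (q₀ - 1) : F₀) : F) = ((1 : F₀) : F) :=
      congrArg Subtype.val h1
    rw [SubmonoidClass.coe_pow] at h3
    exact h3
  have h3 : q₀ ^ 2 / 2 = (q₀ - 1) * ((q₀ + 1) / 2) := by
    obtain ⟨t, ht⟩ : ∃ t, q₀ = 2 * t + 1 := ⟨q₀ / 2, by omega⟩
    subst ht
    have e1 : (2 * t + 1) ^ 2 = 2 * (2 * t * (t + 1)) + 1 := by ring
    have e2 : (2 * t + 1 + 1) / 2 = t + 1 := by omega
    have e3 : 2 * t + 1 - 1 = 2 * t := by omega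
    rw [e1, e2, e3]
    omega

  rw [h3, pow_mul, h2, one_pow]

theorem pv_two (t m : ℕ) (hm : Odd m) : padicValNat 2 (2 ^ t * m) = t := by
  have hm0 : m ≠ 0 := by
    rintro rfl
    simp at hm
  rw [padicValNat.mul (pow_ne_zero _ (by norm_num)) hm0, padicValNat.prime_pow,
    padicValNat.eq_zero_of_not_dvd (by
      rw [Nat.odd_iff] at hm
      omega), add_zero]

/-- `q - 1 = 2^v * m'` with `m'` odd and `q / 2 = 2^(v-1) * m'` -/
theorem card_decomp (hch : ringChar F ≠ 2) :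
    ∃ v m' : ℕ, Odd m' ∧ 1 ≤ v ∧ Fintype.card F - 1 = 2 ^ v * m' ∧
      Fintype.card F / 2 = 2 ^ (v - 1) * m' ∧ padicValNat 2 (Fintype.card F - 1) = v := by
  have hodd := FiniteField.odd_card_of_char_ne_two hch
  have h1 : Fintype.card F - 1 ≠ 0 := by
    have := Fintype.one_lt_card (α := F)
    omega
  obtain ⟨v, m', hm', hvm⟩ := Nat.exists_eq_two_pow_mul_odd h1
  have hv : 1 ≤ v := by
    by_contra hv
    have hv0 : v = 0 := by omega
    rw [hv0, pow_zero, one_mul] at hvm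
    rw [Nat.odd_iff] at hm'
    omega
  refine ⟨v, m', hm', hv, hvm, ?_, ?_⟩
  · have e : 2 ^ v = 2 * 2 ^ (v - 1) := by
      rw [← pow_succ']
      congr 1
      omega
    rw [e, mul_assoc] at hvm
    omega
  · rw [hvm, pv_two v m' hm']

/-- If `z` is a non-square with `(-z)^a = 1`, `-1` a square and `a ≠ 0`, then the 2-part of
`2a` exceeds that of `q - 1`. -/
theorem arith1 (hch : ringChar F ≠ 2) (z : F) (hz : ¬ IsSquare z) (hm1 : IsSquare (-1 : F))
    (a : ℕ) (ha0 : a ≠ 0) (ha : (-z) ^ a = 1)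
    (hv : padicValNat 2 (2 * a) ≤ padicValNat 2 (Fintype.card F - 1)) : False := by
  have hnz : ¬ IsSquare (-z) := by
    rintro ⟨s, hs⟩
    obtain ⟨i, hi⟩ := hm1
    exact hz ⟨i * s, by linear_combination (i ^ 2) * hs + (-z) * hi⟩
  have hz0 : -z ≠ 0 := by
    intro h
    rw [h] at hnz
    exact hnz IsSquare.zero
  have hE : (-z) ^ (Fintype.card F / 2) = -1 := by
    rcases FiniteField.pow_dichotomy hch hz0 with h | h
    · exact absurd ((FiniteField.isSquare_iff hch hz0).mpr h) hnz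
    · exact h
  obtain ⟨v, m', hm', hv1, hvm, hhalf, hpv⟩ := card_decomp (F := F) hch
  obtain ⟨α, a', ha', haa⟩ := Nat.exists_eq_two_pow_mul_odd ha0
  have hpa : padicValNat 2 (2 * a) = α + 1 := by
    rw [haa, ← mul_assoc, ← pow_succ']
    exact pv_two (α + 1) a' ha'
  rw [hpa, hpv] at hv
  have h1 : (-z) ^ (a * m' * 2 ^ (v - 1 - α)) = 1 := by
    rw [pow_mul, pow_mul, ha, one_pow, one_pow]
  have h2 : a * m' * 2 ^ (v - 1 - α) = Fintype.card F / 2 * a' := by
    rw [hhalf, haa]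
    have e : 2 ^ (v - 1) = 2 ^ α * 2 ^ (v - 1 - α) := by
      rw [← pow_add]
      congr 1
      omega
    rw [e]
    ring
  rw [h2, pow_mul, hE, ha'.neg_one_pow] at h1
  have h3 : (2 : F) = 0 := by linear_combination (-1 : F) * h1
  exact Ring.two_ne_zero hch h3

/-- If the 2-part of `q - 1` is smaller than that of `2m` (and `q ≡ 1 mod 4`), there is a
non-square `z` with `(-z)^m = 1`. -/
theorem arith2 (hch : ringChar F ≠ 2) (h4 : Fintype.card F % 4 = 1) (m : ℕ)
    (hv : padicValNat 2 (Fintype.card F - 1) < padicValNat 2 (2 * m)) :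
    ∃ z : F, ¬ IsSquare z ∧ (-z) ^ m = 1 := by
  have hm0 : m ≠ 0 := by
    rintro rfl
    simp at hv
  obtain ⟨v, m', hm', hv1, hvm, hhalf, hpv⟩ := card_decomp (F := F) hch
  obtain ⟨μ, m'', hm'', hmm⟩ := Nat.exists_eq_two_pow_mul_odd hm0
  have hpm : padicValNat 2 (2 * m) = μ + 1 := by
    rw [hmm, ← mul_assoc, ← pow_succ']
    exact pv_two (μ + 1) m'' hm''
  rw [hpm, hpv] at hv
  have hv2 : 2 ≤ v := by
    by_contra h
    have hv1' : v = 1 := by omega
    rw [hv1', pow_one] at hvm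
    rw [Nat.odd_iff] at hm'
    omega
  obtain ⟨w, hw⟩ := FiniteField.exists_nonsquare (F := F) hch
  have hw0 : w ≠ 0 := by
    rintro rfl
    exact hw IsSquare.zero
  have hwE : w ^ (Fintype.card F / 2) = -1 := by
    rcases FiniteField.pow_dichotomy hch hw0 with h | h
    · exact absurd ((FiniteField.isSquare_iff hch hw0).mpr h) hw
    · exact h
  have hy1 : (w ^ m') ^ (2 ^ (v - 1)) = -1 := by
    rw [← pow_mul, mul_comm, ← hhalf, hwE]
  have hy2 : (w ^ m') ^ (2 ^ v) = 1 := by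
    have e : 2 ^ v = 2 ^ (v - 1) * 2 := by
      rw [← pow_succ]
      congr 1
      omega
    rw [e, pow_mul, hy1]
    norm_num
  have hev : Even (2 ^ (v - 1)) := by
    have e : 2 ^ (v - 1) = 2 * 2 ^ (v - 2) := by
      rw [← pow_succ']
      congr 1
      omega
    rw [e]
    exact even_two_mul _
  refine ⟨-(w ^ m'), ?_, ?_⟩
  · have hz0 : -(w ^ m') ≠ 0 := neg_ne_zero.mpr (pow_ne_zero _ hw0)
    rw [FiniteField.isSquare_iff hch hz0, hhalf, pow_mul, hev.neg_pow, hy1, hm'.neg_one_pow]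
    intro h
    have h3 : (2 : F) = 0 := by linear_combination (-1 : F) * h
    exact Ring.two_ne_zero hch h3
  · rw [neg_neg, hmm]
    have e : 2 ^ μ * m'' = 2 ^ v * (2 ^ (μ - v) * m'') := by
      rw [← mul_assoc, ← pow_add]
      congr 2
      omega
    rw [e, pow_mul, hy2, one_pow]

end OddChar

end Cfsg.Agent.Helper16.Jord
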