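import Cfsg.Agent.Helper16.JordE

set_option autoImplicit false
open Cfsg

namespace Cfsg.Agent.Helper16.Jord

open Module Submodule

section Eig
variable {F : Type*} [Field F]

theorem basis_det_ne_zero {n : ℕ} {ι : Type*} [Fintype ι] [DecidableEq ι]
    (B0 : Basis ι F (Fin n → F)) (e : Fin n ≃ ι) :
    (Matrix.of (fun i k => B0 (e k) i) : Matrix (Fin n) (Fin n) F).det ≠ 0 := by
  classical
  have h1 : (Matrix.of (fun i k => B0 (e k) i) : Matrix (Fin n) (Fin n) F)
      = (Pi.basisFun F (Fin n)).toMatrix (B0.reindex e.symm) := by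
    ext i k
    rw [Basis.toMatrix_apply, Pi.basisFun_repr, Basis.reindex_apply, Equiv.symm_symm]
    rfl
  have h2 := Basis.toMatrix_mul_toMatrix_flip (Pi.basisFun F (Fin n)) (B0.reindex e.symm)
  rw [← h1] at h2
  intro h0
  have h3 := congrArg Matrix.det h2
  rw [Matrix.det_mul, h0, zero_mul, Matrix.det_one] at h3
  exact zero_ne_one h3

/-- an eigenbasis with eigenvalues in `F₀` gives a conjugating matrix of determinant one -/
theorem conj_rat_of_eig {n : ℕ} (hn : 1 ≤ n) (F₀ : Subfield F) (N : Matrix (Fin n) (Fin n) F)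
    {ι : Type*} [Fintype ι] [DecidableEq ι] (B0 : Basis ι F (Fin n → F))
    (h : ∀ j, ∃ r, r ∈ F₀ ∧ Matrix.mulVec N (B0 j) = r • B0 j) :
    ∃ P : Matrix (Fin n) (Fin n) F, P.det = 1 ∧ RMat F₀ (P⁻¹ * N * P) := by
  classical
  have hcard : Fintype.card ι = n := by
    have h1 := Module.finrank_eq_card_basis B0
    rw [Module.finrank_fintype_fun_eq_card, Fintype.card_fin] at h1
    exact h1.symm
  obtain ⟨e⟩ : Nonempty (Fin n ≃ ι) := ⟨(Fintype.equivFinOfCardEq hcard).symm⟩
  have hM0det := basis_det_ne_zero B0 e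
  generalize hM0 : (Matrix.of (fun i k => B0 (e k) i) : Matrix (Fin n) (Fin n) F) = M0
    at hM0det
  obtain ⟨dd, hdd⟩ : ∃ dd : ι → F, dd = fun j => if j = e ⟨0, hn⟩ then M0.det⁻¹ else 1 :=
    ⟨_, rfl⟩
  have hdd0 : ∀ j, dd j ≠ 0 := by
    intro j
    rw [hdd]
    dsimp only
    split_ifs
    · exact inv_ne_zero hM0det
    · exact one_ne_zero
  have hddu : ∀ j, IsUnit (dd j) := fun j => (hdd0 j).isUnit
  have hBk : ∀ k, ((B0.isUnitSMul hddu).reindex e.symm) k = dd (e k) • B0 (e k) := fun k => by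
    rw [Basis.reindex_apply, Equiv.symm_symm, Basis.isUnitSMul_apply]
  apply conj_rat_of_basis F₀ N ((B0.isUnitSMul hddu).reindex e.symm)
  · have h1 : (Matrix.of (fun i k => ((B0.isUnitSMul hddu).reindex e.symm) k i) :
        Matrix (Fin n) (Fin n) F) = M0 * Matrix.diagonal (fun k => dd (e k)) := by
      ext i k
      rw [Matrix.mul_diagonal, ← hM0, Matrix.of_apply, Matrix.of_apply, hBk, Pi.smul_apply,
        smul_eq_mul, mul_comm]
    rw [h1, Matrix.det_mul, Matrix.det_diagonal, Equiv.prod_comp e dd]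
    have h2 : ∏ j, dd j = M0.det⁻¹ := by
      rw [hdd]
      simp
    rw [h2, mul_inv_cancel₀ hM0det]
  · intro k
    obtain ⟨r, hr, hj⟩ := h (e k)
    refine ⟨k, r, hr, ?_⟩
    rw [hBk, Matrix.mulVec_smul, hj, smul_comm]

theorem inv_eig {V : Type*} [AddCommGroup V] [Module F V] [FiniteDimensional F V]
    (h2 : (2 : F) ≠ 0) (s : V →ₗ[F] V) (hs : ∀ x, s (s x) = x) :
    ∃ (a b : ℕ) (u : Fin a → V) (v : Fin b → V), LinearIndependent F (Sum.elim u v) ∧
      span F (Set.range (Sum.elim u v)) = ⊤ ∧ (∀ i, s (u i) = u i) ∧ (∀ j, s (v j) = - v j) := by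
  obtain ⟨a, u, hu, hus⟩ := exists_fam (LinearMap.ker (s - LinearMap.id))
  obtain ⟨b, v, hv, hvs⟩ := exists_fam (LinearMap.ker (s + LinearMap.id))
  have hdis : Disjoint (LinearMap.ker (s - LinearMap.id)) (LinearMap.ker (s + LinearMap.id)) := by
    rw [Submodule.disjoint_def]
    intro x h1 h2'
    rw [LinearMap.mem_ker, LinearMap.sub_apply, LinearMap.id_apply, sub_eq_zero] at h1
    rw [LinearMap.mem_ker, LinearMap.add_apply, LinearMap.id_apply] at h2'
    rw [h1] at h2'
    have h3 : (2 : F) • x = 0 := by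
      rw [two_smul]
      exact h2'
    exact (smul_eq_zero.mp h3).resolve_left h2
  refine ⟨a, b, u, v, hu.sum_type hv (by rw [hus, hvs]; exact hdis), ?_, ?_, ?_⟩
  · rw [Set.Sum.elim_range, Submodule.span_union, hus, hvs, eq_top_iff]
    intro x _
    have e : x = (2 : F)⁻¹ • (x + s x) + (2 : F)⁻¹ • (x - s x) := by
      rw [← smul_add, add_add_sub_cancel, ← two_smul F x, smul_smul, inv_mul_cancel₀ h2,
        one_smul]
    rw [e]
    apply Submodule.add_mem_sup
    · apply Submodule.smul_mem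
      rw [LinearMap.mem_ker, LinearMap.sub_apply, LinearMap.id_apply, map_add, hs]
      abel
    · apply Submodule.smul_mem
      rw [LinearMap.mem_ker, LinearMap.add_apply, LinearMap.id_apply, map_sub, hs]
      abel
  · intro i
    have h3 : u i ∈ LinearMap.ker (s - LinearMap.id) := by
      rw [← hus]
      exact Submodule.subset_span ⟨i, rfl⟩
    rw [LinearMap.mem_ker, LinearMap.sub_apply, LinearMap.id_apply, sub_eq_zero] at h3
    exact h3
  · intro j
    have h3 : v j ∈ LinearMap.ker (s + LinearMap.id) := by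
      rw [← hvs]
      exact Submodule.subset_span ⟨j, rfl⟩
    rw [LinearMap.mem_ker, LinearMap.add_apply, LinearMap.id_apply] at h3
    exact eq_neg_of_add_eq_zero_left h3

/-- an involutory matrix (in characteristic not 2) is conjugate by a matrix of determinant one
to a matrix with entries in any subfield -/
theorem conj_rat_inv {n : ℕ} (hn : 1 ≤ n) (F₀ : Subfield F) (h2 : (2 : F) ≠ 0)
    (S : Matrix (Fin n) (Fin n) F) (hS : S * S = 1) :
    ∃ P : Matrix (Fin n) (Fin n) F, P.det = 1 ∧ RMat F₀ (P⁻¹ * S * P) := by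
  classical
  obtain ⟨a, b, u, v, hli, hsp, hu, hv⟩ := inv_eig h2 (Matrix.toLin' S) (fun x => by
    rw [Matrix.toLin'_apply, Matrix.toLin'_apply, Matrix.mulVec_mulVec, hS, Matrix.one_mulVec])
  have hB0 : ∀ j, (Basis.mk hli hsp.ge) j = Sum.elim u v j := fun j => by
    rw [Basis.mk_apply]
  generalize Basis.mk hli hsp.ge = B0 at hB0
  apply conj_rat_of_eig hn F₀ S B0
  rintro (i | j)
  · refine ⟨1, F₀.one_mem, ?_⟩
    rw [hB0, one_smul]
    have h3 := hu i
    rw [Matrix.toLin'_apply] at h3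
    exact h3
  · refine ⟨-1, F₀.neg_mem F₀.one_mem, ?_⟩
    rw [hB0, neg_one_smul]
    have h3 := hv j
    rw [Matrix.toLin'_apply] at h3
    exact h3

/-- variant of `conj_rat` for `N * N = 0` -/
theorem conj_rat2 {n : ℕ} (F₀ : Subfield F) (N : Matrix (Fin n) (Fin n) F)
    (hN : N * N = 0) (hn : 1 ≤ n)
    (hsq : ∀ δ : F, δ ≠ 0 → ∃ α β, α ≠ 0 ∧ β ∈ F₀ ∧ δ = α ^ 2 * β) :
    ∃ P : Matrix (Fin n) (Fin n) F, P.det = 1 ∧ RMat F₀ (P⁻¹ * N * P) := by
  classical
  have hN2 : ∀ x, Matrix.mulVec N (Matrix.mulVec N x) = 0 := fun x => by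
    rw [Matrix.mulVec_mulVec, hN, Matrix.zero_mulVec]
  have hN' : ∀ x, Matrix.mulVec N (Matrix.mulVec N (Matrix.mulVec N x)) = 0 := fun x => by
    rw [hN2]
  obtain ⟨a, b, c, u, v, w, hli, hsp, hv, hw⟩ := jordan3 (Matrix.toLin' N) (fun x => by
    rw [Matrix.toLin'_apply, Matrix.toLin'_apply, Matrix.toLin'_apply]
    exact hN' x)
  have ha : a = 0 := by
    by_contra ha
    have h1 := hli.ne_zero
      (Sum.inr (Sum.inr (Sum.inl (Sum.inl (⟨0, Nat.pos_of_ne_zero ha⟩ : Fin a)))))
    apply h1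
    show Matrix.toLin' N (Matrix.toLin' N (u _)) = 0
    rw [Matrix.toLin'_apply, Matrix.toLin'_apply, hN2]
  obtain ⟨hcard, δ, hδ, H⟩ := conj_rat_of_fam F₀ N hN' u v w hli hsp
    (fun j => by
      have := hv j
      rw [Matrix.toLin'_apply, Matrix.toLin'_apply] at this
      exact this)
    (fun l => by
      have := hw l
      rw [Matrix.toLin'_apply] at this
      exact this)
  by_cases hc : 0 < c
  · refine H (fun _ => 1) (fun _ => 1) (fun _ => 1) (fun _ => 1) (fun _ => 1)
      (fun l => if l = ⟨0, hc⟩ then δ else 1) (fun _ => one_ne_zero) (fun _ => one_ne_zero)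
      (fun _ => one_ne_zero) (fun _ => one_ne_zero) (fun _ => one_ne_zero) ?_ ?_ ?_ ?_ ?_
    · intro l
      split_ifs
      · exact hδ
      · exact one_ne_zero
    · intro i
      rw [div_one]
      exact F₀.one_mem
    · intro i
      rw [div_one]
      exact F₀.one_mem
    · intro i
      rw [div_one]
      exact F₀.one_mem
    · simp
  · have hc0 : c = 0 := by omega
    have hb : 0 < b := by omega
    obtain ⟨α, β, hα0, hβ, hδe⟩ := hsq δ hδ
    have hβ0 : β ≠ 0 := by
      rintro rfl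
      rw [mul_zero] at hδe
      exact hδ hδe
    refine H (fun _ => 1) (fun _ => 1) (fun _ => 1)
      (fun j => if j = ⟨0, hb⟩ then α * β else 1) (fun j => if j = ⟨0, hb⟩ then α else 1)
      (fun _ => 1) (fun _ => one_ne_zero) (fun _ => one_ne_zero) (fun _ => one_ne_zero)
      ?_ ?_ (fun _ => one_ne_zero) ?_ ?_ ?_ ?_
    · intro j
      split_ifs
      · exact mul_ne_zero hα0 hβ0
      · exact one_ne_zero
    · intro j
      split_ifs
      · exact hα0
      · exact one_ne_zero
    · intro i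
      rw [div_one]
      exact F₀.one_mem
    · intro i
      rw [div_one]
      exact F₀.one_mem
    · intro j
      split_ifs
      · rw [mul_div_cancel_left₀ _ hα0]
        exact hβ
      · rw [div_one]
        exact F₀.one_mem
    · simp only [Finset.prod_ite_eq', Finset.mem_univ, if_true, Finset.prod_const_one, mul_one,
        one_mul]
      rw [hδe]
      ring

open Polynomial in
/-- a matrix with `x * x = z`, `z` a non-square, has even size `2a` and determinant `(-z)^a` -/
theorem det_of_sq_nonsquare {n : ℕ} (x : Matrix (Fin n) (Fin n) F) (z : F) (hz : ¬ IsSquare z)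
    (hx : x * x = z • (1 : Matrix (Fin n) (Fin n) F)) : ∃ a, n = 2 * a ∧ x.det = (-z) ^ a := by
  classical
  have hmon : (X ^ 2 - C z : F[X]).Monic := monic_X_pow_sub_C z (by norm_num)
  have hirr : Irreducible (X ^ 2 - C z : F[X]) := by
    rw [Polynomial.Monic.irreducible_iff_roots_eq_zero_of_degree_le_three hmon
      (by rw [natDegree_X_pow_sub_C]) (by rw [natDegree_X_pow_sub_C]; norm_num)]
    rw [Multiset.eq_zero_iff_forall_notMem]
    intro r hr
    rw [mem_roots hmon.ne_zero, IsRoot, eval_sub, eval_pow, eval_X, eval_C, sub_eq_zero] at hr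
    exact hz ⟨r, by rw [← hr]; ring⟩
  have hcm : Matrix.charmatrix x
      = (X : F[X]) • (1 : Matrix (Fin n) (Fin n) F[X]) - (C : F →+* F[X]).mapMatrix x := by
    ext i j
    simp [Matrix.charmatrix, Matrix.one_apply, Matrix.diagonal_apply]
  have hAA : (C : F →+* F[X]).mapMatrix x * (C : F →+* F[X]).mapMatrix x
      = (C z : F[X]) • (1 : Matrix (Fin n) (Fin n) F[X]) := by
    rw [← map_mul, hx]
    refine Matrix.ext fun i j => ?_
    rw [RingHom.mapMatrix_apply, Matrix.map_apply, Matrix.smul_apply, Matrix.smul_apply,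
      Matrix.one_apply, Matrix.one_apply]
    split_ifs
    · simp
    · simp
  have hdvd : x.charpoly ∣ (X ^ 2 - C z) ^ n := by
    have h1 : Matrix.charmatrix x
        * ((X : F[X]) • (1 : Matrix (Fin n) (Fin n) F[X]) + (C : F →+* F[X]).mapMatrix x)
        = (X ^ 2 - C z : F[X]) • (1 : Matrix (Fin n) (Fin n) F[X]) := by
      rw [hcm, Matrix.sub_mul, Matrix.mul_add, Matrix.mul_add, hAA]
      simp only [Matrix.smul_mul, Matrix.mul_smul, Matrix.one_mul, Matrix.mul_one, smul_smul]
      rw [sub_smul]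
      have e : (X : F[X]) * X = X ^ 2 := by ring
      rw [e]
      abel
    have h2 := congrArg Matrix.det h1
    rw [Matrix.det_mul, Matrix.det_smul, Matrix.det_one, mul_one, Fintype.card_fin] at h2
    exact ⟨_, h2.symm⟩
  obtain ⟨i, -, hassoc⟩ := (dvd_prime_pow hirr.prime n).mp hdvd
  have hcp : x.charpoly = (X ^ 2 - C z) ^ i :=
    eq_of_monic_of_associated (Matrix.charpoly_monic x) (hmon.pow i) hassoc
  have hdeg : n = 2 * i := by
    have h1 := Matrix.charpoly_natDegree_eq_dim x
    rw [hcp, natDegree_pow, natDegree_X_pow_sub_C, Fintype.card_fin] at h1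
    omega
  refine ⟨i, hdeg, ?_⟩
  rw [Matrix.det_eq_sign_charpoly_coeff, hcp, Fintype.card_fin, coeff_zero_eq_eval_zero,
    eval_pow, eval_sub, eval_pow, eval_X, eval_C, hdeg, pow_mul]
  norm_num

end Eig

end Cfsg.Agent.Helper16.Jord
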