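import Cfsg.Agent.Helper16.JordF

set_option autoImplicit false
open Cfsg
open scoped MatrixGroups

namespace Cfsg.Agent.Helper16.Jord

section Idx

theorem relIndex_dvd_index_normal' {G : Type*} [Group G] [Finite G] (H S : Subgroup G)
    [S.Normal] : H.relIndex S ∣ H.index := by
  have h1 : H.relIndex S * S.index = (H ⊓ S).index := by
    rw [← Subgroup.inf_relIndex_right H S]
    exact Subgroup.relIndex_mul_index inf_le_right
  have h2 : S.relIndex H * H.index = (H ⊓ S).index := by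
    rw [← Subgroup.inf_relIndex_left H S]
    exact Subgroup.relIndex_mul_index inf_le_left
  have h3 : S.relIndex (H ⊔ S) * (H ⊔ S).index = S.index :=
    Subgroup.relIndex_mul_index le_sup_right
  rw [Subgroup.relIndex_sup_right] at h3
  have h4 : S.relIndex H ≠ 0 := Subgroup.index_ne_zero_of_finite
  refine ⟨(H ⊔ S).index, ?_⟩
  have h5 : S.relIndex H * H.index = S.relIndex H * (H.relIndex S * (H ⊔ S).index) := by
    rw [h2, ← h1, ← h3]
    ring
  exact Nat.eq_of_mul_eq_mul_left (Nat.pos_of_ne_zero h4) h5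

theorem geom_id (Y k : ℕ) : Y * (∑ j ∈ Finset.range k, (Y + 1) ^ j) + 1 = (Y + 1) ^ k := by
  induction k with
  | zero => simp
  | succ k ih =>
    rw [Finset.sum_range_succ, mul_add, pow_succ, add_right_comm, ih]
    ring

theorem geom_odd (X k : ℕ) (hX : X % 2 = 1) : (∑ j ∈ Finset.range k, X ^ j) % 2 = k % 2 := by
  induction k with
  | zero => simp
  | succ k ih =>
    have h1 : X ^ k % 2 = 1 := by
      rw [Nat.pow_mod, hX]
      simp
    rw [Finset.sum_range_succ, Nat.add_mod, ih, h1]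
    omega

/-- `|GL_n(q₀^k)| = |GL_n(q₀)| * (odd)` for `q₀`, `k` odd -/
theorem gl_ratio (q₀ k n : ℕ) (hq : q₀ % 2 = 1) (hk : k % 2 = 1) :
    ∃ C : ℕ, C % 2 = 1 ∧ ∏ i : Fin n, ((q₀ ^ k) ^ n - (q₀ ^ k) ^ (i : ℕ))
      = (∏ i : Fin n, (q₀ ^ n - q₀ ^ (i : ℕ))) * C := by
  have key : ∀ i : Fin n, ∃ c : ℕ, c % 2 = 1 ∧
      (q₀ ^ k) ^ n - (q₀ ^ k) ^ (i : ℕ) = (q₀ ^ n - q₀ ^ (i : ℕ)) * c := by
    intro i
    obtain ⟨d, hd⟩ : ∃ d, n = (i : ℕ) + d := ⟨n - i, by have := i.2; omega⟩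
    obtain ⟨Y, hY⟩ : ∃ Y, q₀ ^ d = Y + 1 :=
      ⟨q₀ ^ d - 1, by have : 0 < q₀ ^ d := pow_pos (by omega) d; omega⟩
    refine ⟨q₀ ^ ((i : ℕ) * (k - 1)) * ∑ j ∈ Finset.range k, (Y + 1) ^ j, ?_, ?_⟩
    · have h1 : (Y + 1) % 2 = 1 := by
        rw [← hY, Nat.pow_mod, hq]
        simp
      have h2 : q₀ ^ ((i : ℕ) * (k - 1)) % 2 = 1 := by
        rw [Nat.pow_mod, hq]
        simp
      rw [Nat.mul_mod, h2, geom_odd (Y + 1) k h1, hk]
    · have e1 : q₀ ^ n - q₀ ^ (i : ℕ) = q₀ ^ (i : ℕ) * Y := by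
        have e0 : q₀ ^ n = q₀ ^ (i : ℕ) * (Y + 1) := by
          rw [← hY, ← pow_add, ← hd]
        rw [e0, mul_add, mul_one, Nat.add_sub_cancel]
      have e2 : (q₀ ^ k) ^ n - (q₀ ^ k) ^ (i : ℕ)
          = (q₀ ^ k) ^ (i : ℕ) * (Y * ∑ j ∈ Finset.range k, (Y + 1) ^ j) := by
        have e3 : (q₀ ^ k) ^ n = (q₀ ^ k) ^ (i : ℕ) * (Y + 1) ^ k := by
          rw [← hY, ← pow_mul, ← pow_mul, ← pow_mul, ← pow_add]
          congr 1
          have hd' := hd
          generalize (i : ℕ) = i' at hd' ⊢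
          subst hd'
          ring
        rw [e3, ← geom_id Y k, mul_add, mul_one, Nat.add_sub_cancel]
      rw [e1, e2]
      have e4 : (q₀ ^ k) ^ (i : ℕ) = q₀ ^ (i : ℕ) * q₀ ^ ((i : ℕ) * (k - 1)) := by
        rw [← pow_mul, ← pow_add]
        congr 1
        have e5 : k = (k - 1) + 1 := by omega
        conv_lhs => rw [e5]
        ring
      rw [e4]
      ring
  choose c hc1 hc2 using key
  refine ⟨∏ i, c i, ?_, ?_⟩
  · exact Finset.prod_induction c (fun t => t % 2 = 1)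
      (fun a b ha hb => by rw [Nat.mul_mod, ha, hb]) (by norm_num) (fun i _ => hc1 i)
  · rw [← Finset.prod_mul_distrib]
    exact Finset.prod_congr rfl (fun i _ => hc2 i)

/-- the subfield subgroup has odd index in `SL_n(F)` when `F` has odd order and odd degree
over `F₀` -/
theorem index_odd {F : Type*} [Field F] [Fintype F] (hch : ringChar F ≠ 2) (n : ℕ)
    (F₀ : Subfield F) (k q₀ : ℕ) (hF₀ : Nat.card F₀ = q₀) (hq : Fintype.card F = q₀ ^ k)
    (hk : k % 2 = 1) :
    ¬ 2 ∣ ((Cfsg.Geo.subfieldSubgroup F₀ (1 : GL (Fin n) F)).comap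
      (Matrix.SpecialLinearGroup.toGL :
        Matrix.SpecialLinearGroup (Fin n) F →* GL (Fin n) F)).index := by
  classical
  haveI : Fintype F₀ := Fintype.ofFinite _
  intro h2
  rw [Subgroup.index_comap] at h2
  have hrange : ∀ g : GL (Fin n) F, g ∈ (Matrix.SpecialLinearGroup.toGL :
      Matrix.SpecialLinearGroup (Fin n) F →* GL (Fin n) F).range
      ↔ (g : Matrix (Fin n) (Fin n) F).det = 1 := by
    intro g
    constructor
    · rintro ⟨A, rfl⟩
      exact A.det_coe
    · intro h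
      exact ⟨⟨(g : Matrix (Fin n) (Fin n) F), h⟩, Units.ext rfl⟩
  haveI hnorm : (Matrix.SpecialLinearGroup.toGL :
      Matrix.SpecialLinearGroup (Fin n) F →* GL (Fin n) F).range.Normal := by
    constructor
    intro g hg h
    rw [hrange] at hg ⊢
    rw [Units.val_mul, Units.val_mul, Matrix.det_mul, Matrix.det_mul, hg, mul_one,
      ← Matrix.det_mul, ← Units.val_mul, mul_inv_cancel, Units.val_one, Matrix.det_one]
  have h3 := relIndex_dvd_index_normal' (Cfsg.Geo.subfieldSubgroup F₀ (1 : GL (Fin n) F))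
    (Matrix.SpecialLinearGroup.toGL :
      Matrix.SpecialLinearGroup (Fin n) F →* GL (Fin n) F).range
  have hle : (Matrix.GeneralLinearGroup.map (F₀.subtype : F₀ →+* F)).range
      ≤ Cfsg.Geo.subfieldSubgroup F₀ (1 : GL (Fin n) F) := by
    rintro _ ⟨g0, rfl⟩
    apply sfg_one_of_rmat _ 1 one_ne_zero
    rw [one_smul]
    intro i j
    rw [Matrix.GeneralLinearGroup.map_apply]
    exact ((g0 : Matrix (Fin n) (Fin n) F₀) i j).2
  have h4 := Subgroup.index_dvd_of_le hle
  have hinj : Function.Injective (Matrix.GeneralLinearGroup.map (n := Fin n)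
      (F₀.subtype : F₀ →+* F)) := by
    intro a b h
    apply Units.ext
    ext i j
    have h6 := congrArg (fun g : GL (Fin n) F => (g : Matrix (Fin n) (Fin n) F) i j) h
    simp only [Matrix.GeneralLinearGroup.map_apply] at h6
    exact h6
  have h5 := Subgroup.index_mul_card
    (Matrix.GeneralLinearGroup.map (n := Fin n) (F₀.subtype : F₀ →+* F)).range
  have hcR : Nat.card (Matrix.GeneralLinearGroup.map (n := Fin n)
      (F₀.subtype : F₀ →+* F)).range = Nat.card (GL (Fin n) F₀) :=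
    Nat.card_congr (MonoidHom.ofInjective hinj).toEquiv.symm
  have hq0 : Fintype.card F₀ = q₀ := by rw [← hF₀, Nat.card_eq_fintype_card]
  have hodd : q₀ % 2 = 1 := by
    have h6 := FiniteField.odd_card_of_char_ne_two hch
    rw [hq] at h6
    rcases Nat.mod_two_eq_zero_or_one q₀ with h | h
    · exfalso
      have hk0 : k ≠ 0 := by
        rintro rfl
        simp at hk
      rw [Nat.pow_mod, h, zero_pow hk0] at h6
      norm_num at h6
    · exact h
  rw [hcR, Matrix.card_GL_field, Matrix.card_GL_field, hq0, hq] at h5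
  obtain ⟨C, hC, hCe⟩ := gl_ratio q₀ k n hodd hk
  rw [hCe, mul_comm] at h5
  have hpos : 0 < ∏ i : Fin n, (q₀ ^ n - q₀ ^ (i : ℕ)) := by
    have h7 := Matrix.card_GL_field (𝔽 := F₀) (n := n)
    rw [hq0] at h7
    rw [← h7]
    exact Nat.card_pos
  have h8 := Nat.eq_of_mul_eq_mul_left hpos h5
  have h9 : 2 ∣ (Matrix.GeneralLinearGroup.map (n := Fin n)
      (F₀.subtype : F₀ →+* F)).range.index := dvd_trans (dvd_trans h2 h3) h4
  rw [h8] at h9
  omega

end Idx

end Cfsg.Agent.Helper16.Jord
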