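import Cfsg.Agent.Helper16.QExtD

set_option autoImplicit false
open Cfsg
open scoped MatrixGroups

namespace Cfsg.Agent.Helper16.SpInv

open Module Submodule Cfsg.Agent.Helper16.Jord Cfsg.Agent.Helper16.QExt

section A
variable {F : Type*} [Field F]

/-- planes bases for an alternating bilinear map, relative to a subspace on which it is
nondegenerate -/
theorem planes_aux {V : Type*} [AddCommGroup V] [Module F V] [FiniteDimensional F V]
    (B : V →ₗ[F] V →ₗ[F] F) (halt : ∀ v, B v v = 0) (hskew : ∀ u v, B u v = - B v u) :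
    ∀ (j : ℕ) (W : Submodule F V), (∀ w ∈ W, w ≠ 0 → ∃ w' ∈ W, B w w' ≠ 0) →
      finrank F W = 2 * j →
      ∃ (ι : Type) (_ : Fintype ι) (ue ug : ι → V), Fintype.card ι = j ∧
        LinearIndependent F (Sum.elim ue ug) ∧ span F (Set.range (Sum.elim ue ug)) = W ∧
        (∀ i i', B (ue i) (ue i') = 0) ∧ (∀ i i', B (ug i) (ug i') = 0) ∧
        (∀ i i', i ≠ i' → B (ue i) (ug i') = 0) := by
  intro j
  induction j with
  | zero =>
    intro W hnd hfin
    have hW : W = ⊥ := Submodule.finrank_eq_zero.mp (by rw [hfin])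
    refine ⟨Empty, inferInstance, Empty.elim, Empty.elim, Fintype.card_empty,
      linearIndependent_empty_type, ?_, fun i => i.elim, fun i => i.elim, fun i => i.elim⟩
    have h0 : Set.range (Sum.elim (Empty.elim : Empty → V) (Empty.elim : Empty → V)) = ∅ := by
      rw [Set.range_eq_empty_iff]
      infer_instance
    rw [h0, Submodule.span_empty, hW]
  | succ j ih =>
    intro W hnd hfin
    have hWbot : W ≠ ⊥ := by
      intro h
      rw [h, finrank_bot] at hfin
      omega
    obtain ⟨e, heW, he0⟩ := Submodule.exists_mem_ne_zero_of_ne_bot hWbot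
    obtain ⟨g, hgW, heg⟩ := hnd e heW he0
    have hge : B g e ≠ 0 := by
      rw [hskew]
      exact neg_ne_zero.mpr heg
    have key2 : ∀ a b : F, B e (a • e + b • g) = 0 → B g (a • e + b • g) = 0 →
        a = 0 ∧ b = 0 := by
      intro a b h1 h2
      rw [map_add, map_smul, map_smul, halt, smul_zero, zero_add, smul_eq_mul] at h1
      rw [map_add, map_smul, map_smul, halt, smul_zero, add_zero, smul_eq_mul] at h2
      exact ⟨(mul_eq_zero.mp h2).resolve_right hge, (mul_eq_zero.mp h1).resolve_right heg⟩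
    obtain ⟨W', hW'⟩ : ∃ W' : Submodule F V,
        W' = W ⊓ LinearMap.ker (B e) ⊓ LinearMap.ker (B g) := ⟨_, rfl⟩
    have hmemW' : ∀ v, v ∈ W' ↔ v ∈ W ∧ B e v = 0 ∧ B g v = 0 := by
      intro v
      rw [hW', Submodule.mem_inf, Submodule.mem_inf, LinearMap.mem_ker, LinearMap.mem_ker,
        and_assoc]
    have hproj : ∀ v ∈ W, v - (B g v / B g e) • e - (B e v / B e g) • g ∈ W' := by
      intro v hv
      rw [hmemW']
      refine ⟨W.sub_mem (W.sub_mem hv (W.smul_mem _ heW)) (W.smul_mem _ hgW), ?_, ?_⟩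
      · rw [map_sub, map_sub, map_smul, map_smul, halt, smul_zero, sub_zero, smul_eq_mul,
          div_mul_cancel₀ _ heg, sub_self]
      · rw [map_sub, map_sub, map_smul, map_smul, halt, smul_zero, sub_zero, smul_eq_mul,
          div_mul_cancel₀ _ hge, sub_self]
    have hnd' : ∀ w ∈ W', w ≠ 0 → ∃ w' ∈ W', B w w' ≠ 0 := by
      intro w hw hw0
      obtain ⟨hwW, hew, hgw⟩ := (hmemW' w).mp hw
      obtain ⟨v, hvW, hwv⟩ := hnd w hwW hw0
      refine ⟨_, hproj v hvW, ?_⟩
      have h1 : B w e = 0 := by rw [hskew, hew, neg_zero]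
      have h2 : B w g = 0 := by rw [hskew, hgw, neg_zero]
      rw [map_sub, map_sub, map_smul, map_smul, h1, h2, smul_zero, smul_zero, sub_zero, sub_zero]
      exact hwv
    have hli2 : LinearIndependent F ![e, g] := by
      rw [LinearIndependent.pair_iff]
      intro a b hab
      exact key2 a b (by rw [hab, map_zero]) (by rw [hab, map_zero])
    have hdis2 : Disjoint W' (span F {e, g}) := by
      rw [Submodule.disjoint_def]
      intro x hxW' hx
      rw [Submodule.mem_span_pair] at hx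
      obtain ⟨a, b, rfl⟩ := hx
      obtain ⟨-, h1, h2⟩ := (hmemW' _).mp hxW'
      obtain ⟨rfl, rfl⟩ := key2 a b h1 h2
      rw [zero_smul, zero_smul, add_zero]
    have hsup : W' ⊔ span F {e, g} = W := by
      apply le_antisymm
      · apply sup_le
        · intro v hv
          exact ((hmemW' v).mp hv).1
        · rw [Submodule.span_le]
          rintro v (rfl | rfl)
          · exact heW
          · exact hgW
      · intro v hv
        have h1 : v = (v - (B g v / B g e) • e - (B e v / B e g) • g)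
            + ((B g v / B g e) • e + (B e v / B e g) • g) := by abel
        rw [h1]
        apply Submodule.add_mem_sup (hproj v hv)
        rw [Submodule.mem_span_pair]
        exact ⟨_, _, rfl⟩
    have hfin' : finrank F W' = 2 * j := by
      have h1 := Submodule.finrank_sup_add_finrank_inf_eq W' (span F {e, g})
      have h2 : finrank F ↥(span F {e, g}) = 2 := by
        have h3 := finrank_span_eq_card hli2
        rw [Matrix.range_cons_cons_empty, Fintype.card_fin] at h3
        exact h3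
      rw [disjoint_iff.mp hdis2, finrank_bot, add_zero, h2, hsup, hfin] at h1
      omega
    obtain ⟨ι, inst, ue, ug, hcard, hli, hspan, h11, h22, h12⟩ := ih W' hnd' hfin'
    have hueW' : ∀ i, ue i ∈ W' := fun i => by
      rw [← hspan]
      exact Submodule.subset_span ⟨Sum.inl i, rfl⟩
    have hugW' : ∀ i, ug i ∈ W' := fun i => by
      rw [← hspan]
      exact Submodule.subset_span ⟨Sum.inr i, rfl⟩
    have hA : LinearIndependent F (Sum.elim (Sum.elim ue ug)
        (Sum.elim (fun _ : Unit => e) (fun _ : Unit => g))) := by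
      apply hli.sum_type (li_unit_sum hli2)
      rw [range_unit_sum, hspan]
      exact hdis2
    have e' : Sum.elim (Sum.elim ue (fun _ : Unit => e)) (Sum.elim ug (fun _ : Unit => g))
        = (Sum.elim (Sum.elim ue ug) (Sum.elim (fun _ : Unit => e) (fun _ : Unit => g)))
          ∘ (Equiv.sumSumSumComm ι Unit ι Unit) := by
      funext x
      rcases x with (i | i) | (i | i) <;> rfl
    refine ⟨ι ⊕ Unit, inferInstance, Sum.elim ue (fun _ => e), Sum.elim ug (fun _ => g),
      ?_, ?_, ?_, ?_, ?_, ?_⟩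
    · rw [Fintype.card_sum, Fintype.card_unit, hcard]
    · rw [e']
      exact hA.comp _ (Equiv.injective _)
    · rw [e', (Equiv.surjective _).range_comp, Set.Sum.elim_range, Submodule.span_union,
        range_unit_sum, hspan, hsup]
    · rintro (i | i) (i' | i')
      · exact h11 i i'
      · show B (ue i) e = 0
        rw [hskew, ((hmemW' _).mp (hueW' i)).2.1, neg_zero]
      · show B e (ue i') = 0
        exact ((hmemW' _).mp (hueW' i')).2.1
      · exact halt e
    · rintro (i | i) (i' | i')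
      · exact h22 i i'
      · show B (ug i) g = 0
        rw [hskew, ((hmemW' _).mp (hugW' i)).2.2, neg_zero]
      · show B g (ug i') = 0
        exact ((hmemW' _).mp (hugW' i')).2.2
      · exact halt g
    · rintro (i | i) (i' | i') hne
      · exact h12 i i' (fun h => hne (by rw [h]))
      · show B (ue i) g = 0
        rw [hskew, ((hmemW' _).mp (hueW' i)).2.2, neg_zero]
      · show B e (ug i') = 0
        exact ((hmemW' _).mp (hugW' i')).2.1
      · exact absurd (congrArg Sum.inr (Subsingleton.elim i i')) hne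

theorem exists_planes {n : ℕ} (f : (Fin n → F) → (Fin n → F) → F)
    (hf : Cfsg.Geo.IsSymplecticForm f) (κ : Type) [Fintype κ] [DecidableEq κ]
    (hκ : n = 2 * Fintype.card κ) :
    ∃ b : Basis (κ ⊕ κ) F (Fin n → F), ∀ j j', j' ≠ j.swap → f (b j) (b j') = 0 := by
  classical
  obtain ⟨B, hB⟩ : ∃ B : (Fin n → F) →ₗ[F] (Fin n → F) →ₗ[F] F, ∀ u v, B u v = f u v :=
    ⟨LinearMap.mk₂ F f hf.bilinear.add_left hf.bilinear.smul_left hf.bilinear.add_right
      hf.bilinear.smul_right, fun u v => rfl⟩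
  have hBskew : ∀ u v, B u v = - B v u := fun u v => by
    rw [hB, hB]
    exact hf.skew u v
  obtain ⟨ι, inst, ue, ug, hcard, hli, hspan, h11, h22, h12⟩ := planes_aux B
    (fun v => by rw [hB]; exact hf.alternating v) hBskew (Fintype.card κ) ⊤
    (fun w _ hw0 => by
      obtain ⟨x, hx⟩ := (hf.nondegenerate w hw0).2
      exact ⟨x, Submodule.mem_top, by rw [hB]; exact hx⟩)
    (by rw [finrank_top, Module.finrank_fin_fun, hκ])
  obtain ⟨e₀⟩ : Nonempty (κ ≃ ι) := ⟨Fintype.equivOfCardEq hcard.symm⟩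
  have e : Sum.elim (ue ∘ e₀) (ug ∘ e₀) = (Sum.elim ue ug) ∘ (Equiv.sumCongr e₀ e₀) := by
    funext x
    rcases x with x | x <;> rfl
  have hli' : LinearIndependent F (Sum.elim (ue ∘ e₀) (ug ∘ e₀)) := by
    rw [e]
    exact hli.comp _ (Equiv.injective _)
  have hsp' : ⊤ ≤ span F (Set.range (Sum.elim (ue ∘ e₀) (ug ∘ e₀))) := by
    rw [e, (Equiv.surjective _).range_comp, hspan]
  refine ⟨Basis.mk hli' hsp', ?_⟩
  intro j j' hjj'
  rw [Basis.coe_mk, ← hB]
  rcases j with i | i <;> rcases j' with i' | i'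
  · exact h11 _ _
  · apply h12
    intro h
    apply hjj'
    show Sum.inr i' = Sum.inr i
    rw [e₀.injective h]
  · show B (ug (e₀ i)) (ue (e₀ i')) = 0
    rw [hBskew, h12 _ _ (fun h => hjj' (by
      show Sum.inl i' = Sum.inl i
      rw [e₀.injective h])), neg_zero]
  · exact h22 _ _

theorem f_expand {n : ℕ} {f : (Fin n → F) → (Fin n → F) → F} (hf : Cfsg.Geo.IsBilinearForm f)
    (a b c d : F) (u v w z : Fin n → F) :
    f (a • u + b • v) (c • w + d • z)
      = a * c * f u w + a * d * f u z + b * c * f v w + b * d * f v z := by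
  rw [hf.add_left, hf.smul_left, hf.smul_left, hf.add_right, hf.add_right, hf.smul_right,
    hf.smul_right, hf.smul_right, hf.smul_right]
  ring

/-- an element acting on a basis by `2 × 2` blocks of a common determinant is conjugate, by a
matrix of determinant one, into the similarity group of any symplectic form -/
theorem simil_of_planes {n : ℕ} (hn : 1 ≤ n) (f : (Fin n → F) → (Fin n → F) → F)
    (hf : Cfsg.Geo.IsSymplecticForm f) {κ : Type} [Fintype κ] [DecidableEq κ]
    (bS : Basis (κ ⊕ κ) F (Fin n → F)) (hS : ∀ j j', j' ≠ j.swap → f (bS j) (bS j') = 0)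
    (x : Matrix.SpecialLinearGroup (Fin n) F) (bX : Basis (κ ⊕ κ) F (Fin n → F))
    (p r : κ ⊕ κ → F) (μ : F) (hμ : μ ≠ 0)
    (hx : ∀ j, Matrix.mulVec (x : Matrix (Fin n) (Fin n) F) (bX j)
      = p j • bX j + r j • bX j.swap)
    (hdet : ∀ j, p j * p j.swap - r j * r j.swap = μ) :
    ∃ P : Matrix.SpecialLinearGroup (Fin n) F, P⁻¹ * x * P ∈
      ((Cfsg.Geo.similarityGroup f).comap (Matrix.SpecialLinearGroup.toGL :
        Matrix.SpecialLinearGroup (Fin n) F →* GL (Fin n) F)) := by
  classical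
  have hcard : Fintype.card (κ ⊕ κ) = n := by
    have h1 := Module.finrank_eq_card_basis bS
    rw [Module.finrank_fin_fun] at h1
    exact h1.symm
  obtain ⟨j₀⟩ : Nonempty (κ ⊕ κ) := Fintype.card_pos_iff.mp (by omega)
  obtain ⟨ε⟩ : Nonempty (Fin n ≃ κ ⊕ κ) := ⟨(Fintype.equivFinOfCardEq hcard).symm⟩
  have hMS0 := basis_det_ne_zero bS ε
  have hMX := basis_det_ne_zero bX ε
  generalize hMS0def : (Matrix.of (fun i k => bS (ε k) i) : Matrix (Fin n) (Fin n) F) = MS0
    at hMS0
  generalize hMXdef : (Matrix.of (fun i k => bX (ε k) i) : Matrix (Fin n) (Fin n) F) = MX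
    at hMX
  obtain ⟨dd, hdd⟩ : ∃ dd : κ ⊕ κ → F,
      dd = fun j => if j = j₀ then MX.det / MS0.det else 1 := ⟨_, rfl⟩
  have hdd0 : ∀ j, dd j ≠ 0 := by
    intro j
    rw [hdd]
    dsimp only
    split_ifs
    · exact div_ne_zero hMX hMS0
    · exact one_ne_zero
  have hddu : ∀ j, IsUnit (dd j) := fun j => (hdd0 j).isUnit
  obtain ⟨bS', hbS'⟩ : ∃ bS' : Basis (κ ⊕ κ) F (Fin n → F), ∀ j, bS' j = dd j • bS j :=
    ⟨bS.isUnitSMul hddu, fun j => Basis.isUnitSMul_apply hddu j⟩
  have hS' : ∀ j j', j' ≠ j.swap → f (bS' j) (bS' j') = 0 := by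
    intro j j' h
    rw [hbS', hbS', hf.bilinear.smul_left, hf.bilinear.smul_right, hS j j' h, mul_zero, mul_zero]
  obtain ⟨MS, hMSdef⟩ : ∃ MS : Matrix (Fin n) (Fin n) F,
      MS = Matrix.of (fun i k => bS' (ε k) i) := ⟨_, rfl⟩
  have hMSdet : MS.det = MX.det := by
    have h1 : MS = MS0 * Matrix.diagonal (fun k => dd (ε k)) := by
      ext i k
      rw [Matrix.mul_diagonal, hMSdef, ← hMS0def, Matrix.of_apply, Matrix.of_apply, hbS',
        Pi.smul_apply, smul_eq_mul, mul_comm]
    rw [h1, Matrix.det_mul, Matrix.det_diagonal, Equiv.prod_comp ε dd]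
    have h2 : ∏ j, dd j = MX.det / MS0.det := by
      rw [hdd]
      simp
    rw [h2]
    field_simp
  have hMSu : IsUnit MS.det := by
    rw [hMSdet]
    exact hMX.isUnit
  obtain ⟨Pm, hPm⟩ : ∃ Pm : Matrix (Fin n) (Fin n) F, Pm = MX * MS⁻¹ := ⟨_, rfl⟩
  have hPdet : Pm.det = 1 := by
    rw [hPm, Matrix.det_mul, Matrix.det_nonsing_inv, hMSdet, Ring.inverse_eq_inv,
      mul_inv_cancel₀ hMX]
  have hPS : Pm * MS = MX := by
    rw [hPm, Matrix.mul_assoc, Matrix.nonsing_inv_mul _ hMSu, Matrix.mul_one]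
  have hcolS : ∀ j, bS' j = Matrix.mulVec MS (Pi.single (ε.symm j) 1) := by
    intro j
    rw [Matrix.mulVec_single_one, hMSdef]
    funext i
    show bS' j i = bS' (ε (ε.symm j)) i
    rw [Equiv.apply_symm_apply]
  have hcolX : ∀ j, bX j = Matrix.mulVec MX (Pi.single (ε.symm j) 1) := by
    intro j
    rw [Matrix.mulVec_single_one, ← hMXdef]
    funext i
    show bX j i = bX (ε (ε.symm j)) i
    rw [Equiv.apply_symm_apply]
  have hPb : ∀ j, Matrix.mulVec Pm (bS' j) = bX j := by
    intro j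
    rw [hcolS, Matrix.mulVec_mulVec, hPS, ← hcolX]
  have hPu : IsUnit Pm.det := by
    rw [hPdet]
    exact isUnit_one
  have hPP' : Pm⁻¹ * Pm = 1 := Matrix.nonsing_inv_mul _ hPu
  have hPib : ∀ j, Matrix.mulVec Pm⁻¹ (bX j) = bS' j := by
    intro j
    rw [← hPb, Matrix.mulVec_mulVec, hPP', Matrix.one_mulVec]
  obtain ⟨P, hP⟩ : ∃ P : Matrix.SpecialLinearGroup (Fin n) F,
      (P : Matrix (Fin n) (Fin n) F) = Pm := ⟨⟨Pm, hPdet⟩, rfl⟩
  refine ⟨P, ?_⟩
  rw [Subgroup.mem_comap]
  obtain ⟨y, hy⟩ : ∃ y : Matrix (Fin n) (Fin n) F,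
      y = Pm⁻¹ * (x : Matrix (Fin n) (Fin n) F) * Pm := ⟨_, rfl⟩
  have hyb : ∀ j, Matrix.mulVec y (bS' j) = p j • bS' j + r j • bS' j.swap := by
    intro j
    rw [hy, ← Matrix.mulVec_mulVec, ← Matrix.mulVec_mulVec, hPb, hx, Matrix.mulVec_add,
      Matrix.mulVec_smul, Matrix.mulVec_smul, hPib, hPib]
  obtain ⟨B, hB⟩ : ∃ B : (Fin n → F) →ₗ[F] (Fin n → F) →ₗ[F] F, ∀ u v, B u v = f u v :=
    ⟨LinearMap.mk₂ F f hf.bilinear.add_left hf.bilinear.smul_left hf.bilinear.add_right
      hf.bilinear.smul_right, fun u v => rfl⟩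
  have hmain : B.compl₁₂ (Matrix.toLin' y) (Matrix.toLin' y) = μ • B := by
    apply LinearMap.ext_basis bS' bS'
    intro j j'
    rw [LinearMap.compl₁₂_apply, LinearMap.smul_apply, LinearMap.smul_apply, hB, hB,
      Matrix.toLin'_apply, Matrix.toLin'_apply, hyb, hyb, f_expand hf.bilinear, smul_eq_mul]
    by_cases h1 : j' = j.swap
    · rw [h1, Sum.swap_swap, hf.alternating (bS' j), hf.alternating (bS' j.swap),
        hf.skew (bS' j.swap) (bS' j), ← hdet j]
      ring
    · have z1 : f (bS' j) (bS' j') = 0 := hS' j j' h1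
      have z4 : f (bS' j.swap) (bS' j'.swap) = 0 := hS' _ _ (by
        rw [Sum.swap_swap]
        intro h
        apply h1
        rw [← h, Sum.swap_swap])
      by_cases h2 : j' = j
      · rw [h2] at z1 z4 ⊢
        rw [z1, z4, hf.skew (bS' j.swap) (bS' j)]
        ring
      · have z2 : f (bS' j) (bS' j'.swap) = 0 := hS' _ _ (fun h => h2 (by
          have h3 := congrArg Sum.swap h
          rw [Sum.swap_swap, Sum.swap_swap] at h3
          exact h3))
        have z3 : f (bS' j.swap) (bS' j') = 0 := hS' _ _ (by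
          rw [Sum.swap_swap]
          exact h2)
        rw [z1, z2, z3, z4]
        ring
  refine ⟨Units.mk0 μ hμ, fun u v => ?_⟩
  rw [coe_conj, hP, ← hy]
  have h3 := LinearMap.congr_fun (LinearMap.congr_fun hmain u) v
  rw [LinearMap.compl₁₂_apply, LinearMap.smul_apply, LinearMap.smul_apply, hB, hB,
    Matrix.toLin'_apply, Matrix.toLin'_apply, smul_eq_mul] at h3
  exact h3

end A

end Cfsg.Agent.Helper16.SpInv
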