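import Mathlib
import Cfsg.Agent.Helper16.SpInvA

set_option autoImplicit false

namespace Cfsg.Agent.Helper16.Lag

open Module IntermediateField

/-- number theory: the degree of the field generated by an element of order `r` -/
theorem degree_eq {q r i m : ℕ} [Fact r.Prime] (hr2 : r ≠ 2) (hi : 1 ≤ i) (hm : 1 ≤ m)
    (hq : 1 ≤ q) (hri : r ∣ q ^ i + 1) (hmin : ∀ j, 1 ≤ j → j < i → ¬ r ∣ q ^ j + 1)
    (hmd : m ∣ 2 * i) (hrm : r ∣ q ^ m - 1) : m = 2 * i := by
  have hrp : r.Prime := Fact.out
  have hQi : ((q : ZMod r)) ^ i = -1 := by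
    have h := (ZMod.natCast_eq_zero_iff (q ^ i + 1) r).2 hri
    push_cast at h
    linear_combination h
  have hQm : ((q : ZMod r)) ^ m = 1 := by
    have h := (ZMod.natCast_eq_zero_iff (q ^ m - 1) r).2 hrm
    rw [Nat.cast_sub (Nat.one_le_pow _ _ hq)] at h
    push_cast at h
    linear_combination h
  have hne : (1 : ZMod r) ≠ -1 := by
    intro h
    have h2 : ((2 : ℕ) : ZMod r) = 0 := by
      push_cast
      linear_combination h
    have h3 := (ZMod.natCast_eq_zero_iff 2 r).1 h2
    have h4 := Nat.le_of_dvd (by norm_num) h3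
    have h5 := hrp.two_le
    omega
  obtain ⟨c, hc⟩ := hmd
  rcases Nat.even_or_odd c with ⟨c', hc'⟩ | hodd
  · exfalso
    have hi' : i = m * c' := by
      have : 2 * i = 2 * (m * c') := by rw [hc, hc']; ring
      omega
    rw [hi', pow_mul, hQm, one_pow] at hQi
    exact hne hQi
  · have hme : Even m := by
      have h1 : Even (m * c) := by rw [← hc]; exact even_two_mul i
      rcases Nat.even_mul.1 h1 with h | h
      · exact h
      · exact absurd hodd (Nat.not_odd_iff_even.2 h)
    obtain ⟨m', hm'⟩ := hme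
    have hi' : i = m' * c := by
      have : 2 * i = 2 * (m' * c) := by rw [hc, hm']; ring
      omega
    have hsq : ((q : ZMod r)) ^ m' * ((q : ZMod r)) ^ m' = 1 := by
      rw [← pow_add, ← hm', hQm]
    rcases mul_self_eq_one_iff.1 hsq with h | h
    · exfalso
      rw [hi', pow_mul, h, one_pow] at hQi
      exact hne hQi
    · have hdvd : r ∣ q ^ m' + 1 := by
        apply (ZMod.natCast_eq_zero_iff (q ^ m' + 1) r).1
        push_cast
        rw [h]
        ring
      have hm'1 : 1 ≤ m' := by omega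
      have hge : ¬ m' < i := fun hlt => hmin m' hm'1 hlt hdvd
      have hc1 : 1 ≤ c := by
        rcases Nat.eq_zero_or_pos c with h0 | h0
        · rw [h0] at hi'
          omega
        · exact h0
      have hle : m' ≤ i := by
        rw [hi']
        exact Nat.le_mul_of_pos_right m' hc1
      omega

section Model
variable {F : Type*} [Field F] [Fintype F]

/-- the field model over an extension `K` of degree `2i` with the automorphism `x ↦ x ^ (q ^ i)` -/
theorem model_of_field (K : Type*) [Field K] [Fintype K] [Algebra F K]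
    (hodd : Odd (Fintype.card F)) (r : ℕ) [Fact r.Prime] (hr2 : r ≠ 2) (i : ℕ) (hi : 1 ≤ i)
    (hri : r ∣ Fintype.card F ^ i + 1)
    (hmin : ∀ j, 1 ≤ j → j < i → ¬ r ∣ Fintype.card F ^ j + 1) (hfin : finrank F K = 2 * i)
    (σ : K ≃ₐ[F] K) (hσ : ∀ x, σ x = x ^ (Fintype.card F ^ i)) :
    ∃ (B : K →ₗ[F] K →ₗ[F] F) (L : K ≃ₗ[F] K),
      (∀ v, B v v = 0) ∧ (∀ u v, B u v = - B v u) ∧ (∀ w, w ≠ 0 → ∃ w', B w w' ≠ 0) ∧
      (∀ u v, B (L u) (L v) = B u v) ∧ (∀ v, (⇑L)^[r] v = v) ∧
      (∀ S : Submodule F K, (∀ s ∈ S, L s ∈ S) → S = ⊥ ∨ S = ⊤) ∧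
      (∀ z : F, ∃ v, L v ≠ z • v) ∧ (∀ v, ∃ w, L w - w = v) := by
  classical
  have hrp : r.Prime := Fact.out
  have hq1 : 1 ≤ Fintype.card F := Fintype.card_pos
  haveI : Module.Finite F K := Module.Finite.of_finite
  have hcardK : Fintype.card K = Fintype.card F ^ (2 * i) := by
    rw [← Nat.card_eq_fintype_card, Module.natCard_eq_pow_finrank (K := F) (V := K), hfin,
      Nat.card_eq_fintype_card]
  have h2F : (2 : F) ≠ 0 := by
    intro h
    have h1 : ringChar F = 2 :=
      CharP.ringChar_of_prime_eq_zero Nat.prime_two (by exact_mod_cast h)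
    have h3 := FiniteField.even_card_iff_char_two.1 h1
    rcases hodd with ⟨k, hk⟩
    omega
  have hσσ : ∀ x, σ (σ x) = x := by
    intro x
    rw [hσ, hσ, ← pow_mul, ← pow_add, ← two_mul, ← hcardK, FiniteField.pow_card]
  -- an element of order `r`
  have hdvd : r ∣ Fintype.card Kˣ := by
    rw [Fintype.card_units, hcardK]
    obtain ⟨a', ha'⟩ : ∃ a', Fintype.card F ^ i = a' + 1 :=
      ⟨Fintype.card F ^ i - 1, by have := Nat.one_le_pow i _ hq1; omega⟩
    have e : Fintype.card F ^ (2 * i) - 1 = (Fintype.card F ^ i + 1) * a' := by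
      rw [show 2 * i = i + i by ring, pow_add, ha']
      have : (a' + 1) * (a' + 1) = (a' + 1 + 1) * a' + 1 := by ring
      omega
    rw [e]
    exact Dvd.dvd.mul_right hri _
  obtain ⟨lu, hlu⟩ := exists_prime_orderOf_dvd_card r hdvd
  have hl_ord : orderOf (lu : K) = r := by rw [orderOf_units, hlu]
  have hl0 : (lu : K) ≠ 0 := lu.ne_zero
  have hlr : (lu : K) ^ r = 1 := by
    rw [← hl_ord]
    exact pow_orderOf_eq_one _
  have hl1 : (lu : K) ≠ 1 := by
    intro h
    rw [h, orderOf_one] at hl_ord
    exact hrp.one_lt.ne hl_ord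
  have hσl : σ (lu : K) * (lu : K) = 1 := by
    rw [hσ, ← pow_succ]
    exact orderOf_dvd_iff_pow_eq_one.1 (by rw [hl_ord]; exact hri)
  have hl2 : (lu : K) * (lu : K) ≠ 1 := by
    intro h
    have h1 : orderOf (lu : K) ∣ 2 := orderOf_dvd_of_pow_eq_one (by rw [pow_two]; exact h)
    rw [hl_ord] at h1
    have h2 := Nat.le_of_dvd (by norm_num) h1
    have h3 := hrp.two_le
    omega
  generalize (lu : K) = l at hl_ord hl0 hlr hl1 hσl hl2
  have hσl' : σ l = l⁻¹ := eq_inv_of_mul_eq_one_left hσl
  have hc0 : l - σ l ≠ 0 := by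
    intro h
    apply hl2
    have e : σ l = l := by linear_combination -h
    rw [e] at hσl
    exact hσl
  have hσc : σ (l - σ l) = -(l - σ l) := by
    rw [map_sub, hσσ]
    ring
  generalize l - σ l = c at hc0 hσc
  -- the form
  let B : K →ₗ[F] K →ₗ[F] F := LinearMap.mk₂ F (fun a b => Algebra.trace F K (c * a * σ b))
    (fun a a' b => by
      show Algebra.trace F K (c * (a + a') * σ b) = _
      rw [mul_add, add_mul, map_add])
    (fun t a b => by
      show Algebra.trace F K (c * (t • a) * σ b) = _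
      rw [mul_smul_comm, smul_mul_assoc, map_smul])
    (fun a b b' => by
      show Algebra.trace F K (c * a * σ (b + b')) = _
      rw [map_add, mul_add, map_add])
    (fun t a b => by
      show Algebra.trace F K (c * a * σ (t • b)) = _
      rw [map_smul, mul_smul_comm, map_smul])
  have hB : ∀ a b, B a b = Algebra.trace F K (c * a * σ b) := fun a b => rfl
  have hskew : ∀ u v, B u v = - B v u := by
    intro u v
    rw [hB, hB, ← Algebra.trace_eq_of_algEquiv σ (c * u * σ v), map_mul σ, map_mul σ, hσc, hσσ,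
      ← map_neg]
    congr 1
    ring
  have halt : ∀ v, B v v = 0 := by
    intro v
    have h := hskew v v
    have h' : (2 : F) * B v v = 0 := by linear_combination h
    rcases mul_eq_zero.1 h' with h0 | h0
    · exact absurd h0 h2F
    · exact h0
  haveI : Algebra.IsSeparable F K := inferInstance
  have hnd : ∀ w, w ≠ 0 → ∃ w', B w w' ≠ 0 := by
    intro w hw
    by_contra hcon
    push Not at hcon
    have h1 : ∀ y, Algebra.traceForm F K (c * w) y = 0 := by
      intro y
      have := hcon (σ y)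
      rw [hB, hσσ] at this
      rw [Algebra.traceForm_apply]
      exact this
    have h2 := (traceForm_nondegenerate F K).1 (c * w) h1
    rcases mul_eq_zero.1 h2 with h0 | h0
    · exact hc0 h0
    · exact hw h0
  -- the isometry
  let L : K ≃ₗ[F] K :=
    { toFun := fun a => l * a
      invFun := fun a => l⁻¹ * a
      map_add' := fun a b => mul_add l a b
      map_smul' := fun t a => by
        show l * (t • a) = t • (l * a)
        rw [mul_smul_comm]
      left_inv := fun a => by
        show l⁻¹ * (l * a) = a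
        rw [← mul_assoc, inv_mul_cancel₀ hl0, one_mul]
      right_inv := fun a => by
        show l * (l⁻¹ * a) = a
        rw [← mul_assoc, mul_inv_cancel₀ hl0, one_mul] }
  have hL : ∀ a, L a = l * a := fun a => rfl
  have hLit : ∀ k v, (⇑L)^[k] v = l ^ k * v := by
    intro k
    induction k with
    | zero => intro v; simp
    | succ k ih =>
      intro v
      rw [Function.iterate_succ_apply', ih, hL, pow_succ]
      ring
  refine ⟨B, L, halt, hskew, hnd, ?_, ?_, ?_, ?_, ?_⟩
  · intro u v
    rw [hB, hB, hL, hL, map_mul σ]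
    have : c * (l * u) * (σ l * σ v) = (σ l * l) * (c * u * σ v) := by ring
    rw [this, hσl, one_mul]
  · intro v
    rw [hLit, hlr, one_mul]
  · intro S hS
    by_cases hbot : S = ⊥
    · exact Or.inl hbot
    · right
      obtain ⟨a, haS, ha0⟩ := (Submodule.ne_bot_iff S).1 hbot
      -- the degree of `l`
      have hint : IsIntegral F l := IsIntegral.of_finite F l
      have hm1 : 1 ≤ finrank F F⟮l⟯ := Module.finrank_pos
      have hmd : finrank F F⟮l⟯ ∣ 2 * i := by
        rw [← hfin, ← Module.finrank_mul_finrank F F⟮l⟯ K]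
        exact dvd_mul_right _ _
      have hrm : r ∣ Fintype.card F ^ finrank F F⟮l⟯ - 1 := by
        haveI : Fintype F⟮l⟯ := Fintype.ofFinite _
        have hcard : Fintype.card F⟮l⟯ = Fintype.card F ^ finrank F F⟮l⟯ := by
          rw [← Nat.card_eq_fintype_card, Module.natCard_eq_pow_finrank (K := F) (V := F⟮l⟯),
            Nat.card_eq_fintype_card]
        have hl' : (⟨l, IntermediateField.mem_adjoin_simple_self F l⟩ : F⟮l⟯) ≠ 0 := by
          intro h
          exact hl0 (congrArg Subtype.val h)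
        have h1 := FiniteField.pow_card_sub_one_eq_one _ hl'
        have h2 : l ^ (Fintype.card F⟮l⟯ - 1) = 1 := by
          have := congrArg Subtype.val h1
          simpa using this
        rw [hcard] at h2
        rw [← hl_ord]
        exact orderOf_dvd_of_pow_eq_one h2
      have hm : finrank F F⟮l⟯ = 2 * i := degree_eq hr2 hi hm1 hq1 hri hmin hmd hrm
      have htop : F⟮l⟯ = ⊤ := by
        rw [Field.primitive_element_iff_minpoly_natDegree_eq, ← IntermediateField.adjoin.finrank hint,
          hm, hfin]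
      have hadj : Algebra.adjoin F {l} = ⊤ := by
        rw [← IntermediateField.adjoin_simple_toSubalgebra_of_isAlgebraic hint.isAlgebraic, htop]
        rfl
      -- multiples of `a` lie in `S`
      have hpow : ∀ k : ℕ, l ^ k * a ∈ S := by
        intro k
        induction k with
        | zero => simpa using haS
        | succ k ih =>
          have := hS _ ih
          rw [hL, ← mul_assoc, ← pow_succ'] at this
          exact this
      have hall : ∀ t : K, t * a ∈ S := by
        intro t
        have ht : t ∈ Subalgebra.toSubmodule (Algebra.adjoin F {l}) := by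
          rw [hadj]
          exact Submodule.mem_top
        rw [Algebra.adjoin_eq_span] at ht
        refine Submodule.span_induction (p := fun t _ => t * a ∈ S) ?_ ?_ ?_ ?_ ht
        · intro x hx
          obtain ⟨k, rfl⟩ := Submonoid.mem_closure_singleton.1 hx
          exact hpow k
        · simp
        · intro x y _ _ hx hy
          rw [add_mul]
          exact S.add_mem hx hy
        · intro t x _ hx
          rw [smul_mul_assoc]
          exact S.smul_mem t hx
      rw [Submodule.eq_top_iff']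
      intro y
      have := hall (y * a⁻¹)
      rw [mul_assoc, inv_mul_cancel₀ ha0, mul_one] at this
      exact this
  · intro z
    refine ⟨1, ?_⟩
    intro h
    rw [hL, mul_one] at h
    apply hl2
    have h1 : σ l = l := by
      rw [h, map_smul, map_one]
    rw [h1] at hσl
    exact hσl
  · intro v
    have hl1' : l - 1 ≠ 0 := sub_ne_zero.2 hl1
    refine ⟨(l - 1)⁻¹ * v, ?_⟩
    rw [hL]
    have : l * ((l - 1)⁻¹ * v) - (l - 1)⁻¹ * v = (l - 1) * (l - 1)⁻¹ * v := by ring
    rw [this, mul_inv_cancel₀ hl1', one_mul]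

/-- the field model in coordinates -/
theorem exists_model {p : ℕ} [Fact p.Prime] [CharP F p] (hodd : Odd (Fintype.card F)) (r : ℕ)
    [Fact r.Prime] (hr2 : r ≠ 2) (i : ℕ) (hi : 1 ≤ i) (hri : r ∣ Fintype.card F ^ i + 1)
    (hmin : ∀ j, 1 ≤ j → j < i → ¬ r ∣ Fintype.card F ^ j + 1) :
    ∃ (B : (Fin (2 * i) → F) →ₗ[F] (Fin (2 * i) → F) →ₗ[F] F)
      (L : (Fin (2 * i) → F) ≃ₗ[F] (Fin (2 * i) → F)),
      (∀ v, B v v = 0) ∧ (∀ u v, B u v = - B v u) ∧ (∀ w, w ≠ 0 → ∃ w', B w w' ≠ 0) ∧
      (∀ u v, B (L u) (L v) = B u v) ∧ (∀ v, (⇑L)^[r] v = v) ∧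
      (∀ S : Submodule F (Fin (2 * i) → F), (∀ s ∈ S, L s ∈ S) → S = ⊥ ∨ S = ⊤) ∧
      (∀ z : F, ∃ v, L v ≠ z • v) ∧ (∀ v, ∃ w, L w - w = v) := by
  classical
  haveI : NeZero (2 * i) := ⟨by omega⟩
  haveI : Fintype (FiniteField.Extension F p (2 * i)) := Fintype.ofFinite _
  have hfin : finrank F (FiniteField.Extension F p (2 * i)) = 2 * i :=
    FiniteField.finrank_extension F p (2 * i)
  obtain ⟨B, L, halt, hskew, hnd, hiso, hit, hirr, hns, hsurj⟩ :=
    model_of_field (FiniteField.Extension F p (2 * i)) hodd r hr2 i hi hri hmin hfin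
      ((FiniteField.Extension.frob F p (2 * i)) ^ i) (fun x => by
        rw [FiniteField.Extension.frob_iterate_apply, Nat.card_eq_fintype_card])
  let e : FiniteField.Extension F p (2 * i) ≃ₗ[F] (Fin (2 * i) → F) :=
    (Module.finBasisOfFinrankEq F _ hfin).equivFun
  have hLit : ∀ k v, (⇑(e.symm.trans (L.trans e)))^[k] v = e ((⇑L)^[k] (e.symm v)) := by
    intro k
    induction k with
    | zero => intro v; simp
    | succ k ih =>
      intro v
      rw [Function.iterate_succ_apply', ih, Function.iterate_succ_apply']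
      simp
  refine ⟨B.compl₁₂ (e.symm : _ →ₗ[F] _) (e.symm : _ →ₗ[F] _), e.symm.trans (L.trans e),
    fun v => halt _, fun u v => hskew _ _, ?_, ?_, ?_, ?_, ?_, ?_⟩
  · intro w hw
    obtain ⟨w', hw'⟩ := hnd (e.symm w) (by simpa using hw)
    refine ⟨e w', ?_⟩
    show B (e.symm w) (e.symm (e w')) ≠ 0
    rw [e.symm_apply_apply]
    exact hw'
  · intro u v
    show B (e.symm (e (L (e.symm u)))) (e.symm (e (L (e.symm v)))) = B (e.symm u) (e.symm v)
    rw [e.symm_apply_apply, e.symm_apply_apply, hiso]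
  · intro v
    rw [hLit, hit, e.apply_symm_apply]
  · intro S hS
    rcases hirr (S.comap (e : _ →ₗ[F] _)) (by
      intro s hs
      rw [Submodule.mem_comap] at hs ⊢
      have := hS _ hs
      simpa using this) with h | h
    · left
      rw [Submodule.eq_bot_iff]
      intro s hs
      have h1 : e.symm s ∈ S.comap (e : _ →ₗ[F] _) := by
        rw [Submodule.mem_comap]
        simpa using hs
      rw [h, Submodule.mem_bot] at h1
      simpa using h1
    · right
      rw [Submodule.eq_top_iff']
      intro s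
      have h1 : e.symm s ∈ S.comap (e : _ →ₗ[F] _) := by
        rw [h]
        exact Submodule.mem_top
      rw [Submodule.mem_comap] at h1
      simpa using h1
  · intro z
    obtain ⟨v, hv⟩ := hns z
    refine ⟨e v, ?_⟩
    intro h
    apply hv
    have h' : e (L (e.symm (e v))) = z • e v := h
    rw [e.symm_apply_apply, ← map_smul] at h'
    exact e.injective h'
  · intro v
    obtain ⟨w, hw⟩ := hsurj (e.symm v)
    refine ⟨e w, ?_⟩
    show e (L (e.symm (e w))) - e w = v
    rw [e.symm_apply_apply, ← map_sub, hw, e.apply_symm_apply]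

end Model

section Iso
variable {F : Type*} [Field F]

/-- a normalised symplectic basis of a non-degenerate alternating space -/
theorem exists_symp_basis {V : Type*} [AddCommGroup V] [Module F V] [FiniteDimensional F V]
    (B : V →ₗ[F] V →ₗ[F] F) (halt : ∀ v, B v v = 0) (hskew : ∀ u v, B u v = - B v u)
    (hnd : ∀ w, w ≠ 0 → ∃ w', B w w' ≠ 0) (j : ℕ) (hV : finrank F V = 2 * j) :
    ∃ b : Basis (Fin j ⊕ Fin j) F V,
      (∀ k k', B (b (Sum.inl k)) (b (Sum.inl k')) = 0) ∧
      (∀ k k', B (b (Sum.inr k)) (b (Sum.inr k')) = 0) ∧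
      (∀ k k', B (b (Sum.inl k)) (b (Sum.inr k')) = if k = k' then 1 else 0) := by
  classical
  obtain ⟨ι, hι, ue, ug, hcard, hli, hspan, hee, hgg, heg⟩ :=
    Cfsg.Agent.Helper16.SpInv.planes_aux B halt hskew j ⊤
      (fun w _ hw => by
        obtain ⟨w', hw'⟩ := hnd w hw
        exact ⟨w', Submodule.mem_top, hw'⟩) (by rw [finrank_top, hV])
  let b₀ : Basis (ι ⊕ ι) F V := Basis.mk hli (by rw [hspan])
  have hb₀ : ∀ x, b₀ x = Sum.elim ue ug x := fun x => Basis.mk_apply _ _ x
  have hne : ∀ k, B (ue k) (ug k) ≠ 0 := by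
    intro k hk
    have h0 : ue k ≠ 0 := hli.ne_zero (Sum.inl k)
    obtain ⟨w', hw'⟩ := hnd (ue k) h0
    apply hw'
    have : B (ue k) = 0 := by
      apply b₀.ext
      rintro (k' | k')
      · rw [hb₀]
        simpa using hee k k'
      · rw [hb₀]
        by_cases hkk : k = k'
        · subst hkk
          simpa using hk
        · simpa using heg k k' hkk
    rw [this]
    rfl
  let e : ι ≃ Fin j := Fintype.equivFinOfCardEq hcard
  let w : ι ⊕ ι → Fˣ := Sum.elim (fun _ => 1) (fun k => Units.mk0 (B (ue k) (ug k))⁻¹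
    (inv_ne_zero (hne k)))
  let b : Basis (Fin j ⊕ Fin j) F V := (b₀.unitsSMul w).reindex (Equiv.sumCongr e e)
  have hbl : ∀ k, b (Sum.inl k) = ue (e.symm k) := by
    intro k
    simp [b, w, Basis.unitsSMul_apply, hb₀]
  have hbr : ∀ k, b (Sum.inr k) = (B (ue (e.symm k)) (ug (e.symm k)))⁻¹ • ug (e.symm k) := by
    intro k
    simp [b, w, Basis.unitsSMul_apply, hb₀, Units.smul_def]
  refine ⟨b, ?_, ?_, ?_⟩
  · intro k k'
    rw [hbl, hbl, hee]
  · intro k k'
    rw [hbr, hbr]
    simp [hgg]
  · intro k k'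
    rw [hbl, hbr, map_smul]
    by_cases hkk : k = k'
    · subst hkk
      rw [if_pos rfl, smul_eq_mul, inv_mul_cancel₀ (hne _)]
    · rw [if_neg hkk, heg _ _ (fun h => hkk (e.symm.injective h)), smul_zero]

/-- two non-degenerate alternating spaces of the same dimension are isometric -/
theorem alt_isometry {V V' : Type*} [AddCommGroup V] [Module F V] [FiniteDimensional F V]
    [AddCommGroup V'] [Module F V'] [FiniteDimensional F V']
    (B : V →ₗ[F] V →ₗ[F] F) (halt : ∀ v, B v v = 0) (hskew : ∀ u v, B u v = - B v u)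
    (hnd : ∀ w, w ≠ 0 → ∃ w', B w w' ≠ 0)
    (B' : V' →ₗ[F] V' →ₗ[F] F) (halt' : ∀ v, B' v v = 0) (hskew' : ∀ u v, B' u v = - B' v u)
    (hnd' : ∀ w, w ≠ 0 → ∃ w', B' w w' ≠ 0) (j : ℕ) (hV : finrank F V = 2 * j)
    (hV' : finrank F V' = 2 * j) :
    ∃ Θ : V ≃ₗ[F] V', ∀ u v, B' (Θ u) (Θ v) = B u v := by
  obtain ⟨b, h1, h2, h3⟩ := exists_symp_basis B halt hskew hnd j hV
  obtain ⟨b', h1', h2', h3'⟩ := exists_symp_basis B' halt' hskew' hnd' j hV'
  refine ⟨b.equiv b' (Equiv.refl _), ?_⟩
  have key : B'.compl₁₂ (b.equiv b' (Equiv.refl _) : V →ₗ[F] V')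
      (b.equiv b' (Equiv.refl _) : V →ₗ[F] V') = B := by
    apply b.ext
    intro x
    apply b.ext
    intro y
    show B' (b.equiv b' (Equiv.refl _) (b x)) (b.equiv b' (Equiv.refl _) (b y)) = B (b x) (b y)
    rw [Basis.equiv_apply, Basis.equiv_apply, Equiv.refl_apply, Equiv.refl_apply]
    rcases x with k | k <;> rcases y with k' | k'
    · rw [h1, h1']
    · rw [h3, h3']
    · rw [hskew, hskew', h3, h3']
    · rw [h2, h2']
  intro u v
  have := congrArg (fun f => f u v) key
  exact this

end Iso

end Cfsg.Agent.Helper16.Lag
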