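import Cfsg.Agent.Helper16.LagA
import Cfsg.Agent.Helper6.SpFrames

set_option autoImplicit false
open Cfsg

namespace Cfsg.Agent.Helper16.Lag

open Module Matrix Cfsg.Agent.Helper6

section Count
variable {F : Type*} [Field F] {d : ℕ}

theorem sfz_right (v : Fin d ⊕ Fin d → F) : sympForm d F v 0 = 0 := by
  rw [sf_swap, sf_zero_left, neg_zero]

theorem sfs_right {κ : Type*} (z : Fin d ⊕ Fin d → F) (s : Finset κ) (c : κ → F)
    (w : κ → (Fin d ⊕ Fin d → F)) :
    sympForm d F z (∑ j ∈ s, c j • w j) = ∑ j ∈ s, c j * sympForm d F z (w j) := by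
  have h := map_sum (sfB d F z) (fun j => c j • w j) s
  simp only [map_smul, smul_eq_mul] at h
  exact h

theorem sfs_left {κ : Type*} (z : Fin d ⊕ Fin d → F) (s : Finset κ) (c : κ → F)
    (w : κ → (Fin d ⊕ Fin d → F)) :
    sympForm d F (∑ j ∈ s, c j • w j) z = ∑ j ∈ s, c j * sympForm d F (w j) z := by
  have h := map_sum ((sfB d F).flip z) (fun j => c j • w j) s
  simp only [map_smul, smul_eq_mul] at h
  exact h

/-- normalised symplectic frames -/
def IsSF (c : Fin d ⊕ Fin d → (Fin d ⊕ Fin d → F)) : Prop :=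
  (∀ k k', sympForm d F (c (Sum.inl k)) (c (Sum.inl k')) = 0) ∧
  (∀ k k', sympForm d F (c (Sum.inr k)) (c (Sum.inr k')) = 0) ∧
  (∀ k k', sympForm d F (c (Sum.inl k)) (c (Sum.inr k')) = if k = k' then 1 else 0)

theorem IsSF.inr_inl {c : Fin d ⊕ Fin d → (Fin d ⊕ Fin d → F)} (hc : IsSF c) (k k' : Fin d) :
    sympForm d F (c (Sum.inr k)) (c (Sum.inl k')) = -(if k' = k then 1 else 0) := by
  rw [sf_swap, hc.2.2]

/-- pairing a combination of frame vectors with a frame vector -/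
theorem sf_comb_inl {c : Fin d ⊕ Fin d → (Fin d ⊕ Fin d → F)} (hc : IsSF c)
    (a : Fin d ⊕ Fin d → F) (l : Fin d) :
    sympForm d F (c (Sum.inl l)) (∑ x, a x • c x) = a (Sum.inr l) := by
  classical
  rw [sfs_right, Fintype.sum_sum_type]
  simp only [hc.1, hc.2.2, mul_zero, Finset.sum_const_zero, zero_add, mul_ite, mul_one,
    Finset.sum_ite_eq, Finset.mem_univ, if_true]

theorem sf_comb_inr {c : Fin d ⊕ Fin d → (Fin d ⊕ Fin d → F)} (hc : IsSF c)
    (a : Fin d ⊕ Fin d → F) (k : Fin d) :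
    sympForm d F (c (Sum.inr k)) (∑ x, a x • c x) = - a (Sum.inl k) := by
  classical
  rw [sfs_right, Fintype.sum_sum_type]
  simp only [hc.2.1, hc.inr_inl, mul_zero, Finset.sum_const_zero, add_zero, mul_neg, mul_ite,
    mul_one, Finset.sum_neg_distrib, Finset.sum_ite_eq', Finset.mem_univ, if_true]

/-- a symplectic frame is a basis -/
theorem IsSF.exists_basis (hd : 1 ≤ d) {c : Fin d ⊕ Fin d → (Fin d ⊕ Fin d → F)} (hc : IsSF c) :
    ∃ b : Basis (Fin d ⊕ Fin d) F (Fin d ⊕ Fin d → F), ⇑b = c := by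
  classical
  have hli : LinearIndependent F c := by
    rw [Fintype.linearIndependent_iff]
    intro a ha x
    rcases x with k | l
    · have h := sf_comb_inr hc a k
      rw [ha, sfz_right] at h
      linear_combination h
    · have h := sf_comb_inl hc a l
      rw [ha, sfz_right] at h
      exact h.symm
  haveI : Nonempty (Fin d ⊕ Fin d) := ⟨Sum.inl ⟨0, hd⟩⟩
  exact ⟨basisOfLinearIndependentOfCardEqFinrank hli (by
    rw [Module.finrank_fintype_fun_eq_card]), coe_basisOfLinearIndependentOfCardEqFinrank _ _⟩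

/-- coordinates in a symplectic basis through the form -/
theorem sb_repr_inr (b : Basis (Fin d ⊕ Fin d) F (Fin d ⊕ Fin d → F)) (hb : IsSF ⇑b)
    (v : Fin d ⊕ Fin d → F) (l : Fin d) :
    sympForm d F (b (Sum.inl l)) v = b.repr v (Sum.inr l) := by
  conv_lhs => rw [← b.sum_repr v]
  exact sf_comb_inl hb _ l

theorem sb_repr_inl (b : Basis (Fin d ⊕ Fin d) F (Fin d ⊕ Fin d → F)) (hb : IsSF ⇑b)
    (v : Fin d ⊕ Fin d → F) (k : Fin d) :
    sympForm d F (b (Sum.inr k)) v = - b.repr v (Sum.inl k) := by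
  conv_lhs => rw [← b.sum_repr v]
  exact sf_comb_inr hb _ k

/-- the first Lagrangian of a frame -/
def frU (c : Fin d ⊕ Fin d → (Fin d ⊕ Fin d → F)) : Submodule F (Fin d ⊕ Fin d → F) where
  carrier := {v | ∀ l, sympForm d F (c (Sum.inl l)) v = 0}
  add_mem' := fun {a b} ha hb l => by rw [sf_add_right, ha l, hb l, add_zero]
  zero_mem' := fun l => sfz_right _
  smul_mem' := fun t a ha l => by rw [sf_smul_right, ha l, mul_zero]

/-- the second Lagrangian of a frame -/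
def frW (c : Fin d ⊕ Fin d → (Fin d ⊕ Fin d → F)) : Submodule F (Fin d ⊕ Fin d → F) where
  carrier := {v | ∀ k, sympForm d F (c (Sum.inr k)) v = 0}
  add_mem' := fun {a b} ha hb l => by rw [sf_add_right, ha l, hb l, add_zero]
  zero_mem' := fun l => sfz_right _
  smul_mem' := fun t a ha l => by rw [sf_smul_right, ha l, mul_zero]

theorem mem_frU (c : Fin d ⊕ Fin d → (Fin d ⊕ Fin d → F)) (v : Fin d ⊕ Fin d → F) :
    v ∈ frU c ↔ ∀ l, sympForm d F (c (Sum.inl l)) v = 0 := Iff.rfl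

theorem mem_frW (c : Fin d ⊕ Fin d → (Fin d ⊕ Fin d → F)) (v : Fin d ⊕ Fin d → F) :
    v ∈ frW c ↔ ∀ k, sympForm d F (c (Sum.inr k)) v = 0 := Iff.rfl

theorem inl_mem_frU {c : Fin d ⊕ Fin d → (Fin d ⊕ Fin d → F)} (hc : IsSF c) (k : Fin d) :
    c (Sum.inl k) ∈ frU c := fun l => hc.1 l k

theorem inr_mem_frW {c : Fin d ⊕ Fin d → (Fin d ⊕ Fin d → F)} (hc : IsSF c) (k : Fin d) :
    c (Sum.inr k) ∈ frW c := fun l => hc.2.1 l k

/-- membership through coordinates -/
theorem mem_frU_iff (b : Basis (Fin d ⊕ Fin d) F (Fin d ⊕ Fin d → F)) (hb : IsSF ⇑b)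
    (v : Fin d ⊕ Fin d → F) : v ∈ frU ⇑b ↔ ∀ l, b.repr v (Sum.inr l) = 0 := by
  rw [mem_frU]
  exact forall_congr' fun l => by rw [sb_repr_inr b hb]

theorem mem_frW_iff (b : Basis (Fin d ⊕ Fin d) F (Fin d ⊕ Fin d → F)) (hb : IsSF ⇑b)
    (v : Fin d ⊕ Fin d → F) : v ∈ frW ⇑b ↔ ∀ k, b.repr v (Sum.inl k) = 0 := by
  rw [mem_frW]
  exact forall_congr' fun k => by rw [sb_repr_inl b hb, neg_eq_zero]

/-- the two Lagrangians of a frame are totally isotropic and complementary -/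
theorem frU_ti (b : Basis (Fin d ⊕ Fin d) F (Fin d ⊕ Fin d → F)) (hb : IsSF ⇑b)
    (u : Fin d ⊕ Fin d → F) (hu : u ∈ frU ⇑b) (u' : Fin d ⊕ Fin d → F) (hu' : u' ∈ frU ⇑b) :
    sympForm d F u u' = 0 := by
  classical
  conv_lhs => rw [← b.sum_repr u]
  rw [sfs_left, Fintype.sum_sum_type]
  have h1 : ∀ k, b.repr u (Sum.inl k) * sympForm d F (b (Sum.inl k)) u' = 0 := fun k => by
    rw [hu' k, mul_zero]
  have h2 : ∀ k, b.repr u (Sum.inr k) * sympForm d F (b (Sum.inr k)) u' = 0 := fun k => by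
    rw [(mem_frU_iff b hb u).1 hu k, zero_mul]
  simp only [h1, h2, Finset.sum_const_zero, add_zero]

theorem frW_ti (b : Basis (Fin d ⊕ Fin d) F (Fin d ⊕ Fin d → F)) (hb : IsSF ⇑b)
    (u : Fin d ⊕ Fin d → F) (hu : u ∈ frW ⇑b) (u' : Fin d ⊕ Fin d → F) (hu' : u' ∈ frW ⇑b) :
    sympForm d F u u' = 0 := by
  classical
  conv_lhs => rw [← b.sum_repr u]
  rw [sfs_left, Fintype.sum_sum_type]
  have h1 : ∀ k, b.repr u (Sum.inl k) * sympForm d F (b (Sum.inl k)) u' = 0 := fun k => by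
    rw [(mem_frW_iff b hb u).1 hu k, zero_mul]
  have h2 : ∀ k, b.repr u (Sum.inr k) * sympForm d F (b (Sum.inr k)) u' = 0 := fun k => by
    rw [hu' k, mul_zero]
  simp only [h1, h2, Finset.sum_const_zero, add_zero]

theorem fr_isCompl (b : Basis (Fin d ⊕ Fin d) F (Fin d ⊕ Fin d → F)) (hb : IsSF ⇑b) :
    IsCompl (frU ⇑b) (frW ⇑b) := by
  classical
  refine IsCompl.of_eq ?_ ?_
  · rw [Submodule.eq_bot_iff]
    rintro v ⟨hv1, hv2⟩
    apply b.ext_elem
    rintro (k | l)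
    · rw [(mem_frW_iff b hb v).1 hv2 k]
      simp
    · rw [(mem_frU_iff b hb v).1 hv1 l]
      simp
  · rw [Submodule.eq_top_iff']
    intro v
    rw [Submodule.mem_sup]
    refine ⟨∑ k, b.repr v (Sum.inl k) • b (Sum.inl k), ?_, ∑ l, b.repr v (Sum.inr l) • b (Sum.inr l),
      ?_, ?_⟩
    · exact Submodule.sum_mem _ fun k _ => Submodule.smul_mem _ _ (inl_mem_frU hb k)
    · exact Submodule.sum_mem _ fun k _ => Submodule.smul_mem _ _ (inr_mem_frW hb k)
    · rw [← Fintype.sum_sum_type (fun x => b.repr v x • b x), b.sum_repr]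

/-- the symplectic group is transitive on symplectic bases -/
theorem sb_trans (b b' : Basis (Fin d ⊕ Fin d) F (Fin d ⊕ Fin d → F)) (hb : IsSF ⇑b)
    (hb' : IsSF ⇑b') :
    ∃ A : Matrix.symplecticGroup (Fin d) F,
      ∀ x, (A : Matrix (Fin d ⊕ Fin d) (Fin d ⊕ Fin d) F) *ᵥ b x = b' x := by
  have key : (sfB d F).compl₁₂ (b.equiv b' (Equiv.refl _) : _ →ₗ[F] _)
      (b.equiv b' (Equiv.refl _) : _ →ₗ[F] _) = sfB d F := by
    apply b.ext
    intro x
    apply b.ext
    intro y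
    show sympForm d F (b.equiv b' (Equiv.refl _) (b x)) (b.equiv b' (Equiv.refl _) (b y)) =
      sympForm d F (b x) (b y)
    rw [Basis.equiv_apply, Basis.equiv_apply, Equiv.refl_apply, Equiv.refl_apply]
    rcases x with k | k <;> rcases y with k' | k'
    · rw [hb.1, hb'.1]
    · rw [hb.2.2, hb'.2.2]
    · rw [hb.inr_inl, hb'.inr_inl]
    · rw [hb.2.1, hb'.2.1]
  obtain ⟨A, hA⟩ := sp_of_isometry d (b.equiv b' (Equiv.refl _)) (fun u v => by
    have := congrArg (fun f => f u v) key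
    exact this)
  refine ⟨A, fun x => ?_⟩
  rw [hA, Basis.equiv_apply, Equiv.refl_apply]

end Count

end Cfsg.Agent.Helper16.Lag
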