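import Cfsg.Agent.Helper16.LagB

set_option autoImplicit false
open Cfsg

namespace Cfsg.Agent.Helper16.Lag

open Module Matrix Cfsg.Agent.Helper6

section Count2
variable {F : Type*} [Field F] {d : ℕ}

/-- the pairing between two complementary subspaces, the second totally isotropic, is injective -/
theorem pair_inj (U W : Submodule F (Fin d ⊕ Fin d → F)) (hsup : U ⊔ W = ⊤)
    (hW : ∀ u ∈ W, ∀ v ∈ W, sympForm d F u v = 0) :
    Function.Injective ((sfB d F).flip.compl₁₂ W.subtype U.subtype) := by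
  rw [injective_iff_map_eq_zero]
  intro w hw
  have h1 : ∀ u : U, sympForm d F (u : Fin d ⊕ Fin d → F) (w : Fin d ⊕ Fin d → F) = 0 := by
    intro u
    have := congrArg (fun f => f u) hw
    exact this
  have h2 : ∀ v, sfB d F v (w : Fin d ⊕ Fin d → F) = 0 := by
    intro v
    have hv : v ∈ U ⊔ W := by rw [hsup]; exact Submodule.mem_top
    obtain ⟨u, hu, w', hw', rfl⟩ := Submodule.mem_sup.1 hv
    rw [sfB_apply, sf_add_left, h1 ⟨u, hu⟩, hW w' hw' w w.2, add_zero]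
  have h3 := (sfB_nondeg (F := F) d).2 (w : Fin d ⊕ Fin d → F) h2
  exact Subtype.ext h3

theorem pair_apply (U W : Submodule F (Fin d ⊕ Fin d → F)) (w : W) (u : U) :
    (sfB d F).flip.compl₁₂ W.subtype U.subtype w u
      = sympForm d F (u : Fin d ⊕ Fin d → F) (w : Fin d ⊕ Fin d → F) := rfl

theorem ti_finrank (U W : Submodule F (Fin d ⊕ Fin d → F)) (hc : IsCompl U W)
    (hU : ∀ u ∈ U, ∀ v ∈ U, sympForm d F u v = 0)
    (hW : ∀ u ∈ W, ∀ v ∈ W, sympForm d F u v = 0) :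
    finrank F U = d ∧ finrank F W = d := by
  have h1 := LinearMap.finrank_le_finrank_of_injective (pair_inj U W hc.sup_eq_top hW)
  have h2 := LinearMap.finrank_le_finrank_of_injective
    (pair_inj W U (by rw [sup_comm]; exact hc.sup_eq_top) hU)
  have e1 : finrank F (↥U →ₗ[F] F) = finrank F U := Subspace.dual_finrank_eq
  have e2 : finrank F (↥W →ₗ[F] F) = finrank F W := Subspace.dual_finrank_eq
  have h3 := Submodule.finrank_add_eq_of_isCompl hc
  rw [Module.finrank_fintype_fun_eq_card, Fintype.card_sum, Fintype.card_fin] at h3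
  omega

/-- every basis of the first Lagrangian extends to an adapted symplectic frame -/
theorem exists_adapted (hd : 1 ≤ d) (U W : Submodule F (Fin d ⊕ Fin d → F)) (hc : IsCompl U W)
    (hU : ∀ u ∈ U, ∀ v ∈ U, sympForm d F u v = 0)
    (hW : ∀ u ∈ W, ∀ v ∈ W, sympForm d F u v = 0)
    (t : Fin d → ↥U) (ht : LinearIndependent F t) :
    ∃ c : Fin d ⊕ Fin d → (Fin d ⊕ Fin d → F), IsSF c ∧
      (∀ k, c (Sum.inl k) = (t k : Fin d ⊕ Fin d → F)) ∧ frU c = U ∧ frW c = W := by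
  classical
  obtain ⟨hfU, hfW⟩ := ti_finrank U W hc hU hW
  haveI : Nonempty (Fin d) := ⟨⟨0, hd⟩⟩
  let bU : Basis (Fin d) F U := basisOfLinearIndependentOfCardEqFinrank ht (by
    rw [Fintype.card_fin, hfU])
  have hbU : ∀ k, bU k = t k := fun k => by
    simp only [bU, coe_basisOfLinearIndependentOfCardEqFinrank]
  have e1 : finrank F (↥U →ₗ[F] F) = finrank F U := Subspace.dual_finrank_eq
  let e : ↥W ≃ₗ[F] (↥U →ₗ[F] F) :=
    LinearMap.linearEquivOfInjective ((sfB d F).flip.compl₁₂ W.subtype U.subtype)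
      (pair_inj U W hc.sup_eq_top hW) (by rw [e1, hfU, hfW])
  have he : ∀ w : W, ∀ u : U,
      e w u = sympForm d F (u : Fin d ⊕ Fin d → F) (w : Fin d ⊕ Fin d → F) := by
    intro w u
    simp only [e, LinearMap.linearEquivOfInjective_apply]
    rfl
  let wv : Fin d → ↥W := fun l => e.symm (bU.dualBasis l)
  have hwv : ∀ k l, sympForm d F (t k : Fin d ⊕ Fin d → F) (wv l : Fin d ⊕ Fin d → F)
      = if k = l then 1 else 0 := by
    intro k l
    rw [← he (wv l) (t k)]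
    simp only [wv, LinearEquiv.apply_symm_apply]
    rw [← hbU k, Basis.dualBasis_apply_self]
  let c : Fin d ⊕ Fin d → (Fin d ⊕ Fin d → F) :=
    Sum.elim (fun k => (t k : Fin d ⊕ Fin d → F)) (fun l => (wv l : Fin d ⊕ Fin d → F))
  have hSF : IsSF c := by
    refine ⟨fun k k' => hU _ (t k).2 _ (t k').2, fun k k' => hW _ (wv k).2 _ (wv k').2,
      fun k k' => hwv k k'⟩
  obtain ⟨b, hb⟩ := IsSF.exists_basis hd hSF
  have hSF' : IsSF ⇑b := by rw [hb]; exact hSF
  have hcompl : IsCompl (frU c) (frW c) := by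
    rw [← hb]; exact fr_isCompl b hSF'
  have hUle : U ≤ frU c := fun u hu l => hU _ (t l).2 _ hu
  have hWle : W ≤ frW c := fun w hw l => hW _ (wv l).2 _ hw
  refine ⟨c, hSF, fun k => rfl, le_antisymm ?_ hUle, le_antisymm ?_ hWle⟩
  · intro v hv
    have hv' : v ∈ U ⊔ W := by rw [hc.sup_eq_top]; exact Submodule.mem_top
    obtain ⟨u, hu, w, hw, rfl⟩ := Submodule.mem_sup.1 hv'
    have hw1 : w ∈ frU c := by
      have := Submodule.sub_mem _ hv (hUle hu)
      rwa [add_sub_cancel_left] at this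
    have hw0 : w ∈ frU c ⊓ frW c := ⟨hw1, hWle hw⟩
    rw [hcompl.inf_eq_bot, Submodule.mem_bot] at hw0
    rw [hw0, add_zero]; exact hu
  · intro v hv
    have hv' : v ∈ U ⊔ W := by rw [hc.sup_eq_top]; exact Submodule.mem_top
    obtain ⟨u, hu, w, hw, rfl⟩ := Submodule.mem_sup.1 hv'
    have hu1 : u ∈ frW c := by
      have := Submodule.sub_mem _ hv (hWle hw)
      rwa [add_sub_cancel_right] at this
    have hu0 : u ∈ frU c ⊓ frW c := ⟨hUle hu, hu1⟩
    rw [hcompl.inf_eq_bot, Submodule.mem_bot] at hu0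
    rw [hu0, zero_add]; exact hw

end Count2

section Count3
variable {F : Type*} [Field F] [Fintype F] {d : ℕ}

/-- the symplectic group acts simply transitively on symplectic frames -/
theorem card_frames (hd : 1 ≤ d) :
    Nat.card {c : Fin d ⊕ Fin d → (Fin d ⊕ Fin d → F) // IsSF c}
      = Nat.card (Matrix.symplecticGroup (Fin d) F) := by
  classical
  obtain ⟨b₀, h1, h2, h3⟩ := exists_symp_basis (sfB d F) (fun v => sf_self v)
    (fun u v => sf_swap u v)
    (fun w hw => by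
      by_contra hcon
      push_neg at hcon
      exact hw ((sfB_nondeg (F := F) d).1 w hcon)) d (by
      rw [Module.finrank_fintype_fun_eq_card, Fintype.card_sum, Fintype.card_fin]; ring)
  have hb₀ : IsSF ⇑b₀ := ⟨h1, h2, h3⟩
  symm
  refine Nat.card_congr (Equiv.ofBijective
    (fun A : Matrix.symplecticGroup (Fin d) F =>
      (⟨fun x => (A : Matrix (Fin d ⊕ Fin d) (Fin d ⊕ Fin d) F) *ᵥ b₀ x,
        fun k k' => by rw [sp_preserves]; exact h1 k k',
        fun k k' => by rw [sp_preserves]; exact h2 k k',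
        fun k k' => by rw [sp_preserves]; exact h3 k k'⟩ :
        {c : Fin d ⊕ Fin d → (Fin d ⊕ Fin d → F) // IsSF c})) ⟨?_, ?_⟩)
  · intro A A' h
    have h' : ∀ x, (A : Matrix (Fin d ⊕ Fin d) (Fin d ⊕ Fin d) F) *ᵥ b₀ x
        = (A' : Matrix (Fin d ⊕ Fin d) (Fin d ⊕ Fin d) F) *ᵥ b₀ x := fun x =>
      congrFun (congrArg Subtype.val h) x
    apply Subtype.ext
    apply Matrix.toLin'.injective
    apply b₀.ext
    intro x
    rw [Matrix.toLin'_apply, Matrix.toLin'_apply]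
    exact h' x
  · rintro ⟨c, hc⟩
    obtain ⟨b', hb'⟩ := IsSF.exists_basis hd hc
    obtain ⟨A, hA⟩ := sb_trans b₀ b' hb₀ (by rw [hb']; exact hc)
    refine ⟨A, Subtype.ext (funext fun x => ?_)⟩
    show (A : Matrix (Fin d ⊕ Fin d) (Fin d ⊕ Fin d) F) *ᵥ b₀ x = c x
    rw [hA, hb']

/-- counting ordered pairs of complementary Lagrangians -/
theorem card_pairs (hd : 1 ≤ d) :
    Nat.card {P : Submodule F (Fin d ⊕ Fin d → F) × Submodule F (Fin d ⊕ Fin d → F) //
        IsCompl P.1 P.2 ∧ (∀ u ∈ P.1, ∀ v ∈ P.1, Cfsg.sympForm d F u v = 0) ∧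
          (∀ u ∈ P.2, ∀ v ∈ P.2, Cfsg.sympForm d F u v = 0)}
      * ∏ i : Fin d, (Fintype.card F ^ d - Fintype.card F ^ i.val)
      = Nat.card (Matrix.symplecticGroup (Fin d) F) := by
  classical
  rw [← card_frames hd]
  have hΦ : ∀ c : {c : Fin d ⊕ Fin d → (Fin d ⊕ Fin d → F) // IsSF c},
      IsCompl (frU c.1) (frW c.1) ∧ (∀ u ∈ frU c.1, ∀ v ∈ frU c.1, Cfsg.sympForm d F u v = 0) ∧
        (∀ u ∈ frW c.1, ∀ v ∈ frW c.1, Cfsg.sympForm d F u v = 0) := by
    rintro ⟨c, hc⟩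
    obtain ⟨b, hb⟩ := IsSF.exists_basis hd hc
    have hc' : IsSF ⇑b := by rw [hb]; exact hc
    show IsCompl (frU c) (frW c) ∧ (∀ u ∈ frU c, ∀ v ∈ frU c, Cfsg.sympForm d F u v = 0) ∧
        (∀ u ∈ frW c, ∀ v ∈ frW c, Cfsg.sympForm d F u v = 0)
    rw [← hb]
    exact ⟨fr_isCompl b hc', frU_ti b hc', frW_ti b hc'⟩
  haveI : Finite (Submodule F (Fin d ⊕ Fin d → F)) :=
    Finite.of_injective (fun S => (S : Set (Fin d ⊕ Fin d → F))) SetLike.coe_injective
  let Φ : {c : Fin d ⊕ Fin d → (Fin d ⊕ Fin d → F) // IsSF c} →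
      {P : Submodule F (Fin d ⊕ Fin d → F) × Submodule F (Fin d ⊕ Fin d → F) //
        IsCompl P.1 P.2 ∧ (∀ u ∈ P.1, ∀ v ∈ P.1, Cfsg.sympForm d F u v = 0) ∧
          (∀ u ∈ P.2, ∀ v ∈ P.2, Cfsg.sympForm d F u v = 0)} :=
    fun c => ⟨(frU c.1, frW c.1), hΦ c⟩
  haveI : Fintype {P : Submodule F (Fin d ⊕ Fin d → F) × Submodule F (Fin d ⊕ Fin d → F) //
        IsCompl P.1 P.2 ∧ (∀ u ∈ P.1, ∀ v ∈ P.1, Cfsg.sympForm d F u v = 0) ∧
          (∀ u ∈ P.2, ∀ v ∈ P.2, Cfsg.sympForm d F u v = 0)} := Fintype.ofFinite _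
  have hfib : ∀ P, Nat.card {c // Φ c = P}
      = ∏ i : Fin d, (Fintype.card F ^ d - Fintype.card F ^ i.val) := by
    intro P
    obtain ⟨⟨U, W⟩, hUW, hU, hW⟩ := P
    obtain ⟨hfU, hfW⟩ := ti_finrank U W hUW hU hW
    have hcl := card_linearIndependent (K := F) (V := ↥U) (k := d) (by rw [hfU])
    rw [hfU] at hcl
    rw [← hcl]
    have hfr : ∀ c : {c // Φ c = ⟨(U, W), hUW, hU, hW⟩}, frU c.1.1 = U ∧ frW c.1.1 = W := by
      intro c
      have h := congrArg Subtype.val c.2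
      exact ⟨congrArg Prod.fst h, congrArg Prod.snd h⟩
    have hmem : ∀ c : {c // Φ c = ⟨(U, W), hUW, hU, hW⟩}, ∀ k, c.1.1 (Sum.inl k) ∈ U := by
      intro c k
      have := inl_mem_frU c.1.2 k
      rw [(hfr c).1] at this
      exact this
    have hli : ∀ c : {c // Φ c = ⟨(U, W), hUW, hU, hW⟩},
        LinearIndependent F (fun k => (⟨c.1.1 (Sum.inl k), hmem c k⟩ : ↥U)) := by
      intro c
      obtain ⟨b, hb⟩ := IsSF.exists_basis hd c.1.2
      apply LinearIndependent.of_comp U.subtype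
      have : (U.subtype ∘ fun k => (⟨c.1.1 (Sum.inl k), hmem c k⟩ : ↥U)) = ⇑b ∘ Sum.inl := by
        funext k
        simp [hb]
      rw [this]
      exact b.linearIndependent.comp _ Sum.inl_injective
    refine Nat.card_congr (Equiv.ofBijective
      (fun c => (⟨fun k => ⟨c.1.1 (Sum.inl k), hmem c k⟩, hli c⟩ :
        {s : Fin d → ↥U // LinearIndependent F s})) ⟨?_, ?_⟩)
    · intro c c' h
      have hk : ∀ k, c.1.1 (Sum.inl k) = c'.1.1 (Sum.inl k) := fun k => by
        have := congrFun (congrArg Subtype.val h) k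
        exact congrArg Subtype.val this
      apply Subtype.ext
      apply Subtype.ext
      funext x
      rcases x with k | l
      · exact hk k
      · have hcSF := c.1.2
        have hcSF' := c'.1.2
        have hδW : c.1.1 (Sum.inr l) - c'.1.1 (Sum.inr l) ∈ W := by
          refine Submodule.sub_mem _ ?_ ?_
          · have := inr_mem_frW hcSF l
            rw [(hfr c).2] at this
            exact this
          · have := inr_mem_frW hcSF' l
            rw [(hfr c').2] at this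
            exact this
        have hδU : c.1.1 (Sum.inr l) - c'.1.1 (Sum.inr l) ∈ U := by
          have : c.1.1 (Sum.inr l) - c'.1.1 (Sum.inr l) ∈ frU c.1.1 := by
            intro k
            rw [sf_sub_right, hcSF.2.2, hk k, hcSF'.2.2, sub_self]
          rw [(hfr c).1] at this
          exact this
        have h0 : c.1.1 (Sum.inr l) - c'.1.1 (Sum.inr l) ∈ U ⊓ W := ⟨hδU, hδW⟩
        rw [hUW.inf_eq_bot, Submodule.mem_bot] at h0
        exact sub_eq_zero.1 h0
    · rintro ⟨t, ht⟩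
      obtain ⟨c, hc, hck, hcU, hcW⟩ := exists_adapted hd U W hUW hU hW t ht
      refine ⟨⟨⟨c, hc⟩, ?_⟩, ?_⟩
      · apply Subtype.ext
        show (frU c, frW c) = (U, W)
        rw [hcU, hcW]
      · apply Subtype.ext
        funext k
        apply Subtype.ext
        exact hck k
  rw [Nat.card_congr (Equiv.sigmaFiberEquiv Φ).symm, Nat.card_sigma,
    Finset.sum_congr rfl (fun P _ => hfib P), Finset.sum_const, smul_eq_mul, Finset.card_univ,
    Nat.card_eq_fintype_card]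

end Count3

section Arith

theorem arith_key {q d N r : ℕ} (hq2 : 2 ≤ q) (hoddq : Odd q) (hd : 1 ≤ d) (hr : r.Prime)
    (hrq : Nat.Coprime r q)
    (hN : N * ∏ i : Fin d, (q ^ d - q ^ i.val)
      = q ^ (d ^ 2) * ∏ i ∈ Finset.range d, (q ^ (2 * (i + 1)) - 1))
    (hdiv : r ∣ N / 2) : ∃ i, 1 ≤ i ∧ i ≤ d ∧ r ∣ q ^ i + 1 := by
  have hP1 : ∏ i ∈ Finset.range d, (q ^ (d - i) - 1)
      = ∏ i ∈ Finset.range d, (q ^ (i + 1) - 1) := by
    rw [← Finset.prod_range_reflect (fun i => q ^ (i + 1) - 1) d]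
    refine Finset.prod_congr rfl fun i hi => ?_
    have hi' : i < d := Finset.mem_range.1 hi
    have e1 : d - 1 - i + 1 = d - i := by omega
    show q ^ (d - i) - 1 = q ^ (d - 1 - i + 1) - 1
    rw [e1]
  have hA : ∏ i : Fin d, (q ^ d - q ^ i.val)
      = (∏ i ∈ Finset.range d, q ^ i) * ∏ i ∈ Finset.range d, (q ^ (i + 1) - 1) := by
    rw [Fin.prod_univ_eq_prod_range (fun i => q ^ d - q ^ i) d, ← hP1, ← Finset.prod_mul_distrib]
    refine Finset.prod_congr rfl fun i hi => ?_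
    have hi' : i < d := Finset.mem_range.1 hi
    rw [Nat.mul_sub_one, ← pow_add, Nat.add_sub_of_le hi'.le]
  have hB : ∏ i ∈ Finset.range d, (q ^ (2 * (i + 1)) - 1)
      = (∏ i ∈ Finset.range d, (q ^ (i + 1) - 1)) * ∏ i ∈ Finset.range d, (q ^ (i + 1) + 1) := by
    rw [← Finset.prod_mul_distrib]
    refine Finset.prod_congr rfl fun i _ => ?_
    have hpos : 1 ≤ q ^ (i + 1) := Nat.one_le_pow _ _ (by omega)
    obtain ⟨b, hb⟩ : ∃ b, q ^ (i + 1) = b + 1 := ⟨q ^ (i + 1) - 1, by omega⟩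
    have e : q ^ (2 * (i + 1)) = (q ^ (i + 1)) ^ 2 := by rw [← pow_mul, mul_comm]
    rw [e, hb, Nat.add_sub_cancel]
    have : (b + 1) ^ 2 = b * (b + 1 + 1) + 1 := by ring
    rw [this, Nat.add_sub_cancel]
  obtain ⟨P1, hP1def⟩ : ∃ P1, P1 = ∏ i ∈ Finset.range d, (q ^ (i + 1) - 1) := ⟨_, rfl⟩
  obtain ⟨P2, hP2def⟩ : ∃ P2, P2 = ∏ i ∈ Finset.range d, (q ^ (i + 1) + 1) := ⟨_, rfl⟩
  obtain ⟨Q0, hQ0def⟩ : ∃ Q0, Q0 = ∏ i ∈ Finset.range d, q ^ i := ⟨_, rfl⟩
  rw [← hP1def, ← hQ0def] at hA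
  rw [← hP1def, ← hP2def] at hB
  have hP1pos : 0 < P1 := by
    rw [hP1def]
    refine Finset.prod_pos fun i _ => ?_
    have : 1 < q ^ (i + 1) := Nat.one_lt_pow (by omega) (by omega)
    omega
  have hmain : N * Q0 = q ^ (d ^ 2) * P2 := by
    apply Nat.eq_of_mul_eq_mul_right hP1pos
    rw [hA, hB] at hN
    calc N * Q0 * P1 = N * (Q0 * P1) := by ring
      _ = q ^ (d ^ 2) * (P1 * P2) := hN
      _ = q ^ (d ^ 2) * P2 * P1 := by ring
  have h2Q : Nat.Coprime 2 Q0 := by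
    rw [hQ0def]
    exact Nat.Coprime.prod_right fun i _ =>
      Nat.Coprime.pow_right _ (Nat.coprime_two_left.2 hoddq)
  have hrQ : Nat.Coprime r (q ^ (d ^ 2)) := Nat.Coprime.pow_right _ hrq
  have h2P2 : 2 ∣ P2 := by
    rw [hP2def]
    refine Dvd.dvd.trans ?_ (Finset.dvd_prod_of_mem _ (Finset.mem_range.2 (by omega : 0 < d)))
    show 2 ∣ q ^ (0 + 1) + 1
    rw [zero_add, pow_one]
    obtain ⟨k, hk⟩ := hoddq
    exact ⟨k + 1, by omega⟩
  have h2N : 2 ∣ N := by
    apply h2Q.dvd_of_dvd_mul_right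
    rw [hmain]
    exact Dvd.dvd.mul_left h2P2 _
  have hrN : r ∣ N := by
    have := Nat.mul_div_cancel' h2N
    rw [← this]
    exact Dvd.dvd.mul_left hdiv _
  have hrP2 : r ∣ P2 := by
    apply hrQ.dvd_of_dvd_mul_left
    rw [← hmain]
    exact Dvd.dvd.mul_right hrN _
  rw [hP2def, Prime.dvd_finsetProd_iff hr.prime] at hrP2
  obtain ⟨i, hi, hdvd⟩ := hrP2
  exact ⟨i + 1, by omega, by have := Finset.mem_range.1 hi; omega, hdvd⟩

variable {F : Type*} [Field F] [Fintype F] {d : ℕ}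

/-- the minimal index attached to a prime dividing the number of Lagrangian pairs -/
theorem exists_index {p : ℕ} [Fact p.Prime] [CharP F p] (hd : 1 ≤ d)
    (hodd : Odd (Fintype.card F)) (r : ℕ) [Fact r.Prime] (hrp : r ≠ p)
    (hΩ : r ∣ Nat.card {P : Submodule F (Fin d ⊕ Fin d → F) × Submodule F (Fin d ⊕ Fin d → F) //
        IsCompl P.1 P.2 ∧ (∀ u ∈ P.1, ∀ v ∈ P.1, Cfsg.sympForm d F u v = 0) ∧
          (∀ u ∈ P.2, ∀ v ∈ P.2, Cfsg.sympForm d F u v = 0)} / 2) :
    ∃ i, 1 ≤ i ∧ i ≤ d ∧ r ∣ Fintype.card F ^ i + 1 ∧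
      ∀ j, 1 ≤ j → j < i → ¬ r ∣ Fintype.card F ^ j + 1 := by
  classical
  have hN := card_pairs (F := F) hd
  rw [sp_card rfl d] at hN
  obtain ⟨n, hp, hcard⟩ := FiniteField.card F p
  have hrq : Nat.Coprime r (Fintype.card F) := by
    rw [hcard]
    exact Nat.Coprime.pow_right _ ((Nat.coprime_primes (Fact.out) hp).2 hrp)
  have hq2 : 2 ≤ Fintype.card F := Fintype.one_lt_card
  have hex := arith_key hq2 hodd hd (Fact.out : r.Prime) hrq hN hΩ
  refine ⟨Nat.find hex, (Nat.find_spec hex).1, (Nat.find_spec hex).2.1, (Nat.find_spec hex).2.2, ?_⟩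
  intro j hj1 hji hdiv
  exact Nat.find_min hex hji ⟨hj1, by have := (Nat.find_spec hex).2.1; omega, hdiv⟩

end Arith

end Cfsg.Agent.Helper16.Lag
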