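import Cfsg.Agent.Helper16.LagC

set_option autoImplicit false
open Cfsg

namespace Cfsg.Agent.Helper16.Lag

open Module Matrix Cfsg.Agent.Helper6

section Assembly
variable {F : Type*} [Field F]

/-- powers of a stabilising element stabilise -/
theorem pow_stab {d : ℕ} (A : Matrix.symplecticGroup (Fin d) F)
    (S : Submodule F (Fin d ⊕ Fin d → F))
    (h : ∀ u ∈ S, (A : Matrix (Fin d ⊕ Fin d) (Fin d ⊕ Fin d) F) *ᵥ u ∈ S) :
    ∀ n : ℕ, ∀ u ∈ S,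
      ((A ^ n : Matrix.symplecticGroup (Fin d) F) :
        Matrix (Fin d ⊕ Fin d) (Fin d ⊕ Fin d) F) *ᵥ u ∈ S := by
  intro n
  induction n with
  | zero =>
    intro u hu
    rw [pow_zero, sp_coe_one, Matrix.one_mulVec]
    exact hu
  | succ n ih =>
    intro u hu
    rw [pow_succ, sp_coe_mul, ← Matrix.mulVec_mulVec]
    exact ih _ (h u hu)

/-- an element of odd order fixing or swapping a pair stabilises both members -/
theorem stab_of_fix_or_swap {d r : ℕ} (hrodd : Odd r) (A : Matrix.symplecticGroup (Fin d) F)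
    (hAr : A ^ r = 1) (U W : Submodule F (Fin d ⊕ Fin d → F))
    (h : (U.map (Matrix.toLin' (A : Matrix (Fin d ⊕ Fin d) (Fin d ⊕ Fin d) F)) = U ∧
          W.map (Matrix.toLin' (A : Matrix (Fin d ⊕ Fin d) (Fin d ⊕ Fin d) F)) = W) ∨
         (U.map (Matrix.toLin' (A : Matrix (Fin d ⊕ Fin d) (Fin d ⊕ Fin d) F)) = W ∧
          W.map (Matrix.toLin' (A : Matrix (Fin d ⊕ Fin d) (Fin d ⊕ Fin d) F)) = U)) :
    (∀ u ∈ U, (A : Matrix (Fin d ⊕ Fin d) (Fin d ⊕ Fin d) F) *ᵥ u ∈ U) ∧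
    (∀ w ∈ W, (A : Matrix (Fin d ⊕ Fin d) (Fin d ⊕ Fin d) F) *ᵥ w ∈ W) := by
  have hm : ∀ (S : Submodule F (Fin d ⊕ Fin d → F)) (u : Fin d ⊕ Fin d → F), u ∈ S →
      (A : Matrix (Fin d ⊕ Fin d) (Fin d ⊕ Fin d) F) *ᵥ u
        ∈ S.map (Matrix.toLin' (A : Matrix (Fin d ⊕ Fin d) (Fin d ⊕ Fin d) F)) := by
    intro S u hu
    rw [← Matrix.toLin'_apply]
    exact Submodule.mem_map_of_mem hu
  have hU2 : ∀ u ∈ U, ((A ^ 2 : Matrix.symplecticGroup (Fin d) F) :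
      Matrix (Fin d ⊕ Fin d) (Fin d ⊕ Fin d) F) *ᵥ u ∈ U := by
    intro u hu
    rw [pow_two, sp_coe_mul, ← Matrix.mulVec_mulVec]
    rcases h with ⟨h1, h2⟩ | ⟨h1, h2⟩
    · have a1 := hm U u hu
      rw [h1] at a1
      have a2 := hm U _ a1
      rw [h1] at a2
      exact a2
    · have a1 := hm U u hu
      rw [h1] at a1
      have a2 := hm W _ a1
      rw [h2] at a2
      exact a2
  have hW2 : ∀ u ∈ W, ((A ^ 2 : Matrix.symplecticGroup (Fin d) F) :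
      Matrix (Fin d ⊕ Fin d) (Fin d ⊕ Fin d) F) *ᵥ u ∈ W := by
    intro u hu
    rw [pow_two, sp_coe_mul, ← Matrix.mulVec_mulVec]
    rcases h with ⟨h1, h2⟩ | ⟨h1, h2⟩
    · have a1 := hm W u hu
      rw [h2] at a1
      have a2 := hm W _ a1
      rw [h2] at a2
      exact a2
    · have a1 := hm W u hu
      rw [h2] at a1
      have a2 := hm U _ a1
      rw [h1] at a2
      exact a2
  obtain ⟨k, hk⟩ := hrodd
  have hA : (A ^ 2) ^ (k + 1) = A := by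
    rw [← pow_mul, show 2 * (k + 1) = r + 1 by omega, pow_succ, hAr, one_mul]
  constructor
  · intro u hu
    have := pow_stab (A ^ 2) U hU2 (k + 1) u hu
    rw [hA] at this
    exact this
  · intro u hu
    have := pow_stab (A ^ 2) W hW2 (k + 1) u hu
    rw [hA] at this
    exact this

/-- the core contradiction: an irreducible fixed-point-free block forbids invariant
Lagrangian decompositions -/
theorem no_fixed_pair {d : ℕ} {V₁ V₂ : Type*} [AddCommGroup V₁] [Module F V₁]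
    [AddCommGroup V₂] [Module F V₂]
    (B₁ : V₁ →ₗ[F] V₁ →ₗ[F] F) (B₂ : V₂ →ₗ[F] V₂ →ₗ[F] F) (L₁ : V₁ ≃ₗ[F] V₁)
    (hnd₁ : ∀ w, w ≠ 0 → ∃ w', B₁ w w' ≠ 0)
    (hirr : ∀ S : Submodule F V₁, (∀ s ∈ S, L₁ s ∈ S) → S = ⊥ ∨ S = ⊤)
    (hns : ∀ z : F, ∃ v, L₁ v ≠ z • v) (hsurj : ∀ v, ∃ w, L₁ w - w = v)
    (Θ : (Fin d ⊕ Fin d → F) ≃ₗ[F] V₁ × V₂)
    (hΘ : ∀ u v, B₁ (Θ u).1 (Θ v).1 + B₂ (Θ u).2 (Θ v).2 = sympForm d F u v)
    (A : Matrix.symplecticGroup (Fin d) F)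
    (hA : ∀ v, Θ ((A : Matrix (Fin d ⊕ Fin d) (Fin d ⊕ Fin d) F) *ᵥ v) = (L₁ (Θ v).1, (Θ v).2))
    (U W : Submodule F (Fin d ⊕ Fin d → F)) (hc : IsCompl U W)
    (hU : ∀ u ∈ U, ∀ v ∈ U, sympForm d F u v = 0)
    (hW : ∀ u ∈ W, ∀ v ∈ W, sympForm d F u v = 0)
    (hAU : ∀ u ∈ U, (A : Matrix (Fin d ⊕ Fin d) (Fin d ⊕ Fin d) F) *ᵥ u ∈ U)
    (hAW : ∀ w ∈ W, (A : Matrix (Fin d ⊕ Fin d) (Fin d ⊕ Fin d) F) *ᵥ w ∈ W) : False := by
  classical
  let Uk : Submodule F V₁ :=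
    U.comap ((Θ.symm : (V₁ × V₂) →ₗ[F] (Fin d ⊕ Fin d → F)).comp (LinearMap.inl F V₁ V₂))
  let Wk : Submodule F V₁ :=
    W.comap ((Θ.symm : (V₁ × V₂) →ₗ[F] (Fin d ⊕ Fin d → F)).comp (LinearMap.inl F V₁ V₂))
  have hUk : ∀ a, a ∈ Uk ↔ Θ.symm (a, 0) ∈ U := fun a => Iff.rfl
  have hWk : ∀ a, a ∈ Wk ↔ Θ.symm (a, 0) ∈ W := fun a => Iff.rfl
  have hstab : ∀ (S : Submodule F (Fin d ⊕ Fin d → F)),
      (∀ u ∈ S, (A : Matrix (Fin d ⊕ Fin d) (Fin d ⊕ Fin d) F) *ᵥ u ∈ S) →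
      ∀ a, Θ.symm (a, 0) ∈ S → Θ.symm (L₁ a, 0) ∈ S := by
    intro S hS a ha
    have h1 : Θ ((A : Matrix (Fin d ⊕ Fin d) (Fin d ⊕ Fin d) F) *ᵥ Θ.symm (a, 0))
        = (L₁ a, 0) := by
      rw [hA, Θ.apply_symm_apply]
    have h2 : (A : Matrix (Fin d ⊕ Fin d) (Fin d ⊕ Fin d) F) *ᵥ Θ.symm (a, 0)
        = Θ.symm (L₁ a, 0) := by
      rw [← h1, Θ.symm_apply_apply]
    rw [← h2]
    exact hS _ ha
  have hUs : ∀ s ∈ Uk, L₁ s ∈ Uk := fun s hs => hstab U hAU s hs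
  have hWs : ∀ s ∈ Wk, L₁ s ∈ Wk := fun s hs => hstab W hAW s hs
  have hiso : ∀ (S : Submodule F (Fin d ⊕ Fin d → F)),
      (∀ u ∈ S, ∀ v ∈ S, sympForm d F u v = 0) →
      ∀ a a', Θ.symm (a, 0) ∈ S → Θ.symm (a', 0) ∈ S → B₁ a a' = 0 := by
    intro S hS a a' ha ha'
    have h := hΘ (Θ.symm (a, 0)) (Θ.symm (a', 0))
    rw [Θ.apply_symm_apply, Θ.apply_symm_apply, hS _ ha _ ha'] at h
    have h' : B₁ a a' + B₂ 0 0 = 0 := h
    simp only [map_zero, add_zero] at h'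
    exact h'
  obtain ⟨v₀, hv₀⟩ := hns 0
  have hv₀' : v₀ ≠ 0 := by
    rintro rfl
    apply hv₀
    rw [map_zero, smul_zero]
  have hdec : ∀ a : V₁, ∃ aU ∈ Uk, ∃ aW ∈ Wk, a = aU + aW := by
    intro a
    obtain ⟨a₀, ha₀⟩ := hsurj a
    have hv : Θ.symm (a₀, 0) ∈ U ⊔ W := by rw [hc.sup_eq_top]; exact Submodule.mem_top
    obtain ⟨u, hu, w, hw, huw⟩ := Submodule.mem_sup.1 hv
    have key : ∀ (S : Submodule F (Fin d ⊕ Fin d → F)),
        (∀ u ∈ S, (A : Matrix (Fin d ⊕ Fin d) (Fin d ⊕ Fin d) F) *ᵥ u ∈ S) →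
        ∀ u ∈ S, Θ.symm (L₁ (Θ u).1 - (Θ u).1, 0) ∈ S := by
      intro S hS u hu
      have h1 : Θ ((A : Matrix (Fin d ⊕ Fin d) (Fin d ⊕ Fin d) F) *ᵥ u - u)
          = (L₁ (Θ u).1 - (Θ u).1, 0) := by
        rw [map_sub, hA]
        refine Prod.ext rfl ?_
        show (Θ u).2 - (Θ u).2 = 0
        exact sub_self _
      have h2 : (A : Matrix (Fin d ⊕ Fin d) (Fin d ⊕ Fin d) F) *ᵥ u - u
          = Θ.symm (L₁ (Θ u).1 - (Θ u).1, 0) := by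
        rw [← h1, Θ.symm_apply_apply]
      rw [← h2]
      exact Submodule.sub_mem _ (hS u hu) hu
    refine ⟨_, key U hAU u hu, _, key W hAW w hw, ?_⟩
    have h3 : Θ u + Θ w = (a₀, 0) := by rw [← map_add, huw, Θ.apply_symm_apply]
    have h4 : (Θ u).1 + (Θ w).1 = a₀ := congrArg Prod.fst h3
    show a = (L₁ (Θ u).1 - (Θ u).1) + (L₁ (Θ w).1 - (Θ w).1)
    rw [← ha₀, ← h4, map_add]
    abel
  rcases hirr Uk hUs with hUb | hUt
  · rcases hirr Wk hWs with hWb | hWt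
    · obtain ⟨aU, haU, aW, haW, h⟩ := hdec v₀
      rw [hUb, Submodule.mem_bot] at haU
      rw [hWb, Submodule.mem_bot] at haW
      rw [haU, haW, add_zero] at h
      exact hv₀' h
    · obtain ⟨w', hw'⟩ := hnd₁ v₀ hv₀'
      apply hw'
      have m1 : v₀ ∈ Wk := by rw [hWt]; exact Submodule.mem_top
      have m2 : w' ∈ Wk := by rw [hWt]; exact Submodule.mem_top
      exact hiso W hW v₀ w' m1 m2
  · obtain ⟨w', hw'⟩ := hnd₁ v₀ hv₀'
    apply hw'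
    have m1 : v₀ ∈ Uk := by rw [hUt]; exact Submodule.mem_top
    have m2 : w' ∈ Uk := by rw [hUt]; exact Submodule.mem_top
    exact hiso U hU v₀ w' m1 m2

/-- the standard symplectic space splits isometrically off any smaller alternating space -/
theorem exists_iso_model {V₁ : Type*} [AddCommGroup V₁] [Module F V₁] [FiniteDimensional F V₁]
    (B₁ : V₁ →ₗ[F] V₁ →ₗ[F] F) (halt₁ : ∀ v, B₁ v v = 0) (hskew₁ : ∀ u v, B₁ u v = - B₁ v u)
    (hnd₁ : ∀ w, w ≠ 0 → ∃ w', B₁ w w' ≠ 0) (d i : ℕ) (hid : i ≤ d)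
    (hV₁ : finrank F V₁ = 2 * i) :
    ∃ Θ : (Fin d ⊕ Fin d → F) ≃ₗ[F] V₁ × (Fin (d - i) ⊕ Fin (d - i) → F),
      ∀ u v, B₁ (Θ u).1 (Θ v).1 + (sfB (d - i) F) (Θ u).2 (Θ v).2 = sympForm d F u v := by
  classical
  let B' : (V₁ × (Fin (d - i) ⊕ Fin (d - i) → F)) →ₗ[F]
      (V₁ × (Fin (d - i) ⊕ Fin (d - i) → F)) →ₗ[F] F :=
    B₁.compl₁₂ (LinearMap.fst F V₁ (Fin (d - i) ⊕ Fin (d - i) → F))
        (LinearMap.fst F V₁ (Fin (d - i) ⊕ Fin (d - i) → F))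
      + (sfB (d - i) F).compl₁₂ (LinearMap.snd F V₁ (Fin (d - i) ⊕ Fin (d - i) → F))
        (LinearMap.snd F V₁ (Fin (d - i) ⊕ Fin (d - i) → F))
  have hB' : ∀ u v, B' u v = B₁ u.1 v.1 + sympForm (d - i) F u.2 v.2 := fun u v => rfl
  have hndV : ∀ w : Fin d ⊕ Fin d → F, w ≠ 0 → ∃ w', sfB d F w w' ≠ 0 := fun w hw => by
    by_contra hcon
    push_neg at hcon
    exact hw ((sfB_nondeg (F := F) d).1 w hcon)
  obtain ⟨Θ, hΘ⟩ := alt_isometry (sfB d F) (fun v => sf_self v) (fun u v => sf_swap u v) hndV B'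
    (fun v => by rw [hB', halt₁, sf_self, add_zero])
    (fun u v => by rw [hB', hB', hskew₁ u.1 v.1, sf_swap u.2 v.2]; ring)
    (fun w hw => by
      by_cases h1 : w.1 = 0
      · have h2 : w.2 ≠ 0 := fun h2 => hw (Prod.ext h1 h2)
        have : ∃ b, sympForm (d - i) F w.2 b ≠ 0 := by
          by_contra hcon
          push_neg at hcon
          exact h2 ((sfB_nondeg (F := F) (d - i)).1 w.2 hcon)
        obtain ⟨b, hb⟩ := this
        refine ⟨(0, b), ?_⟩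
        rw [hB']
        show B₁ w.1 0 + sympForm (d - i) F w.2 b ≠ 0
        rw [map_zero, zero_add]
        exact hb
      · obtain ⟨a, ha⟩ := hnd₁ w.1 h1
        refine ⟨(a, 0), ?_⟩
        rw [hB']
        show B₁ w.1 a + sympForm (d - i) F w.2 0 ≠ 0
        rw [sfz_right, add_zero]
        exact ha) d
    (by rw [Module.finrank_fintype_fun_eq_card, Fintype.card_sum, Fintype.card_fin]; ring)
    (by
      rw [Module.finrank_prod, hV₁, Module.finrank_fintype_fun_eq_card, Fintype.card_sum,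
        Fintype.card_fin]
      omega)
  exact ⟨Θ, fun u v => hΘ u v⟩

end Assembly

section Main
variable {F : Type*} [Field F] [Fintype F]

/-- the derangement of odd prime order on pairs of complementary Lagrangians -/
theorem main_construction {p : ℕ} [Fact p.Prime] [CharP F p] (d : ℕ) (hd : 1 ≤ d)
    (hodd : Odd (Fintype.card F)) (r : ℕ) [Fact r.Prime] (hr2 : r ≠ 2) (hrp : r ≠ p)
    (hΩ : r ∣ Nat.card {P : Submodule F (Fin d ⊕ Fin d → F) × Submodule F (Fin d ⊕ Fin d → F) //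
        IsCompl P.1 P.2 ∧ (∀ u ∈ P.1, ∀ v ∈ P.1, Cfsg.sympForm d F u v = 0) ∧
          (∀ u ∈ P.2, ∀ v ∈ P.2, Cfsg.sympForm d F u v = 0)} / 2) :
    ∃ x : Matrix.symplecticGroup (Fin d) F, x ^ r = 1 ∧
      (∀ z : F, (x : Matrix (Fin d ⊕ Fin d) (Fin d ⊕ Fin d) F)
        ≠ z • (1 : Matrix (Fin d ⊕ Fin d) (Fin d ⊕ Fin d) F)) ∧
      ∀ U W : Submodule F (Fin d ⊕ Fin d → F), IsCompl U W →
        (∀ u ∈ U, ∀ v ∈ U, Cfsg.sympForm d F u v = 0) →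
        (∀ u ∈ W, ∀ v ∈ W, Cfsg.sympForm d F u v = 0) →
        ((U.map (Matrix.toLin' (x : Matrix (Fin d ⊕ Fin d) (Fin d ⊕ Fin d) F)) = U ∧
          W.map (Matrix.toLin' (x : Matrix (Fin d ⊕ Fin d) (Fin d ⊕ Fin d) F)) = W) ∨
         (U.map (Matrix.toLin' (x : Matrix (Fin d ⊕ Fin d) (Fin d ⊕ Fin d) F)) = W ∧
          W.map (Matrix.toLin' (x : Matrix (Fin d ⊕ Fin d) (Fin d ⊕ Fin d) F)) = U)) → False := by
  classical
  obtain ⟨i, hi1, hid, hri, hmin⟩ := exists_index hd hodd r hrp hΩ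
  obtain ⟨B₁, L₁, halt₁, hskew₁, hnd₁, hinv₁, hord₁, hirr₁, hns₁, hsurj₁⟩ :=
    exists_model hodd r hr2 i hi1 hri hmin
  obtain ⟨Θ, hΘ⟩ := exists_iso_model B₁ halt₁ hskew₁ hnd₁ d i hid (by
    rw [Module.finrank_fintype_fun_eq_card, Fintype.card_fin])
  let x' : ((Fin (2 * i) → F) × (Fin (d - i) ⊕ Fin (d - i) → F)) ≃ₗ[F]
      ((Fin (2 * i) → F) × (Fin (d - i) ⊕ Fin (d - i) → F)) :=
    LinearEquiv.prodCongr L₁ (LinearEquiv.refl F (Fin (d - i) ⊕ Fin (d - i) → F))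
  have hx' : ∀ w, x' w = (L₁ w.1, w.2) := fun w => rfl
  obtain ⟨A, hA⟩ := sp_of_isometry d (Θ.trans (x'.trans Θ.symm)) (fun u v => by
    show sympForm d F (Θ.symm (x' (Θ u))) (Θ.symm (x' (Θ v))) = sympForm d F u v
    rw [← hΘ, Θ.apply_symm_apply, Θ.apply_symm_apply, hx', hx', ← hΘ u v]
    show B₁ (L₁ (Θ u).1) (L₁ (Θ v).1) + (sfB (d - i) F) (Θ u).2 (Θ v).2 = _
    rw [hinv₁])
  have hA' : ∀ v, Θ ((A : Matrix (Fin d ⊕ Fin d) (Fin d ⊕ Fin d) F) *ᵥ v)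
      = (L₁ (Θ v).1, (Θ v).2) := by
    intro v
    rw [hA]
    show Θ (Θ.symm (x' (Θ v))) = _
    rw [Θ.apply_symm_apply, hx']
  have hpow : ∀ n : ℕ, ∀ v, Θ (((A ^ n : Matrix.symplecticGroup (Fin d) F) :
      Matrix (Fin d ⊕ Fin d) (Fin d ⊕ Fin d) F) *ᵥ v) = ((⇑L₁)^[n] (Θ v).1, (Θ v).2) := by
    intro n
    induction n with
    | zero =>
      intro v
      rw [pow_zero, sp_coe_one, Matrix.one_mulVec] <;> rfl
    | succ n ih =>
      intro v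
      rw [pow_succ, sp_coe_mul, ← Matrix.mulVec_mulVec, ih, hA', Function.iterate_succ_apply]
  have hAr : A ^ r = 1 := by
    apply Subtype.ext
    apply Matrix.toLin'.injective
    apply LinearMap.ext
    intro v
    rw [Matrix.toLin'_apply, sp_coe_one, Matrix.toLin'_one, LinearMap.id_apply]
    apply Θ.injective
    rw [hpow, hord₁]
  refine ⟨A, hAr, ?_, ?_⟩
  · intro z hz
    obtain ⟨a, ha⟩ := hns₁ z
    apply ha
    have h1 := hA' (Θ.symm (a, 0))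
    rw [hz, Matrix.smul_mulVec, Matrix.one_mulVec, map_smul, Θ.apply_symm_apply] at h1
    exact (congrArg Prod.fst h1).symm
  · intro U W hc hU hW hfs
    have hrodd : Odd r := (Nat.Prime.eq_two_or_odd' (Fact.out : r.Prime)).resolve_left hr2
    obtain ⟨hAU, hAW⟩ := stab_of_fix_or_swap hrodd A hAr U W hfs
    exact no_fixed_pair B₁ (sfB (d - i) F) L₁ hnd₁ hirr₁ hns₁ hsurj₁ Θ hΘ A hA' U W hc hU hW
      hAU hAW

end Main

end Cfsg.Agent.Helper16.Lag
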