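import Cfsg.Agent.Helper16.NDMax6

set_option autoImplicit false
open Cfsg

namespace Cfsg.Agent.Helper16

open QuadraticMap Module

section LagMax
variable {ι : Type} [Fintype ι] [DecidableEq ι] {F : Type*} [Field F]

/-- a pair of complementary totally singular subspaces of half the dimension -/
structure LagPair (Q : QuadraticForm F (ι → F)) (k : ℕ) (E E' : Submodule F (ι → F)) : Prop where
  tsE : TS Q E
  tsE' : TS Q E'
  finE : finrank F E = k
  finE' : finrank F E' = k
  inf : E ⊓ E' = ⊥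
  card : Fintype.card ι = 2 * k

theorem LagPair.symm {Q : QuadraticForm F (ι → F)} {k : ℕ} {E E' : Submodule F (ι → F)}
    (L : LagPair Q k E E') : LagPair Q k E' E :=
  ⟨L.tsE', L.tsE, L.finE', L.finE, by rw [inf_comm]; exact L.inf, L.card⟩

theorem LagPair.sup {Q : QuadraticForm F (ι → F)} {k : ℕ} {E E' : Submodule F (ι → F)}
    (L : LagPair Q k E E') : E ⊔ E' = ⊤ := by
  apply Submodule.eq_top_of_finrank_eq
  have h1 := Submodule.finrank_sup_add_finrank_inf_eq E E'
  rw [L.inf, finrank_bot, L.finE, L.finE'] at h1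
  rw [Module.finrank_fintype_fun_eq_card, L.card]
  omega

theorem LagPair.decomp {Q : QuadraticForm F (ι → F)} {k : ℕ} {E E' : Submodule F (ι → F)}
    (L : LagPair Q k E E') (v : ι → F) : ∃ a ∈ E, ∃ b ∈ E', v = a + b := by
  have h : v ∈ E ⊔ E' := by
    rw [L.sup]
    trivial
  obtain ⟨a, ha, b, hb, rfl⟩ := Submodule.mem_sup.1 h
  exact ⟨a, ha, b, hb, rfl⟩

theorem LagPair.finrank_inf_orth {Q : QuadraticForm F (ι → F)}
    (hQ : (polarBilin Q).Nondegenerate) {k : ℕ} {E E' : Submodule F (ι → F)}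
    (L : LagPair Q k E E') (U : Submodule F (ι → F)) (hU : U ≤ E) :
    finrank F (E' ⊓ orth Q U : Submodule F (ι → F)) + finrank F U = k := by
  have hE : E ≤ orth Q U := by
    intro e he
    rw [mem_orth]
    intro u hu
    exact L.tsE.polar_eq_zero (hU hu) he
  have htop : E' ⊔ orth Q U = ⊤ := by
    rw [eq_top_iff, ← L.sup, sup_comm]
    exact sup_le_sup_left hE E'
  have h1 := Submodule.finrank_sup_add_finrank_inf_eq E' (orth Q U)
  rw [htop, finrank_top, Module.finrank_fintype_fun_eq_card, L.card, L.finE', finrank_orth Q hQ,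
    Module.finrank_fintype_fun_eq_card, L.card] at h1
  have h2 := Submodule.finrank_mono hU
  rw [L.finE] at h2
  omega

/-- separation by a vector of `E'` -/
theorem LagPair.sep {Q : QuadraticForm F (ι → F)} (hQ : (polarBilin Q).Nondegenerate) {k : ℕ}
    {E E' : Submodule F (ι → F)} (L : LagPair Q k E E') (U : Submodule F (ι → F)) (hU : U ≤ E)
    (x : ι → F) (hx : x ∈ E) (hxU : x ∉ U) :
    ∃ w ∈ E', (∀ y ∈ U, polar Q w y = 0) ∧ polar Q w x = 1 := by
  have h1 := L.finrank_inf_orth hQ U hU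
  have h2 := L.finrank_inf_orth hQ (U ⊔ Submodule.span F {x})
    (sup_le hU ((Submodule.span_singleton_le_iff_mem _ _).2 hx))
  rw [finrank_sup_span U x hxU] at h2
  obtain ⟨w, hw, hw'⟩ : ∃ w ∈ E' ⊓ orth Q U, w ∉ E' ⊓ orth Q (U ⊔ Submodule.span F {x}) := by
    by_contra hcon
    push Not at hcon
    have hle : E' ⊓ orth Q U ≤ E' ⊓ orth Q (U ⊔ Submodule.span F {x}) := hcon
    have := Submodule.finrank_mono hle
    omega
  obtain ⟨hwE', hwU⟩ := Submodule.mem_inf.1 hw
  have hwx : polar Q x w ≠ 0 := by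
    intro h0
    apply hw'
    refine Submodule.mem_inf.2 ⟨hwE', ?_⟩
    rw [orth_sup]
    exact Submodule.mem_inf.2 ⟨hwU, (mem_orth_span_singleton Q x w).2 h0⟩
  rw [mem_orth] at hwU
  refine ⟨(polar Q x w)⁻¹ • w, E'.smul_mem _ hwE', ?_, ?_⟩
  · intro y hy
    rw [polar_smul_left, polar_comm Q w y, hwU y hy, smul_zero]
  · rw [polar_smul_left, polar_comm Q w x, smul_eq_mul, inv_mul_cancel₀ hwx]

/-- pairing: a non-zero vector of `E` is not orthogonal to `E'` -/
theorem LagPair.exists_pair {Q : QuadraticForm F (ι → F)} (hQ : (polarBilin Q).Nondegenerate)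
    {k : ℕ} {E E' : Submodule F (ι → F)} (L : LagPair Q k E E') (x : ι → F) (hx : x ∈ E)
    (hx0 : x ≠ 0) : ∃ w ∈ E', polar Q w x = 1 := by
  obtain ⟨w, hw, -, h⟩ := L.sep hQ ⊥ bot_le x hx (by rwa [Submodule.mem_bot])
  exact ⟨w, hw, h⟩

theorem siegT_self (Q : QuadraticForm F (ι → F)) (u : ι → F) (hu : Q u = 0) (c : F) :
    siegT Q u (c • u) = 1 := by
  have huu : polar Q u (c • u) = 0 := by rw [polar_smul_right, qf_polar_self, hu]; simp
  rw [siegT_eq Q u (c • u) hu huu]
  have h1 : sieg Q u (c • u) hu huu = 1 := by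
    apply act_ext
    intro x
    rw [act_sieg, act_one, polar_smul_left, qf_smul, hu]
    funext i
    simp only [Pi.add_apply, Pi.sub_apply, Pi.smul_apply, smul_eq_mul]
    ring
  rw [h1]
  rfl

theorem siegT_symm (Q : QuadraticForm F (ι → F)) (u w : ι → F) (hu : Q u = 0) (hw : Q w = 0)
    (huw : polar Q u w = 0) : siegT Q u w = siegT Q w (-u) := by
  have hwu : polar Q w (-u) = 0 := by rw [polar_neg_right, polar_comm, huw, neg_zero]
  rw [siegT_eq Q u w hu huw, siegT_eq Q w (-u) hw hwu]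
  congr 1
  apply act_ext
  intro x
  rw [act_sieg, act_sieg, hw, QuadraticMap.map_neg, hu, polar_neg_left]
  funext i
  simp only [Pi.add_apply, Pi.sub_apply, Pi.smul_apply, smul_eq_mul, Pi.neg_apply]
  ring

/-- the mixed long root elements stabilise both members of the pair -/
theorem LagPair.sieg_stab {Q : QuadraticForm F (ι → F)} {k : ℕ} {E E' : Submodule F (ι → F)}
    (L : LagPair Q k E E') (u w : ι → F) (hu : u ∈ E) (hw : w ∈ E') (huw : polar Q u w = 0) :
    ((sieg Q u w (L.tsE u hu) huw : ↥(isometryGroup F ⇑Q)) : GL ι F) ∈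
      Geo.subspaceStabilizer E ∧
    ((sieg Q u w (L.tsE u hu) huw : ↥(isometryGroup F ⇑Q)) : GL ι F) ∈
      Geo.subspaceStabilizer E' := by
  constructor
  · apply isom_mem_stab
    intro x hx
    rw [act_sieg, L.tsE.polar_eq_zero hu hx]
    simp only [zero_smul, mul_zero, sub_zero]
    exact E.add_mem hx (E.smul_mem _ hu)
  · apply isom_mem_stab
    intro x hx
    rw [act_sieg, L.tsE'.polar_eq_zero hw hx, L.tsE' w hw]
    simp only [zero_smul, zero_mul, sub_zero, add_zero]
    exact E'.sub_mem hx (E'.smul_mem _ hw)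

end LagMax

end Cfsg.Agent.Helper16
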