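import Cfsg.Agent.Helper16.LagMax

set_option autoImplicit false
open Cfsg

namespace Cfsg.Agent.Helper16

open QuadraticMap Module

section LagMax2
variable {ι : Type} [Fintype ι] [DecidableEq ι] {F : Type*} [Field F]

/-- the hypothesis that `M` contains the elements of `Ω` stabilising both members of the pair -/
def LagHyp (Q : QuadraticForm F (ι → F)) (E E' : Submodule F (ι → F)) (M : Subgroup (GL ι F)) :
    Prop :=
  ∀ g : ↥(isometryGroup F ⇑Q), g ∈ Omega F ⇑Q → (g : GL ι F) ∈ Geo.subspaceStabilizer E →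
    (g : GL ι F) ∈ Geo.subspaceStabilizer E' → (g : GL ι F) ∈ M

theorem LagHyp.symm {Q : QuadraticForm F (ι → F)} {E E' : Submodule F (ι → F)}
    {M : Subgroup (GL ι F)} (h : LagHyp Q E E' M) : LagHyp Q E' E M :=
  fun g hg h1 h2 => h g hg h2 h1

theorem LagPair.mixed_mem [Fintype F] {Q : QuadraticForm F (ι → F)}
    (hQ : (polarBilin Q).Nondegenerate) (hn : 5 ≤ Fintype.card ι) {k : ℕ}
    {E E' : Submodule F (ι → F)} (L : LagPair Q k E E') {M : Subgroup (GL ι F)}
    (hH : LagHyp Q E E' M) (u w : ι → F) (hu : u ∈ E) (hw : w ∈ E') (huw : polar Q u w = 0) :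
    siegT Q u w ∈ M := by
  rw [siegT_eq Q u w (L.tsE u hu) huw]
  exact hH _ (sieg_mem_Omega hn Q hQ u w _ huw) (L.sieg_stab u w hu hw huw).1
    (L.sieg_stab u w hu hw huw).2

/-- pairs of vectors of `E` whose long root group lies in `M` -/
def goodPair (Q : QuadraticForm F (ι → F)) (E : Submodule F (ι → F)) (M : Subgroup (GL ι F))
    (u u' : ι → F) : Prop :=
  u ∈ E ∧ u' ∈ E ∧ ∀ c : F, siegT Q u (c • u') ∈ M

theorem goodPair.symm {Q : QuadraticForm F (ι → F)} {E : Submodule F (ι → F)} (hE : TS Q E)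
    {M : Subgroup (GL ι F)} {u u' : ι → F} (h : goodPair Q E M u u') : goodPair Q E M u' u := by
  obtain ⟨hu, hu', hc⟩ := h
  refine ⟨hu', hu, fun c => ?_⟩
  have h1 := hc (-c)
  have huu' : polar Q u ((-c) • u') = 0 := by
    rw [polar_smul_right, hE.polar_eq_zero hu hu', smul_zero]
  rw [siegT_symm Q u ((-c) • u') (hE u hu) (by rw [qf_smul, hE u' hu', mul_zero]) huu',
    siegT_smul Q u' (-u) (-c) (hE u' hu')
      (by rw [polar_neg_right, hE.polar_eq_zero hu' hu, neg_zero])] at h1
  have e : (-c) • (-u) = c • u := by rw [neg_smul, smul_neg, neg_neg]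
  rwa [e] at h1

theorem goodPair.self {Q : QuadraticForm F (ι → F)} {E : Submodule F (ι → F)} (hE : TS Q E)
    (M : Subgroup (GL ι F)) {u : ι → F} (hu : u ∈ E) : goodPair Q E M u u :=
  ⟨hu, hu, fun c => by rw [siegT_self Q u (hE u hu)]; exact M.one_mem⟩

theorem goodPair.add {Q : QuadraticForm F (ι → F)} {E : Submodule F (ι → F)} (hE : TS Q E)
    {M : Subgroup (GL ι F)} {u u' u'' : ι → F} (h : goodPair Q E M u u')
    (h' : goodPair Q E M u u'') : goodPair Q E M u (u' + u'') := by
  obtain ⟨hu, hu', hc⟩ := h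
  obtain ⟨-, hu'', hc'⟩ := h'
  refine ⟨hu, E.add_mem hu' hu'', fun c => ?_⟩
  have h1 := M.mul_mem (hc c) (hc' c)
  rwa [siegT_mul Q u _ _ (hE u hu)
    (by rw [polar_smul_right, hE.polar_eq_zero hu hu', smul_zero])
    (by rw [polar_smul_right, hE.polar_eq_zero hu hu'', smul_zero]), ← smul_add] at h1

theorem goodPair.smul {Q : QuadraticForm F (ι → F)} {E : Submodule F (ι → F)}
    {M : Subgroup (GL ι F)} {u u' : ι → F} (h : goodPair Q E M u u') (l : F) :
    goodPair Q E M u (l • u') := by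
  obtain ⟨hu, hu', hc⟩ := h
  refine ⟨hu, E.smul_mem _ hu', fun c => ?_⟩
  rw [smul_smul]
  exact hc (c * l)

theorem goodPair.act {Q : QuadraticForm F (ι → F)} {E : Submodule F (ι → F)} (hE : TS Q E)
    {M : Subgroup (GL ι F)} {u u' : ι → F} (h : goodPair Q E M u u')
    (g : ↥(isometryGroup F ⇑Q)) (hgM : (g : GL ι F) ∈ M)
    (hgE : (g : GL ι F) ∈ Geo.subspaceStabilizer E) :
    goodPair Q E M (act ⇑Q g u) (act ⇑Q g u') := by
  obtain ⟨hu, hu', hc⟩ := h
  refine ⟨act_mem_of_stab Q g E hgE u hu, act_mem_of_stab Q g E hgE u' hu', fun c => ?_⟩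
  have h1 := M.mul_mem (M.mul_mem hgM (hc c)) (M.inv_mem hgM)
  rw [siegT_conj Q g u (c • u') (hE u hu)
    (by rw [polar_smul_right, hE.polar_eq_zero hu hu', smul_zero]), act_smul] at h1
  exact h1

/-- spreading: one independent good pair `(u₀, u₀')` makes every `(u₀, a)` good -/
theorem LagPair.good_spread [Fintype F] {Q : QuadraticForm F (ι → F)}
    (hQ : (polarBilin Q).Nondegenerate) (hn : 5 ≤ Fintype.card ι) {k : ℕ}
    {E E' : Submodule F (ι → F)} (L : LagPair Q k E E') {M : Subgroup (GL ι F)}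
    (hH : LagHyp Q E E' M) (u₀ u₀' : ι → F) (h : goodPair Q E M u₀ u₀')
    (hind : u₀' ∉ Submodule.span F {u₀}) (a : ι → F) (ha : a ∈ E) : goodPair Q E M u₀ a := by
  have hu₀ := h.1
  have hu₀' := h.2.1
  by_cases hcase : u₀' ∈ Submodule.span F {a} ⊔ Submodule.span F {u₀}
  · obtain ⟨p, hp, r, hr, hpr⟩ := Submodule.mem_sup.1 hcase
    obtain ⟨α, rfl⟩ := Submodule.mem_span_singleton.1 hp
    obtain ⟨β, rfl⟩ := Submodule.mem_span_singleton.1 hr
    have hα : α ≠ 0 := by
      rintro rfl
      apply hind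
      rw [← hpr, zero_smul, zero_add]
      exact Submodule.smul_mem _ _ (Submodule.mem_span_singleton_self u₀)
    have e : a = α⁻¹ • (u₀' + (-β) • u₀) := by
      rw [← hpr, add_assoc, ← add_smul, add_neg_cancel, zero_smul, add_zero, smul_smul,
        inv_mul_cancel₀ hα, one_smul]
    rw [e]
    exact (h.add L.tsE ((goodPair.self L.tsE M hu₀).smul (-β))).smul α⁻¹
  · obtain ⟨w, hw, hwU, hwx⟩ := L.sep hQ (Submodule.span F {a} ⊔ Submodule.span F {u₀})
      (sup_le ((Submodule.span_singleton_le_iff_mem _ _).2 ha)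
        ((Submodule.span_singleton_le_iff_mem _ _).2 hu₀)) u₀' hu₀' hcase
    have hwa : polar Q w a = 0 :=
      hwU a (Submodule.mem_sup_left (Submodule.mem_span_singleton_self a))
    have hwu : polar Q w u₀ = 0 :=
      hwU u₀ (Submodule.mem_sup_right (Submodule.mem_span_singleton_self u₀))
    have haw : polar Q a w = 0 := by rw [polar_comm]; exact hwa
    have hgM : ((sieg Q a w (L.tsE a ha) haw : ↥(isometryGroup F ⇑Q)) : GL ι F) ∈ M := by
      have h1 := L.mixed_mem hQ hn hH a w ha hw haw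
      rwa [siegT_eq Q a w (L.tsE a ha) haw] at h1
    have h1 := h.act L.tsE (sieg Q a w (L.tsE a ha) haw) hgM (L.sieg_stab a w ha hw haw).1
    have e1 : act ⇑Q (sieg Q a w (L.tsE a ha) haw) u₀ = u₀ := by
      rw [act_sieg, hwu, L.tsE.polar_eq_zero ha hu₀]
      simp
    have e2 : act ⇑Q (sieg Q a w (L.tsE a ha) haw) u₀' = u₀' + a := by
      rw [act_sieg, hwx, L.tsE.polar_eq_zero ha hu₀']
      simp
    rw [e1, e2] at h1
    have h2 := h1.add L.tsE (h.smul (-1))
    have e3 : u₀' + a + (-1 : F) • u₀' = a := by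
      rw [neg_smul, one_smul]
      abel
    rwa [e3] at h2

/-- one independent good pair makes all pairs good -/
theorem LagPair.good_all [Fintype F] {Q : QuadraticForm F (ι → F)}
    (hQ : (polarBilin Q).Nondegenerate) (hn : 5 ≤ Fintype.card ι) {k : ℕ}
    {E E' : Submodule F (ι → F)} (L : LagPair Q k E E') {M : Subgroup (GL ι F)}
    (hH : LagHyp Q E E' M) (u₀ u₀' : ι → F) (h : goodPair Q E M u₀ u₀') (hu₀0 : u₀ ≠ 0)
    (hind : u₀' ∉ Submodule.span F {u₀}) (a a' : ι → F) (ha : a ∈ E) (ha' : a' ∈ E) :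
    goodPair Q E M a a' := by
  have h1 := L.good_spread hQ hn hH u₀ u₀' h hind a ha
  have h2 := h1.symm L.tsE
  by_cases hcase : u₀ ∈ Submodule.span F {a}
  · obtain ⟨μ, hμ⟩ := Submodule.mem_span_singleton.1 hcase
    have hμ0 : μ ≠ 0 := by
      rintro rfl
      rw [zero_smul] at hμ
      exact hu₀0 hμ.symm
    have e : a = μ⁻¹ • u₀ := by rw [← hμ, smul_smul, inv_mul_cancel₀ hμ0, one_smul]
    have h3 := L.good_spread hQ hn hH u₀ u₀' h hind a' ha'
    refine ⟨ha, ha', fun c => ?_⟩
    rw [e, siegT_smul Q u₀ (c • a') μ⁻¹ (L.tsE u₀ h.1)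
      (by rw [polar_smul_right, L.tsE.polar_eq_zero h.1 ha', smul_zero]), smul_smul]
    exact h3.2.2 (μ⁻¹ * c)
  · exact L.good_spread hQ hn hH a u₀ h2 hcase a' ha'

/-- if all pairs of `E` are good then the vectors of `E` are root directions of `M` -/
theorem LagPair.rootDirs_of_good [Fintype F] {Q : QuadraticForm F (ι → F)}
    (hQ : (polarBilin Q).Nondegenerate) (hn : 5 ≤ Fintype.card ι) {k : ℕ}
    {E E' : Submodule F (ι → F)} (L : LagPair Q k E E') {M : Subgroup (GL ι F)}
    (hH : LagHyp Q E E' M) (hall : ∀ a ∈ E, ∀ a' ∈ E, goodPair Q E M a a') (u : ι → F)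
    (hu : u ∈ E) : u ∈ rootDirs Q M := by
  refine ⟨L.tsE u hu, fun w huw => ?_⟩
  obtain ⟨a, ha, b, hb, rfl⟩ := L.decomp w
  have hua : polar Q u a = 0 := L.tsE.polar_eq_zero hu ha
  have hub : polar Q u b = 0 := by
    rw [polar_add_right, hua, zero_add] at huw
    exact huw
  have h1 : siegT Q u a ∈ M := by
    have h2 := (hall u hu a ha).2.2 1
    rwa [one_smul] at h2
  have h2 := L.mixed_mem hQ hn hH u b hu hb hub
  have h3 := M.mul_mem h1 h2
  rw [siegT_mul Q u a b (L.tsE u hu) hua hub, siegT_eq Q u (a + b) (L.tsE u hu) huw] at h3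
  exact h3

/-- a long root element of `M` in general position with respect to `E` gives an independent
good pair of `E` -/
theorem LagPair.good_of_root [Fintype F] {Q : QuadraticForm F (ι → F)}
    (hQ : (polarBilin Q).Nondegenerate) (hn : 5 ≤ Fintype.card ι) {k : ℕ} (hk : 5 ≤ k)
    {E E' : Submodule F (ι → F)} (L : LagPair Q k E E') {M : Subgroup (GL ι F)}
    (hH : LagHyp Q E E' M) (a b : ι → F) (ha : Q a = 0) (hb : Q b = 0) (hab : polar Q a b = 0)
    (hM : siegT Q a b ∈ M) (aE aE' bE bE' : ι → F) (haE : aE ∈ E) (haE' : aE' ∈ E')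
    (hbE : bE ∈ E) (hbE' : bE' ∈ E') (hadec : a = aE + aE') (hbdec : b = bE + bE')
    (hind1 : aE ≠ 0) (hind2 : bE ∉ Submodule.span F {aE}) :
    ∃ u u', goodPair Q E M u u' ∧ u ≠ 0 ∧ u' ∉ Submodule.span F {u} := by
  have hfin := finrank_inf_orth_ge Q hQ E (Submodule.span F {a} ⊔ Submodule.span F {b})
  have h2 := finrank_span_pair_le (F := F) a b
  have h3 := finrank_span_pair_le (F := F) aE bE
  rw [L.finE] at hfin
  obtain ⟨u, hu, hu'⟩ : ∃ u ∈ E ⊓ orth Q (Submodule.span F {a} ⊔ Submodule.span F {b}),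
      u ∉ Submodule.span F {aE} ⊔ Submodule.span F {bE} := by
    by_contra hcon
    push Not at hcon
    have hle : E ⊓ orth Q (Submodule.span F {a} ⊔ Submodule.span F {b}) ≤
        Submodule.span F {aE} ⊔ Submodule.span F {bE} := hcon
    have := Submodule.finrank_mono hle
    omega
  obtain ⟨huE, huO⟩ := Submodule.mem_inf.1 hu
  rw [orth_sup, Submodule.mem_inf, mem_orth_span_singleton, mem_orth_span_singleton] at huO
  obtain ⟨hau, hbu⟩ := huO
  have hu0 : u ≠ 0 := by
    rintro rfl
    exact hu' (Submodule.zero_mem _)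
  have hbE2 : bE ∉ Submodule.span F {u} ⊔ Submodule.span F {aE} := by
    intro h
    obtain ⟨p, hp, r, hr, hpr⟩ := Submodule.mem_sup.1 h
    obtain ⟨α, rfl⟩ := Submodule.mem_span_singleton.1 hp
    obtain ⟨β, rfl⟩ := Submodule.mem_span_singleton.1 hr
    by_cases hα : α = 0
    · apply hind2
      rw [← hpr, hα, zero_smul, zero_add]
      exact Submodule.smul_mem _ _ (Submodule.mem_span_singleton_self aE)
    · apply hu'
      have e : u = α⁻¹ • bE + (-(α⁻¹ * β)) • aE := by
        rw [← hpr, smul_add, smul_smul, smul_smul, inv_mul_cancel₀ hα, one_smul, add_assoc,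
          ← add_smul, add_neg_cancel, zero_smul, add_zero]
      rw [e]
      exact Submodule.add_mem _
        (Submodule.mem_sup_right (Submodule.smul_mem _ _ (Submodule.mem_span_singleton_self bE)))
        (Submodule.mem_sup_left (Submodule.smul_mem _ _ (Submodule.mem_span_singleton_self aE)))
  obtain ⟨w, hwE', hwU, hwb⟩ := L.sep hQ (Submodule.span F {u} ⊔ Submodule.span F {aE})
    (sup_le ((Submodule.span_singleton_le_iff_mem _ _).2 huE)
      ((Submodule.span_singleton_le_iff_mem _ _).2 haE)) bE hbE hbE2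
  have hwu : polar Q w u = 0 :=
    hwU u (Submodule.mem_sup_left (Submodule.mem_span_singleton_self u))
  have hwaE : polar Q w aE = 0 :=
    hwU aE (Submodule.mem_sup_right (Submodule.mem_span_singleton_self aE))
  have huw : polar Q u w = 0 := by rw [polar_comm]; exact hwu
  have hrM : ((sieg Q a b ha hab : ↥(isometryGroup F ⇑Q)) : GL ι F) ∈ M := by
    rwa [siegT_eq Q a b ha hab] at hM
  have hru : act ⇑Q (sieg Q a b ha hab) u = u := by
    rw [act_sieg, hau, hbu]
    simp
  have hbw : polar Q b w = 1 := by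
    rw [hbdec, polar_add_left, polar_comm Q bE w, hwb, L.tsE'.polar_eq_zero hbE' hwE', add_zero]
  have haw : polar Q a w = 0 := by
    rw [hadec, polar_add_left, polar_comm Q aE w, hwaE, L.tsE'.polar_eq_zero haE' hwE', add_zero]
  have hrw : act ⇑Q (sieg Q a b ha hab) w = w + a := by
    rw [act_sieg, hbw, haw]
    simp
  have hua : polar Q u a = 0 := by rw [polar_comm]; exact hau
  have huaE : polar Q u aE = 0 := L.tsE.polar_eq_zero huE haE
  have huaE' : polar Q u aE' = 0 := by
    rw [hadec, polar_add_right, huaE, zero_add] at hua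
    exact hua
  refine ⟨u, aE, ⟨huE, haE, fun c => ?_⟩, hu0, ?_⟩
  · have h4 := L.mixed_mem hQ hn hH u (c • w) huE (E'.smul_mem _ hwE')
      (by rw [polar_smul_right, huw, smul_zero])
    have h5 := M.mul_mem (M.mul_mem hrM h4) (M.inv_mem hrM)
    rw [siegT_conj Q _ u (c • w) (L.tsE u huE) (by rw [polar_smul_right, huw, smul_zero]), hru,
      act_smul, hrw] at h5
    have h6 := L.mixed_mem hQ hn hH u ((-c) • w) huE (E'.smul_mem _ hwE')
      (by rw [polar_smul_right, huw, smul_zero])
    have h7 := M.mul_mem h5 h6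
    rw [siegT_mul Q u _ _ (L.tsE u huE)
      (by rw [polar_smul_right, polar_add_right, huw, hua, add_zero, smul_zero])
      (by rw [polar_smul_right, huw, smul_zero])] at h7
    have e1 : c • (w + a) + (-c) • w = c • a := by
      rw [smul_add, neg_smul]
      abel
    rw [e1] at h7
    have h8 := L.mixed_mem hQ hn hH u ((-c) • aE') huE (E'.smul_mem _ haE')
      (by rw [polar_smul_right, huaE', smul_zero])
    have h9 := M.mul_mem h7 h8
    rw [siegT_mul Q u _ _ (L.tsE u huE) (by rw [polar_smul_right, hua, smul_zero])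
      (by rw [polar_smul_right, huaE', smul_zero])] at h9
    have e2 : c • a + (-c) • aE' = c • aE := by
      rw [hadec, smul_add, neg_smul]
      abel
    rwa [e2] at h9
  · intro h
    obtain ⟨l, hl⟩ := Submodule.mem_span_singleton.1 h
    have hl0 : l ≠ 0 := by
      rintro rfl
      rw [zero_smul] at hl
      exact hind1 hl.symm
    apply hu'
    have e : u = l⁻¹ • aE := by rw [← hl, smul_smul, inv_mul_cancel₀ hl0, one_smul]
    rw [e]
    exact Submodule.mem_sup_left (Submodule.smul_mem _ _ (Submodule.mem_span_singleton_self aE))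

end LagMax2

end Cfsg.Agent.Helper16
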