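import Cfsg.Agent.Helper16.LagMax2

set_option autoImplicit false
open Cfsg

namespace Cfsg.Agent.Helper16

open QuadraticMap Module

section LagMax3
variable {ι : Type} [Fintype ι] [DecidableEq ι] {F : Type*} [Field F]

theorem mem_span_singleton_swap (a b : ι → F) (hb : b ≠ 0) (h : b ∈ Submodule.span F {a}) :
    a ∈ Submodule.span F {b} := by
  obtain ⟨l, rfl⟩ := Submodule.mem_span_singleton.1 h
  have hl : l ≠ 0 := by
    rintro rfl
    exact hb (zero_smul _ _)
  exact Submodule.mem_span_singleton.2 ⟨l⁻¹, by rw [smul_smul, inv_mul_cancel₀ hl, one_smul]⟩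

/-- the half lemma: if no image pair is in general position, `g` maps `E` to `E` or to `E'` -/
theorem LagPair.half {Q : QuadraticForm F (ι → F)} (hQ : (polarBilin Q).Nondegenerate) {k : ℕ}
    (hk : 4 ≤ k) {E E' : Submodule F (ι → F)} (L : LagPair Q k E E')
    (g : ↥(isometryGroup F ⇑Q))
    (h : ∀ u₁ ∈ E, ∀ w₁ ∈ E', polar Q u₁ w₁ = 0 → ∀ aE ∈ E, ∀ aE' ∈ E', ∀ bE ∈ E, ∀ bE' ∈ E',
      act ⇑Q g u₁ = aE + aE' → act ⇑Q g w₁ = bE + bE' → aE ≠ 0 → aE' ≠ 0 →
        bE ∈ Submodule.span F {aE} ∧ bE' ∈ Submodule.span F {aE'}) :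
    mapG (g : GL ι F) E = E ∨ mapG (g : GL ι F) E = E' := by
  have key : ∀ u ∈ E, act ⇑Q g u ∈ E ∨ act ⇑Q g u ∈ E' := by
    intro u hu
    obtain ⟨aE, haE, aE', haE', hdec⟩ := L.decomp (act ⇑Q g u)
    by_cases h1 : aE = 0
    · right
      rw [hdec, h1, zero_add]
      exact haE'
    by_cases h2 : aE' = 0
    · left
      rw [hdec, h2, add_zero]
      exact haE
    exfalso
    have hU : Submodule.span F {u} ≤ E := (Submodule.span_singleton_le_iff_mem _ _).2 hu
    have hfin := L.finrank_inf_orth hQ (Submodule.span F {u}) hU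
    have hfin1 := finrank_span_one_le (F := F) u
    have hle : mapG (g : GL ι F) (E' ⊓ orth Q (Submodule.span F {u})) ≤
        Submodule.span F {aE} ⊔ Submodule.span F {aE'} := by
      intro y hy
      obtain ⟨w, hw, rfl⟩ := (mem_mapG _ _ _).1 hy
      obtain ⟨hwE', hwO⟩ := Submodule.mem_inf.1 hw
      rw [mem_orth_span_singleton] at hwO
      obtain ⟨bE, hbE, bE', hbE', hdec'⟩ := L.decomp (act ⇑Q g w)
      obtain ⟨h3, h4⟩ := h u hu w hwE' hwO aE haE aE' haE' bE hbE bE' hbE' hdec hdec' h1 h2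
      have h5 : act ⇑Q g w ∈ Submodule.span F {aE} ⊔ Submodule.span F {aE'} := by
        rw [hdec']
        exact Submodule.add_mem _ (Submodule.mem_sup_left h3) (Submodule.mem_sup_right h4)
      exact h5
    have h5 := Submodule.finrank_mono hle
    rw [finrank_mapG] at h5
    have h6 := finrank_span_pair_le (F := F) aE aE'
    omega
  by_cases hall : ∀ u ∈ E, act ⇑Q g u ∈ E
  · left
    exact mapG_eq_of_act ⇑Q g E E rfl hall
  · right
    push Not at hall
    obtain ⟨x, hx, hxE⟩ := hall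
    have hxE' : act ⇑Q g x ∈ E' := (key x hx).resolve_left hxE
    apply mapG_eq_of_act ⇑Q g E E' (L.finE.trans L.finE'.symm)
    intro y hy
    by_contra hyE'
    have hyE : act ⇑Q g y ∈ E := (key y hy).resolve_right hyE'
    rcases key (x + y) (E.add_mem hx hy) with h1 | h1
    · rw [act_add] at h1
      exact hxE ((E.add_mem_iff_left hyE).1 h1)
    · rw [act_add] at h1
      exact hyE' ((E'.add_mem_iff_right hxE').1 h1)

/-- an isometry neither preserving nor interchanging the pair moves some mixed pair to general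
position -/
theorem LagPair.exists_general {Q : QuadraticForm F (ι → F)}
    (hQ : (polarBilin Q).Nondegenerate) {k : ℕ} (hk : 4 ≤ k) {E E' : Submodule F (ι → F)}
    (L : LagPair Q k E E') (g : ↥(isometryGroup F ⇑Q))
    (hg : ¬ ((mapG (g : GL ι F) E = E ∧ mapG (g : GL ι F) E' = E') ∨
      (mapG (g : GL ι F) E = E' ∧ mapG (g : GL ι F) E' = E))) :
    ∃ u₁ ∈ E, ∃ w₁ ∈ E', polar Q u₁ w₁ = 0 ∧ ∃ aE ∈ E, ∃ aE' ∈ E', ∃ bE ∈ E, ∃ bE' ∈ E',
      act ⇑Q g u₁ = aE + aE' ∧ act ⇑Q g w₁ = bE + bE' ∧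
      ((aE ≠ 0 ∧ bE ∉ Submodule.span F {aE}) ∨ (aE' ≠ 0 ∧ bE' ∉ Submodule.span F {aE'})) := by
  by_contra hcon
  have hcon' : ∀ u₁ ∈ E, ∀ w₁ ∈ E', polar Q u₁ w₁ = 0 → ∀ aE ∈ E, ∀ aE' ∈ E', ∀ bE ∈ E,
      ∀ bE' ∈ E', act ⇑Q g u₁ = aE + aE' → act ⇑Q g w₁ = bE + bE' →
      (aE ≠ 0 → bE ∈ Submodule.span F {aE}) ∧ (aE' ≠ 0 → bE' ∈ Submodule.span F {aE'}) := by
    intro u₁ hu₁ w₁ hw₁ huw aE haE aE' haE' bE hbE bE' hbE' hd1 hd2
    constructor
    · intro ha
      by_contra hb
      exact hcon ⟨u₁, hu₁, w₁, hw₁, huw, aE, haE, aE', haE', bE, hbE, bE', hbE', hd1, hd2,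
        Or.inl ⟨ha, hb⟩⟩
    · intro ha
      by_contra hb
      exact hcon ⟨u₁, hu₁, w₁, hw₁, huw, aE, haE, aE', haE', bE, hbE, bE', hbE', hd1, hd2,
        Or.inr ⟨ha, hb⟩⟩
  have h1 : mapG (g : GL ι F) E = E ∨ mapG (g : GL ι F) E = E' := by
    apply L.half hQ hk g
    intro u₁ hu₁ w₁ hw₁ huw aE haE aE' haE' bE hbE bE' hbE' hd1 hd2 ha0 ha0'
    obtain ⟨h3, h4⟩ := hcon' u₁ hu₁ w₁ hw₁ huw aE haE aE' haE' bE hbE bE' hbE' hd1 hd2
    exact ⟨h3 ha0, h4 ha0'⟩
  have h2 : mapG (g : GL ι F) E' = E' ∨ mapG (g : GL ι F) E' = E := by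
    apply L.symm.half hQ hk g
    intro w₁ hw₁ u₁ hu₁ hwu bE' hbE' bE hbE aE' haE' aE haE hd2 hd1 hb0' hb0
    obtain ⟨h3, h4⟩ := hcon' u₁ hu₁ w₁ hw₁ (by rw [polar_comm]; exact hwu) aE haE aE' haE' bE hbE
      bE' hbE' (by rw [hd1, add_comm]) (by rw [hd2, add_comm])
    constructor
    · by_cases ha : aE' = 0
      · rw [ha]
        exact Submodule.zero_mem _
      · exact mem_span_singleton_swap aE' bE' hb0' (h4 ha)
    · by_cases ha : aE = 0
      · rw [ha]
        exact Submodule.zero_mem _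
      · exact mem_span_singleton_swap aE bE hb0 (h3 ha)
  have hbot : mapG (g : GL ι F) E ⊓ mapG (g : GL ι F) E' = ⊥ := by
    rw [← mapG_inf, L.inf]
    unfold mapG
    exact Submodule.map_bot _
  have hE0 : E ≠ ⊥ := by
    intro h
    have h3 := L.finE
    rw [h, finrank_bot] at h3
    omega
  have hE0' : E' ≠ ⊥ := by
    intro h
    have h3 := L.finE'
    rw [h, finrank_bot] at h3
    omega
  rcases h1 with h1 | h1 <;> rcases h2 with h2 | h2
  · exact hg (Or.inl ⟨h1, h2⟩)
  · rw [h1, h2, inf_idem] at hbot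
    exact hE0 hbot
  · rw [h1, h2, inf_idem] at hbot
    exact hE0' hbot
  · exact hg (Or.inr ⟨h1, h2⟩)

/-- a basis of `E` with a dual family in `E'` -/
theorem LagPair.exists_dual {Q : QuadraticForm F (ι → F)} (hQ : (polarBilin Q).Nondegenerate)
    {k : ℕ} {E E' : Submodule F (ι → F)} (L : LagPair Q k E E') :
    ∃ e f : Fin k → (ι → F), (∀ i, e i ∈ E) ∧ (∀ i, f i ∈ E') ∧
      (∀ i j, polar Q (f j) (e i) = if i = j then 1 else 0) ∧
      Submodule.span F (Set.range e) = E := by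
  have b := Module.finBasisOfFinrankEq F E L.finE
  have hli : LinearIndependent F (fun i => ((b i : E) : ι → F)) :=
    b.linearIndependent.map' E.subtype (Submodule.ker_subtype E)
  have hspan : Submodule.span F (Set.range (fun i => ((b i : E) : ι → F))) = E := by
    have h1 := b.span_eq
    have h2 : Set.range (fun i => ((b i : E) : ι → F)) = E.subtype '' Set.range b := by
      rw [← Set.range_comp]
      rfl
    rw [h2, Submodule.span_image, h1, Submodule.map_top, Submodule.range_subtype]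
  have hex : ∀ j : Fin k, ∃ w ∈ E',
      (∀ y ∈ Submodule.span F ((fun i => ((b i : E) : ι → F)) '' {i | i ≠ j}), polar Q w y = 0) ∧
        polar Q w ((b j : E) : ι → F) = 1 := by
    intro j
    apply L.sep hQ
    · rw [Submodule.span_le]
      rintro _ ⟨i, -, rfl⟩
      exact (b i).2
    · exact (b j).2
    · exact hli.notMem_span_image (by simp)
  choose f hf1 hf2 hf3 using hex
  refine ⟨fun i => ((b i : E) : ι → F), f, fun i => (b i).2, hf1, ?_, hspan⟩
  intro i j
  by_cases hij : i = j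
  · rw [if_pos hij, hij]
    exact hf3 j
  · rw [if_neg hij]
    exact hf2 j _ (Submodule.subset_span ⟨i, hij, rfl⟩)

/-- for `k` even there is an element of `Ω` interchanging the members of the pair -/
theorem LagPair.exists_swap [Fintype F] {Q : QuadraticForm F (ι → F)}
    (hQ : (polarBilin Q).Nondegenerate) {k : ℕ} (hke : Even k) {E E' : Submodule F (ι → F)}
    (L : LagPair Q k E E') :
    ∃ s : ↥(isometryGroup F ⇑Q), s ∈ Omega F ⇑Q ∧ (∀ x ∈ E, act ⇑Q s x ∈ E') ∧
      (∀ x ∈ E', act ⇑Q s x ∈ E) := by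
  obtain ⟨e, f, he, hf, hef, hspan⟩ := L.exists_dual hQ
  have hee : ∀ i j, polar Q (e i) (e j) = 0 := fun i j => L.tsE.polar_eq_zero (he i) (he j)
  have hff : ∀ i j, polar Q (f i) (f j) = 0 := fun i j => L.tsE'.polar_eq_zero (hf i) (hf j)
  have hQa : ∀ i, Q (e i - f i) = -1 := by
    intro i
    rw [sub_eq_add_neg, qf_add, QuadraticMap.map_neg, L.tsE _ (he i), L.tsE' _ (hf i),
      polar_neg_right, polar_comm, hef i i, if_pos rfl]
    ring
  have hQa0 : ∀ i, Q (e i - f i) ≠ 0 := by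
    intro i
    rw [hQa i]
    exact neg_ne_zero.2 one_ne_zero
  have hre : ∀ i j, act ⇑Q (reflElt Q (e i - f i)) (e j) = if j = i then f i else e j := by
    intro i j
    rw [act_refl Q _ (hQa0 i), qrefl_apply, hQa i, polar_sub_left, hee i j, hef j i]
    by_cases hji : j = i
    · subst hji
      simp
    · simp [hji]
  have hrf : ∀ i j, act ⇑Q (reflElt Q (e i - f i)) (f j) = if j = i then e i else f j := by
    intro i j
    rw [act_refl Q _ (hQa0 i), qrefl_apply, hQa i, polar_sub_left, hff i j,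
      polar_comm Q (e i) (f j), hef i j]
    by_cases hji : j = i
    · subst hji
      simp
    · have hij : ¬ i = j := fun h => hji h.symm
      simp [hji, hij]
  have main : ∀ S : Finset (Fin k), ∃ s : ↥(isometryGroup F ⇑Q),
      (Even S.card → s ∈ Omega F ⇑Q) ∧
      (Odd S.card → ∀ b : ι → F, Q b = -1 → s * reflElt Q b ∈ Omega F ⇑Q) ∧
      (∀ j, act ⇑Q s (e j) = if j ∈ S then f j else e j) ∧
      (∀ j, act ⇑Q s (f j) = if j ∈ S then e j else f j) := by
    intro S
    induction S using Finset.induction_on with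
    | empty =>
      refine ⟨1, fun _ => Subgroup.one_mem _, fun h => ?_, fun j => ?_, fun j => ?_⟩
      · simp at h
      · rw [act_one]
        simp
      · rw [act_one]
        simp
    | insert i S hi ih =>
      obtain ⟨s, hs1, hs2, hs3, hs4⟩ := ih
      refine ⟨s * reflElt Q (e i - f i), ?_, ?_, ?_, ?_⟩
      · intro hev
        rw [Finset.card_insert_of_notMem hi] at hev
        have h1 := Nat.even_iff.1 hev
        exact hs2 (Nat.odd_iff.2 (by omega)) _ (hQa i)
      · intro hodd b hb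
        rw [Finset.card_insert_of_notMem hi] at hodd
        have h1 := Nat.odd_iff.1 hodd
        rw [mul_assoc]
        exact Subgroup.mul_mem _ (hs1 (Nat.even_iff.2 (by omega)))
          (refl_pair_mem_Omega Q hQ _ b (hQa0 i) (by rw [hb, hQa i]))
      · intro j
        rw [act_mul, hre i j]
        by_cases hji : j = i
        · rw [if_pos hji, hs4 i, if_neg hi, hji, if_pos (Finset.mem_insert_self i S)]
        · rw [if_neg hji, hs3 j]
          simp [Finset.mem_insert, hji]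
      · intro j
        rw [act_mul, hrf i j]
        by_cases hji : j = i
        · rw [if_pos hji, hs3 i, if_neg hi, hji, if_pos (Finset.mem_insert_self i S)]
        · rw [if_neg hji, hs4 j]
          simp [Finset.mem_insert, hji]
  obtain ⟨s, hs1, -, hs3, hs4⟩ := main Finset.univ
  have hs3' : ∀ j, act ⇑Q s (e j) = f j := fun j => by rw [hs3 j, if_pos (Finset.mem_univ j)]
  have hs4' : ∀ j, act ⇑Q s (f j) = e j := fun j => by rw [hs4 j, if_pos (Finset.mem_univ j)]
  refine ⟨s, hs1 (by rw [Finset.card_univ, Fintype.card_fin]; exact hke), ?_, ?_⟩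
  · intro x hx
    rw [← hspan] at hx
    induction hx using Submodule.span_induction with
    | mem x hx =>
      obtain ⟨j, rfl⟩ := hx
      rw [hs3']
      exact hf j
    | zero =>
      rw [act_zero]
      exact E'.zero_mem
    | add x y _ _ hx hy =>
      rw [act_add]
      exact E'.add_mem hx hy
    | smul c x _ hx =>
      rw [act_smul]
      exact E'.smul_mem c hx
  · intro x hx
    have hV : finrank F (ι → F) = 2 * k := by rw [Module.finrank_fintype_fun_eq_card, L.card]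
    rw [← orth_eq_self Q hQ hV E L.tsE L.finE, mem_orth]
    intro u hu
    rw [← hspan] at hu
    induction hu using Submodule.span_induction with
    | mem u hu =>
      obtain ⟨j, rfl⟩ := hu
      rw [← hs4' j, act_polar]
      exact L.tsE'.polar_eq_zero (hf j) hx
    | zero => simp
    | add u v _ _ hu hv => rw [polar_add_left, hu, hv, add_zero]
    | smul c u _ hu => rw [polar_smul_left, hu, smul_zero]

/-- the stabiliser in `Ω` of a pair of complementary totally singular subspaces of even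
dimension `k` is maximal -/
theorem lag_max [Fintype F] (hn : 13 ≤ Fintype.card ι) (Q : QuadraticForm F (ι → F))
    (hQ : (polarBilin Q).Nondegenerate) (k : ℕ) (hk : 2 * k = Fintype.card ι) (hke : Even k)
    (D : Fin 2 → Submodule F (ι → F)) (hD : Geo.IsMDecomposition k D) (hts : ∀ i, TS Q (D i)) :
    Geo.IsMaximalIn (Geo.omegaGL ⇑Q) (Geo.decompositionStabilizer D ⊓ Geo.omegaGL ⇑Q) := by
  have L : LagPair Q k (D 0) (D 1) :=
    ⟨hts 0, hts 1, hD.finrank_eq 0, hD.finrank_eq 1,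
      (hD.indep.pairwiseDisjoint (by decide : (0 : Fin 2) ≠ 1)).eq_bot, hk.symm⟩
  have hn5 : 5 ≤ Fintype.card ι := by omega
  have hboth : ∀ g : GL ι F, mapG g (D 0) = D 0 → mapG g (D 1) = D 1 →
      g ∈ Geo.decompositionStabilizer D := by
    intro g h0 h1
    refine ⟨1, fun i => ?_⟩
    fin_cases i
    · exact h0
    · exact h1
  have hswap : ∀ g : GL ι F, mapG g (D 0) = D 1 → mapG g (D 1) = D 0 →
      g ∈ Geo.decompositionStabilizer D := by
    intro g h0 h1
    refine ⟨Equiv.swap 0 1, fun i => ?_⟩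
    fin_cases i
    · show mapG g (D 0) = D (Equiv.swap 0 1 0)
      rw [Equiv.swap_apply_left]
      exact h0
    · show mapG g (D 1) = D (Equiv.swap 0 1 1)
      rw [Equiv.swap_apply_right]
      exact h1
  have hcases : ∀ g : GL ι F, g ∈ Geo.decompositionStabilizer D →
      (mapG g (D 0) = D 0 ∧ mapG g (D 1) = D 1) ∨ (mapG g (D 0) = D 1 ∧ mapG g (D 1) = D 0) := by
    rintro g ⟨σ, hσ⟩
    have h0 : mapG g (D 0) = D (σ 0) := hσ 0
    have h1 : mapG g (D 1) = D (σ 1) := hσ 1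
    have hinj := σ.injective
    have hne : σ 0 ≠ σ 1 := fun h => absurd (hinj h) (by decide)
    obtain h | h : σ 0 = 0 ∨ σ 0 = 1 := by
      generalize σ 0 = j
      fin_cases j <;> simp
    · obtain h' | h' : σ 1 = 0 ∨ σ 1 = 1 := by
        generalize σ 1 = j
        fin_cases j <;> simp
      · exact absurd (h.trans h'.symm) hne
      · rw [h] at h0
        rw [h'] at h1
        exact Or.inl ⟨h0, h1⟩
    · obtain h' | h' : σ 1 = 0 ∨ σ 1 = 1 := by
        generalize σ 1 = j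
        fin_cases j <;> simp
      · rw [h] at h0
        rw [h'] at h1
        exact Or.inr ⟨h0, h1⟩
      · exact absurd (h.trans h'.symm) hne
  have hE0 : D 0 ≠ ⊥ := by
    intro h
    have h3 := L.finE
    rw [h, finrank_bot] at h3
    omega
  obtain ⟨x, hx, hx0⟩ := Submodule.exists_mem_ne_zero_of_ne_bot hE0
  constructor
  · refine lt_of_le_of_ne inf_le_right ?_
    intro heq
    obtain ⟨x', hx', hx'x⟩ : ∃ x' ∈ D 0, x' ∉ Submodule.span F {x} := by
      by_contra hcon
      push Not at hcon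
      have hle : D 0 ≤ Submodule.span F {x} := hcon
      have h1 := Submodule.finrank_mono hle
      have h2 := finrank_span_one_le (F := F) x
      rw [L.finE] at h1
      omega
    obtain ⟨w, hw, hwU, hwx'⟩ := L.sep hQ (Submodule.span F {x})
      ((Submodule.span_singleton_le_iff_mem _ _).2 hx) x' hx' hx'x
    have hwx : polar Q w x = 0 := hwU x (Submodule.mem_span_singleton_self x)
    have hxx' : polar Q x x' = 0 := L.tsE.polar_eq_zero hx hx'
    have hgΩ := sieg_mem_Omega hn5 Q hQ x x' (L.tsE x hx) hxx'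
    have hact : act ⇑Q (sieg Q x x' (L.tsE x hx) hxx') w = w + x := by
      rw [act_sieg, polar_comm Q x' w, hwx', polar_comm Q x w, hwx]
      simp
    have hmem : act ⇑Q (sieg Q x x' (L.tsE x hx) hxx') w ∈
        mapG ((sieg Q x x' (L.tsE x hx) hxx' : ↥(isometryGroup F ⇑Q)) : GL ι F) (D 1) :=
      (mem_mapG _ _ _).2 ⟨w, hw, rfl⟩
    rw [hact] at hmem
    have hgH : ((sieg Q x x' (L.tsE x hx) hxx' : ↥(isometryGroup F ⇑Q)) : GL ι F) ∈
        Geo.decompositionStabilizer D ⊓ Geo.omegaGL ⇑Q := by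
      rw [heq]
      exact mem_omegaGL ⇑Q _ hgΩ
    rcases hcases _ hgH.1 with ⟨-, h1⟩ | ⟨-, h1⟩
    · rw [h1] at hmem
      have hx1 : x ∈ D 1 := (Submodule.add_mem_iff_right _ hw).1 hmem
      have hx2 : x ∈ D 0 ⊓ D 1 := Submodule.mem_inf.2 ⟨hx, hx1⟩
      rw [L.inf, Submodule.mem_bot] at hx2
      exact hx0 hx2
    · rw [h1] at hmem
      have hw0 : w ∈ D 0 := (Submodule.add_mem_iff_left _ hx).1 hmem
      have hw2 : w ∈ D 0 ⊓ D 1 := Submodule.mem_inf.2 ⟨hw0, hw⟩
      rw [L.inf, Submodule.mem_bot] at hw2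
      rw [hw2, polar_zero_left] at hwx'
      exact zero_ne_one hwx'
  · intro M hHM hMle
    by_cases hMH : M = Geo.decompositionStabilizer D ⊓ Geo.omegaGL ⇑Q
    · exact Or.inl hMH
    right
    obtain ⟨g₀, hg₀M, hg₀H⟩ : ∃ g₀ ∈ M, g₀ ∉ Geo.decompositionStabilizer D ⊓ Geo.omegaGL ⇑Q := by
      by_contra hcon
      push Not at hcon
      exact hMH (le_antisymm hcon hHM)
    obtain ⟨g, hgΩ, rfl⟩ := exists_of_mem_omegaGL ⇑Q g₀ (hMle hg₀M)
    have hg : ¬ ((mapG (g : GL ι F) (D 0) = D 0 ∧ mapG (g : GL ι F) (D 1) = D 1) ∨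
        (mapG (g : GL ι F) (D 0) = D 1 ∧ mapG (g : GL ι F) (D 1) = D 0)) := by
      rintro (⟨h0, h1⟩ | ⟨h0, h1⟩)
      · exact hg₀H ⟨hboth _ h0 h1, hMle hg₀M⟩
      · exact hg₀H ⟨hswap _ h0 h1, hMle hg₀M⟩
    have hH : LagHyp Q (D 0) (D 1) M := by
      intro h hhΩ h0 h1
      exact hHM ⟨hboth _ (mapG_eq_of_mem_stab _ _ h0) (mapG_eq_of_mem_stab _ _ h1),
        mem_omegaGL ⇑Q h hhΩ⟩
    obtain ⟨u₁, hu₁, w₁, hw₁, huw, aE, haE, aE', haE', bE, hbE, bE', hbE', hd1, hd2, hgen⟩ :=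
      L.exists_general hQ (by omega) g hg
    have ha : Q (act ⇑Q g u₁) = 0 := (act_Q ⇑Q g u₁).trans (L.tsE u₁ hu₁)
    have hb : Q (act ⇑Q g w₁) = 0 := (act_Q ⇑Q g w₁).trans (L.tsE' w₁ hw₁)
    have hab : polar Q (act ⇑Q g u₁) (act ⇑Q g w₁) = 0 := (act_polar ⇑Q g u₁ w₁).trans huw
    have hM : siegT Q (act ⇑Q g u₁) (act ⇑Q g w₁) ∈ M := by
      rw [← siegT_conj Q g u₁ w₁ (L.tsE u₁ hu₁) huw]
      exact M.mul_mem (M.mul_mem hg₀M (L.mixed_mem hQ hn5 hH u₁ w₁ hu₁ hw₁ huw)) (M.inv_mem hg₀M)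
    obtain ⟨s, hsΩ, hs1, hs2⟩ := L.exists_swap hQ hke
    have hmap0 : mapG (s : GL ι F) (D 0) = D 1 :=
      mapG_eq_of_act ⇑Q s _ _ (L.finE.trans L.finE'.symm) hs1
    have hmap1 : mapG (s : GL ι F) (D 1) = D 0 :=
      mapG_eq_of_act ⇑Q s _ _ (L.finE'.trans L.finE.symm) hs2
    have hsM : (s : GL ι F) ∈ M := hHM ⟨hswap _ hmap0 hmap1, mem_omegaGL ⇑Q s hsΩ⟩
    obtain ⟨y, hy, hyx⟩ := L.exists_pair hQ x hx hx0
    have hroot : x ∈ rootDirs Q M ∧ y ∈ rootDirs Q M := by
      rcases hgen with ⟨h1, h2⟩ | ⟨h1, h2⟩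
      · obtain ⟨p, p', hgood, hp0, hpp'⟩ := L.good_of_root hQ hn5 (by omega) hH _ _ ha hb hab hM
          aE aE' bE bE' haE haE' hbE hbE' hd1 hd2 h1 h2
        have hall : ∀ a ∈ D 0, ∀ a' ∈ D 0, goodPair Q (D 0) M a a' :=
          fun a ha a' ha' => L.good_all hQ hn5 hH p p' hgood hp0 hpp' a a' ha ha'
        have hrE : ∀ u ∈ D 0, u ∈ rootDirs Q M :=
          fun u hu => L.rootDirs_of_good hQ hn5 hH hall u hu
        refine ⟨hrE x hx, ?_⟩
        have hy' : y ∈ mapG (s : GL ι F) (D 0) := by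
          rw [hmap0]
          exact hy
        obtain ⟨x', hx', hx'y⟩ := (mem_mapG _ _ _).1 hy'
        rw [← hx'y]
        exact rootDirs_act Q M s hsM x' (hrE x' hx')
      · obtain ⟨p, p', hgood, hp0, hpp'⟩ := L.symm.good_of_root hQ hn5 (by omega) hH.symm _ _ ha hb
          hab hM aE' aE bE' bE haE' haE hbE' hbE (by rw [hd1, add_comm]) (by rw [hd2, add_comm])
          h1 h2
        have hall : ∀ a ∈ D 1, ∀ a' ∈ D 1, goodPair Q (D 1) M a a' :=
          fun a ha a' ha' => L.symm.good_all hQ hn5 hH.symm p p' hgood hp0 hpp' a a' ha ha'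
        have hrE : ∀ u ∈ D 1, u ∈ rootDirs Q M :=
          fun u hu => L.symm.rootDirs_of_good hQ hn5 hH.symm hall u hu
        refine ⟨?_, hrE y hy⟩
        have hx' : x ∈ mapG (s : GL ι F) (D 1) := by
          rw [hmap1]
          exact hx
        obtain ⟨y', hy', hy'x⟩ := (mem_mapG _ _ _).1 hx'
        rw [← hy'x]
        exact rootDirs_act Q M s hsM y' (hrE y' hy')
    have hxy : polar Q x y ≠ 0 := by
      rw [polar_comm, hyx]
      exact one_ne_zero
    have hall : ∀ v, Q v = 0 → v ∈ rootDirs Q M :=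
      fun v hv => rootDirs_all hn5 Q hQ M x y hroot.1 hroot.2 hxy v hv
    exact le_antisymm hMle (omegaGL_le_of_rootDirs (by omega) Q hQ M hall)

end LagMax3

end Cfsg.Agent.Helper16
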