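import Mathlib

set_option autoImplicit false

namespace Cfsg.Agent.Helper16

theorem nine_pow_mod_four (j : ℕ) : 9 ^ j % 4 = 1 := by
  rw [Nat.pow_mod]
  norm_num

theorem three_pow_mod_four (m : ℕ) : 3 ^ m % 4 = if Even m then 1 else 3 := by
  by_cases h : Even m
  · rw [if_pos h]
    obtain ⟨j, rfl⟩ := h
    rw [← two_mul, pow_mul]
    norm_num
    exact nine_pow_mod_four j
  · rw [if_neg h]
    obtain ⟨j, rfl⟩ := Nat.not_even_iff_odd.1 h
    rw [pow_succ, pow_mul, Nat.mul_mod, show (3 : ℕ) ^ 2 = 9 by norm_num, nine_pow_mod_four j]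

theorem pow_mod_four_eq_three_iff (q m : ℕ) (hq : Odd q) :
    q ^ m % 4 = 3 ↔ (Odd m ∧ q % 4 = 3) := by
  have hq4 : q % 4 = 1 ∨ q % 4 = 3 := by
    obtain ⟨j, rfl⟩ := hq
    omega
  rw [Nat.pow_mod]
  rcases hq4 with h | h
  · rw [h, one_pow]
    constructor
    · intro h'
      norm_num at h'
    · rintro ⟨_, h'⟩
      omega
  · rw [h, three_pow_mod_four]
    by_cases he : Even m
    · rw [if_pos he]
      constructor
      · intro h'
        norm_num at h'
      · rintro ⟨ho, _⟩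
        exact absurd he (Nat.not_even_iff_odd.2 ho)
    · rw [if_neg he]
      exact ⟨fun _ => ⟨Nat.not_even_iff_odd.1 he, rfl⟩, fun _ => rfl⟩

theorem pow_mod_four_eq_one_iff (q m : ℕ) (hq : Odd q) :
    q ^ m % 4 = 1 ↔ ¬ (Odd m ∧ q % 4 = 3) := by
  rw [← pow_mod_four_eq_three_iff q m hq]
  have hodd : Odd (q ^ m) := hq.pow
  obtain ⟨j, hj⟩ := hodd
  omega

end Cfsg.Agent.Helper16
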