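import Cfsg.Agent.Helper16.OmegaOrder

set_option autoImplicit false
open Cfsg

namespace Cfsg.Agent.Helper16

open Matrix

/-- a model of the quadratic space `(ι → F, Q)` carrying an action of the group `S` -/
structure ModelData {ι : Type} [Fintype ι] [DecidableEq ι] {F : Type*} [Field F]
    (Q : (ι → F) → F) (M : Type*) [AddCommGroup M] [Module F M] (S : Type*) [Group S] where
  enc : (ι → F) →ₗ[F] M
  dec : M →ₗ[F] (ι → F)
  actM : S →* Module.End F M
  N : M → F
  dec_enc : ∀ v, dec (enc v) = v
  stable : ∀ s v, enc (dec (actM s (enc v))) = actM s (enc v)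
  N_enc : ∀ v, N (enc v) = Q v
  N_act : ∀ s v, N (actM s (enc v)) = N (enc v)

section Model
variable {ι : Type} [Fintype ι] [DecidableEq ι] {F : Type*} [Field F]
  {Q : (ι → F) → F} {M : Type*} [AddCommGroup M] [Module F M] {S : Type*} [Group S]

/-- the induced action on the coordinate space, as linear endomorphisms -/
def ModelData.linHom (D : ModelData Q M S) : S →* Module.End F (ι → F) where
  toFun s := D.dec ∘ₗ D.actM s ∘ₗ D.enc
  map_one' := by
    apply LinearMap.ext
    intro v
    simp [D.dec_enc]
  map_mul' s t := by
    apply LinearMap.ext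
    intro v
    simp only [map_mul, Module.End.mul_apply, LinearMap.comp_apply]
    rw [D.stable]

theorem ModelData.linHom_apply (D : ModelData Q M S) (s : S) (v : ι → F) :
    D.linHom s v = D.dec (D.actM s (D.enc v)) := rfl

/-- the induced homomorphism to the general linear group -/
noncomputable def ModelData.glHom (D : ModelData Q M S) : S →* GL ι F :=
  ((MonoidHomClass.toMonoidHom
    (LinearMap.toMatrixAlgEquiv' : ((ι → F) →ₗ[F] (ι → F)) ≃ₐ[F] Matrix ι ι F)).comp
      D.linHom).toHomUnits

theorem ModelData.glHom_mulVec (D : ModelData Q M S) (s : S) (v : ι → F) :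
    ((D.glHom s : GL ι F) : Matrix ι ι F) *ᵥ v = D.dec (D.actM s (D.enc v)) := by
  have h : ((D.glHom s : GL ι F) : Matrix ι ι F) = LinearMap.toMatrix' (D.linHom s) := rfl
  rw [h, ← Matrix.toLin'_apply, Matrix.toLin'_toMatrix', D.linHom_apply]

theorem ModelData.glHom_mem (D : ModelData Q M S) (s : S) :
    D.glHom s ∈ isometryGroup F Q := by
  intro u _
  show Q (((D.glHom s : GL ι F) : Matrix ι ι F) *ᵥ u) = Q u
  rw [D.glHom_mulVec, ← D.N_enc, D.stable, D.N_act, D.N_enc]

/-- the induced homomorphism to the isometry group -/
noncomputable def ModelData.hom (D : ModelData Q M S) : S →* ↥(isometryGroup F Q) :=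
  D.glHom.codRestrict _ D.glHom_mem

theorem ModelData.hom_act (D : ModelData Q M S) (s : S) (v : ι → F) :
    act Q (D.hom s) v = D.dec (D.actM s (D.enc v)) :=
  D.glHom_mulVec s v

theorem ModelData.hom_eq_iff (D : ModelData Q M S) (s t : S) :
    D.hom s = D.hom t ↔ ∀ v, D.actM s (D.enc v) = D.actM t (D.enc v) := by
  constructor
  · intro h v
    have h1 : act Q (D.hom s) v = act Q (D.hom t) v := by rw [h]
    rw [D.hom_act, D.hom_act] at h1
    rw [← D.stable s v, ← D.stable t v, h1]
  · intro h
    apply act_ext
    intro v
    rw [D.hom_act, D.hom_act, h v]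

end Model

section Abstract

/-- a subgroup all of whose elements are `1` or `z` has at most two elements -/
theorem card_le_two_of_pair {G : Type*} [Group G] (H : Subgroup G) (z : G)
    (h : ∀ g ∈ H, g = 1 ∨ g = z) : Nat.card H ≤ 2 := by
  classical
  have hinj : Function.Injective (fun g : H => decide ((g : G) = 1)) := by
    intro x y hxy
    have hxy' : decide ((x : G) = 1) = decide ((y : G) = 1) := hxy
    apply Subtype.ext
    by_cases hx : (x : G) = 1
    · have hy : (y : G) = 1 := by
        have : decide ((y : G) = 1) = true := by rw [← hxy']; exact decide_eq_true hx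
        exact of_decide_eq_true this
      rw [hx, hy]
    · have hy : (y : G) ≠ 1 := by
        intro hy
        have : decide ((x : G) = 1) = true := by rw [hxy']; exact decide_eq_true hy
        exact hx (of_decide_eq_true this)
      rcases h x x.2 with h1 | h1
      · exact absurd h1 hx
      rcases h y y.2 with h2 | h2
      · exact absurd h2 hy
      rw [h1, h2]
  have := Nat.card_le_card_of_injective _ hinj
  simpa using this

/-- a subgroup all of whose elements are `1` has one element -/
theorem card_eq_one_of_trivial {G : Type*} [Group G] (H : Subgroup G)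
    (h : ∀ g ∈ H, g = 1) : Nat.card H = 1 := by
  have : H = ⊥ := (Subgroup.eq_bot_iff_forall H).2 h
  rw [this]
  exact Subgroup.card_bot

/-- the basic isomorphism criterion: a homomorphism into `O` whose image lies in the commutator
subgroup, is big enough, and whose "central" elements are those killed by `π` -/
theorem iso_of_hom_general {S O P : Type*} [Group S] [Group O] [Group P] [Finite O]
    (Φ : S →* O) (π : S →* P) (hπ : Function.Surjective π)
    (h1 : ∀ s, Φ s ∈ commutator O)
    (h2 : Nat.card (commutator O) ≤ Nat.card Φ.range)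
    (h3 : ∀ s, (∀ t, Φ (s * t) = Φ (t * s)) ↔ π s = 1) :
    Nonempty ((commutator O) ⧸ Subgroup.center (commutator O) ≃* P) := by
  have hrange : Φ.range = commutator O := by
    apply Subgroup.eq_of_le_of_card_ge
    · rintro _ ⟨s, rfl⟩
      exact h1 s
    · exact h2
  let f : S →* ↥(commutator O) := Φ.codRestrict _ h1
  have hf : Function.Surjective f := by
    rintro ⟨y, hy⟩
    rw [← hrange] at hy
    obtain ⟨s, rfl⟩ := hy
    exact ⟨s, rfl⟩
  let φ : S →* (commutator O) ⧸ Subgroup.center (commutator O) :=
    (QuotientGroup.mk' _).comp f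
  have hφ : Function.Surjective φ := (QuotientGroup.mk'_surjective _).comp hf
  have hker : φ.ker = π.ker := by
    ext s
    rw [MonoidHom.mem_ker, MonoidHom.mem_ker, ← h3 s]
    show ((f s : ↥(commutator O)) : (commutator O) ⧸ Subgroup.center (commutator O)) = 1 ↔ _
    rw [QuotientGroup.eq_one_iff, Subgroup.mem_center_iff]
    constructor
    · intro h t
      have h4 := h (f t)
      have h5 : f (t * s) = f (s * t) := by rw [map_mul, map_mul]; exact h4
      exact (congrArg Subtype.val h5).symm
    · intro h y
      obtain ⟨t, rfl⟩ := hf y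
      rw [← map_mul, ← map_mul]
      exact Subtype.ext (h t).symm
  exact ⟨(QuotientGroup.quotientKerEquivOfSurjective φ hφ).symm.trans
    ((QuotientGroup.quotientMulEquivOfEq hker).trans
      (QuotientGroup.quotientKerEquivOfSurjective π hπ))⟩

/-- images of elements of the commutator subgroup lie in the commutator subgroup -/
theorem map_mem_commutator {G H : Type*} [Group G] [Group H] (f : G →* H) (g : G)
    (hg : g ∈ commutator G) : f g ∈ commutator H := by
  have h1 : f g ∈ Subgroup.map f (commutator G) := Subgroup.mem_map_of_mem f hg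
  rw [commutator_def, Subgroup.map_commutator] at h1
  rw [commutator_def]
  exact Subgroup.commutator_mono le_top le_top h1

end Abstract

end Cfsg.Agent.Helper16
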