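import Cfsg.Agent.Helper16.TSMax

set_option autoImplicit false
open Cfsg

namespace Cfsg.Agent.Helper16

open QuadraticMap Module

section NDGeom
variable {ι : Type} [Fintype ι] [DecidableEq ι] {F : Type*} [Field F]

/-- the polar form is non-degenerate on the subspace `Z` -/
def ND (Q : QuadraticForm F (ι → F)) (Z : Submodule F (ι → F)) : Prop :=
  ∀ w ∈ Z, w ≠ 0 → ∃ x ∈ Z, polar Q w x ≠ 0

theorem ND.inf_orth {Q : QuadraticForm F (ι → F)} {Z : Submodule F (ι → F)} (hZ : ND Q Z) :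
    Z ⊓ orth Q Z = ⊥ := by
  rw [eq_bot_iff]
  intro w hww
  obtain ⟨hw, hw'⟩ := Submodule.mem_inf.1 hww
  rw [Submodule.mem_bot]
  by_contra hw0
  obtain ⟨x, hx, hne⟩ := hZ w hw hw0
  rw [mem_orth] at hw'
  apply hne
  rw [polar_comm]
  exact hw' x hx

theorem ND.sup_orth {Q : QuadraticForm F (ι → F)} (hQ : (polarBilin Q).Nondegenerate)
    {Z : Submodule F (ι → F)} (hZ : ND Q Z) : Z ⊔ orth Q Z = ⊤ := by
  apply Submodule.eq_top_of_finrank_eq
  have h1 := Submodule.finrank_sup_add_finrank_inf_eq Z (orth Q Z)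
  rw [hZ.inf_orth, finrank_bot, finrank_orth Q hQ] at h1
  have h2 := Submodule.finrank_le Z
  omega

/-- orthogonal decomposition of a vector -/
theorem ND.decomp {Q : QuadraticForm F (ι → F)} (hQ : (polarBilin Q).Nondegenerate)
    {Z : Submodule F (ι → F)} (hZ : ND Q Z) (v : ι → F) :
    ∃ a ∈ Z, ∃ b ∈ orth Q Z, v = a + b := by
  have h : v ∈ Z ⊔ orth Q Z := by
    rw [hZ.sup_orth hQ]
    trivial
  obtain ⟨a, ha, b, hb, rfl⟩ := Submodule.mem_sup.1 h
  exact ⟨a, ha, b, hb, rfl⟩

theorem ND.orth_nd {Q : QuadraticForm F (ι → F)} (hQ : (polarBilin Q).Nondegenerate)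
    {Z : Submodule F (ι → F)} (hZ : ND Q Z) : ND Q (orth Q Z) := by
  intro w hw hw0
  obtain ⟨y, hy⟩ := exists_polar_ne Q hQ w hw0
  obtain ⟨a, ha, b, hb, rfl⟩ := hZ.decomp hQ y
  refine ⟨b, hb, ?_⟩
  rw [polar_add_right] at hy
  have h0 : polar Q w a = 0 := by
    rw [polar_comm]
    exact (mem_orth Q Z w).1 hw a ha
  rwa [h0, zero_add] at hy

theorem finrank_inf_orth_ge (Q : QuadraticForm F (ι → F)) (hQ : (polarBilin Q).Nondegenerate)
    (Z U : Submodule F (ι → F)) :
    finrank F Z ≤ finrank F (Z ⊓ orth Q U : Submodule F (ι → F)) + finrank F U := by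
  have h1 := Submodule.finrank_sup_add_finrank_inf_eq Z (orth Q U)
  have h2 := Submodule.finrank_le (Z ⊔ orth Q U)
  rw [Module.finrank_fintype_fun_eq_card] at h2
  have h3 := finrank_orth Q hQ U
  rw [Module.finrank_fintype_fun_eq_card] at h3
  have h4 := Submodule.finrank_le U
  rw [Module.finrank_fintype_fun_eq_card] at h4
  omega

theorem finrank_span_pair_le (a b : ι → F) :
    finrank F (Submodule.span F {a} ⊔ Submodule.span F {b} : Submodule F (ι → F)) ≤ 2 := by
  have h1 := Submodule.finrank_add_le_finrank_add_finrank (Submodule.span F {a})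
    (Submodule.span F {b})
  have h2 := finrank_span_one_le (F := F) a
  have h3 := finrank_span_one_le (F := F) b
  omega

theorem finrank_span_triple_le (a b c : ι → F) :
    finrank F (Submodule.span F {a} ⊔ Submodule.span F {b} ⊔ Submodule.span F {c} :
      Submodule F (ι → F)) ≤ 3 := by
  have h1 := Submodule.finrank_add_le_finrank_add_finrank
    (Submodule.span F {a} ⊔ Submodule.span F {b}) (Submodule.span F {c})
  have h2 := finrank_span_pair_le (F := F) a b
  have h3 := finrank_span_one_le (F := F) c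
  omega

/-- a subspace of dimension at least three contains a non-zero singular vector -/
theorem exists_sing_sub [Fintype F] (Q : QuadraticForm F (ι → F)) (S : Submodule F (ι → F))
    (hS : 3 ≤ finrank F S) : ∃ u ∈ S, u ≠ 0 ∧ Q u = 0 := by
  by_cases hR : S ⊓ orth Q S = ⊥
  · have hnd : (polarBilin (Q.comp S.subtype)).Nondegenerate := by
      apply ((polarBilin_isSymm _).isRefl.nondegenerate_iff_separatingLeft).2
      intro x hx
      have hx' : (x : ι → F) ∈ S ⊓ orth Q S := by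
        refine Submodule.mem_inf.2 ⟨x.2, ?_⟩
        rw [mem_orth]
        intro y hy
        have h1 := hx ⟨y, hy⟩
        rw [polar_comm]
        exact h1
      rw [hR, Submodule.mem_bot] at hx'
      exact Subtype.ext hx'
    obtain ⟨v, hv0, hv⟩ := exists_singular (Q.comp S.subtype) hnd hS
    exact ⟨v, v.2, fun h => hv0 (Subtype.ext h), hv⟩
  · obtain ⟨a, ha, ha0⟩ := Submodule.exists_mem_ne_zero_of_ne_bot hR
    obtain ⟨haS, haO⟩ := Submodule.mem_inf.1 ha
    rw [mem_orth] at haO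
    by_cases hQa : Q a = 0
    · exact ⟨a, haS, ha0, hQa⟩
    have h2 : (2 : F) = 0 := by
      have h1 := haO a haS
      rw [qf_polar_self] at h1
      exact (mul_eq_zero.1 h1).resolve_right hQa
    haveI : CharP F 2 := CharTwo.of_one_ne_zero_of_two_eq_zero one_ne_zero h2
    obtain ⟨s, hsS, hs⟩ : ∃ s ∈ S, s ∉ Submodule.span F {a} := by
      by_contra hcon
      push Not at hcon
      have hle : S ≤ Submodule.span F {a} := hcon
      have := Submodule.finrank_mono hle
      have h3 := finrank_span_one_le (F := F) a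
      omega
    obtain ⟨t, ht⟩ := FiniteField.isSquare_of_char_two (ringChar.eq F 2) (Q s / Q a)
    refine ⟨s + t • a, S.add_mem hsS (S.smul_mem _ haS), ?_, ?_⟩
    · intro h0
      apply hs
      have : s = (-t) • a := by
        rw [neg_smul]
        exact eq_neg_of_add_eq_zero_left h0
      rw [this]
      exact Submodule.smul_mem _ _ (Submodule.mem_span_singleton_self a)
    · rw [qf_add, qf_smul, polar_smul_right, haO s hsS, ← ht]
      field_simp
      linear_combination Q s * h2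

/-- a subspace on which the polar form is non-degenerate is not a union of two orthogonal
hyperplane sections -/
theorem ND.exists_nonorth_both {Q : QuadraticForm F (ι → F)} {Z : Submodule F (ι → F)}
    (hZ : ND Q Z) (x y : ι → F) (hx : ∃ a ∈ Z, polar Q a x ≠ 0) (hy : ∃ a ∈ Z, polar Q a y ≠ 0) :
    ∃ z ∈ Z, polar Q z x ≠ 0 ∧ polar Q z y ≠ 0 := by
  obtain ⟨a, ha, hax⟩ := hx
  obtain ⟨b, hb, hby⟩ := hy
  by_cases h1 : polar Q a y = 0
  · by_cases h2 : polar Q b x = 0
    · refine ⟨a + b, Z.add_mem ha hb, ?_, ?_⟩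
      · rw [polar_add_left, h2, add_zero]
        exact hax
      · rw [polar_add_left, h1, zero_add]
        exact hby
    · exact ⟨b, hb, h2, hby⟩
  · exact ⟨a, ha, hax, h1⟩

/-- singular vectors of a non-degenerate subspace of dimension at least three are not all
orthogonal to a vector not orthogonal to the subspace -/
theorem ND.exists_sing_nonorth [Fintype F] {Q : QuadraticForm F (ι → F)}
    {Z : Submodule F (ι → F)} (hZ : ND Q Z) (h3 : 3 ≤ finrank F Z) (y : ι → F)
    (hy : ∃ a ∈ Z, polar Q a y ≠ 0) : ∃ u ∈ Z, Q u = 0 ∧ polar Q u y ≠ 0 := by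
  obtain ⟨u₀, hu₀Z, hu₀0, hu₀⟩ := exists_sing_sub Q Z h3
  by_cases h : polar Q u₀ y = 0
  · obtain ⟨x₀, hx₀, hne⟩ := hZ u₀ hu₀Z hu₀0
    obtain ⟨z, hz, hzu, hzy⟩ := hZ.exists_nonorth_both u₀ y
      ⟨x₀, hx₀, by rw [polar_comm]; exact hne⟩ hy
    refine ⟨z + (-(Q z / polar Q z u₀)) • u₀, Z.add_mem hz (Z.smul_mem _ hu₀Z), ?_, ?_⟩
    · rw [qf_add, qf_smul, hu₀, polar_smul_right, smul_eq_mul]
      field_simp
      ring
    · rw [polar_add_left, polar_smul_left, h]
      simpa using hzy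
  · exact ⟨u₀, hu₀Z, hu₀, h⟩

/-- hyperbolic partner inside a non-degenerate subspace -/
theorem ND.exists_partner {Q : QuadraticForm F (ι → F)} {Z : Submodule F (ι → F)}
    (hZ : ND Q Z) (u : ι → F) (huZ : u ∈ Z) (hu0 : u ≠ 0) (hu : Q u = 0) :
    ∃ v ∈ Z, Q v = 0 ∧ polar Q u v = 1 := by
  obtain ⟨x, hx, hne⟩ := hZ u huZ hu0
  refine ⟨(polar Q u x)⁻¹ • (x + (-(Q x / polar Q u x)) • u),
    Z.smul_mem _ (Z.add_mem hx (Z.smul_mem _ huZ)), ?_, ?_⟩
  · rw [qf_smul, qf_add, qf_smul, hu, polar_smul_right, polar_comm Q x u, smul_eq_mul]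
    field_simp
    ring
  · rw [polar_smul_right, polar_add_right, polar_smul_right, qf_polar_self, hu]
    simp only [smul_eq_mul, mul_zero, add_zero]
    exact inv_mul_cancel₀ hne

/-- two vectors of `u^⊥ ∩ Z` which are not orthogonal -/
theorem ND.exists_perp_pair {Q : QuadraticForm F (ι → F)} (hQ : (polarBilin Q).Nondegenerate)
    {Z : Submodule F (ι → F)} (hZ : ND Q Z) (h3 : 3 ≤ finrank F Z) (u : ι → F) (huZ : u ∈ Z)
    (hu0 : u ≠ 0) (hu : Q u = 0) :
    ∃ w ∈ Z, ∃ w' ∈ Z, polar Q u w = 0 ∧ polar Q u w' = 0 ∧ polar Q w w' ≠ 0 := by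
  obtain ⟨v, hvZ, hv, huv⟩ := hZ.exists_partner u huZ hu0 hu
  have hfin := finrank_inf_orth_ge Q hQ Z (Submodule.span F {u} ⊔ Submodule.span F {v})
  have h2 := finrank_span_pair_le (F := F) u v
  have hpos : 0 < finrank F (Z ⊓ orth Q (Submodule.span F {u} ⊔ Submodule.span F {v}) :
      Submodule F (ι → F)) := by omega
  have hne : Z ⊓ orth Q (Submodule.span F {u} ⊔ Submodule.span F {v}) ≠ ⊥ := by
    intro h
    rw [h, finrank_bot] at hpos
    exact lt_irrefl 0 hpos
  obtain ⟨w, hw, hw0⟩ := Submodule.exists_mem_ne_zero_of_ne_bot hne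
  obtain ⟨hwZ, hwO⟩ := Submodule.mem_inf.1 hw
  rw [orth_sup, Submodule.mem_inf, mem_orth_span_singleton, mem_orth_span_singleton] at hwO
  obtain ⟨huw, hvw⟩ := hwO
  obtain ⟨x, hx, hwx⟩ := hZ w hwZ hw0
  refine ⟨w, hwZ, x + (-(polar Q u x)) • v, Z.add_mem hx (Z.smul_mem _ hvZ), huw, ?_, ?_⟩
  · rw [polar_add_right, polar_smul_right, huv]
    simp
  · rw [polar_add_right, polar_smul_right, polar_comm Q w v, hvw]
    simpa using hwx

end NDGeom

end Cfsg.Agent.Helper16
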