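import Cfsg.Agent.Helper16.NDGeom

set_option autoImplicit false
open Cfsg

namespace Cfsg.Agent.Helper16

open QuadraticMap Module

section NDMax
variable {ι : Type} [Fintype ι] [DecidableEq ι] {F : Type*} [Field F]

/-- an isometry mapping a subspace into itself stabilises it -/
theorem isom_mem_stab (Q : QuadraticForm F (ι → F)) (h : ↥(isometryGroup F ⇑Q))
    (X : Submodule F (ι → F)) (h1 : ∀ x ∈ X, act ⇑Q h x ∈ X) :
    (h : GL ι F) ∈ Geo.subspaceStabilizer X := by
  have hinj : Function.Injective ((Matrix.mulVecLin ((h : GL ι F) : Matrix ι ι F)).restrict h1) := by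
    intro x y hxy
    have h2 : act ⇑Q h (x : ι → F) = act ⇑Q h (y : ι → F) := congrArg Subtype.val hxy
    have h3 := congrArg (act ⇑Q h⁻¹) h2
    rw [act_inv_act, act_inv_act] at h3
    exact Subtype.ext h3
  have hsurj := LinearMap.injective_iff_surjective.1 hinj
  apply mem_stab_of_maps _ X h1
  intro v hv
  obtain ⟨x, hx⟩ := hsurj ⟨v, hv⟩
  have h2 : act ⇑Q h (x : ι → F) = v := congrArg Subtype.val hx
  have h3 : act ⇑Q h⁻¹ v = x := by rw [← h2, act_inv_act]
  have h4 : act ⇑Q h⁻¹ v ∈ X := by rw [h3]; exact x.2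
  unfold act at h4
  rwa [Subgroup.coe_inv] at h4

theorem act_mem_of_stab (Q : QuadraticForm F (ι → F)) (h : ↥(isometryGroup F ⇑Q))
    (X : Submodule F (ι → F)) (hh : (h : GL ι F) ∈ Geo.subspaceStabilizer X) (x : ι → F)
    (hx : x ∈ X) : act ⇑Q h x ∈ X :=
  ((mem_subspaceStabilizer _ _).1 hh x).1 hx

theorem act_inv_mem_of_stab (Q : QuadraticForm F (ι → F)) (h : ↥(isometryGroup F ⇑Q))
    (X : Submodule F (ι → F)) (hh : (h : GL ι F) ∈ Geo.subspaceStabilizer X) (x : ι → F)
    (hx : x ∈ X) : act ⇑Q h⁻¹ x ∈ X := by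
  apply ((mem_subspaceStabilizer _ _).1 hh _).2
  have h1 : ((h : GL ι F) : Matrix ι ι F).mulVec (act ⇑Q h⁻¹ x) = x := act_act_inv ⇑Q h x
  rw [h1]
  exact hx

/-- an isometry stabilising `X` stabilises its orthogonal complement -/
theorem act_mem_orth_of_stab (Q : QuadraticForm F (ι → F)) (h : ↥(isometryGroup F ⇑Q))
    (X : Submodule F (ι → F)) (hh : (h : GL ι F) ∈ Geo.subspaceStabilizer X) (y : ι → F)
    (hy : y ∈ orth Q X) : act ⇑Q h y ∈ orth Q X := by
  rw [mem_orth] at hy ⊢
  intro x hx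
  have h1 := act_polar ⇑Q h (act ⇑Q h⁻¹ x) y
  rw [act_act_inv] at h1
  rw [h1]
  exact hy _ (act_inv_mem_of_stab Q h X hh x hx)

theorem stab_orth_iff (Q : QuadraticForm F (ι → F)) (hQ : (polarBilin Q).Nondegenerate)
    (h : ↥(isometryGroup F ⇑Q)) (X : Submodule F (ι → F)) :
    (h : GL ι F) ∈ Geo.subspaceStabilizer (orth Q X) ↔ (h : GL ι F) ∈ Geo.subspaceStabilizer X := by
  constructor
  · intro hh
    apply isom_mem_stab
    intro x hx
    have h1 := act_mem_orth_of_stab Q h (orth Q X) hh x (by rw [orth_orth Q hQ]; exact hx)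
    rwa [orth_orth Q hQ] at h1
  · intro hh
    apply isom_mem_stab
    intro y hy
    exact act_mem_orth_of_stab Q h X hh y hy

theorem stab_orth_inf (Q : QuadraticForm F (ι → F)) (hQ : (polarBilin Q).Nondegenerate)
    (X : Submodule F (ι → F)) :
    Geo.subspaceStabilizer (orth Q X) ⊓ Geo.omegaGL ⇑Q = Geo.subspaceStabilizer X ⊓ Geo.omegaGL ⇑Q := by
  ext k
  constructor
  · rintro ⟨h1, h2⟩
    obtain ⟨g, hg, rfl⟩ := exists_of_mem_omegaGL ⇑Q k h2
    exact ⟨(stab_orth_iff Q hQ g X).1 h1, h2⟩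
  · rintro ⟨h1, h2⟩
    obtain ⟨g, hg, rfl⟩ := exists_of_mem_omegaGL ⇑Q k h2
    exact ⟨(stab_orth_iff Q hQ g X).2 h1, h2⟩

/-- Siegel elements with both vectors in `X` stabilise `X` -/
theorem sieg_stab_sub (Q : QuadraticForm F (ι → F)) (X : Submodule F (ι → F)) (u w : ι → F)
    (hu : Q u = 0) (huw : polar Q u w = 0) (huX : u ∈ X) (hwX : w ∈ X) :
    ((sieg Q u w hu huw : ↥(isometryGroup F ⇑Q)) : GL ι F) ∈ Geo.subspaceStabilizer X := by
  apply isom_mem_stab
  intro x hx
  rw [act_sieg]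
  exact X.sub_mem (X.sub_mem (X.add_mem hx (X.smul_mem _ huX)) (X.smul_mem _ hwX))
    (X.smul_mem _ huX)

/-- a subspace invariant under the Siegel elements of a non-degenerate subspace `Z` of dimension at
least three, and containing a vector not orthogonal to `Z`, contains `Z` -/
theorem siegel_invariant_sub [Fintype F] (Q : QuadraticForm F (ι → F))
    (hQ : (polarBilin Q).Nondegenerate) (Z : Submodule F (ι → F)) (hZ : ND Q Z)
    (h3 : 3 ≤ finrank F Z) (U : Submodule F (ι → F))
    (hinv : ∀ (u w : ι → F) (hu : Q u = 0) (huw : polar Q u w = 0), u ∈ Z → w ∈ Z →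
      ∀ y ∈ U, act ⇑Q (sieg Q u w hu huw) y ∈ U)
    (y : ι → F) (hyU : y ∈ U) (hy : ∃ a ∈ Z, polar Q a y ≠ 0) : Z ≤ U := by
  have key : ∀ y ∈ U, ∀ u ∈ Z, Q u = 0 → polar Q u y ≠ 0 →
      u ∈ U ∧ ∀ w ∈ Z, polar Q u w = 0 → w ∈ U := by
    intro y hyU u huZ hu hp
    have hu0 : u ≠ 0 := by
      rintro rfl
      apply hp
      simp [polar]
    have E : ∀ w ∈ Z, polar Q u w = 0 →
        polar Q w y • u - polar Q u y • w - (Q w * polar Q u y) • u ∈ U := by
      intro w hwZ huw
      have h1 := hinv u w hu huw huZ hwZ y hyU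
      rw [act_sieg] at h1
      have h2 := U.sub_mem h1 hyU
      have e : y + polar Q w y • u - polar Q u y • w - (Q w * polar Q u y) • u - y =
          polar Q w y • u - polar Q u y • w - (Q w * polar Q u y) • u := by abel
      rwa [e] at h2
    obtain ⟨w, hwZ, w', hw'Z, huw, huw', hww'⟩ := hZ.exists_perp_pair hQ h3 u huZ hu0 hu
    have huU : u ∈ U := by
      have h1 := E (w + w') (Z.add_mem hwZ hw'Z) (by rw [polar_add_right, huw, huw', add_zero])
      have h2 := U.sub_mem (U.sub_mem h1 (E w hwZ huw)) (E w' hw'Z huw')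
      have e : polar Q (w + w') y • u - polar Q u y • (w + w') - (Q (w + w') * polar Q u y) • u -
          (polar Q w y • u - polar Q u y • w - (Q w * polar Q u y) • u) -
          (polar Q w' y • u - polar Q u y • w' - (Q w' * polar Q u y) • u) =
          (-(polar Q u y * polar Q w w')) • u := by
        rw [qf_add, polar_add_left]
        funext i
        simp only [Pi.add_apply, Pi.sub_apply, Pi.smul_apply, smul_eq_mul]
        ring
      rw [e] at h2
      have h3 := U.smul_mem (-(polar Q u y * polar Q w w'))⁻¹ h2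
      rwa [smul_smul, inv_mul_cancel₀ (neg_ne_zero.2 (mul_ne_zero hp hww')), one_smul] at h3
    refine ⟨huU, ?_⟩
    intro w hwZ huw
    have h1 := E w hwZ huw
    have h2 : polar Q u y • w ∈ U := by
      have h3 := U.sub_mem (U.sub_mem (U.smul_mem (polar Q w y) huU) h1)
        (U.smul_mem (Q w * polar Q u y) huU)
      have e : polar Q w y • u - (polar Q w y • u - polar Q u y • w - (Q w * polar Q u y) • u) -
          (Q w * polar Q u y) • u = polar Q u y • w := by abel
      rwa [e] at h3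
    have h3 := U.smul_mem (polar Q u y)⁻¹ h2
    rwa [smul_smul, inv_mul_cancel₀ hp, one_smul] at h3
  obtain ⟨u, huZ, hu, hp⟩ := hZ.exists_sing_nonorth h3 y hy
  obtain ⟨huU, hperp⟩ := key y hyU u huZ hu hp
  have hu0 : u ≠ 0 := by
    rintro rfl
    apply hp
    simp [polar]
  obtain ⟨v, hvZ, hv, huv⟩ := hZ.exists_partner u huZ hu0 hu
  have hvU : v ∈ U := (key u huU v hvZ hv (by rw [polar_comm, huv]; exact one_ne_zero)).1
  intro z hz
  have h1 : z - polar Q u z • v ∈ U := by
    apply hperp _ (Z.sub_mem hz (Z.smul_mem _ hvZ))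
    rw [polar_sub_right, polar_smul_right, huv]
    simp
  have h2 := U.add_mem h1 (U.smul_mem (polar Q u z) hvU)
  rwa [sub_add_cancel] at h2

end NDMax

end Cfsg.Agent.Helper16
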