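import Cfsg.Agent.Helper16.NDMax

set_option autoImplicit false
open Cfsg

namespace Cfsg.Agent.Helper16

open QuadraticMap Module

section NDMax2
variable {ι : Type} [Fintype ι] [DecidableEq ι] {F : Type*} [Field F]

open Classical in
/-- Siegel element as a total function into `GL` -/
noncomputable def siegT (Q : QuadraticForm F (ι → F)) (u w : ι → F) : GL ι F :=
  if h : Q u = 0 ∧ polar Q u w = 0 then
    ((sieg Q u w h.1 h.2 : ↥(isometryGroup F ⇑Q)) : GL ι F) else 1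

open Classical in
theorem siegT_eq (Q : QuadraticForm F (ι → F)) (u w : ι → F) (hu : Q u = 0)
    (huw : polar Q u w = 0) :
    siegT Q u w = ((sieg Q u w hu huw : ↥(isometryGroup F ⇑Q)) : GL ι F) := by
  unfold siegT
  rw [dif_pos ⟨hu, huw⟩]

theorem siegT_smul (Q : QuadraticForm F (ι → F)) (u w : ι → F) (c : F) (hu : Q u = 0)
    (huw : polar Q u w = 0) : siegT Q (c • u) w = siegT Q u (c • w) := by
  rw [siegT_eq Q (c • u) w (by rw [qf_smul, hu, mul_zero])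
    (by rw [polar_smul_left, huw, smul_zero]),
    siegT_eq Q u (c • w) hu (by rw [polar_smul_right, huw, smul_zero]), sieg_smul Q u w c hu huw]

theorem siegT_mul (Q : QuadraticForm F (ι → F)) (u w w' : ι → F) (hu : Q u = 0)
    (huw : polar Q u w = 0) (huw' : polar Q u w' = 0) :
    siegT Q u w * siegT Q u w' = siegT Q u (w + w') := by
  rw [siegT_eq Q u w hu huw, siegT_eq Q u w' hu huw',
    siegT_eq Q u (w + w') hu (by rw [polar_add_right, huw, huw', add_zero]), ← Subgroup.coe_mul,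
    sieg_mul]

theorem siegT_conj (Q : QuadraticForm F (ι → F)) (h : ↥(isometryGroup F ⇑Q)) (u w : ι → F)
    (hu : Q u = 0) (huw : polar Q u w = 0) :
    (h : GL ι F) * siegT Q u w * (h : GL ι F)⁻¹ = siegT Q (act ⇑Q h u) (act ⇑Q h w) := by
  rw [siegT_eq Q u w hu huw, siegT_eq Q (act ⇑Q h u) (act ⇑Q h w) ((act_Q ⇑Q h u).trans hu)
    ((act_polar ⇑Q h u w).trans huw), ← Subgroup.coe_inv, ← Subgroup.coe_mul, ← Subgroup.coe_mul,
    sieg_conj]

theorem siegT_zero_right (Q : QuadraticForm F (ι → F)) (u : ι → F) (hu : Q u = 0) :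
    siegT Q u 0 = 1 := by
  rw [siegT_eq Q u 0 hu (qf_polar_zero_right Q u), sieg_zero]
  rfl

theorem siegT_zero_left (Q : QuadraticForm F (ι → F)) (w : ι → F) : siegT Q 0 w = 1 := by
  rw [siegT_eq Q 0 w (QuadraticMap.map_zero Q) (by simp [polar]), sieg_zero_left]
  rfl

/-- Siegel elements of `X` lie in any overgroup of the stabiliser of `X` in `Ω` -/
theorem sieg_X_mem [Fintype F] (hn : 5 ≤ Fintype.card ι) (Q : QuadraticForm F (ι → F))
    (hQ : (polarBilin Q).Nondegenerate) (X : Submodule F (ι → F)) (M : Subgroup (GL ι F))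
    (hHM : Geo.subspaceStabilizer X ⊓ Geo.omegaGL ⇑Q ≤ M) (u w : ι → F) (hu : Q u = 0)
    (huw : polar Q u w = 0) (huX : u ∈ X) (hwX : w ∈ X) : siegT Q u w ∈ M := by
  rw [siegT_eq Q u w hu huw]
  exact hHM ⟨sieg_stab_sub Q X u w hu huw huX hwX,
    mem_omegaGL ⇑Q _ (sieg_mem_Omega hn Q hQ u w hu huw)⟩

/-- singular vectors `v` of `X` with `ρ_{v,cb} ∈ M` for all `c` -/
def mixedSet (Q : QuadraticForm F (ι → F)) (X : Submodule F (ι → F)) (M : Subgroup (GL ι F))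
    (b : ι → F) : Set (ι → F) :=
  {v | v ∈ X ∧ Q v = 0 ∧ ∀ c : F, siegT Q v (c • b) ∈ M}

theorem mixed_smul (Q : QuadraticForm F (ι → F)) (X : Submodule F (ι → F))
    (M : Subgroup (GL ι F)) (b : ι → F) (hb : b ∈ orth Q X) (l : F) (v : ι → F)
    (hv : v ∈ mixedSet Q X M b) : l • v ∈ mixedSet Q X M b := by
  obtain ⟨hvX, hQv, hvc⟩ := hv
  refine ⟨X.smul_mem _ hvX, by rw [qf_smul, hQv, mul_zero], fun c => ?_⟩
  have hvb : polar Q v (c • b) = 0 := by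
    rw [polar_smul_right, (mem_orth Q X b).1 hb v hvX, smul_zero]
  rw [siegT_smul Q v (c • b) l hQv hvb, smul_smul]
  exact hvc (l * c)

theorem mixed_act [Fintype F] (hn : 5 ≤ Fintype.card ι) (Q : QuadraticForm F (ι → F))
    (hQ : (polarBilin Q).Nondegenerate) (X : Submodule F (ι → F)) (M : Subgroup (GL ι F))
    (hHM : Geo.subspaceStabilizer X ⊓ Geo.omegaGL ⇑Q ≤ M) (b : ι → F) (hb : b ∈ orth Q X)
    (z w : ι → F) (hz : Q z = 0) (hzw : polar Q z w = 0) (hzX : z ∈ X) (hwX : w ∈ X) (v : ι → F)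
    (hv : v ∈ mixedSet Q X M b) : act ⇑Q (sieg Q z w hz hzw) v ∈ mixedSet Q X M b := by
  obtain ⟨hvX, hQv, hvc⟩ := hv
  have hstab := sieg_stab_sub Q X z w hz hzw hzX hwX
  refine ⟨act_mem_of_stab Q _ X hstab v hvX, (act_Q ⇑Q _ v).trans hQv, fun c => ?_⟩
  have hvb : polar Q v (c • b) = 0 := by
    rw [polar_smul_right, (mem_orth Q X b).1 hb v hvX, smul_zero]
  have hfix : act ⇑Q (sieg Q z w hz hzw) (c • b) = c • b := by
    rw [act_sieg, polar_smul_right, polar_smul_right, (mem_orth Q X b).1 hb w hwX,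
      (mem_orth Q X b).1 hb z hzX]
    simp
  have hM : ((sieg Q z w hz hzw : ↥(isometryGroup F ⇑Q)) : GL ι F) ∈ M := by
    have h1 := sieg_X_mem hn Q hQ X M hHM z w hz hzw hzX hwX
    rwa [siegT_eq Q z w hz hzw] at h1
  have h2 := M.mul_mem (M.mul_mem hM (hvc c)) (M.inv_mem hM)
  rw [siegT_conj Q _ v (c • b) hQv hvb, hfix] at h2
  exact h2

theorem mixed_move [Fintype F] (hn : 5 ≤ Fintype.card ι) (Q : QuadraticForm F (ι → F))
    (hQ : (polarBilin Q).Nondegenerate) (X : Submodule F (ι → F)) (M : Subgroup (GL ι F))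
    (hHM : Geo.subspaceStabilizer X ⊓ Geo.omegaGL ⇑Q ≤ M) (b : ι → F) (hb : b ∈ orth Q X)
    (v v' z : ι → F) (hv : v ∈ mixedSet Q X M b) (hv'X : v' ∈ X) (hv' : Q v' = 0) (hzX : z ∈ X)
    (hz : Q z = 0) (hzv : polar Q z v ≠ 0) (hzv' : polar Q z v' ≠ 0) : v' ∈ mixedSet Q X M b := by
  have h1 : Q ((polar Q z v)⁻¹ • v) = 0 := by rw [qf_smul, hv.2.1, mul_zero]
  have h2 : Q ((polar Q z v')⁻¹ • v') = 0 := by rw [qf_smul, hv', mul_zero]
  have h3 : polar Q z ((polar Q z v)⁻¹ • v) = 1 := by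
    rw [polar_smul_right, smul_eq_mul, inv_mul_cancel₀ hzv]
  have h4 : polar Q z ((polar Q z v')⁻¹ • v') = 1 := by
    rw [polar_smul_right, smul_eq_mul, inv_mul_cancel₀ hzv']
  have hmv := sieg_move Q z _ _ hz h1 h2 h3 h4
  have h5 := mixed_act hn Q hQ X M hHM b hb z ((polar Q z v)⁻¹ • v - (polar Q z v')⁻¹ • v') hz
    (by rw [polar_sub_right, h3, h4, sub_self]) hzX
    (X.sub_mem (X.smul_mem _ hv.1) (X.smul_mem _ hv'X)) _
    (mixed_smul Q X M b hb (polar Q z v)⁻¹ v hv)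
  rw [hmv] at h5
  have h6 := mixed_smul Q X M b hb (polar Q z v') _ h5
  rwa [smul_smul, mul_inv_cancel₀ hzv', one_smul] at h6

theorem mixed_orth [Fintype F] (hn : 5 ≤ Fintype.card ι) (Q : QuadraticForm F (ι → F))
    (hQ : (polarBilin Q).Nondegenerate) (X : Submodule F (ι → F)) (hX : ND Q X)
    (M : Subgroup (GL ι F)) (hHM : Geo.subspaceStabilizer X ⊓ Geo.omegaGL ⇑Q ≤ M) (b : ι → F)
    (hb : b ∈ orth Q X) (v v' : ι → F) (hv : v ∈ mixedSet Q X M b) (hv0 : v ≠ 0) (hv'X : v' ∈ X)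
    (hv'0 : v' ≠ 0) (hv' : Q v' = 0) (hvv' : polar Q v v' = 0) : v' ∈ mixedSet Q X M b := by
  obtain ⟨x, hx, hxv⟩ := hX v hv.1 hv0
  obtain ⟨x', hx', hxv'⟩ := hX v' hv'X hv'0
  obtain ⟨z₀, hz₀X, hz₀v, hz₀v'⟩ := hX.exists_nonorth_both v v'
    ⟨x, hx, by rw [polar_comm]; exact hxv⟩ ⟨x', hx', by rw [polar_comm]; exact hxv'⟩
  have hQv := hv.2.1
  apply mixed_move hn Q hQ X M hHM b hb v v' (z₀ + (-(Q z₀ / polar Q z₀ v)) • v) hv hv'X hv'
    (X.add_mem hz₀X (X.smul_mem _ hv.1))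
  · rw [qf_add, qf_smul, hQv, polar_smul_right, smul_eq_mul]
    field_simp
    ring
  · rw [polar_add_left, polar_smul_left, qf_polar_self, hQv]
    simpa using hz₀v
  · rw [polar_add_left, polar_smul_left, hvv']
    simpa using hz₀v'

theorem mixed_all [Fintype F] (hn : 5 ≤ Fintype.card ι) (Q : QuadraticForm F (ι → F))
    (hQ : (polarBilin Q).Nondegenerate) (X : Submodule F (ι → F)) (hX : ND Q X)
    (hX7 : 5 ≤ finrank F X)
    (M : Subgroup (GL ι F)) (hHM : Geo.subspaceStabilizer X ⊓ Geo.omegaGL ⇑Q ≤ M) (b : ι → F)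
    (hb : b ∈ orth Q X) (v : ι → F) (hv : v ∈ mixedSet Q X M b) (hv0 : v ≠ 0) (v' : ι → F)
    (hv'X : v' ∈ X) (hv' : Q v' = 0) : v' ∈ mixedSet Q X M b := by
  by_cases hv'0 : v' = 0
  · subst hv'0
    exact ⟨X.zero_mem, QuadraticMap.map_zero Q, fun c => by
      rw [siegT_zero_left]
      exact M.one_mem⟩
  have hfin := finrank_inf_orth_ge Q hQ X (Submodule.span F {v} ⊔ Submodule.span F {v'})
  have h2 := finrank_span_pair_le (F := F) v v'
  obtain ⟨v'', hv'', hv''0, hQv''⟩ := exists_sing_sub Q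
    (X ⊓ orth Q (Submodule.span F {v} ⊔ Submodule.span F {v'})) (by omega)
  obtain ⟨hv''X, hv''O⟩ := Submodule.mem_inf.1 hv''
  rw [orth_sup, Submodule.mem_inf, mem_orth_span_singleton, mem_orth_span_singleton] at hv''O
  have h3 := mixed_orth hn Q hQ X hX M hHM b hb v v'' hv hv0 hv''X hv''0 hQv'' hv''O.1
  exact mixed_orth hn Q hQ X hX M hHM b hb v'' v' h3 hv''0 hv'X hv'0 hv'
    (by rw [polar_comm]; exact hv''O.2)

/-- an element of `M` moving `X` produces a mixed root group -/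
theorem exists_mixed [Fintype F] (hn : 5 ≤ Fintype.card ι) (Q : QuadraticForm F (ι → F))
    (hQ : (polarBilin Q).Nondegenerate) (X : Submodule F (ι → F)) (hX : ND Q X)
    (hX7 : 7 ≤ finrank F X)
    (M : Subgroup (GL ι F)) (hHM : Geo.subspaceStabilizer X ⊓ Geo.omegaGL ⇑Q ≤ M)
    (g : ↥(isometryGroup F ⇑Q)) (hgM : (g : GL ι F) ∈ M) (hg : ∃ x₀ ∈ X, act ⇑Q g x₀ ∉ X)
    (hsw : ∃ x ∈ X, act ⇑Q g⁻¹ x ∉ orth Q X) :
    ∃ b ∈ orth Q X, b ≠ 0 ∧ ∃ u ∈ X, u ≠ 0 ∧ Q u = 0 ∧ ∀ c : F, siegT Q u (c • b) ∈ M := by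
  obtain ⟨U, hUdef⟩ : ∃ U : Submodule F (ι → F), U =
    X.comap (Matrix.mulVecLin ((g : GL ι F) : Matrix ι ι F)) := ⟨_, rfl⟩
  have hU : ∀ y, y ∈ U ↔ act ⇑Q g y ∈ X := by
    intro y
    rw [hUdef, Submodule.mem_comap]
    rfl
  obtain ⟨u₁, w₁, hu₁, hu₁w₁, hu₁X, hw₁X, y, hyU, hmove⟩ : ∃ (u₁ w₁ : ι → F) (hu₁ : Q u₁ = 0)
      (huw : polar Q u₁ w₁ = 0), u₁ ∈ X ∧ w₁ ∈ X ∧ ∃ y ∈ U,
        act ⇑Q (sieg Q u₁ w₁ hu₁ huw) y ∉ U := by
    by_contra hcon
    push Not at hcon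
    obtain ⟨x, hxX, hx⟩ := hsw
    have hle := siegel_invariant_sub Q hQ X hX (by omega) U
      (fun u w hu huw huX hwX y hy => hcon u w hu huw huX hwX y hy) (act ⇑Q g⁻¹ x)
      (by rw [hU, act_act_inv]; exact hxX) (by
        rw [mem_orth] at hx
        push Not at hx
        exact hx)
    obtain ⟨x₀, hx₀, hgx₀⟩ := hg
    exact hgx₀ ((hU x₀).1 (hle hx₀))
  -- the conjugate Siegel element
  have hrdef := sieg_conj Q g u₁ w₁ hu₁ hu₁w₁
  obtain ⟨r, hr⟩ : ∃ r : ↥(isometryGroup F ⇑Q), r = g * sieg Q u₁ w₁ hu₁ hu₁w₁ * g⁻¹ := ⟨_, rfl⟩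
  rw [← hr] at hrdef
  have hρM : ((sieg Q u₁ w₁ hu₁ hu₁w₁ : ↥(isometryGroup F ⇑Q)) : GL ι F) ∈ M := by
    have h1 := sieg_X_mem hn Q hQ X M hHM u₁ w₁ hu₁ hu₁w₁ hu₁X hw₁X
    rwa [siegT_eq Q u₁ w₁ hu₁ hu₁w₁] at h1
  have hrM : (r : GL ι F) ∈ M := by
    rw [hr, Subgroup.coe_mul, Subgroup.coe_mul, Subgroup.coe_inv]
    exact M.mul_mem (M.mul_mem hgM hρM) (M.inv_mem hgM)
  obtain ⟨x, hxdef⟩ : ∃ x, x = act ⇑Q g y := ⟨_, rfl⟩
  have hxX : x ∈ X := by rw [hxdef]; exact (hU y).1 hyU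
  have hrx : act ⇑Q r x ∉ X := by
    rw [hr, hxdef, act_mul, act_mul, act_inv_act]
    intro h
    exact hmove ((hU _).2 h)
  -- a singular vector of `X` fixed by `r` and orthogonal to `x`
  have hfin := finrank_inf_orth_ge Q hQ X (Submodule.span F {x} ⊔
    Submodule.span F {act ⇑Q g u₁} ⊔ Submodule.span F {act ⇑Q g w₁})
  have h2 := finrank_span_triple_le (F := F) x (act ⇑Q g u₁) (act ⇑Q g w₁)
  obtain ⟨u, huS, hu0, hu⟩ := exists_sing_sub Q (X ⊓ orth Q (Submodule.span F {x} ⊔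
    Submodule.span F {act ⇑Q g u₁} ⊔ Submodule.span F {act ⇑Q g w₁})) (by omega)
  obtain ⟨huX, huO⟩ := Submodule.mem_inf.1 huS
  rw [orth_sup, orth_sup, Submodule.mem_inf, Submodule.mem_inf, mem_orth_span_singleton,
    mem_orth_span_singleton, mem_orth_span_singleton] at huO
  obtain ⟨⟨hxu, hu₁u⟩, hw₁u⟩ := huO
  have hru : act ⇑Q r u = u := by
    rw [hrdef, act_sieg, hu₁u, hw₁u]
    simp
  obtain ⟨a, ha, b, hb, hab⟩ := hX.decomp hQ (act ⇑Q r x)
  have hb0 : b ≠ 0 := by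
    rintro rfl
    rw [add_zero] at hab
    exact hrx (hab ▸ ha)
  have hub : polar Q u b = 0 := (mem_orth Q X b).1 hb u huX
  have hua : polar Q u a = 0 := by
    have h3 := act_polar ⇑Q r u x
    rw [hru, hab, polar_add_right, hub, add_zero, polar_comm Q u x, hxu] at h3
    exact h3
  refine ⟨b, hb, hb0, u, huX, hu0, hu, fun c => ?_⟩
  have hux : polar Q u (c • x) = 0 := by rw [polar_smul_right, polar_comm, hxu, smul_zero]
  have h3 := sieg_X_mem hn Q hQ X M hHM u (c • x) hu hux huX (X.smul_mem _ hxX)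
  have h4 := M.mul_mem (M.mul_mem hrM h3) (M.inv_mem hrM)
  rw [siegT_conj Q r u (c • x) hu hux, hru, act_smul, hab] at h4
  have hua' : polar Q u ((-c) • a) = 0 := by rw [polar_smul_right, hua, smul_zero]
  have h5 := sieg_X_mem hn Q hQ X M hHM u ((-c) • a) hu hua' huX (X.smul_mem _ ha)
  have h6 := M.mul_mem h4 h5
  rw [siegT_mul Q u _ _ hu (by rw [polar_smul_right, polar_add_right, hua, hub, add_zero,
    smul_zero]) hua'] at h6
  have e : c • (a + b) + (-c) • a = c • b := by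
    rw [smul_add, neg_smul]
    abel
  rwa [e] at h6

/-- the subspace of `X^⊥` of vectors `b` with all mixed root elements `ρ_{v,cb}` in `M` -/
def mixedSub (Q : QuadraticForm F (ι → F)) (X : Submodule F (ι → F)) (M : Subgroup (GL ι F)) :
    Submodule F (ι → F) where
  carrier := {b | b ∈ orth Q X ∧ ∀ v ∈ X, Q v = 0 → ∀ c : F, siegT Q v (c • b) ∈ M}
  add_mem' := by
    rintro b b' ⟨hb, hb1⟩ ⟨hb', hb1'⟩
    refine ⟨(orth Q X).add_mem hb hb', fun v hv hQv c => ?_⟩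
    have h1 := M.mul_mem (hb1 v hv hQv c) (hb1' v hv hQv c)
    rwa [siegT_mul Q v _ _ hQv
      (by rw [polar_smul_right, (mem_orth Q X b).1 hb v hv, smul_zero])
      (by rw [polar_smul_right, (mem_orth Q X b').1 hb' v hv, smul_zero]), ← smul_add] at h1
  zero_mem' := ⟨(orth Q X).zero_mem, fun v hv hQv c => by
    rw [smul_zero, siegT_zero_right Q v hQv]
    exact M.one_mem⟩
  smul_mem' := by
    rintro l b ⟨hb, hb1⟩
    refine ⟨(orth Q X).smul_mem _ hb, fun v hv hQv c => ?_⟩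
    rw [smul_smul]
    exact hb1 v hv hQv (c * l)

theorem mixedSub_inv (Q : QuadraticForm F (ι → F)) (X : Submodule F (ι → F))
    (M : Subgroup (GL ι F)) (h : ↥(isometryGroup F ⇑Q)) (hhM : (h : GL ι F) ∈ M)
    (hhX : (h : GL ι F) ∈ Geo.subspaceStabilizer X) (b : ι → F) (hb : b ∈ mixedSub Q X M) :
    act ⇑Q h b ∈ mixedSub Q X M := by
  obtain ⟨hbY, hb1⟩ := hb
  refine ⟨act_mem_orth_of_stab Q h X hhX b hbY, fun v hv hQv c => ?_⟩
  have hv' := act_inv_mem_of_stab Q h X hhX v hv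
  have hQv' : Q (act ⇑Q h⁻¹ v) = 0 := (act_Q ⇑Q h⁻¹ v).trans hQv
  have h1 := hb1 (act ⇑Q h⁻¹ v) hv' hQv' c
  have h2 := M.mul_mem (M.mul_mem hhM h1) (M.inv_mem hhM)
  rw [siegT_conj Q h _ _ hQv'
    (by rw [polar_smul_right, (mem_orth Q X b).1 hbY _ hv', smul_zero]), act_act_inv,
    act_smul] at h2
  exact h2

end NDMax2

end Cfsg.Agent.Helper16
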