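import Cfsg.Agent.Helper16.NDMax2

set_option autoImplicit false
open Cfsg

namespace Cfsg.Agent.Helper16

open QuadraticMap Module

section NDMax3
variable {ι : Type} [Fintype ι] [DecidableEq ι] {F : Type*} [Field F]

theorem exists_three_avoid [Fintype F] (hq : 4 ≤ Fintype.card F) (c : F) :
    ∃ μ : F, μ ≠ 0 ∧ μ ≠ c ∧ μ ≠ -c := by
  classical
  by_contra hcon
  push Not at hcon
  have hsub : (Finset.univ : Finset F) ⊆ {0, c, -c} := by
    intro μ _
    by_cases h0 : μ = 0
    · simp [h0]
    by_cases h1 : μ = c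
    · simp [h1]
    simp [hcon μ h0 h1]
  have h1 := Finset.card_le_card hsub
  have h3 : ({0, c, -c} : Finset F).card ≤ 3 := Finset.card_le_three
  rw [Finset.card_univ] at h1
  omega

/-- the stabiliser of `X` in `Ω` acts irreducibly on `X^⊥` (outside the small exceptions) -/
theorem orth_irreducible [Fintype F] (hn : 5 ≤ Fintype.card ι) (Q : QuadraticForm F (ι → F))
    (hQ : (polarBilin Q).Nondegenerate) (X : Submodule F (ι → F)) (hX : ND Q X)
    (hX3 : 3 ≤ finrank F X)
    (hex : ¬ (Fintype.card F ≤ 3 ∧ finrank F (orth Q X) = 2 ∧ ∃ e ∈ orth Q X, e ≠ 0 ∧ Q e = 0))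
    (Y₁ : Submodule F (ι → F)) (hY₁ : Y₁ ≤ orth Q X) (hY₁0 : Y₁ ≠ ⊥)
    (hinv : ∀ h : ↥(isometryGroup F ⇑Q), h ∈ Omega F ⇑Q →
      (h : GL ι F) ∈ Geo.subspaceStabilizer X → ∀ y ∈ Y₁, act ⇑Q h y ∈ Y₁) :
    Y₁ = orth Q X := by
  have hY := hX.orth_nd hQ
  obtain ⟨a₁, ha₁, ha₁0⟩ := Submodule.exists_mem_ne_zero_of_ne_bot hY₁0
  by_cases h3 : 3 ≤ finrank F (orth Q X)
  · apply le_antisymm hY₁
    apply siegel_invariant_sub Q hQ (orth Q X) hY h3 Y₁ ?_ a₁ ha₁ ?_
    · intro u w hu huw huY hwY y hy
      apply hinv _ (sieg_mem_Omega hn Q hQ u w hu huw) ?_ y hy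
      exact sieg_stab_orth Q X u w hu huw
        (fun x hx => by rw [polar_comm]; exact (mem_orth Q X u).1 huY x hx)
        (fun x hx => by rw [polar_comm]; exact (mem_orth Q X w).1 hwY x hx)
    · obtain ⟨x, hx, hne⟩ := hY a₁ (hY₁ ha₁) ha₁0
      exact ⟨x, hx, by rw [polar_comm]; exact hne⟩
  · push Not at h3
    by_contra hne
    have hlt : finrank F Y₁ < finrank F (orth Q X) :=
      Submodule.finrank_lt_finrank_of_lt (lt_of_le_of_ne hY₁ hne)
    have hpos : 0 < finrank F Y₁ := by
      rw [Nat.pos_iff_ne_zero]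
      intro h0
      exact hY₁0 (Submodule.finrank_eq_zero.1 h0)
    have hfin1 : finrank F Y₁ = 1 := by omega
    have hfin2 : finrank F (orth Q X) = 2 := by omega
    have hspan : ∀ y ∈ Y₁, ∃ c : F, y = c • a₁ := by
      intro y hy
      have h1 := (finrank_eq_one_iff_of_nonzero' (⟨a₁, ha₁⟩ : Y₁)
        (fun h => ha₁0 (congrArg Subtype.val h))).1 hfin1 ⟨y, hy⟩
      obtain ⟨c, hc⟩ := h1
      exact ⟨c, (congrArg Subtype.val hc).symm⟩
    obtain ⟨u, huX, hu0, hu⟩ := exists_sing_sub Q X hX3
    obtain ⟨u₂, hu₂X, hu₂, huu₂⟩ := hX.exists_partner u huX hu0 hu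
    -- reflections
    have hrefl : ∀ a ∈ orth Q X, Q a ≠ 0 → polar Q a a₁ = 0 ∨ ∃ c : F, a = c • a₁ := by
      intro a haY hQa
      obtain ⟨x, hxdef⟩ : ∃ x, x = u + Q a • u₂ := ⟨_, rfl⟩
      have hxQ : Q x = Q a := by
        rw [hxdef, qf_add, hu, qf_smul, hu₂, polar_smul_right, huu₂]
        simp
      have hxQ0 : Q x ≠ 0 := by rw [hxQ]; exact hQa
      have hxX : x ∈ X := by
        rw [hxdef]
        exact X.add_mem huX (X.smul_mem _ hu₂X)
      have hΩ := refl_pair_mem_Omega Q hQ a x hQa hxQ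
      have hstab : ((reflElt Q a * reflElt Q x : ↥(isometryGroup F ⇑Q)) : GL ι F) ∈
          Geo.subspaceStabilizer X := by
        apply isom_mem_stab
        intro z hz
        have hz' : qrefl Q x z ∈ X := by
          rw [qrefl_apply]
          exact X.sub_mem hz (X.smul_mem _ hxX)
        rw [act_mul, act_refl Q x hxQ0, act_refl Q a hQa, qrefl_of_orth Q a _
          (by rw [polar_comm]; exact (mem_orth Q X a).1 haY _ hz')]
        exact hz'
      have h1 := hinv _ hΩ hstab a₁ ha₁
      rw [act_mul, act_refl Q x hxQ0, qrefl_of_orth Q x a₁ ((mem_orth Q X a₁).1 (hY₁ ha₁) x hxX),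
        act_refl Q a hQa, qrefl_apply] at h1
      by_cases hp : polar Q a a₁ = 0
      · left; exact hp
      · right
        have h2 : ((Q a)⁻¹ * polar Q a a₁) • a ∈ Y₁ := by
          have h3 := Y₁.sub_mem ha₁ h1
          rwa [sub_sub_cancel] at h3
        have h3 := Y₁.smul_mem ((Q a)⁻¹ * polar Q a a₁)⁻¹ h2
        rw [smul_smul, inv_mul_cancel₀ (mul_ne_zero (inv_ne_zero hQa) hp), one_smul] at h3
        exact hspan a h3
    by_cases hsing : ∃ e ∈ orth Q X, e ≠ 0 ∧ Q e = 0
    · have hq : 4 ≤ Fintype.card F := by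
        by_contra h
        exact hex ⟨by omega, hfin2, hsing⟩
      obtain ⟨e, heY, he0, he⟩ := hsing
      obtain ⟨f, hfY, hf, hef⟩ := hY.exists_partner e heY he0 he
      have hfe : f ∉ Submodule.span F {e} := by
        intro h
        obtain ⟨c, rfl⟩ := Submodule.mem_span_singleton.1 h
        rw [polar_smul_right, qf_polar_self, he] at hef
        simp at hef
      have hfin : finrank F (Submodule.span F {e} ⊔ Submodule.span F {f} :
          Submodule F (ι → F)) = 2 := by
        rw [finrank_sup_span _ f hfe, finrank_span_singleton he0]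
      have hEq : Submodule.span F {e} ⊔ Submodule.span F {f} = orth Q X := by
        apply Submodule.eq_of_le_of_finrank_eq
        · exact sup_le ((Submodule.span_singleton_le_iff_mem _ _).2 heY)
            ((Submodule.span_singleton_le_iff_mem _ _).2 hfY)
        · rw [hfin, hfin2]
      have ha₁' : a₁ ∈ Submodule.span F {e} ⊔ Submodule.span F {f} := by
        rw [hEq]
        exact hY₁ ha₁
      obtain ⟨p, hp, r, hr, hpr⟩ := Submodule.mem_sup.1 ha₁'
      obtain ⟨α, rfl⟩ := Submodule.mem_span_singleton.1 hp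
      obtain ⟨β, rfl⟩ := Submodule.mem_span_singleton.1 hr
      have hfe' : polar Q f e = 1 := by rw [polar_comm, hef]
      have hee : polar Q e e = 0 := by rw [qf_polar_self, he, mul_zero]
      have hff : polar Q f f = 0 := by rw [qf_polar_self, hf, mul_zero]
      have key : ∀ μ : F, μ ≠ 0 → β + μ * α = 0 ∨ μ * α = β := by
        intro μ hμ
        have hQa : Q (e + μ • f) = μ := by
          rw [qf_add, he, qf_smul, hf, polar_smul_right, hef]
          simp
        rcases hrefl (e + μ • f) ((orth Q X).add_mem heY ((orth Q X).smul_mem _ hfY))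
          (by rw [hQa]; exact hμ) with h | ⟨c, hc⟩
        · left
          rw [← hpr] at h
          simp only [polar_add_left, polar_add_right, polar_smul_left, polar_smul_right, hee, hef,
            hfe', hff, smul_eq_mul] at h
          linear_combination h
        · right
          have h1 : polar Q f (e + μ • f) = polar Q f (c • a₁) := by rw [hc]
          have h2 : polar Q e (e + μ • f) = polar Q e (c • a₁) := by rw [hc]
          rw [← hpr] at h1 h2
          simp only [polar_add_left, polar_add_right, polar_smul_left, polar_smul_right, hee, hef,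
            hfe', hff, smul_eq_mul] at h1 h2
          linear_combination α * h2 - β * h1
      by_cases hα : α = 0
      · have h1 := key 1 one_ne_zero
        rw [hα] at h1
        simp only [mul_zero, add_zero] at h1
        have hβ : β = 0 := by
          rcases h1 with h | h
          · exact h
          · exact h.symm
        apply ha₁0
        rw [← hpr, hα, hβ]
        simp
      · obtain ⟨μ, hμ0, hμ1, hμ2⟩ := exists_three_avoid hq (β / α)
        rcases key μ hμ0 with h | h
        · apply hμ2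
          field_simp
          linear_combination h
        · apply hμ1
          field_simp
          linear_combination h
    · push Not at hsing
      obtain ⟨a, haY, hne⟩ := hY a₁ (hY₁ ha₁) ha₁0
      have ha0 : a ≠ 0 := by
        rintro rfl
        apply hne
        exact qf_polar_zero_right Q a₁
      obtain ⟨c, hc⟩ := (hrefl a haY (hsing a haY ha0)).resolve_left
        (by rw [polar_comm]; exact hne)
      obtain ⟨a', ha'Y, ha'⟩ : ∃ a' ∈ orth Q X, a' ∉ Submodule.span F {a₁} := by
        by_contra hcon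
        push Not at hcon
        have hle : orth Q X ≤ Submodule.span F {a₁} := hcon
        have h5 := Submodule.finrank_mono hle
        have h6 := finrank_span_one_le (F := F) a₁
        omega
      have ha'0 : a' ≠ 0 := by
        rintro rfl
        exact ha' (Submodule.zero_mem _)
      have h1 : polar Q a' a₁ = 0 := (hrefl a' ha'Y (hsing a' ha'Y ha'0)).resolve_right
        (fun ⟨c', hc'⟩ => ha' (by
          rw [hc']
          exact Submodule.smul_mem _ _ (Submodule.mem_span_singleton_self a₁)))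
      have hsum0 : a + a' ≠ 0 := by
        intro h0
        apply ha'
        have : a' = (-c) • a₁ := by
          rw [neg_smul, ← hc]
          exact eq_neg_of_add_eq_zero_right h0
        rw [this]
        exact Submodule.smul_mem _ _ (Submodule.mem_span_singleton_self a₁)
      rcases hrefl (a + a') ((orth Q X).add_mem haY ha'Y)
        (hsing _ ((orth Q X).add_mem haY ha'Y) hsum0) with h | ⟨c'', hc''⟩
      · rw [polar_add_left, h1, add_zero] at h
        exact hne (by rw [polar_comm]; exact h)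
      · apply ha'
        have : a' = (c'' - c) • a₁ := by
          rw [sub_smul, ← hc, ← hc'']
          abel
        rw [this]
        exact Submodule.smul_mem _ _ (Submodule.mem_span_singleton_self a₁)

/-- maximality of the stabiliser in `Ω` of a non-degenerate subspace `X` of dimension at least
seven whose complement is not isometric to it -/
theorem nd_max_core [Fintype F] (hn : 7 ≤ Fintype.card ι) (Q : QuadraticForm F (ι → F))
    (hQ : (polarBilin Q).Nondegenerate) (X : Submodule F (ι → F)) (hX : ND Q X)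
    (hX7 : 7 ≤ finrank F X) (hXtop : orth Q X ≠ ⊥)
    (hsw : ∀ g : ↥(isometryGroup F ⇑Q), ∃ x ∈ X, act ⇑Q g x ∉ orth Q X)
    (hex : ¬ (Fintype.card F ≤ 3 ∧ finrank F (orth Q X) = 2 ∧ ∃ e ∈ orth Q X, e ≠ 0 ∧ Q e = 0)) :
    Geo.IsMaximalIn (Geo.omegaGL ⇑Q) (Geo.subspaceStabilizer X ⊓ Geo.omegaGL ⇑Q) := by
  obtain ⟨u, huX, hu0, hu⟩ := exists_sing_sub Q X (by omega)
  obtain ⟨u₂, hu₂X, hu₂, huu₂⟩ := hX.exists_partner u huX hu0 hu
  constructor
  · refine lt_of_le_of_ne inf_le_right ?_
    intro heq
    obtain ⟨b, hb, hb0⟩ := Submodule.exists_mem_ne_zero_of_ne_bot hXtop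
    have hub : polar Q u b = 0 := (mem_orth Q X b).1 hb u huX
    have hmem : ((sieg Q u b hu hub : ↥(isometryGroup F ⇑Q)) : GL ι F) ∈
        Geo.subspaceStabilizer X ⊓ Geo.omegaGL ⇑Q := by
      rw [heq]
      exact mem_omegaGL ⇑Q _ (sieg_mem_Omega (by omega) Q hQ u b hu hub)
    have h1 := act_mem_of_stab Q _ X hmem.1 u₂ hu₂X
    rw [act_sieg, huu₂, polar_comm Q b u₂, (mem_orth Q X b).1 hb u₂ hu₂X] at h1
    have h2 : b ∈ X := by
      have h3 := X.sub_mem (X.sub_mem hu₂X h1) (X.smul_mem (Q b) huX)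
      have e : u₂ - (u₂ + (0 : F) • u - (1 : F) • b - (Q b * 1) • u) - Q b • u = b := by
        rw [zero_smul, one_smul, mul_one]
        abel
      rwa [e] at h3
    have h4 : b ∈ X ⊓ orth Q X := Submodule.mem_inf.2 ⟨h2, hb⟩
    rw [hX.inf_orth, Submodule.mem_bot] at h4
    exact hb0 h4
  · intro M hHM hMK
    by_cases hMH : M ≤ Geo.subspaceStabilizer X ⊓ Geo.omegaGL ⇑Q
    · exact Or.inl (le_antisymm hMH hHM)
    right
    apply le_antisymm hMK
    obtain ⟨k, hkM, hkH⟩ := SetLike.not_le_iff_exists.1 hMH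
    obtain ⟨g₀, hg₀Ω, rfl⟩ := exists_of_mem_omegaGL ⇑Q k (hMK hkM)
    have hg₀ : ∃ x₀ ∈ X, act ⇑Q g₀ x₀ ∉ X := by
      by_contra hcon
      push Not at hcon
      exact hkH ⟨isom_mem_stab Q g₀ X hcon, hMK hkM⟩
    obtain ⟨b, hbY, hb0, u', hu'X, hu'0, hu', hmix⟩ := exists_mixed (by omega) Q hQ X hX hX7 M hHM
      g₀ hkM hg₀ (hsw g₀⁻¹)
    have hbY0 : b ∈ mixedSub Q X M := ⟨hbY, fun v hv hQv =>
      (mixed_all (by omega) Q hQ X hX (by omega) M hHM b hbY u' ⟨hu'X, hu', hmix⟩ hu'0 v hv
        hQv).2.2⟩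
    have hY0 : mixedSub Q X M = orth Q X :=
      orth_irreducible (by omega) Q hQ X hX (by omega) hex _ (fun b hb => hb.1)
        (fun h => hb0 (by
          have h1 : b ∈ (⊥ : Submodule F (ι → F)) := h ▸ hbY0
          exact (Submodule.mem_bot F).1 h1))
        (fun h hΩ hstab y hy =>
          mixedSub_inv Q X M h (hHM ⟨hstab, mem_omegaGL ⇑Q h hΩ⟩) hstab y hy)
    have hroot : ∀ v ∈ X, Q v = 0 → v ∈ rootDirs Q M := by
      intro v hv hQv
      refine ⟨hQv, fun w hvw => ?_⟩
      obtain ⟨a, ha, b', hb', rfl⟩ := hX.decomp hQ w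
      have hvb' : polar Q v b' = 0 := (mem_orth Q X b').1 hb' v hv
      have hva : polar Q v a = 0 := by
        rw [polar_add_right, hvb', add_zero] at hvw
        exact hvw
      have h1 : siegT Q v a ∈ M := sieg_X_mem (by omega) Q hQ X M hHM v a hQv hva hv ha
      have h2 : siegT Q v b' ∈ M := by
        have hb'' : b' ∈ mixedSub Q X M := by rw [hY0]; exact hb'
        have h3 := hb''.2 v hv hQv 1
        rwa [one_smul] at h3
      have h3 := M.mul_mem h1 h2
      rw [siegT_mul Q v a b' hQv hva hvb', siegT_eq Q v (a + b') hQv hvw] at h3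
      exact h3
    apply omegaGL_le_of_rootDirs hn Q hQ M
    exact rootDirs_all (by omega) Q hQ M u u₂ (hroot u huX hu) (hroot u₂ hu₂X hu₂)
      (by rw [huu₂]; exact one_ne_zero)

end NDMax3

end Cfsg.Agent.Helper16
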