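import Cfsg.Agent.Helper16.NDMax3

set_option autoImplicit false
open Cfsg

namespace Cfsg.Agent.Helper16

open QuadraticMap Module

section NDMax4
variable {ι : Type} [Fintype ι] [DecidableEq ι] {F : Type*} [Field F]

theorem nd_of_nondegOn (Q : QuadraticForm F (ι → F)) (W : Submodule F (ι → F))
    (hW : Geo.IsNondegenerateOn (polar ⇑Q) W) : ND Q W :=
  fun w hw hw0 => (hW w hw hw0).2

theorem nondegOn_of_nd (Q : QuadraticForm F (ι → F)) (W : Submodule F (ι → F))
    (hW : ND Q W) : Geo.IsNondegenerateOn (polar ⇑Q) W := by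
  intro w hw hw0
  obtain ⟨x, hx, hne⟩ := hW w hw hw0
  exact ⟨⟨x, hx, by rw [polar_comm]; exact hne⟩, ⟨x, hx, hne⟩⟩

/-- an isometry cannot map a subspace into a subspace of smaller dimension -/
theorem exists_act_not_mem (Q : QuadraticForm F (ι → F)) (g : ↥(isometryGroup F ⇑Q))
    (X Y : Submodule F (ι → F)) (h : finrank F Y < finrank F X) : ∃ x ∈ X, act ⇑Q g x ∉ Y := by
  by_contra hcon
  push Not at hcon
  have hinj : Function.Injective
      ((Matrix.mulVecLin ((g : GL ι F) : Matrix ι ι F)).restrict hcon) := by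
    intro x y hxy
    have h2 : act ⇑Q g (x : ι → F) = act ⇑Q g (y : ι → F) := congrArg Subtype.val hxy
    have h3 := congrArg (act ⇑Q g⁻¹) h2
    rw [act_inv_act, act_inv_act] at h3
    exact Subtype.ext h3
  have := LinearMap.finrank_le_finrank_of_injective hinj
  omega

/-- maximality in `Ω` of the stabiliser of a non-degenerate subspace -/
theorem nd_max [Fintype F] (hn : 13 ≤ Fintype.card ι) (Q : QuadraticForm F (ι → F))
    (hQ : (polarBilin Q).Nondegenerate) (W : Submodule F (ι → F)) (hW0 : W ≠ ⊥) (hW1 : W ≠ ⊤)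
    (hW : ND Q W)
    (hsw : 2 * finrank F W = Fintype.card ι →
      ∀ g : ↥(isometryGroup F ⇑Q), ∃ x ∈ W, act ⇑Q g x ∉ orth Q W)
    (hex : ¬ (Fintype.card F ≤ 3 ∧ ∃ U : Submodule F (ι → F), finrank F U = 2 ∧
      (∃ e ∈ U, e ≠ 0 ∧ Q e = 0) ∧ (U = W ∨ U = orth Q W))) :
    Geo.IsMaximalIn (Geo.omegaGL ⇑Q) (Geo.subspaceStabilizer W ⊓ Geo.omegaGL ⇑Q) := by
  have hfo := finrank_orth Q hQ W
  rw [Module.finrank_fintype_fun_eq_card] at hfo
  have hle := Submodule.finrank_le W
  rw [Module.finrank_fintype_fun_eq_card] at hle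
  by_cases hcase : finrank F (orth Q W) ≤ finrank F W
  · apply nd_max_core (by omega) Q hQ W hW (by omega)
    · intro h
      apply hW1
      have h1 := orth_orth Q hQ W
      rw [h] at h1
      rw [← h1]
      ext x
      simp [mem_orth]
    · intro g
      by_cases heq : 2 * finrank F W = Fintype.card ι
      · exact hsw heq g
      · exact exists_act_not_mem Q g W (orth Q W) (by omega)
    · rintro ⟨h1, h2, h3⟩
      exact hex ⟨h1, orth Q W, h2, h3, Or.inr rfl⟩
  · push Not at hcase
    rw [← stab_orth_inf Q hQ W]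
    apply nd_max_core (by omega) Q hQ (orth Q W) (hW.orth_nd hQ) (by omega)
    · rw [orth_orth Q hQ]
      exact hW0
    · intro g
      rw [orth_orth Q hQ]
      exact exists_act_not_mem Q g (orth Q W) W hcase
    · rw [orth_orth Q hQ]
      rintro ⟨h1, h2, h3⟩
      exact hex ⟨h1, W, h2, h3, Or.inl rfl⟩

/-- the exceptional configuration in the form used by the frozen statements -/
theorem plus_plane_of_sing (Q : QuadraticForm F (ι → F)) (hQ : (polarBilin Q).Nondegenerate)
    (W U : Submodule F (ι → F)) (hW : ND Q W) (hU2 : finrank F U = 2)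
    (hsing : ∃ e ∈ U, e ≠ 0 ∧ Q e = 0) (hUW : U = W ∨ U = orth Q W) :
    Geo.IsNondegenerateOn (polar ⇑Q) U ∧ Geo.IsPlusTypeOn ⇑Q U ∧
      (U = W ∨ (Geo.AreOrthogonalFor (polar ⇑Q) U W ∧
        finrank F U + finrank F W = Fintype.card ι)) := by
  obtain ⟨e, heU, he0, he⟩ := hsing
  refine ⟨?_, ⟨Submodule.span F {e}, (Submodule.span_singleton_le_iff_mem _ _).2 heU,
    TS_span_singleton Q e he, by rw [finrank_span_singleton he0, hU2]⟩, ?_⟩
  · rcases hUW with h | h
    · rw [h]
      exact nondegOn_of_nd Q W hW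
    · rw [h]
      exact nondegOn_of_nd Q _ (hW.orth_nd hQ)
  · rcases hUW with h | h
    · exact Or.inl h
    · right
      constructor
      · intro u hu v hv
        rw [h] at hu
        rw [polar_comm]
        exact (mem_orth Q W u).1 hu v hv
      · rw [h, finrank_orth Q hQ, Module.finrank_fintype_fun_eq_card]
        have hle := Submodule.finrank_le W
        rw [Module.finrank_fintype_fun_eq_card] at hle
        omega

end NDMax4

end Cfsg.Agent.Helper16
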