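import Mathlib
import Cfsg.Prelude.Def_Classical
import Cfsg.Agent.Helper16.IsomEmbed

set_option autoImplicit false

namespace Cfsg.Agent.Helper16

open QuadraticMap

section Hyp

universe u v

variable {F : Type u} [Field F] {V : Type v} [AddCommGroup V] [Module F V]

/-- the orthogonal complement of a hyperbolic pair (with a membership criterion) -/
theorem exists_hyp_split' [FiniteDimensional F V] (Q : QuadraticForm F V)
    (hQ : (polarBilin Q).Nondegenerate) (e f : V) (he : Q e = 0) (hf : Q f = 0)
    (hef : polar Q e f = 1) :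
    ∃ W : Submodule F V, (∀ w, w ∈ W ↔ (polar Q e w = 0 ∧ polar Q f w = 0)) ∧
      Module.finrank F W + 2 = Module.finrank F V ∧
      (polarBilin (Q.comp W.subtype)).Nondegenerate := by
  let T : V →ₗ[F] F × F := LinearMap.prod (polarBilin Q e) (polarBilin Q f)
  have hT : ∀ v, T v = (polar Q e v, polar Q f v) := fun v => rfl
  have hmem : ∀ w, w ∈ LinearMap.ker T ↔ (polar Q e w = 0 ∧ polar Q f w = 0) := by
    intro w
    rw [LinearMap.mem_ker, hT, Prod.mk_eq_zero]
  have hfe : polar Q f e = 1 := by rw [polar_comm, hef]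
  refine ⟨LinearMap.ker T, hmem, ?_, ?_⟩
  · have hsurj : Function.Surjective T := by
      rintro ⟨α, β⟩
      refine ⟨α • f + β • e, ?_⟩
      rw [hT, polar_add_right, polar_smul_right, polar_smul_right, polar_add_right,
        polar_smul_right, polar_smul_right, hef, hfe, qf_polar_self, qf_polar_self, he, hf]
      simp
    have h1 := LinearMap.finrank_range_add_finrank_ker T
    rw [LinearMap.range_eq_top.2 hsurj, finrank_top, Module.finrank_prod, Module.finrank_self] at h1
    omega
  · rw [(polarBilin_isSymm _).isRefl.nondegenerate_iff_separatingLeft]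
    intro w hw
    have hw' : ∀ w' ∈ LinearMap.ker T, polar Q (w : V) w' = 0 := fun w' hw'' => hw ⟨w', hw''⟩
    apply Subtype.ext
    apply hQ.1
    intro v
    show polar Q (w : V) v = 0
    have hv' : (1 : F) • v + (-(polar Q f v)) • e + (-(polar Q e v)) • f ∈ LinearMap.ker T := by
      rw [hmem]
      constructor
      · rw [polar_add_right, polar_add_right, polar_smul_right, polar_smul_right, polar_smul_right,
          hef, qf_polar_self, he]
        simp
      · rw [polar_add_right, polar_add_right, polar_smul_right, polar_smul_right, polar_smul_right,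
          hfe, qf_polar_self, hf]
        simp
    have h3 := hw' _ hv'
    rw [polar_add_right, polar_add_right, polar_smul_right, polar_smul_right, polar_smul_right,
      polar_comm Q (w : V) e, polar_comm Q (w : V) f, ((hmem _).1 w.2).1, ((hmem _).1 w.2).2] at h3
    simpa using h3

/-- a non-degenerate quadratic space of dimension `2k` containing a totally singular subspace of
dimension at least `k` has a hyperbolic family of size `k` -/
theorem exists_hyp_of_totally_singular :
    ∀ (k : ℕ) (V : Type v) [AddCommGroup V] [Module F V] [FiniteDimensional F V]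
      (Q : QuadraticForm F V), (polarBilin Q).Nondegenerate → Module.finrank F V = 2 * k →
      ∀ U : Submodule F V, (∀ u ∈ U, Q u = 0) → k ≤ Module.finrank F U →
      ∃ e f : Fin k → V, IsHypFamily Q e f := by
  intro k
  induction k with
  | zero =>
    intro V _ _ _ Q hQ hV U hU hk
    exact ⟨Fin.elim0, Fin.elim0, fun i => Fin.elim0 i, fun i => Fin.elim0 i, fun i => Fin.elim0 i⟩
  | succ k ih =>
    intro V _ _ _ Q hQ hV U hU hk
    have hpos : 0 < Module.finrank F U := by omega
    obtain ⟨e₀, he₀⟩ := Module.finrank_pos_iff_exists_ne_zero.mp hpos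
    have he₀0 : (e₀ : V) ≠ 0 := fun h => he₀ (Subtype.ext h)
    have hQe : Q (e₀ : V) = 0 := hU _ e₀.2
    obtain ⟨f₀, hf₀, hef⟩ := exists_hyp_partner Q hQ (e₀ : V) he₀0 hQe
    obtain ⟨W, hW, hWfr, hWnd⟩ := exists_hyp_split' Q hQ (e₀ : V) f₀ hQe hf₀ hef
    -- the totally singular subspace of `W`
    have hUorth : ∀ u ∈ U, polar Q (e₀ : V) u = 0 := by
      intro u hu
      show Q ((e₀ : V) + u) - Q (e₀ : V) - Q u = 0
      rw [hU _ (U.add_mem e₀.2 hu), hQe, hU _ hu]
      simp
    let φ : ↥U →ₗ[F] F := (polarBilin Q f₀).comp U.subtype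
    have hφ : ∀ u : ↥U, φ u = polar Q f₀ (u : V) := fun u => rfl
    have hker : k ≤ Module.finrank F ↥(LinearMap.ker φ) := by
      have h1 := LinearMap.finrank_range_add_finrank_ker φ
      have h2 : Module.finrank F ↥(LinearMap.range φ) ≤ 1 := by
        have := Submodule.finrank_le (LinearMap.range φ)
        rwa [Module.finrank_self] at this
      omega
    let ψ₁ : ↥(LinearMap.ker φ) →ₗ[F] ↥W :=
      LinearMap.codRestrict W (U.subtype.comp (LinearMap.ker φ).subtype) (by
        intro c
        rw [hW]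
        refine ⟨hUorth _ c.1.2, ?_⟩
        have := c.2
        rw [LinearMap.mem_ker, hφ] at this
        exact this)
    let ψ₂ : ↥(LinearMap.ker φ) →ₗ[F] ↥(U.comap W.subtype) :=
      LinearMap.codRestrict (U.comap W.subtype) ψ₁ (by
        intro c
        rw [Submodule.mem_comap]
        exact c.1.2)
    have hψ₂ : Function.Injective ψ₂ := by
      intro c c' h
      have h1 : ((ψ₂ c : ↥W) : V) = ((ψ₂ c' : ↥W) : V) := by rw [h]
      exact Subtype.ext (Subtype.ext h1)
    have hU' : k ≤ Module.finrank F ↥(U.comap W.subtype) :=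
      hker.trans (LinearMap.finrank_le_finrank_of_injective hψ₂)
    obtain ⟨e', f', hfam⟩ := ih ↥W (Q.comp W.subtype) hWnd (by omega) (U.comap W.subtype)
      (by
        intro w hw
        exact hU _ hw) hU'
    refine ⟨Fin.cons (e₀ : V) (fun i => (e' i : V)), Fin.cons f₀ (fun i => (f' i : V)), ?_⟩
    apply IsHypFamily.cons Q (e := fun i => (e' i : V)) (f := fun i => (f' i : V)) hfam
      (e₀ : V) f₀ hQe hf₀ hef
    intro i
    exact ⟨((hW _).1 (e' i).2).1, ((hW _).1 (f' i).2).1, ((hW _).1 (e' i).2).2,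
      ((hW _).1 (f' i).2).2⟩

/-- the value of a quadratic form on a combination of a hyperbolic family -/
theorem qf_hyp_sum (Q : QuadraticForm F V) {k : ℕ} {e f : Fin k → V} (h : IsHypFamily Q e f)
    (x y : Fin k → F) : Q (∑ i, x i • e i + ∑ i, y i • f i) = ∑ i, x i * y i := by
  obtain ⟨h1, h2, h3⟩ := h
  have hsum : ∑ i, x i • e i + ∑ i, y i • f i = ∑ i, (1 : F) • (x i • e i + y i • f i) := by
    rw [← Finset.sum_add_distrib]
    exact Finset.sum_congr rfl fun i _ => by rw [one_smul]
  rw [hsum, qf_sum_orth Q (fun i => x i • e i + y i • f i)]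
  · refine Finset.sum_congr rfl fun i _ => ?_
    rw [qf_lin2, (h1 i).1, (h1 i).2, h2, if_pos rfl]
    ring
  · intro i j hij
    have hji : j ≠ i := fun h => hij h.symm
    simp only [polar_add_left, polar_add_right, polar_smul_left, polar_smul_right]
    rw [(h3 i j).1, (h3 i j).2, h2 i j, if_neg hij, polar_comm Q (f i) (e j), h2 j i, if_neg hji]
    simp

/-- a hyperbolic basis identifies the space with the standard hyperbolic space -/
theorem exists_equiv_plus [FiniteDimensional F V] (Q : QuadraticForm F V) {k : ℕ}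
    {e f : Fin k → V} (h : IsHypFamily Q e f) (hV : Module.finrank F V = 2 * k) (hk : 1 ≤ k) :
    ∃ T : (Fin k ⊕ Fin k → F) ≃ₗ[F] V, ∀ v, Q (T v) = Cfsg.quadFormPlus k F v := by
  have hne : Nonempty (Fin k ⊕ Fin k) := ⟨Sum.inl ⟨0, hk⟩⟩
  have hli := linearIndependent_hyp Q h
  have hcard : Fintype.card (Fin k ⊕ Fin k) = Module.finrank F V := by
    rw [hV]
    simp
    omega
  let b := basisOfLinearIndependentOfCardEqFinrank hli hcard
  have hb : ⇑b = Sum.elim e f := coe_basisOfLinearIndependentOfCardEqFinrank _ _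
  refine ⟨b.equivFun.symm, ?_⟩
  intro v
  rw [Module.Basis.equivFun_symm_apply, hb, Fintype.sum_sum_type]
  simp only [Sum.elim_inl, Sum.elim_inr]
  rw [qf_hyp_sum Q h]
  rfl

/-- linear independence of a hyperbolic family together with an orthogonal anisotropic pair -/
theorem linearIndependent_ell' (Q : QuadraticForm F V) {k : ℕ} {e f : Fin k → V}
    (h : IsHypFamily Q e f) (u : Fin 2 → V) (a b : F) (hx : Q (u 0) = 1)
    (hxy : polar Q (u 0) (u 1) = a) (hy : Q (u 1) = b) (hd : 4 * b - a ^ 2 ≠ 0)
    (horth : ∀ i j, polar Q (e i) (u j) = 0 ∧ polar Q (f i) (u j) = 0) :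
    LinearIndependent F (Sum.elim (Sum.elim e f) u) := by
  have hyx : polar Q (u 1) (u 0) = a := by rw [polar_comm, hxy]
  apply linearIndependent_sum_hyp Q h u
    ![(4 * b - a ^ 2)⁻¹ • ((2 * b) • polarBilin Q (u 0) - a • polarBilin Q (u 1)),
      (4 * b - a ^ 2)⁻¹ • ((2 : F) • polarBilin Q (u 1) - a • polarBilin Q (u 0))]
  · intro i j
    fin_cases i <;> fin_cases j
    · show (4 * b - a ^ 2)⁻¹ * (2 * b * polar Q (u 0) (u 0) - a * polar Q (u 1) (u 0)) = _
      rw [qf_polar_self, hx, hyx]
      simp only [Fin.zero_eta, if_true]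
      field_simp
      ring
    · show (4 * b - a ^ 2)⁻¹ * (2 * polar Q (u 1) (u 0) - a * polar Q (u 0) (u 0)) = _
      rw [qf_polar_self, hx, hyx]
      simp
      right
      ring
    · show (4 * b - a ^ 2)⁻¹ * (2 * b * polar Q (u 0) (u 1) - a * polar Q (u 1) (u 1)) = _
      rw [qf_polar_self, hxy, hy]
      simp
      right
      ring
    · show (4 * b - a ^ 2)⁻¹ * (2 * polar Q (u 1) (u 1) - a * polar Q (u 0) (u 1)) = _
      rw [qf_polar_self, hxy, hy]
      simp only [Fin.mk_one, if_true]
      field_simp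
      ring
  · intro i j
    have h1 : polar Q (u 0) (e i) = 0 := by rw [polar_comm, (horth i 0).1]
    have h2 : polar Q (u 1) (e i) = 0 := by rw [polar_comm, (horth i 1).1]
    have h3 : polar Q (u 0) (f i) = 0 := by rw [polar_comm, (horth i 0).2]
    have h4 : polar Q (u 1) (f i) = 0 := by rw [polar_comm, (horth i 1).2]
    fin_cases j
    · constructor
      · show (4 * b - a ^ 2)⁻¹ * (2 * b * polar Q (u 0) (e i) - a * polar Q (u 1) (e i)) = 0
        rw [h1, h2]; simp
      · show (4 * b - a ^ 2)⁻¹ * (2 * b * polar Q (u 0) (f i) - a * polar Q (u 1) (f i)) = 0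
        rw [h3, h4]; simp
    · constructor
      · show (4 * b - a ^ 2)⁻¹ * (2 * polar Q (u 1) (e i) - a * polar Q (u 0) (e i)) = 0
        rw [h1, h2]; simp
      · show (4 * b - a ^ 2)⁻¹ * (2 * polar Q (u 1) (f i) - a * polar Q (u 0) (f i)) = 0
        rw [h3, h4]; simp
  · exact horth

/-- an elliptic basis identifies the space with the standard elliptic space -/
theorem exists_equiv_minus [FiniteDimensional F V] (Q : QuadraticForm F V) {k : ℕ}
    {e f : Fin k → V} (h : IsHypFamily Q e f) (u : Fin 2 → V) (a b : F) (hx : Q (u 0) = 1)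
    (hxy : polar Q (u 0) (u 1) = a) (hy : Q (u 1) = b) (hd : 4 * b - a ^ 2 ≠ 0)
    (horth : ∀ i j, polar Q (e i) (u j) = 0 ∧ polar Q (f i) (u j) = 0)
    (hV : Module.finrank F V = 2 * k + 2) :
    ∃ T : ((Fin k ⊕ Fin k) ⊕ Fin 2 → F) ≃ₗ[F] V, ∀ v, Q (T v) = Cfsg.quadFormMinus k F a b v := by
  have hli := linearIndependent_ell' Q h u a b hx hxy hy hd horth
  have hcard : Fintype.card ((Fin k ⊕ Fin k) ⊕ Fin 2) = Module.finrank F V := by
    rw [hV]
    simp
    omega
  let bb := basisOfLinearIndependentOfCardEqFinrank hli hcard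
  have hb : ⇑bb = Sum.elim (Sum.elim e f) u := coe_basisOfLinearIndependentOfCardEqFinrank _ _
  refine ⟨bb.equivFun.symm, ?_⟩
  intro v
  rw [Module.Basis.equivFun_symm_apply, hb, Fintype.sum_sum_type, Fintype.sum_sum_type]
  simp only [Sum.elim_inl, Sum.elim_inr, Fin.sum_univ_two]
  rw [qf_add, qf_hyp_sum Q h, qf_lin2, hx, hy, hxy]
  have h0 : polar Q (∑ i, v (Sum.inl (Sum.inl i)) • e i + ∑ i, v (Sum.inl (Sum.inr i)) • f i)
      (v (Sum.inr 0) • u 0 + v (Sum.inr 1) • u 1) = 0 := by
    rw [polar_comm, polar_add_right]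
    have hA : ∀ (c : Fin k → F) (g : Fin k → V), (∀ i j, polar Q (g i) (u j) = 0) →
        polar Q (v (Sum.inr 0) • u 0 + v (Sum.inr 1) • u 1) (∑ i, c i • g i) = 0 := by
      intro c g hg
      have h1 : polar Q (v (Sum.inr 0) • u 0 + v (Sum.inr 1) • u 1) (∑ i, c i • g i) =
          ∑ i, polar Q (v (Sum.inr 0) • u 0 + v (Sum.inr 1) • u 1) (c i • g i) := by
        rw [← polarBilin_apply_apply, map_sum]
        rfl
      rw [h1]
      apply Finset.sum_eq_zero
      intro i _
      rw [polar_smul_right, polar_add_left, polar_smul_left, polar_smul_left,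
        polar_comm Q (u 0) (g i), polar_comm Q (u 1) (g i), hg i 0, hg i 1]
      simp
    rw [hA _ e (fun i j => (horth i j).1), hA _ f (fun i j => (horth i j).2), add_zero]
  rw [h0]
  unfold Cfsg.quadFormMinus
  ring

end Hyp

/-- transfer of a group of `F`-linear isometries of a quadratic form on `K^n` to the isometry group
of a quadratic function on `F^ι'` along a linear equivalence -/
theorem exists_isom_hom {F K : Type*} [Field F] [Field K] [Algebra F K] {n : Type} [Fintype n]
    [DecidableEq n] {ι' : Type} [Fintype ι'] [DecidableEq ι'] {H : Type*} [Group H]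
    (ψ : H →* Matrix n n K) (hψ : Function.Injective ψ) (Q : QuadraticForm F (n → K))
    (hinv : ∀ g u, Q ((ψ g).mulVec u) = Q u) (Q' : (ι' → F) → F)
    (T : (ι' → F) ≃ₗ[F] (n → K)) (hT : ∀ v, Q (T v) = Q' v) :
    ∃ φ : H →* ↥(Cfsg.isometryGroup F Q'), Function.Injective φ := by
  let L : H → ((n → K) →ₗ[F] (n → K)) := fun g => (Matrix.toLin' (ψ g)).restrictScalars F
  have hL : ∀ g u, L g u = (ψ g).mulVec u := fun g u => rfl
  have hL1 : L 1 = LinearMap.id := by
    apply LinearMap.ext
    intro u
    rw [hL, map_one, Matrix.one_mulVec]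
    rfl
  have hLmul : ∀ g h, L (g * h) = L g ∘ₗ L h := by
    intro g h
    apply LinearMap.ext
    intro u
    rw [LinearMap.comp_apply, hL, hL, hL, map_mul, Matrix.mulVec_mulVec]
  let ρ : H →* Matrix ι' ι' F :=
    { toFun := fun g => LinearMap.toMatrix' ((T.symm : (n → K) →ₗ[F] (ι' → F)) ∘ₗ L g ∘ₗ
        (T : (ι' → F) →ₗ[F] (n → K)))
      map_one' := by
        rw [hL1, LinearMap.id_comp, LinearEquiv.symm_comp, LinearMap.toMatrix'_id]
      map_mul' := by
        intro g h
        rw [← LinearMap.toMatrix'_comp, hLmul]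
        congr 1
        apply LinearMap.ext
        intro u
        simp }
  have hρ : ∀ g u, (ρ g).mulVec u = T.symm (L g (T u)) := by
    intro g u
    show (LinearMap.toMatrix' _).mulVec u = _
    rw [LinearMap.toMatrix'_mulVec]
    rfl
  have hmem : ∀ g, ρ.toHomUnits g ∈ Cfsg.isometryGroup F Q' := by
    intro g
    rw [mem_isometryGroup_iff]
    intro u
    rw [MonoidHom.coe_toHomUnits, hρ, ← hT, LinearEquiv.apply_symm_apply, hL, hinv, hT]
  refine ⟨ρ.toHomUnits.codRestrict _ hmem, ?_⟩
  intro g g' hgg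
  have h1 : ρ.toHomUnits g = ρ.toHomUnits g' := congrArg Subtype.val hgg
  have h2 : ρ g = ρ g' := by
    have h5 := congrArg (fun x : (Matrix ι' ι' F)ˣ => (x : Matrix ι' ι' F)) h1
    simpa only [MonoidHom.coe_toHomUnits] using h5
  apply hψ
  apply Matrix.toLin'.injective
  apply LinearMap.ext
  intro u
  rw [Matrix.toLin'_apply, Matrix.toLin'_apply]
  have h3 := hρ g (T.symm u)
  have h4 := hρ g' (T.symm u)
  rw [h2, h4, LinearEquiv.apply_symm_apply, hL, hL] at h3
  exact (T.symm.injective h3).symm

end Cfsg.Agent.Helper16
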