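import Cfsg.Agent.Helper16.NDMax4
import Cfsg.Agent.Helper16.QuadHyp

set_option autoImplicit false
open Cfsg

namespace Cfsg.Agent.Helper16

open QuadraticMap Module

section AntiIsom

universe u v

variable {F : Type u} [Field F] {V : Type v} [AddCommGroup V] [Module F V]

/-- a non-degenerate quadratic space of even dimension over a finite field has an anti-isometry -/
theorem exists_anti_isom [Finite F] [FiniteDimensional F V] (Q : QuadraticForm F V)
    (hQ : (polarBilin Q).Nondegenerate) {k : ℕ} (hV : finrank F V = 2 * k + 2) :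
    ∃ J : V →ₗ[F] V, ∀ v, Q (J v) = -Q v := by
  obtain ⟨e, f, u, hfam, hP, horth⟩ := exists_witt_decomp (F := F) (r := 2) (d₀ := 2) (by norm_num)
    (fun q p => (q 0 = 0 ∧ q 1 = 0 ∧ p 0 1 = 1) ∨
      (q 0 = 1 ∧ p 0 1 = 1 ∧ ∀ t : F, t ^ 2 + t + q 1 ≠ 0))
    (fun V _ _ _ Q hQ hV => exists_binary_type Q hQ hV) k V Q hQ hV
  obtain ⟨u', b, hx, hxy, hy, hd, horth'⟩ : ∃ (u' : Fin 2 → V) (b : F), Q (u' 0) = 1 ∧
      polar Q (u' 0) (u' 1) = 1 ∧ Q (u' 1) = b ∧ 4 * b - 1 ^ 2 ≠ 0 ∧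
      ∀ i j, polar Q (e i) (u' j) = 0 ∧ polar Q (f i) (u' j) = 0 := by
    rcases hP with ⟨h0, h1, h01⟩ | ⟨h0, h01, hζ⟩
    · have h0 : Q (u 0) = 0 := h0
      have h1 : Q (u 1) = 0 := h1
      have h01 : polar Q (u 0) (u 1) = 1 := h01
      refine ⟨![u 0 + u 1, u 1], 0, ?_, ?_, ?_, ?_, ?_⟩
      · show Q (u 0 + u 1) = 1
        rw [qf_add, h0, h1, h01]
        ring
      · show polar Q (u 0 + u 1) (u 1) = 1
        rw [polar_add_left, h01, qf_polar_self, h1]
        ring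
      · exact h1
      · norm_num
      · intro i j
        fin_cases j
        · show polar Q (e i) (u 0 + u 1) = 0 ∧ polar Q (f i) (u 0 + u 1) = 0
          rw [polar_add_right, polar_add_right, (horth i 0).1, (horth i 1).1, (horth i 0).2,
            (horth i 1).2]
          simp
        · exact horth i 1
    · refine ⟨u, Q (u 1), h0, h01, rfl, ?_, horth⟩
      have h4 := four_mul_sub_one_ne_zero _ hζ
      simpa using h4
  obtain ⟨T, hT⟩ := exists_equiv_minus Q hfam u' 1 b hx hxy hy hd horth' hV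
  obtain ⟨α, β, hαβ⟩ : ∃ α β : F, α ^ 2 + α * β + b * β ^ 2 = -1 := by
    by_cases h2 : (2 : F) = 0
    · exact ⟨1, 0, by linear_combination h2⟩
    · have h4 : (4 : F) ≠ 0 := by
        have : (4 : F) = 2 * 2 := by norm_num
        rw [this]
        exact mul_ne_zero h2 h2
      have hd' : 4 * b - 1 ≠ 0 := by simpa using hd
      obtain ⟨x, y, hxy⟩ := exists_sum_sq h2 1 ((4 * b - 1) / 4) 1 one_ne_zero
        (div_ne_zero hd' h4)
      refine ⟨x - y / 2, y, ?_⟩
      field_simp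
      field_simp at hxy
      linear_combination hxy
  let J₀ : ((Fin k ⊕ Fin k) ⊕ Fin 2 → F) →ₗ[F] ((Fin k ⊕ Fin k) ⊕ Fin 2 → F) :=
    LinearMap.pi (fun idx => match idx with
      | Sum.inl (Sum.inl i) => LinearMap.proj (Sum.inl (Sum.inl i))
      | Sum.inl (Sum.inr i) => -LinearMap.proj (Sum.inl (Sum.inr i))
      | Sum.inr j => if j = 0 then α • LinearMap.proj (Sum.inr 0) - (b * β) • LinearMap.proj (Sum.inr 1)
          else β • LinearMap.proj (Sum.inr 0) + (α + β) • LinearMap.proj (Sum.inr 1))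
  refine ⟨T.toLinearMap ∘ₗ J₀ ∘ₗ T.symm.toLinearMap, fun v => ?_⟩
  obtain ⟨c, rfl⟩ := T.surjective v
  rw [LinearMap.comp_apply, LinearMap.comp_apply, LinearEquiv.coe_coe, LinearEquiv.coe_coe,
    LinearEquiv.symm_apply_apply, hT, hT]
  unfold Cfsg.quadFormMinus
  have e1 : ∀ i, J₀ c (Sum.inl (Sum.inl i)) = c (Sum.inl (Sum.inl i)) := fun i => rfl
  have e2 : ∀ i, J₀ c (Sum.inl (Sum.inr i)) = -c (Sum.inl (Sum.inr i)) := fun i => rfl
  have e3 : J₀ c (Sum.inr 0) = α * c (Sum.inr 0) - b * β * c (Sum.inr 1) := rfl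
  have e4 : J₀ c (Sum.inr 1) = β * c (Sum.inr 0) + (α + β) * c (Sum.inr 1) := rfl
  rw [e3, e4]
  simp only [e1, e2, mul_neg, Finset.sum_neg_distrib]
  linear_combination (c (Sum.inr 0) ^ 2 + c (Sum.inr 0) * c (Sum.inr 1) +
    b * c (Sum.inr 1) ^ 2) * hαβ

end AntiIsom

section NDMax5
variable {ι : Type} [Fintype ι] [DecidableEq ι] {F : Type*} [Field F]

/-- in a space without totally singular subspaces of dimension `dim W`, no isometry maps the
even-dimensional non-degenerate subspace `W` into its orthogonal complement -/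
theorem no_swap_of_minus [Fintype F] (Q : QuadraticForm F (ι → F)) (W : Submodule F (ι → F))
    (hW : ND Q W) {k : ℕ} (hWk : finrank F W = 2 * k + 2)
    (hminus : ¬ ∃ T : Submodule F (ι → F), TS Q T ∧ finrank F T = finrank F W)
    (g : ↥(isometryGroup F ⇑Q)) : ∃ x ∈ W, act ⇑Q g x ∉ orth Q W := by
  by_contra hcon
  push Not at hcon
  have hnd : (polarBilin (Q.comp W.subtype)).Nondegenerate := by
    apply ((polarBilin_isSymm _).isRefl.nondegenerate_iff_separatingLeft).2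
    intro x hx
    have hx' : (x : ι → F) ∈ W ⊓ orth Q W := by
      refine Submodule.mem_inf.2 ⟨x.2, ?_⟩
      rw [mem_orth]
      intro y hy
      have h1 := hx ⟨y, hy⟩
      rw [polar_comm]
      exact h1
    rw [hW.inf_orth, Submodule.mem_bot] at hx'
    exact Subtype.ext hx'
  obtain ⟨J, hJ⟩ := exists_anti_isom (Q.comp W.subtype) hnd hWk
  obtain ⟨φ, hφdef⟩ : ∃ φ : W →ₗ[F] (ι → F), φ = W.subtype +
      (Matrix.mulVecLin ((g : GL ι F) : Matrix ι ι F)) ∘ₗ W.subtype ∘ₗ J := ⟨_, rfl⟩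
  have hφ : ∀ w : W, φ w = (w : ι → F) + act ⇑Q g ((J w : W) : ι → F) := by
    intro w
    rw [hφdef]
    rfl
  have hQJ : ∀ w : W, Q ((J w : W) : ι → F) = -Q (w : ι → F) := fun w => hJ w
  apply hminus
  refine ⟨LinearMap.range φ, ?_, ?_⟩
  · intro x hx
    obtain ⟨w, rfl⟩ := LinearMap.mem_range.1 hx
    rw [hφ, qf_add, act_Q ⇑Q g, hQJ, (mem_orth Q W _).1 (hcon _ (J w).2) w w.2]
    ring
  · apply LinearMap.finrank_range_of_inj
    intro w w' hww'
    have h1 : φ (w - w') = 0 := by rw [map_sub, hww', sub_self]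
    rw [hφ] at h1
    have h2 : ((w - w' : W) : ι → F) ∈ W ⊓ orth Q W := by
      refine Submodule.mem_inf.2 ⟨(w - w').2, ?_⟩
      have h3 : ((w - w' : W) : ι → F) = -act ⇑Q g ((J (w - w') : W) : ι → F) :=
        eq_neg_of_add_eq_zero_left h1
      rw [h3]
      exact (orth Q W).neg_mem (hcon _ (J (w - w')).2)
    rw [hW.inf_orth, Submodule.mem_bot] at h2
    have h4 : w - w' = 0 := Subtype.ext h2
    exact sub_eq_zero.1 h4

end NDMax5

end Cfsg.Agent.Helper16
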