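import Cfsg.Agent.Helper16.NDMax5

set_option autoImplicit false
open Cfsg

namespace Cfsg.Agent.Helper16

open QuadraticMap Module

section NDMax6
variable {ι : Type} [Fintype ι] [DecidableEq ι] {F : Type*} [Field F]

/-- the stabiliser in `Ω` of a decomposition into two non-isometric non-degenerate halves is
maximal -/
theorem halves_max [Fintype F] (hn : 13 ≤ Fintype.card ι) (Q : QuadraticForm F (ι → F))
    (hQ : (polarBilin Q).Nondegenerate) (k : ℕ) (hk : 2 * k = Fintype.card ι)
    (D : Fin 2 → Submodule F (ι → F))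
    (hD : Geo.IsNondegenerateMDecomposition (polar ⇑Q) k D)
    (hni : ¬ Geo.AreIsometricFor ⇑Q (D 0) (D 1)) :
    Geo.IsMaximalIn (Geo.omegaGL ⇑Q) (Geo.decompositionStabilizer D ⊓ Geo.omegaGL ⇑Q) := by
  have hX : ND Q (D 0) := nd_of_nondegOn Q _ (hD.nondegenerate 0)
  have hfin0 : finrank F (D 0) = k := hD.decomp.finrank_eq 0
  have hfin1 : finrank F (D 1) = k := hD.decomp.finrank_eq 1
  have hD1 : D 1 = orth Q (D 0) := by
    apply Submodule.eq_of_le_of_finrank_eq
    · intro y hy
      rw [mem_orth]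
      intro x hx
      exact hD.orthogonal 0 1 (by decide) x hx y hy
    · rw [finrank_orth Q hQ, Module.finrank_fintype_fun_eq_card, hfin0, hfin1]
      omega
  have hiso : ∀ g : ↥(isometryGroup F ⇑Q), ∃ x ∈ D 0, act ⇑Q g x ∉ orth Q (D 0) := by
    intro g
    by_contra hcon
    push Not at hcon
    apply hni
    rw [← hD1] at hcon
    have hinj : Function.Injective
        ((Matrix.mulVecLin ((g : GL ι F) : Matrix ι ι F)).restrict hcon) := by
      intro x y hxy
      have h2 : act ⇑Q g (x : ι → F) = act ⇑Q g (y : ι → F) := congrArg Subtype.val hxy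
      have h3 := congrArg (act ⇑Q g⁻¹) h2
      rw [act_inv_act, act_inv_act] at h3
      exact Subtype.ext h3
    have hbij : Function.Bijective
        ((Matrix.mulVecLin ((g : GL ι F) : Matrix ι ι F)).restrict hcon) :=
      ⟨hinj, (LinearMap.injective_iff_surjective_of_finrank_eq_finrank
        (hfin0.trans hfin1.symm)).1 hinj⟩
    exact ⟨LinearEquiv.ofBijective _ hbij, fun w => act_Q ⇑Q g w⟩
  have hEq : Geo.decompositionStabilizer D ⊓ Geo.omegaGL ⇑Q =
      Geo.subspaceStabilizer (D 0) ⊓ Geo.omegaGL ⇑Q := by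
    ext kk
    constructor
    · rintro ⟨⟨σ, hσ⟩, h2⟩
      obtain ⟨g, hg, rfl⟩ := exists_of_mem_omegaGL ⇑Q kk h2
      refine ⟨?_, h2⟩
      have h0 := hσ 0
      obtain h | h : σ 0 = 0 ∨ σ 0 = 1 := by
        generalize σ 0 = j
        fin_cases j <;> simp
      · rw [h] at h0
        exact mem_stab_of_mapG_eq _ _ h0
      · exfalso
        rw [h] at h0
        obtain ⟨x, hx, hne⟩ := hiso g
        apply hne
        rw [← hD1, ← h0]
        exact Submodule.mem_map_of_mem hx
    · rintro ⟨h1, h2⟩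
      obtain ⟨g, hg, rfl⟩ := exists_of_mem_omegaGL ⇑Q kk h2
      refine ⟨⟨1, fun i => ?_⟩, h2⟩
      fin_cases i
      · exact mapG_eq_of_mem_stab _ _ h1
      · show (D 1).map _ = D 1
        rw [hD1]
        exact mapG_eq_of_mem_stab _ _ ((stab_orth_iff Q hQ g (D 0)).2 h1)
  rw [hEq]
  apply nd_max_core (by omega) Q hQ (D 0) hX (by omega) ?_ hiso ?_
  · rw [← hD1]
    intro h
    rw [h, finrank_bot] at hfin1
    omega
  · rintro ⟨-, h2, -⟩
    rw [← hD1, hfin1] at h2
    omega

end NDMax6

end Cfsg.Agent.Helper16
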