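import Mathlib

set_option autoImplicit false
set_option linter.unusedSectionVars false
set_option linter.style.haveILetI false
set_option linter.unusedSimpArgs false
set_option linter.unusedVariables false

namespace Cfsg.Agent.Helper16

noncomputable section NormA

variable {S : Type*} [CommRing S]

/-- nilpotent lifting for the norm map of an involution with a trace-one element -/
theorem norm_one_add_nilp (σ : S →+* S) (hσ : ∀ x, σ (σ x) = x) (l : S) (hl : l + σ l = 1) :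
    ∀ k : ℕ, ∀ ν : S, ν ^ k = 0 → σ ν = ν → ∃ c : S, σ c * c = 1 + ν := by
  intro k
  induction k using Nat.strong_induction_on with
  | _ k ih =>
    intro ν hν hσν
    rcases Nat.lt_or_ge k 2 with hk | hk
    · have h0 : ν = 0 := by
        interval_cases k
        · have h1 : (1 : S) = 0 := by simpa using hν
          calc ν = ν * 1 := (mul_one ν).symm
            _ = 0 := by rw [h1, mul_zero]
        · simpa using hν
      exact ⟨1, by rw [h0]; simp⟩
    · obtain ⟨μ, hμ⟩ : ∃ μ, μ = σ l * l := ⟨_, rfl⟩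
      have hσμ : σ μ = μ := by rw [hμ, map_mul, hσ, mul_comm]
      have hw : σ (1 + l * ν) * (1 + l * ν) = 1 + ν + μ * ν ^ 2 := by
        rw [map_add, map_one, map_mul, hσν, hμ]
        linear_combination ν * hl
      have hnil : IsNilpotent (ν + μ * ν ^ 2) := ⟨k, by
        have : ν + μ * ν ^ 2 = ν * (1 + μ * ν) := by ring
        rw [this, mul_pow, hν, zero_mul]⟩
      obtain ⟨u, hu⟩ := hnil.isUnit_one_add
      obtain ⟨w, hw'⟩ : ∃ w, w = (u : S) := ⟨_, rfl⟩
      obtain ⟨w', hw''⟩ : ∃ w', w' = ((u⁻¹ : Sˣ) : S) := ⟨_, rfl⟩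
      have hww' : w * w' = 1 := by rw [hw', hw'']; exact u.mul_inv
      have hwe : w = 1 + ν + μ * ν ^ 2 := by rw [hw', hu]; ring
      have hσw : σ w = w := by
        rw [hwe, map_add, map_add, map_one, map_mul, map_pow, hσν, hσμ]
      have hσw' : σ w' = w' := by
        have h1 : σ w' * w = 1 := by rw [← hσw, ← map_mul, mul_comm, hww', map_one]
        calc σ w' = σ w' * (w * w') := by rw [hww', mul_one]
          _ = (σ w' * w) * w' := by ring
          _ = w' := by rw [h1, one_mul]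
      obtain ⟨ν', hν'⟩ : ∃ ν', ν' = -(w' * μ * ν ^ 2) := ⟨_, rfl⟩
      have hν'k : ν' ^ ((k + 1) / 2) = 0 := by
        rw [hν', neg_pow, mul_pow, ← pow_mul]
        have : ν ^ (2 * ((k + 1) / 2)) = 0 := by
          have hle : k ≤ 2 * ((k + 1) / 2) := by omega
          obtain ⟨d, hd⟩ := Nat.exists_eq_add_of_le hle
          rw [hd, pow_add, hν, zero_mul]
        rw [this, mul_zero, mul_zero]
      have hσν' : σ ν' = ν' := by
        rw [hν', map_neg, map_mul, map_mul, map_pow, hσw', hσμ, hσν]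
      obtain ⟨c₂, hc₂⟩ := ih ((k + 1) / 2) (by omega) ν' hν'k hσν'
      refine ⟨(1 + l * ν) * c₂, ?_⟩
      rw [map_mul]
      calc σ (1 + l * ν) * σ c₂ * ((1 + l * ν) * c₂)
          = (σ (1 + l * ν) * (1 + l * ν)) * (σ c₂ * c₂) := by ring
        _ = w * (1 + ν') := by rw [hw, hc₂, hwe]
        _ = w - (w * w') * μ * ν ^ 2 := by rw [hν']; ring
        _ = 1 + ν := by rw [hww', hwe]; ring

/-- a binary quadratic form `x² - δ y²` over a finite reduced ring with `2` invertible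
represents every unit -/
theorem quad_rep_reduced (E : Type*) [CommRing E] [Finite E] [IsReduced E] (δ h : E)
    (hδ : IsUnit δ) (h2 : IsUnit (2 : E)) :
    ∃ x y : E, x ^ 2 - δ * y ^ 2 = h := by
  classical
  have key : ∀ I : MaximalSpectrum E, ∃ a b : E ⧸ I.asIdeal,
      a ^ 2 - Ideal.Quotient.mk I.asIdeal δ * b ^ 2 = Ideal.Quotient.mk I.asIdeal h := by
    intro I
    haveI := I.isMaximal
    letI : Field (E ⧸ I.asIdeal) := Ideal.Quotient.field I.asIdeal
    haveI : Finite (E ⧸ I.asIdeal) :=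
      Finite.of_surjective (Ideal.Quotient.mk I.asIdeal) Ideal.Quotient.mk_surjective
    haveI : Fintype (E ⧸ I.asIdeal) := Fintype.ofFinite _
    have hδ0 : Ideal.Quotient.mk I.asIdeal δ ≠ 0 := (hδ.map (Ideal.Quotient.mk I.asIdeal)).ne_zero
    have h20 : (2 : E ⧸ I.asIdeal) ≠ 0 := by
      have h3 := (h2.map (Ideal.Quotient.mk I.asIdeal)).ne_zero
      rwa [map_ofNat] at h3
    have hcard : Fintype.card (E ⧸ I.asIdeal) % 2 = 1 := by
      rcases Nat.mod_two_eq_zero_or_one (Fintype.card (E ⧸ I.asIdeal)) with he | ho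
      · exfalso
        have hc2 := FiniteField.even_card_iff_char_two.mpr he
        apply h20
        have := CharP.cast_eq_zero (E ⧸ I.asIdeal) (ringChar (E ⧸ I.asIdeal))
        rw [hc2] at this
        exact_mod_cast this
      · exact ho
    have hf : (Polynomial.X ^ 2 - Polynomial.C (Ideal.Quotient.mk I.asIdeal h) :
        Polynomial (E ⧸ I.asIdeal)).degree = 2 :=
      Polynomial.degree_X_pow_sub_C (by norm_num) _
    have hg : (Polynomial.C (-(Ideal.Quotient.mk I.asIdeal δ)) * Polynomial.X ^ 2 :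
        Polynomial (E ⧸ I.asIdeal)).degree = 2 := by
      rw [Polynomial.degree_C_mul_X_pow 2 (neg_ne_zero.mpr hδ0)]; rfl
    obtain ⟨a, b, hab⟩ := FiniteField.exists_root_sum_quadratic hf hg hcard
    refine ⟨a, b, ?_⟩
    simp only [Polynomial.eval_sub, Polynomial.eval_pow, Polynomial.eval_X, Polynomial.eval_C,
      Polynomial.eval_mul] at hab
    linear_combination hab
  choose a b hab using key
  refine ⟨(IsArtinianRing.equivPi E).symm a, (IsArtinianRing.equivPi E).symm b, ?_⟩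
  apply (IsArtinianRing.equivPi E).injective
  funext I
  rw [map_sub, map_mul, map_pow, map_pow, AlgEquiv.apply_symm_apply, AlgEquiv.apply_symm_apply]
  simp only [Pi.sub_apply, Pi.mul_apply, Pi.pow_apply, IsArtinianRing.equivPi_apply]
  exact hab I

/-- norm lemma, semisimple 2-part in odd characteristic -/
theorem norm_two_power_odd [Finite S] (σ : S →+* S) (p : ℕ) [Fact p.Prime] [CharP S p]
    (hp : p ≠ 2) (θ : S) (hθ : σ θ = -θ) (hθu : IsUnit (θ ^ 2)) (e : ℕ) (he : 1 ≤ e)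
    (hθe : (θ ^ 2) ^ (p ^ e) = θ ^ 2)
    (t : S) (b : ℕ) (ht : t ^ (2 ^ b) = 1) (hσt : σ t = t) : ∃ c : S, σ c * c = t := by
  classical
  have hpp : p.Prime := Fact.out
  obtain ⟨d, hd⟩ : ∃ d, d = e * (2 ^ b).totient := ⟨_, rfl⟩
  have hd1 : 1 ≤ d := by
    rw [hd]; exact Nat.mul_pos he (Nat.totient_pos.mpr (by positivity))
  obtain ⟨M, hM⟩ : ∃ M, M = p ^ d := ⟨_, rfl⟩
  have hM2 : 2 ≤ M := by
    rw [hM]
    calc 2 ≤ p := hpp.two_le
      _ = p ^ 1 := (pow_one p).symm
      _ ≤ p ^ d := Nat.pow_le_pow_right hpp.pos hd1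
  have hδM : (θ ^ 2) ^ M = θ ^ 2 := by
    have : ∀ j : ℕ, (θ ^ 2) ^ (p ^ (e * j)) = θ ^ 2 := by
      intro j
      induction j with
      | zero => simp
      | succ j ih => rw [Nat.mul_succ, pow_add, pow_mul, ih, hθe]
    rw [hM, hd]; exact this _
  have htM : t ^ M = t := by
    have hcop : Nat.Coprime (p ^ e) (2 ^ b) := by
      apply Nat.Coprime.pow
      exact (Nat.coprime_primes hpp Nat.prime_two).mpr hp
    have hmod : M ≡ 1 [MOD 2 ^ b] := by
      rw [hM, hd, pow_mul]; exact Nat.ModEq.pow_totient hcop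
    have hdvd : 2 ^ b ∣ M - 1 := (Nat.modEq_iff_dvd' (by omega)).mp hmod.symm
    obtain ⟨j, hj⟩ := hdvd
    have hMj : M = 2 ^ b * j + 1 := by omega
    rw [hMj, pow_succ, pow_mul, ht, one_pow, one_mul]
  let E : Subring S :=
    RingHom.eqLocus σ (RingHom.id S) ⊓ RingHom.eqLocus (iterateFrobenius S p d) (RingHom.id S)
  have hE : ∀ x : S, x ∈ E ↔ σ x = x ∧ x ^ M = x := by
    intro x
    simp only [E, Subring.mem_inf, RingHom.mem_eqLocus, RingHom.id_apply, iterateFrobenius_def, hM]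
  haveI : IsReduced E := by
    refine ⟨fun x hx => ?_⟩
    obtain ⟨k, hk⟩ := hx
    have hxM : (x : S) ^ M = x := ((hE x).mp x.2).2
    have hpow : ∀ j : ℕ, (x : S) ^ (M ^ j) = x := by
      intro j
      induction j with
      | zero => simp
      | succ j ih => rw [pow_succ, pow_mul, ih, hxM]
    have hk' : (x : S) ^ k = 0 := by
      have := congrArg (Subtype.val) hk
      simpa using this
    have hle : k ≤ M ^ k := (Nat.lt_pow_self (by omega)).le
    obtain ⟨r, hr⟩ := Nat.exists_eq_add_of_le hle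
    apply Subtype.ext
    have := hpow k
    rw [hr, pow_add, hk', zero_mul] at this
    exact this.symm
  have htE : t ∈ E := (hE t).mpr ⟨hσt, htM⟩
  have hδE : θ ^ 2 ∈ E := (hE _).mpr ⟨by rw [map_pow, hθ]; ring, hδM⟩
  have hδu : IsUnit (⟨θ ^ 2, hδE⟩ : E) := by
    obtain ⟨u, hu⟩ := hθu
    have h1 : (θ ^ 2) ^ (M - 1) = 1 := by
      have h2 : (θ ^ 2) ^ (M - 1) * θ ^ 2 = θ ^ 2 := by
        rw [← pow_succ, Nat.sub_add_cancel (by omega), hδM]
      calc (θ ^ 2) ^ (M - 1) = (θ ^ 2) ^ (M - 1) * (θ ^ 2 * ((u⁻¹ : Sˣ) : S)) := by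
            rw [← hu, Units.mul_inv, mul_one]
        _ = ((θ ^ 2) ^ (M - 1) * θ ^ 2) * ((u⁻¹ : Sˣ) : S) := by ring
        _ = 1 := by rw [h2, ← hu, Units.mul_inv]
    refine IsUnit.of_mul_eq_one (⟨(θ ^ 2) ^ (M - 2), Subring.pow_mem E hδE _⟩ : E) ?_
    apply Subtype.ext
    show θ ^ 2 * (θ ^ 2) ^ (M - 2) = 1
    rw [← pow_succ', show M - 2 + 1 = M - 1 by omega, h1]
  have h2u : IsUnit (2 : E) := by
    obtain ⟨r, hr⟩ := hpp.odd_of_ne_two hp
    refine IsUnit.of_mul_eq_one ((r + 1 : ℕ) : E) ?_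
    apply Subtype.ext
    have hp0 : ((p : ℕ) : S) = 0 := CharP.cast_eq_zero S p
    have h3 : ((2 * (r + 1) : ℕ) : S) = ((p + 1 : ℕ) : S) := by
      rw [hr]; congr 1
    rw [Nat.cast_mul, Nat.cast_add p 1, hp0] at h3
    show (2 : S) * ((r + 1 : ℕ) : S) = 1
    simpa using h3
  obtain ⟨x, y, hxy⟩ := quad_rep_reduced E ⟨θ ^ 2, hδE⟩ ⟨t, htE⟩ hδu h2u
  refine ⟨x + θ * y, ?_⟩
  have hx := ((hE x).mp x.2).1
  have hy := ((hE y).mp y.2).1
  have hxy' : (x : S) ^ 2 - θ ^ 2 * (y : S) ^ 2 = t := by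
    have := congrArg Subtype.val hxy
    simpa using this
  rw [map_add, map_mul, hx, hy, hθ]
  linear_combination hxy'

/-- **norm lemma**: in a finite commutative ring of prime characteristic with an involution
admitting a trace-one element and a skew unit, every fixed unit is a norm -/
theorem norm_surj [Finite S] (σ : S →+* S) (hσ : ∀ x, σ (σ x) = x) (p : ℕ) [Fact p.Prime]
    [CharP S p] (l : S) (hl : l + σ l = 1)
    (θ : S) (hθ : σ θ = -θ) (hθu : IsUnit (θ ^ 2)) (e : ℕ) (he : 1 ≤ e)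
    (hθe : (θ ^ 2) ^ (p ^ e) = θ ^ 2)
    (h : S) (hh : IsUnit h) (hσh : σ h = h) : ∃ c : S, σ c * c = h := by
  obtain ⟨u, hu⟩ := hh
  have hm0 : orderOf u ≠ 0 := (orderOf_pos u).ne'
  obtain ⟨b, m', hm'odd, hm⟩ := Nat.exists_eq_two_pow_mul_odd hm0
  have hpow : h ^ (2 ^ b * m') = 1 := by
    rw [← hm, ← hu, ← Units.val_pow_eq_pow_val, pow_orderOf_eq_one, Units.val_one]
  obtain ⟨r, hr⟩ := hm'odd
  have h2b : 1 ≤ 2 ^ b := Nat.one_le_two_pow
  obtain ⟨t, ht⟩ : ∃ t, t = h ^ (m' * (2 ^ b - 1)) := ⟨_, rfl⟩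
  have htt : t ^ (2 ^ b) = 1 := by
    rw [ht, ← pow_mul, show m' * (2 ^ b - 1) * 2 ^ b = (2 ^ b * m') * (2 ^ b - 1) by ring,
      pow_mul, hpow, one_pow]
  have hσt : σ t = t := by rw [ht, map_pow, hσh]
  have hdec : h = (σ (h ^ (r + 1)) * h ^ (r + 1)) * t := by
    rw [map_pow, hσh, ht, ← pow_add, ← pow_add]
    have : r + 1 + (r + 1) + m' * (2 ^ b - 1) = 2 ^ b * m' + 1 := by
      obtain ⟨s, hs⟩ := Nat.exists_eq_add_of_le h2b
      rw [hs, hr, Nat.add_sub_cancel_left]; ring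
    rw [this, pow_succ, hpow, one_mul]
  have hc : ∃ c, σ c * c = t := by
    by_cases hp : p = 2
    · subst hp
      have hnil : (t - 1) ^ (2 ^ b) = 0 := by
        rw [sub_pow_char_pow, htt, one_pow, sub_self]
      obtain ⟨c, hc⟩ := norm_one_add_nilp σ hσ l hl (2 ^ b) (t - 1) hnil
        (by rw [map_sub, map_one, hσt])
      exact ⟨c, by rw [hc]; ring⟩
    · exact norm_two_power_odd σ p hp θ hθ hθu e he hθe t b htt hσt
  obtain ⟨c, hc⟩ := hc
  refine ⟨h ^ (r + 1) * c, ?_⟩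
  rw [map_mul]
  calc σ (h ^ (r + 1)) * σ c * (h ^ (r + 1) * c)
      = (σ (h ^ (r + 1)) * h ^ (r + 1)) * (σ c * c) := by ring
    _ = h := by rw [hc, ← hdec]

end NormA

end Cfsg.Agent.Helper16
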