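import Mathlib
import Cfsg.Prelude.Def_Classical
import Cfsg.Prelude.Def_ClassicalGeometry
import Cfsg.Prelude.Def_LieClassical
import Cfsg.Agent.Helper3.Unitary

set_option autoImplicit false
set_option linter.unusedSectionVars false
set_option linter.style.haveILetI false
set_option linter.unusedSimpArgs false
set_option linter.unusedVariables false

namespace Cfsg.Agent.Helper16

open Cfsg Matrix Cfsg.Agent.Helper3

noncomputable section UnitA

variable {F : Type*} [Field F] [Fintype F] {q : ℕ}

/-- the Frobenius involution package of a field with `q ^ 2` elements -/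
structure Frob (F : Type*) [Field F] (q : ℕ) where
  φ : F →+* F
  hφ : ∀ x, φ x = x ^ q
  hφ2 : ∀ x, φ (φ x) = x

theorem exists_Frob (hF : Fintype.card F = q ^ 2) : Nonempty (Frob F q) := by
  obtain ⟨φ, h1, h2⟩ := exists_frob hF
  exact ⟨⟨φ, h1, h2⟩⟩

theorem uherm_eq {n : ℕ} (Φ : Frob F q) (u v : Fin n → F) :
    hermForm n F q u v = ∑ i, u i * Φ.φ (v i) := herm_phi Φ.φ Φ.hφ u v

theorem uherm_add_left {n : ℕ} (u u' v : Fin n → F) :
    hermForm n F q (u + u') v = hermForm n F q u v + hermForm n F q u' v := by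
  unfold hermForm
  simp only [Pi.add_apply, add_mul, Finset.sum_add_distrib]

theorem uherm_add_right {n : ℕ} (Φ : Frob F q) (u v v' : Fin n → F) :
    hermForm n F q u (v + v') = hermForm n F q u v + hermForm n F q u v' := by
  rw [uherm_eq Φ, uherm_eq Φ, uherm_eq Φ]
  simp only [Pi.add_apply, map_add, mul_add, Finset.sum_add_distrib]

theorem uherm_smul_left {n : ℕ} (s : F) (u v : Fin n → F) :
    hermForm n F q (s • u) v = s * hermForm n F q u v := herm_smul_left u v s

theorem uherm_smul_right {n : ℕ} (Φ : Frob F q) (s : F) (u v : Fin n → F) :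
    hermForm n F q u (s • v) = Φ.φ s * hermForm n F q u v := by
  rw [herm_smul_right, Φ.hφ]

theorem uherm_zero_left {n : ℕ} (v : Fin n → F) : hermForm n F q 0 v = 0 := by
  unfold hermForm
  simp

theorem uherm_zero_right {n : ℕ} (Φ : Frob F q) (u : Fin n → F) : hermForm n F q u 0 = 0 := by
  rw [uherm_eq Φ]
  simp

theorem uherm_neg_left {n : ℕ} (u v : Fin n → F) :
    hermForm n F q (-u) v = -hermForm n F q u v := by
  unfold hermForm
  simp only [Pi.neg_apply, neg_mul, Finset.sum_neg_distrib]

theorem uherm_neg_right {n : ℕ} (Φ : Frob F q) (u v : Fin n → F) :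
    hermForm n F q u (-v) = -hermForm n F q u v := by
  rw [uherm_eq Φ, uherm_eq Φ]
  simp only [Pi.neg_apply, map_neg, mul_neg, Finset.sum_neg_distrib]

theorem uherm_sub_left {n : ℕ} (u u' v : Fin n → F) :
    hermForm n F q (u - u') v = hermForm n F q u v - hermForm n F q u' v := by
  rw [sub_eq_add_neg, uherm_add_left, uherm_neg_left, sub_eq_add_neg]

theorem uherm_sub_right {n : ℕ} (Φ : Frob F q) (u v v' : Fin n → F) :
    hermForm n F q u (v - v') = hermForm n F q u v - hermForm n F q u v' := by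
  rw [sub_eq_add_neg, uherm_add_right Φ, uherm_neg_right Φ, sub_eq_add_neg]

theorem uherm_conj {n : ℕ} (Φ : Frob F q) (u v : Fin n → F) :
    Φ.φ (hermForm n F q u v) = hermForm n F q v u := herm_conj Φ.φ Φ.hφ Φ.hφ2 u v

theorem uherm_single_right {n : ℕ} (Φ : Frob F q) (v : Fin n → F) (i : Fin n) :
    hermForm n F q v (Pi.single i 1) = v i := by
  rw [uherm_eq Φ, Finset.sum_eq_single i]
  · simp
  · intro j _ hj
    simp [Pi.single_apply, hj]
  · intro h
    exact absurd (Finset.mem_univ i) h

theorem uherm_single_left {n : ℕ} (Φ : Frob F q) (v : Fin n → F) (i : Fin n) :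
    hermForm n F q (Pi.single i 1) v = Φ.φ (v i) := by
  rw [← uherm_conj Φ, uherm_single_right Φ]

theorem uherm_single_single {n : ℕ} (Φ : Frob F q) (i j : Fin n) :
    hermForm n F q (Pi.single i 1) (Pi.single j 1) = if i = j then 1 else 0 := by
  rw [uherm_single_right Φ, Pi.single_apply]
  simp only [eq_comm]

/-- equality of matrices from equality of their actions -/
theorem umat_ext {m n : Type*} [Fintype n] (M N : Matrix m n F)
    (h : ∀ x, M *ᵥ x = N *ᵥ x) : M = N :=
  Matrix.mulVec_injective (funext h)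

theorem uhpres_one {n : ℕ} : HPres n q (1 : Matrix (Fin n) (Fin n) F) := by
  intro u v
  rw [Matrix.one_mulVec, Matrix.one_mulVec]

/-- a two-sided inverse of a form-preserving matrix preserves the form -/
theorem uhpres_inv {n : ℕ} (M M' : Matrix (Fin n) (Fin n) F) (hM : HPres n q M)
    (h : M * M' = 1) : HPres n q M' := by
  intro u v
  rw [← hM (M' *ᵥ u) (M' *ᵥ v), Matrix.mulVec_mulVec, Matrix.mulVec_mulVec, h,
    Matrix.one_mulVec, Matrix.one_mulVec]

theorem ut_eq_qrefl {n : ℕ} (v : Fin n → F) (c : F) :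
    unitaryTransvection n q v c = qrefl n q v (-c) := by
  unfold unitaryTransvection qrefl
  rw [neg_smul, sub_neg_eq_add]

theorem ut_mulVec {n : ℕ} (v : Fin n → F) (c : F) (x : Fin n → F) :
    unitaryTransvection n q v c *ᵥ x = x + (c * hermForm n F q x v) • v := by
  rw [ut_eq_qrefl, qrefl_mulVec, neg_mul, neg_smul, sub_neg_eq_add]

theorem ut_pres {n : ℕ} (Φ : Frob F q) (v : Fin n → F) (c : F)
    (hv : hermForm n F q v v = 0) (hc : c + c ^ q = 0) :
    HPres n q (unitaryTransvection n q v c) := by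
  rw [ut_eq_qrefl]
  apply qrefl_pres Φ.φ Φ.hφ Φ.hφ2
  rw [hv, mul_zero, map_neg, Φ.hφ]
  linear_combination -hc

theorem ut_det {n : ℕ} (v : Fin n → F) (c : F) (hv : hermForm n F q v v = 0) :
    (unitaryTransvection n q v c).det = 1 := by
  unfold unitaryTransvection
  have e : c • Matrix.vecMulVec v (fun j => v j ^ q) =
      Matrix.replicateCol (Fin 1) (c • v) * Matrix.replicateRow (Fin 1) (fun j => v j ^ q) := by
    ext i j
    simp [Matrix.vecMulVec_apply, Matrix.mul_apply, mul_assoc]
  have e2 := Matrix.det_one_add_replicateCol_mul_replicateRow (ι := Fin 1) (c • v)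
    (fun j => v j ^ q)
  rw [e]
  refine e2.trans ?_
  have : (fun j => v j ^ q) ⬝ᵥ (c • v) = c * hermForm n F q v v := by
    unfold hermForm
    simp only [dotProduct, Pi.smul_apply, smul_eq_mul, Finset.mul_sum]
    apply Finset.sum_congr rfl
    intro i _
    ring
  rw [this, hv, mul_zero, add_zero]

/-- the generating set of unitary transvection matrices -/
def tvSet (n q : ℕ) : Set (Matrix (Fin n) (Fin n) F) :=
  {M | ∃ (v : Fin n → F) (c : F), hermForm n F q v v = 0 ∧ c + c ^ q = 0 ∧
    M = unitaryTransvection n q v c}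

/-- the monoid of products of unitary transvection matrices -/
def TM (n q : ℕ) : Submonoid (Matrix (Fin n) (Fin n) F) := Submonoid.closure (tvSet n q)

theorem ut_mem_TM {n : ℕ} (v : Fin n → F) (c : F) (hv : hermForm n F q v v = 0)
    (hc : c + c ^ q = 0) : unitaryTransvection n q v c ∈ TM (F := F) n q :=
  Submonoid.subset_closure ⟨v, c, hv, hc, rfl⟩

theorem TM_pres {n : ℕ} (Φ : Frob F q) (M : Matrix (Fin n) (Fin n) F) (hM : M ∈ TM n q) :
    HPres n q M ∧ M.det = 1 := by
  induction hM using Submonoid.closure_induction with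
  | mem M hM =>
    obtain ⟨v, c, hv, hc, rfl⟩ := hM
    exact ⟨ut_pres Φ v c hv hc, ut_det v c hv⟩
  | one => exact ⟨uhpres_one, Matrix.det_one⟩
  | mul A B _ _ hA hB =>
    exact ⟨hA.1.mul hB.1, by rw [Matrix.det_mul, hA.2, hB.2, mul_one]⟩

theorem ut_mul_neg {n : ℕ} (Φ : Frob F q) (v : Fin n → F) (c : F)
    (hv : hermForm n F q v v = 0) :
    unitaryTransvection n q v c * unitaryTransvection n q v (-c) = 1 := by
  apply umat_ext
  intro x
  rw [← Matrix.mulVec_mulVec, ut_mulVec, ut_mulVec, Matrix.one_mulVec, uherm_add_left,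
    uherm_smul_left, hv]
  ext i
  simp only [Pi.add_apply, Pi.smul_apply, smul_eq_mul]
  ring

theorem TM_inv {n : ℕ} (Φ : Frob F q) (M : Matrix (Fin n) (Fin n) F) (hM : M ∈ TM n q) :
    ∃ M' ∈ TM (F := F) n q, M' * M = 1 ∧ M * M' = 1 := by
  induction hM using Submonoid.closure_induction with
  | mem M hM =>
    obtain ⟨v, c, hv, hc, rfl⟩ := hM
    have hc' : -c + (-c) ^ q = 0 := by
      rw [← Φ.hφ, map_neg, Φ.hφ]
      linear_combination -hc
    refine ⟨unitaryTransvection n q v (-c), ut_mem_TM v (-c) hv hc', ?_, ut_mul_neg Φ v c hv⟩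
    have := ut_mul_neg Φ v (-c) hv
    rw [neg_neg] at this
    exact this
  | one => exact ⟨1, Submonoid.one_mem _, by simp, by simp⟩
  | mul A B _ _ hA hB =>
    obtain ⟨A', hA', h1, h2⟩ := hA
    obtain ⟨B', hB', h3, h4⟩ := hB
    refine ⟨B' * A', Submonoid.mul_mem _ hB' hA', ?_, ?_⟩
    · calc B' * A' * (A * B) = B' * (A' * A) * B := by simp only [Matrix.mul_assoc]
        _ = 1 := by rw [h1, Matrix.mul_one, h3]
    · calc A * B * (B' * A') = A * (B * B') * A' := by simp only [Matrix.mul_assoc]
        _ = 1 := by rw [h4, Matrix.mul_one, h2]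

/-- conjugating a transvection by a form-preserving matrix -/
theorem ut_conj {n : ℕ} (g g' : Matrix (Fin n) (Fin n) F) (hg : HPres n q g)
    (h1 : g * g' = 1) (v : Fin n → F) (c : F) :
    g * unitaryTransvection n q v c * g' = unitaryTransvection n q (g *ᵥ v) c := by
  apply umat_ext
  intro x
  rw [← Matrix.mulVec_mulVec, ← Matrix.mulVec_mulVec, ut_mulVec, ut_mulVec, Matrix.mulVec_add,
    Matrix.mulVec_smul, Matrix.mulVec_mulVec, h1, Matrix.one_mulVec]
  have e : hermForm n F q (g' *ᵥ x) v = hermForm n F q x (g *ᵥ v) := by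
    rw [← hg (g' *ᵥ x) v, Matrix.mulVec_mulVec, h1, Matrix.one_mulVec]
  rw [e]

theorem TM_conj {n : ℕ} (g g' : Matrix (Fin n) (Fin n) F) (hg : HPres n q g)
    (h1 : g * g' = 1) (h2 : g' * g = 1) (M : Matrix (Fin n) (Fin n) F) (hM : M ∈ TM n q) :
    g * M * g' ∈ TM (F := F) n q := by
  induction hM using Submonoid.closure_induction with
  | mem M hM =>
    obtain ⟨v, c, hv, hc, rfl⟩ := hM
    rw [ut_conj g g' hg h1]
    exact ut_mem_TM _ c (by rw [hg, hv]) hc
  | one =>
    rw [Matrix.mul_one, h1]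
    exact Submonoid.one_mem _
  | mul A B _ _ hA hB =>
    have : g * (A * B) * g' = (g * A * g') * (g * B * g') := by
      calc g * (A * B) * g' = g * A * 1 * B * g' := by simp only [Matrix.mul_assoc, Matrix.one_mul]
        _ = g * A * (g' * g) * B * g' := by rw [h2]
        _ = _ := by simp only [Matrix.mul_assoc]
    rw [this]
    exact Submonoid.mul_mem _ hA hB

end UnitA

end Cfsg.Agent.Helper16
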