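import Mathlib
import Cfsg.Agent.Helper16.UnitA

set_option autoImplicit false
set_option linter.unusedSectionVars false
set_option linter.style.haveILetI false
set_option linter.unusedSimpArgs false
set_option linter.unusedVariables false

namespace Cfsg.Agent.Helper16

open Cfsg Matrix Cfsg.Agent.Helper3

noncomputable section UnitB

variable {F : Type*} [Field F] [Fintype F] {q : ℕ}

theorem bd_ut {n : ℕ} (Φ : Frob F q) (v : Fin n → F) (c : F) :
    bd (unitaryTransvection n q v c) = unitaryTransvection (n + 1) q (Fin.cons 0 v) c := by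
  apply umat_ext
  intro x
  rw [bd_mulVec, ut_mulVec, ut_mulVec]
  have e : hermForm (n + 1) F q x (Fin.cons 0 v) = hermForm n F q (Fin.tail x) v := by
    conv_lhs => rw [← Fin.cons_self_tail x]
    rw [herm_cons, ← Φ.hφ, map_zero, mul_zero, zero_add]
  rw [e]
  ext i
  refine Fin.cases ?_ (fun i' => ?_) i
  · simp
  · simp [Fin.tail]

theorem bd_TM {n : ℕ} (Φ : Frob F q) (M : Matrix (Fin n) (Fin n) F) (hM : M ∈ TM n q) :
    bd M ∈ TM (F := F) (n + 1) q := by
  induction hM using Submonoid.closure_induction with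
  | mem M hM =>
    obtain ⟨v, c, hv, hc, rfl⟩ := hM
    rw [bd_ut Φ]
    refine ut_mem_TM _ c ?_ hc
    rw [herm_cons, hv, zero_mul, zero_add]
  | one =>
    rw [bd_one]
    exact Submonoid.one_mem _
  | mul A B _ _ hA hB =>
    rw [← bd_mul]
    exact Submonoid.mul_mem _ hA hB

theorem det_bd {n : ℕ} (A : Matrix (Fin n) (Fin n) F) : (bd A).det = A.det := by
  rw [Matrix.det_succ_column_zero, Fin.sum_univ_succ]
  have h0 : ∀ i : Fin n, bd A i.succ 0 = 0 := fun i => rfl
  simp only [h0, mul_zero, zero_mul, Finset.sum_const_zero, add_zero, Fin.val_zero, pow_zero,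
    one_mul, bd_zero_zero]
  congr 1

/-- conjugate transpose of a rectangular matrix -/
def cT (Φ : Frob F q) {m k : ℕ} (B : Matrix (Fin m) (Fin k) F) : Matrix (Fin k) (Fin m) F :=
  Matrix.of fun j i => Φ.φ (B i j)

theorem herm_cT (Φ : Frob F q) {m k : ℕ} (B : Matrix (Fin m) (Fin k) F) (x : Fin m → F)
    (v : Fin k → F) :
    hermForm k F q (cT Φ B *ᵥ x) v = hermForm m F q x (B *ᵥ v) := by
  rw [uherm_eq Φ, uherm_eq Φ]
  simp only [cT, Matrix.mulVec, dotProduct, Matrix.of_apply, map_sum, map_mul, Finset.sum_mul,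
    Finset.mul_sum]
  rw [Finset.sum_comm]
  apply Finset.sum_congr rfl
  intro i _
  apply Finset.sum_congr rfl
  intro j _
  ring

theorem herm_B (Φ : Frob F q) {m k : ℕ} (B : Matrix (Fin m) (Fin k) F)
    (hB : cT Φ B * B = 1) (u v : Fin k → F) :
    hermForm m F q (B *ᵥ u) (B *ᵥ v) = hermForm k F q u v := by
  rw [← herm_cT Φ, Matrix.mulVec_mulVec, hB, Matrix.one_mulVec]

/-- the embedding of `k × k` matrices along an orthonormal `k`-frame -/
def femb (Φ : Frob F q) {m k : ℕ} (B : Matrix (Fin m) (Fin k) F) (M : Matrix (Fin k) (Fin k) F) :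
    Matrix (Fin m) (Fin m) F :=
  1 + B * (M - 1) * cT Φ B

theorem femb_one (Φ : Frob F q) {m k : ℕ} (B : Matrix (Fin m) (Fin k) F) :
    femb Φ B 1 = 1 := by
  unfold femb
  rw [sub_self, Matrix.mul_zero, Matrix.zero_mul, add_zero]

theorem femb_mul (Φ : Frob F q) {m k : ℕ} (B : Matrix (Fin m) (Fin k) F)
    (hB : cT Φ B * B = 1) (M M' : Matrix (Fin k) (Fin k) F) :
    femb Φ B (M * M') = femb Φ B M * femb Φ B M' := by
  unfold femb
  have e1 : B * (M - 1) * cT Φ B * (B * (M' - 1) * cT Φ B) =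
      B * ((M - 1) * (M' - 1)) * cT Φ B := by
    calc B * (M - 1) * cT Φ B * (B * (M' - 1) * cT Φ B)
        = B * (M - 1) * (cT Φ B * B) * (M' - 1) * cT Φ B := by
          simp only [Matrix.mul_assoc]
      _ = B * ((M - 1) * (M' - 1)) * cT Φ B := by
          rw [hB, Matrix.mul_one]
          simp only [Matrix.mul_assoc]
  have e2 : M * M' - 1 = (M - 1) + (M' - 1) + (M - 1) * (M' - 1) := by noncomm_ring
  rw [Matrix.add_mul, Matrix.mul_add, Matrix.mul_add, Matrix.one_mul, Matrix.mul_one,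
    Matrix.one_mul, e1, e2, Matrix.mul_add, Matrix.mul_add, Matrix.add_mul, Matrix.add_mul]
  abel

theorem femb_mulVec (Φ : Frob F q) {m k : ℕ} (B : Matrix (Fin m) (Fin k) F)
    (M : Matrix (Fin k) (Fin k) F) (z : Fin m → F) :
    femb Φ B M *ᵥ z = z + B *ᵥ ((M - 1) *ᵥ (cT Φ B *ᵥ z)) := by
  unfold femb
  rw [Matrix.add_mulVec, Matrix.one_mulVec, Matrix.mulVec_mulVec, Matrix.mulVec_mulVec,
    Matrix.mul_assoc]

theorem femb_mulVec_B (Φ : Frob F q) {m k : ℕ} (B : Matrix (Fin m) (Fin k) F)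
    (hB : cT Φ B * B = 1) (M : Matrix (Fin k) (Fin k) F) (x : Fin k → F) :
    femb Φ B M *ᵥ (B *ᵥ x) = B *ᵥ (M *ᵥ x) := by
  rw [femb_mulVec, Matrix.mulVec_mulVec (x) (cT Φ B) B, hB, Matrix.one_mulVec, Matrix.sub_mulVec,
    Matrix.one_mulVec, Matrix.mulVec_sub]
  abel

theorem femb_fix (Φ : Frob F q) {m k : ℕ} (B : Matrix (Fin m) (Fin k) F)
    (M : Matrix (Fin k) (Fin k) F) (z : Fin m → F) (hz : cT Φ B *ᵥ z = 0) :
    femb Φ B M *ᵥ z = z := by
  rw [femb_mulVec, hz, Matrix.mulVec_zero, Matrix.mulVec_zero, add_zero]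

theorem femb_ut (Φ : Frob F q) {m k : ℕ} (B : Matrix (Fin m) (Fin k) F)
    (v : Fin k → F) (c : F) :
    femb Φ B (unitaryTransvection k q v c) = unitaryTransvection m q (B *ᵥ v) c := by
  apply umat_ext
  intro x
  rw [femb_mulVec, ut_mulVec, Matrix.sub_mulVec, ut_mulVec, Matrix.one_mulVec, add_sub_cancel_left,
    Matrix.mulVec_smul, herm_cT Φ]

theorem femb_TM (Φ : Frob F q) {m k : ℕ} (B : Matrix (Fin m) (Fin k) F)
    (hB : cT Φ B * B = 1) (M : Matrix (Fin k) (Fin k) F) (hM : M ∈ TM k q) :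
    femb Φ B M ∈ TM (F := F) m q := by
  induction hM using Submonoid.closure_induction with
  | mem M hM =>
    obtain ⟨v, c, hv, hc, rfl⟩ := hM
    rw [femb_ut Φ]
    refine ut_mem_TM _ c ?_ hc
    rw [herm_B Φ B hB, hv]
  | one =>
    rw [femb_one]
    exact Submonoid.one_mem _
  | mul A A' _ _ hA hA' =>
    rw [femb_mul Φ B hB]
    exact Submonoid.mul_mem _ hA hA'

/-- the frame matrix of a pair of vectors -/
def pB {m : ℕ} (a y : Fin m → F) : Matrix (Fin m) (Fin 2) F :=
  Matrix.of fun i j => if j = 0 then a i else y i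

theorem pB_mulVec {m : ℕ} (a y : Fin m → F) (u : Fin 2 → F) :
    pB a y *ᵥ u = u 0 • a + u 1 • y := by
  ext i
  simp [pB, Matrix.mulVec, dotProduct, Fin.sum_univ_two, mul_comm]

theorem cT_pB_mulVec (Φ : Frob F q) {m : ℕ} (a y z : Fin m → F) :
    cT Φ (pB a y) *ᵥ z = ![hermForm m F q z a, hermForm m F q z y] := by
  ext j
  rw [uherm_eq Φ, uherm_eq Φ]
  fin_cases j
  · simp [cT, pB, Matrix.mulVec, dotProduct, mul_comm]
  · simp [cT, pB, Matrix.mulVec, dotProduct, mul_comm]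

theorem cT_pB_mul (Φ : Frob F q) {m : ℕ} (a y : Fin m → F) (ha : hermForm m F q a a = 1)
    (hy : hermForm m F q y y = 1) (hay : hermForm m F q a y = 0) :
    cT Φ (pB a y) * pB a y = 1 := by
  have hya : hermForm m F q y a = 0 := by rw [← uherm_conj Φ, hay, map_zero]
  apply umat_ext
  intro u
  rw [← Matrix.mulVec_mulVec, pB_mulVec, cT_pB_mulVec, Matrix.one_mulVec, uherm_add_left,
    uherm_add_left, uherm_smul_left, uherm_smul_left, uherm_smul_left, uherm_smul_left, ha, hy,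
    hay, hya]
  ext j
  fin_cases j <;> simp

end UnitB

end Cfsg.Agent.Helper16
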