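import Mathlib
import Cfsg.Agent.Helper16.UnitB
import Cfsg.Agent.Helper3.SU2

set_option autoImplicit false
set_option linter.unusedSectionVars false
set_option linter.style.haveILetI false
set_option linter.unusedSimpArgs false
set_option linter.unusedVariables false

namespace Cfsg.Agent.Helper16

open Cfsg Matrix Cfsg.Agent.Helper3

noncomputable section UnitC

variable {F : Type*} [Field F] [Fintype F] {q : ℕ}

/-- elementary `2 × 2` matrices with entries fixed by `φ` -/
def elSet (φ : F →+* F) : Set (Matrix (Fin 2) (Fin 2) F) :=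
  {Y | ∃ s, φ s = s ∧ (Y = !![1, s; 0, 1] ∨ Y = !![1, 0; s, 1])}

theorem sl2_mem_of_ne (φ : F →+* F) (X : Matrix (Fin 2) (Fin 2) F) (hdet : X.det = 1)
    (hfix : ∀ i j, φ (X i j) = X i j) (hc : X 1 0 ≠ 0) :
    X ∈ Submonoid.closure (elSet φ) := by
  rw [Matrix.det_fin_two] at hdet
  have e : X = !![1, (X 0 0 - 1) / X 1 0; 0, 1] * !![1, 0; X 1 0, 1] *
      !![1, (X 1 1 - 1) / X 1 0; 0, 1] := by
    ext i j
    fin_cases i <;> fin_cases j
    · simp [Matrix.mul_apply, Fin.sum_univ_two]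
      field_simp
      ring
    · simp [Matrix.mul_apply, Fin.sum_univ_two]
      field_simp
      linear_combination -hdet
    · simp [Matrix.mul_apply, Fin.sum_univ_two]
    · simp [Matrix.mul_apply, Fin.sum_univ_two]
      field_simp
      ring
  rw [e]
  refine Submonoid.mul_mem _ (Submonoid.mul_mem _ ?_ ?_) ?_
  · exact Submonoid.subset_closure ⟨_, by rw [map_div₀, map_sub, map_one, hfix, hfix], Or.inl rfl⟩
  · exact Submonoid.subset_closure ⟨_, hfix 1 0, Or.inr rfl⟩
  · exact Submonoid.subset_closure ⟨_, by rw [map_div₀, map_sub, map_one, hfix, hfix], Or.inl rfl⟩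

theorem sl2_mem_of_ne' (φ : F →+* F) (X : Matrix (Fin 2) (Fin 2) F) (hdet : X.det = 1)
    (hfix : ∀ i j, φ (X i j) = X i j) (hb : X 0 1 ≠ 0) :
    X ∈ Submonoid.closure (elSet φ) := by
  rw [Matrix.det_fin_two] at hdet
  have e : X = !![1, 0; (X 1 1 - 1) / X 0 1, 1] * !![1, X 0 1; 0, 1] *
      !![1, 0; (X 0 0 - 1) / X 0 1, 1] := by
    ext i j
    fin_cases i <;> fin_cases j
    · simp [Matrix.mul_apply, Fin.sum_univ_two]
      field_simp
      ring
    · simp [Matrix.mul_apply, Fin.sum_univ_two]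
    · simp [Matrix.mul_apply, Fin.sum_univ_two]
      field_simp
      linear_combination -hdet
    · simp [Matrix.mul_apply, Fin.sum_univ_two]
      field_simp
      ring
  rw [e]
  refine Submonoid.mul_mem _ (Submonoid.mul_mem _ ?_ ?_) ?_
  · exact Submonoid.subset_closure ⟨_, by rw [map_div₀, map_sub, map_one, hfix, hfix], Or.inr rfl⟩
  · exact Submonoid.subset_closure ⟨_, hfix 0 1, Or.inl rfl⟩
  · exact Submonoid.subset_closure ⟨_, by rw [map_div₀, map_sub, map_one, hfix, hfix], Or.inr rfl⟩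

theorem sl2_mem (φ : F →+* F) (X : Matrix (Fin 2) (Fin 2) F) (hdet : X.det = 1)
    (hfix : ∀ i j, φ (X i j) = X i j) : X ∈ Submonoid.closure (elSet φ) := by
  by_cases hc : X 1 0 = 0
  · by_cases hb : X 0 1 = 0
    · have hdet' := hdet
      rw [Matrix.det_fin_two, hc, hb] at hdet'
      have ha : X 0 0 ≠ 0 := by
        intro h
        rw [h] at hdet'
        simp at hdet'
      have h1 : !![1, 0; -1, 1] * !![1, 0; 1, 1] = (1 : Matrix (Fin 2) (Fin 2) F) := by
        ext i j
        fin_cases i <;> fin_cases j <;> simp [Matrix.mul_apply, Fin.sum_univ_two]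
      have hY : !![1, 0; 1, 1] * X = !![X 0 0, X 0 1; X 0 0 + X 1 0, X 0 1 + X 1 1] := by
        ext i j
        fin_cases i <;> fin_cases j <;>
          simp [Matrix.mul_apply, Fin.sum_univ_two, Matrix.vecMul, dotProduct]
      have e : X = !![1, 0; -1, 1] * (!![1, 0; 1, 1] * X) := by
        rw [← Matrix.mul_assoc, h1, Matrix.one_mul]
      rw [e]
      refine Submonoid.mul_mem _ ?_ ?_
      · exact Submonoid.subset_closure ⟨-1, by rw [map_neg, map_one], Or.inr rfl⟩
      · apply sl2_mem_of_ne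
        · rw [Matrix.det_mul, hdet, Matrix.det_fin_two_of]
          ring
        · intro i j
          rw [hY]
          fin_cases i <;> fin_cases j <;> simp [hfix, map_add]
        · rw [hY]
          simp [hc, ha]
    · exact sl2_mem_of_ne' φ X hdet hfix hb
  · exact sl2_mem_of_ne φ X hdet hfix hc

/-- `SU₂` consists of products of unitary transvections -/
theorem TM_two (hF : Fintype.card F = q ^ 2) (M : Matrix (Fin 2) (Fin 2) F) (hM : HPres 2 q M)
    (hdet : M.det = 1) : M ∈ TM (F := F) 2 q := by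
  obtain ⟨Φ⟩ := exists_Frob hF
  obtain ⟨φ, ν, P, hφ, hP0, hP⟩ := exists_P hF
  have hφeq : φ = Φ.φ := RingHom.ext (fun x => by rw [hφ, Φ.hφ])
  subst hφeq
  have hPu : IsUnit P.det := isUnit_iff_ne_zero.mpr hP0
  have hPQ : P * P⁻¹ = 1 := Matrix.mul_nonsing_inv P hPu
  have hQP : P⁻¹ * P = 1 := Matrix.nonsing_inv_mul P hPu
  have hq0 : q ≠ 0 := by have := two_le_q hF; omega
  -- values of om on basis vectors
  have om00 : om Φ.φ ν ![1, 0] ![1, 0] = 0 := by simp [om]
  have om01 : om Φ.φ ν ![1, 0] ![0, 1] = ν := by simp [om]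
  have om10 : om Φ.φ ν ![0, 1] ![1, 0] = -ν := by simp [om]
  have om11 : om Φ.φ ν ![0, 1] ![0, 1] = 0 := by simp [om]
  have hν0 : ν ≠ 0 := by
    intro h
    have h1 := hP (P⁻¹ *ᵥ Pi.single 0 1) (P⁻¹ *ᵥ Pi.single 0 1)
    rw [Matrix.mulVec_mulVec, hPQ, Matrix.one_mulVec, herm_single hq0] at h1
    simp [om, h] at h1
  have hφν : Φ.φ ν = -ν := by
    have h1 := hP ![1, 0] ![0, 1]
    have h2 := hP ![0, 1] ![1, 0]
    rw [om01] at h1
    rw [om10] at h2
    calc Φ.φ ν = Φ.φ (hermForm 2 F q (P *ᵥ ![1, 0]) (P *ᵥ ![0, 1])) := by rw [h1]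
      _ = hermForm 2 F q (P *ᵥ ![0, 1]) (P *ᵥ ![1, 0]) := uherm_conj Φ _ _
      _ = -ν := h2
  set X := P⁻¹ * M * P with hX
  have hPX : P * X = M * P := by
    rw [hX, ← Matrix.mul_assoc, ← Matrix.mul_assoc, hPQ, Matrix.one_mul]
  have hXdet : X.det = 1 := by
    rw [hX, Matrix.det_mul, Matrix.det_mul, hdet, mul_one, ← Matrix.det_mul, hQP, Matrix.det_one]
  have hXom : ∀ u v, om Φ.φ ν (X *ᵥ u) (X *ᵥ v) = om Φ.φ ν u v := by
    intro u v
    rw [← hP, Matrix.mulVec_mulVec, Matrix.mulVec_mulVec, hPX, ← Matrix.mulVec_mulVec,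
      ← Matrix.mulVec_mulVec, hM, hP]
  have hXe0 : X *ᵥ ![1, 0] = ![X 0 0, X 1 0] := by
    ext i
    fin_cases i <;> simp [Matrix.mulVec, dotProduct, Fin.sum_univ_two]
  have hXe1 : X *ᵥ ![0, 1] = ![X 0 1, X 1 1] := by
    ext i
    fin_cases i <;> simp [Matrix.mulVec, dotProduct, Fin.sum_univ_two]
  have E1 : X 0 0 * Φ.φ (X 1 0) - X 1 0 * Φ.φ (X 0 0) = 0 := by
    have h := hXom ![1, 0] ![1, 0]
    rw [om00, hXe0] at h
    simp only [om, Matrix.cons_val_zero, Matrix.cons_val_one] at h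
    exact (mul_eq_zero.mp h).resolve_left hν0
  have E2 : X 0 0 * Φ.φ (X 1 1) - X 1 0 * Φ.φ (X 0 1) = 1 := by
    have h := hXom ![1, 0] ![0, 1]
    rw [om01, hXe0, hXe1] at h
    simp only [om, Matrix.cons_val_zero, Matrix.cons_val_one] at h
    exact mul_left_cancel₀ hν0 (by rw [h, mul_one])
  have E3 : X 0 1 * Φ.φ (X 1 0) - X 1 1 * Φ.φ (X 0 0) = -1 := by
    have h := hXom ![0, 1] ![1, 0]
    rw [om10, hXe0, hXe1] at h
    simp only [om, Matrix.cons_val_zero, Matrix.cons_val_one] at h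
    exact mul_left_cancel₀ hν0 (by rw [h, mul_neg, mul_one])
  have E4 : X 0 1 * Φ.φ (X 1 1) - X 1 1 * Φ.φ (X 0 1) = 0 := by
    have h := hXom ![0, 1] ![0, 1]
    rw [om11, hXe1] at h
    simp only [om, Matrix.cons_val_zero, Matrix.cons_val_one] at h
    exact (mul_eq_zero.mp h).resolve_left hν0
  have hdet2 : X 0 0 * X 1 1 - X 0 1 * X 1 0 = 1 := by
    rw [← Matrix.det_fin_two]
    exact hXdet
  have hfix : ∀ i j, Φ.φ (X i j) = X i j := by
    intro i j
    fin_cases i <;> fin_cases j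
    · show Φ.φ (X 0 0) = X 0 0
      linear_combination (-(Φ.φ (X 0 0))) * hdet2 + X 0 1 * E1 - X 0 0 * E3
    · show Φ.φ (X 0 1) = X 0 1
      linear_combination (-(Φ.φ (X 0 1))) * hdet2 + X 0 1 * E2 - X 0 0 * E4
    · show Φ.φ (X 1 0) = X 1 0
      linear_combination (-(Φ.φ (X 1 0))) * hdet2 + X 1 1 * E1 - X 1 0 * E3
    · show Φ.φ (X 1 1) = X 1 1
      linear_combination (-(Φ.φ (X 1 1))) * hdet2 + X 1 1 * E2 - X 1 0 * E4
  have hXmem := sl2_mem Φ.φ X hXdet hfix
  have key : ∀ Y ∈ Submonoid.closure (elSet Φ.φ), P * Y * P⁻¹ ∈ TM (F := F) 2 q := by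
    intro Y hY
    induction hY using Submonoid.closure_induction with
    | mem Y hY =>
      obtain ⟨s, hs, rfl | rfl⟩ := hY
      · have e : P * !![1, s; 0, 1] * P⁻¹ = unitaryTransvection 2 q (P *ᵥ ![1, 0]) (-s / ν) := by
          apply umat_ext
          intro x
          rw [ut_mulVec]
          have h1 : hermForm 2 F q x (P *ᵥ ![1, 0]) = -ν * (P⁻¹ *ᵥ x) 1 := by
            conv_lhs => rw [← Matrix.one_mulVec x, ← hPQ, ← Matrix.mulVec_mulVec]
            rw [hP]
            simp [om, Matrix.mulVec, dotProduct, Fin.sum_univ_two]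
            ring
          have h2 : ∀ w : Fin 2 → F, !![1, s; 0, 1] *ᵥ w = w + (s * w 1) • ![1, 0] := by
            intro w
            ext i
            fin_cases i <;> simp [Matrix.mulVec, dotProduct, Fin.sum_univ_two]
          rw [← Matrix.mulVec_mulVec, ← Matrix.mulVec_mulVec, h2, Matrix.mulVec_add,
            Matrix.mulVec_smul, Matrix.mulVec_mulVec, hPQ, Matrix.one_mulVec, h1]
          congr 2
          field_simp
        rw [e]
        refine ut_mem_TM _ _ ?_ ?_
        · rw [hP, om00]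
        · rw [← Φ.hφ, map_div₀, map_neg, hs, hφν]
          field_simp
          ring
      · have e : P * !![1, 0; s, 1] * P⁻¹ = unitaryTransvection 2 q (P *ᵥ ![0, 1]) (s / ν) := by
          apply umat_ext
          intro x
          rw [ut_mulVec]
          have h1 : hermForm 2 F q x (P *ᵥ ![0, 1]) = ν * (P⁻¹ *ᵥ x) 0 := by
            conv_lhs => rw [← Matrix.one_mulVec x, ← hPQ, ← Matrix.mulVec_mulVec]
            rw [hP]
            simp [om]
          have h2 : ∀ w : Fin 2 → F, !![1, 0; s, 1] *ᵥ w = w + (s * w 0) • ![0, 1] := by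
            intro w
            ext i
            fin_cases i
            · simp [Matrix.mulVec, dotProduct, Fin.sum_univ_two]
            · simp [Matrix.mulVec, dotProduct, Fin.sum_univ_two]
              ring
          rw [← Matrix.mulVec_mulVec, ← Matrix.mulVec_mulVec, h2, Matrix.mulVec_add,
            Matrix.mulVec_smul, Matrix.mulVec_mulVec, hPQ, Matrix.one_mulVec, h1]
          congr 2
          field_simp
        rw [e]
        refine ut_mem_TM _ _ ?_ ?_
        · rw [hP, om11]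
        · rw [← Φ.hφ, map_div₀, hs, hφν]
          field_simp
          ring
    | one =>
      rw [Matrix.mul_one, hPQ]
      exact Submonoid.one_mem _
    | mul A B _ _ hA hB =>
      have : P * (A * B) * P⁻¹ = (P * A * P⁻¹) * (P * B * P⁻¹) := by
        calc P * (A * B) * P⁻¹ = P * A * 1 * B * P⁻¹ := by
              simp only [Matrix.mul_assoc, Matrix.one_mul]
          _ = P * A * (P⁻¹ * P) * B * P⁻¹ := by rw [hQP]
          _ = _ := by simp only [Matrix.mul_assoc]
      rw [this]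
      exact Submonoid.mul_mem _ hA hB
  have hfin : P * X * P⁻¹ = M := by
    rw [hPX, Matrix.mul_assoc, hPQ, Matrix.mul_one]
  rw [← hfin]
  exact key X hXmem

end UnitC

end Cfsg.Agent.Helper16
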