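import Mathlib
import Cfsg.Agent.Helper16.UnitC

set_option autoImplicit false
set_option linter.unusedSectionVars false
set_option linter.style.haveILetI false
set_option linter.unusedSimpArgs false
set_option linter.unusedVariables false

namespace Cfsg.Agent.Helper16

open Cfsg Matrix Cfsg.Agent.Helper3

noncomputable section UnitD

variable {F : Type*} [Field F] [Fintype F] {q : ℕ}

theorem exists_unorm (hF : Fintype.card F = q ^ 2) (Φ : Frob F q) (r : F) (hr0 : r ≠ 0)
    (hr : Φ.φ r = r) : ∃ μ : F, μ * Φ.φ μ = r := by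
  classical
  have h := norm_fiber hF r hr0 (by rw [← Φ.hφ, hr])
  have hpos : 0 < (Finset.univ.filter (fun x : F => x * x ^ q = r)).card := by
    rw [h]; omega
  obtain ⟨μ, hμ⟩ := Finset.card_pos.mp hpos
  simp only [Finset.mem_filter, Finset.mem_univ, true_and] at hμ
  exact ⟨μ, by rw [Φ.hφ]; exact hμ⟩

/-- the standard element of `SU₂` with first column `(x, y)` -/
def su2mat (Φ : Frob F q) (x y : F) : Matrix (Fin 2) (Fin 2) F := !![x, -Φ.φ y; y, Φ.φ x]

theorem su2mat_pres (Φ : Frob F q) (x y : F) (h : x * Φ.φ x + y * Φ.φ y = 1) :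
    HPres 2 q (su2mat Φ x y) := by
  intro u v
  rw [uherm_eq Φ, uherm_eq Φ]
  simp only [su2mat, Matrix.mulVec, dotProduct, Fin.sum_univ_two, Matrix.of_apply,
    Matrix.cons_val_zero, Matrix.cons_val_one, Matrix.cons_val', Matrix.cons_val_fin_one,
    map_add, map_mul, map_neg, Φ.hφ2]
  linear_combination (u 0 * Φ.φ (v 0) + u 1 * Φ.φ (v 1)) * h

theorem su2mat_det (Φ : Frob F q) (x y : F) (h : x * Φ.φ x + y * Φ.φ y = 1) :
    (su2mat Φ x y).det = 1 := by
  rw [su2mat, Matrix.det_fin_two_of]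
  linear_combination h

theorem su2mat_mulVec (Φ : Frob F q) (x y : F) : su2mat Φ x y *ᵥ ![1, 0] = ![x, y] := by
  ext i
  fin_cases i <;> simp [su2mat, Matrix.mulVec, dotProduct, Fin.sum_univ_two]

/-- adjacency: two norm one vectors whose product does not have norm one are exchanged by a
product of transvections fixing their common orthogonal complement -/
theorem conn_adj (hF : Fintype.card F = q ^ 2) (Φ : Frob F q) {n : ℕ} (u v : Fin n → F)
    (hu : hermForm n F q u u = 1) (hv : hermForm n F q v v = 1)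
    (hne : hermForm n F q u v * Φ.φ (hermForm n F q u v) ≠ 1) :
    ∃ τ ∈ TM (F := F) n q, τ *ᵥ u = v ∧
      ∀ z, hermForm n F q z u = 0 → hermForm n F q z v = 0 → τ *ᵥ z = z := by
  set z₀ := hermForm n F q u v with hz₀
  have hvu : hermForm n F q v u = Φ.φ z₀ := (uherm_conj Φ u v).symm
  have hr0 : 1 - z₀ * Φ.φ z₀ ≠ 0 := sub_ne_zero.mpr (Ne.symm hne)
  have hr : Φ.φ (1 - z₀ * Φ.φ z₀) = 1 - z₀ * Φ.φ z₀ := by
    rw [map_sub, map_one, map_mul, Φ.hφ2]
    ring
  obtain ⟨μ, hμ⟩ := exists_unorm hF Φ _ hr0 hr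
  have hμ0 : μ ≠ 0 := by
    rintro rfl
    rw [zero_mul] at hμ
    exact hr0 hμ.symm
  have hφμ0 : Φ.φ μ ≠ 0 := by rwa [Ne, map_eq_zero]
  set u₂ : Fin n → F := μ⁻¹ • (v - Φ.φ z₀ • u) with hu₂
  have huu₂ : hermForm n F q u u₂ = 0 := by
    rw [hu₂, uherm_smul_right Φ, uherm_sub_right Φ, uherm_smul_right Φ, Φ.hφ2, hu, ← hz₀]
    ring
  have hu₂u₂ : hermForm n F q u₂ u₂ = 1 := by
    rw [hu₂, uherm_smul_right Φ, uherm_smul_left, uherm_sub_right Φ, uherm_smul_right Φ,
      uherm_sub_left, uherm_sub_left, uherm_smul_left, uherm_smul_left, Φ.hφ2, hu, hv, hvu,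
      ← hz₀, map_inv₀]
    field_simp
    linear_combination -hμ
  have hB := cT_pB_mul Φ u u₂ hu hu₂u₂ huu₂
  have hnorm : Φ.φ z₀ * Φ.φ (Φ.φ z₀) + μ * Φ.φ μ = 1 := by
    rw [Φ.hφ2, hμ]
    ring
  have hM₂ : su2mat Φ (Φ.φ z₀) μ ∈ TM (F := F) 2 q :=
    TM_two hF _ (su2mat_pres Φ _ _ hnorm) (su2mat_det Φ _ _ hnorm)
  refine ⟨femb Φ (pB u u₂) (su2mat Φ (Φ.φ z₀) μ), femb_TM Φ _ hB _ hM₂, ?_, ?_⟩
  · have e : pB u u₂ *ᵥ ![1, 0] = u := by
      rw [pB_mulVec]
      simp
    have e2 := femb_mulVec_B Φ (pB u u₂) hB (su2mat Φ (Φ.φ z₀) μ) ![1, 0]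
    rw [e] at e2
    rw [e2, su2mat_mulVec, pB_mulVec, hu₂]
    simp only [Matrix.cons_val_zero, Matrix.cons_val_one, smul_smul]
    rw [mul_inv_cancel₀ hμ0, one_smul]
    abel
  · intro z hzu hzv
    apply femb_fix
    rw [cT_pB_mulVec, hzu, hu₂, uherm_smul_right Φ, uherm_sub_right Φ, uherm_smul_right Φ, hzu,
      hzv]
    simp

/-- connection by a product of transvections fixing a vector `a` -/
def ConnF (n q : ℕ) (a u v : Fin n → F) : Prop :=
  ∃ τ ∈ TM (F := F) n q, τ *ᵥ a = a ∧ τ *ᵥ u = v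

theorem connF_refl {n : ℕ} (a u : Fin n → F) : ConnF n q a u u :=
  ⟨1, Submonoid.one_mem _, Matrix.one_mulVec a, Matrix.one_mulVec u⟩

theorem connF_trans {n : ℕ} {a u v w : Fin n → F} (h1 : ConnF n q a u v)
    (h2 : ConnF n q a v w) : ConnF n q a u w := by
  obtain ⟨τ, hτ, ha, hu⟩ := h1
  obtain ⟨σ, hσ, ha', hv⟩ := h2
  refine ⟨σ * τ, Submonoid.mul_mem _ hσ hτ, ?_, ?_⟩
  · rw [← Matrix.mulVec_mulVec, ha, ha']
  · rw [← Matrix.mulVec_mulVec, hu, hv]

theorem connF_symm (Φ : Frob F q) {n : ℕ} {a u v : Fin n → F} (h1 : ConnF n q a u v) :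
    ConnF n q a v u := by
  obtain ⟨τ, hτ, ha, hu⟩ := h1
  obtain ⟨τ', hτ', h1, h2⟩ := TM_inv Φ τ hτ
  refine ⟨τ', hτ', ?_, ?_⟩
  · conv_lhs => rw [← ha]
    rw [Matrix.mulVec_mulVec, h1, Matrix.one_mulVec]
  · rw [← hu, Matrix.mulVec_mulVec, h1, Matrix.one_mulVec]

theorem connF_adj (hF : Fintype.card F = q ^ 2) (Φ : Frob F q) {n : ℕ} (a u v : Fin n → F)
    (hu : hermForm n F q u u = 1) (hv : hermForm n F q v v = 1)
    (hne : hermForm n F q u v * Φ.φ (hermForm n F q u v) ≠ 1)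
    (hau : hermForm n F q a u = 0) (hav : hermForm n F q a v = 0) : ConnF n q a u v := by
  obtain ⟨τ, hτ, h1, h2⟩ := conn_adj hF Φ u v hu hv hne
  exact ⟨τ, hτ, h2 a hau hav, h1⟩

theorem connF_orth (hF : Fintype.card F = q ^ 2) (Φ : Frob F q) {n : ℕ} (a u v : Fin n → F)
    (hu : hermForm n F q u u = 1) (hv : hermForm n F q v v = 1)
    (huv : hermForm n F q u v = 0)
    (hau : hermForm n F q a u = 0) (hav : hermForm n F q a v = 0) : ConnF n q a u v := by
  apply connF_adj hF Φ a u v hu hv _ hau hav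
  rw [huv, zero_mul]
  exact zero_ne_one

/-- connection by a product of transvections -/
def Conn (n q : ℕ) (u v : Fin n → F) : Prop := ConnF n q 0 u v

theorem conn_iff {n : ℕ} (u v : Fin n → F) :
    Conn n q u v ↔ ∃ τ ∈ TM (F := F) n q, τ *ᵥ u = v := by
  constructor
  · rintro ⟨τ, hτ, -, h⟩
    exact ⟨τ, hτ, h⟩
  · rintro ⟨τ, hτ, h⟩
    exact ⟨τ, hτ, Matrix.mulVec_zero τ, h⟩

theorem conn_adj' (hF : Fintype.card F = q ^ 2) (Φ : Frob F q) {n : ℕ} (u v : Fin n → F)
    (hu : hermForm n F q u u = 1) (hv : hermForm n F q v v = 1)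
    (hne : hermForm n F q u v * Φ.φ (hermForm n F q u v) ≠ 1) : Conn n q u v :=
  connF_adj hF Φ 0 u v hu hv hne (uherm_zero_left u) (uherm_zero_left v)

theorem conn_orth (hF : Fintype.card F = q ^ 2) (Φ : Frob F q) {n : ℕ} (u v : Fin n → F)
    (hu : hermForm n F q u u = 1) (hv : hermForm n F q v v = 1)
    (huv : hermForm n F q u v = 0) : Conn n q u v :=
  connF_orth hF Φ 0 u v hu hv huv (uherm_zero_left u) (uherm_zero_left v)

theorem conn_single (hF : Fintype.card F = q ^ 2) (Φ : Frob F q) {n : ℕ} (i j : Fin n) :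
    Conn n q (Pi.single i (1 : F)) (Pi.single j 1) := by
  by_cases hij : i = j
  · subst hij
    exact connF_refl _ _
  · apply conn_orth hF Φ
    · rw [uherm_single_single Φ, if_pos rfl]
    · rw [uherm_single_single Φ, if_pos rfl]
    · rw [uherm_single_single Φ, if_neg hij]

theorem two_eq_zero_of_q (hF : Fintype.card F = q ^ 2) (hq : q = 2) : (2 : F) = 0 := by
  have h := FiniteField.cast_card_eq_zero F
  rw [hF, hq] at h
  have h4 : (2 : F) * 2 = 0 := by
    have : ((2 ^ 2 : ℕ) : F) = 2 * 2 := by norm_num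
    rw [← this]
    exact h
  exact mul_self_eq_zero.mp h4

theorem exists_s (hF : Fintype.card F = q ^ 2) (Φ : Frob F q) (hq3 : 3 ≤ q) :
    ∃ s : F, s + Φ.φ s ≠ 0 ∧ 1 + s * Φ.φ s ≠ 0 := by
  classical
  by_contra hcon
  push Not at hcon
  have hB : (Finset.univ.filter (fun s : F => s * s ^ q = -1)).card = q + 1 :=
    norm_fiber hF (-1) (neg_ne_zero.mpr one_ne_zero) (by rw [← Φ.hφ, map_neg, map_one])
  have hp : (Polynomial.X ^ q + Polynomial.X : Polynomial F).natDegree = q := by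
    rw [Polynomial.natDegree_add_eq_left_of_natDegree_lt]
    · simp
    · simp
      omega
  have hp0 : (Polynomial.X ^ q + Polynomial.X : Polynomial F) ≠ 0 := by
    intro h
    rw [h] at hp
    simp at hp
    omega
  have hA : (Finset.univ.filter (fun s : F => s + s ^ q = 0)).card ≤ q := by
    refine le_trans (Polynomial.card_le_degree_of_subset_roots ?_) (le_of_eq hp)
    intro s hs
    rw [Finset.mem_val, Finset.mem_filter] at hs
    rw [Polynomial.mem_roots hp0]
    simp only [Polynomial.IsRoot, Polynomial.eval_add, Polynomial.eval_pow, Polynomial.eval_X]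
    linear_combination hs.2
  have hcov : (Finset.univ : Finset F) ⊆ Finset.univ.filter (fun s : F => s + s ^ q = 0) ∪
      Finset.univ.filter (fun s : F => s * s ^ q = -1) := by
    intro s _
    by_cases h : s + s ^ q = 0
    · exact Finset.mem_union_left _ (by simp [h])
    · refine Finset.mem_union_right _ ?_
      have h1 := hcon s (by rwa [Φ.hφ])
      rw [Φ.hφ] at h1
      simp only [Finset.mem_filter, Finset.mem_univ, true_and]
      linear_combination h1
  have h1 := Finset.card_le_card hcov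
  have h2 := Finset.card_union_le (Finset.univ.filter (fun s : F => s + s ^ q = 0))
    (Finset.univ.filter (fun s : F => s * s ^ q = -1))
  rw [Finset.card_univ, hF] at h1
  nlinarith

end UnitD

end Cfsg.Agent.Helper16
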