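import Mathlib
import Cfsg.Agent.Helper16.UnitD

set_option autoImplicit false
set_option linter.unusedSectionVars false
set_option linter.style.haveILetI false
set_option linter.unusedSimpArgs false
set_option linter.unusedVariables false

namespace Cfsg.Agent.Helper16

open Cfsg Matrix Cfsg.Agent.Helper3

noncomputable section UnitE

variable {F : Type*} [Field F] [Fintype F] {q : ℕ}

theorem uherm_comb3 (Φ : Frob F q) {n : ℕ} (a b c : F) (i j k : Fin n) (x : Fin n → F) :
    hermForm n F q (a • Pi.single i 1 + b • Pi.single j 1 + c • Pi.single k 1) x =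
      a * Φ.φ (x i) + b * Φ.φ (x j) + c * Φ.φ (x k) := by
  simp only [uherm_add_left, uherm_smul_left, uherm_single_left Φ]

/-- products of transvections are transitive on norm one vectors -/
theorem conn_e0 (hF : Fintype.card F = q ^ 2) (Φ : Frob F q) {n : ℕ} (i0 i1 i2 : Fin n)
    (h01 : i0 ≠ i1) (h02 : i0 ≠ i2) (h12 : i1 ≠ i2)
    (h4 : q = 2 → ∃ i3 : Fin n, i3 ≠ i0 ∧ i3 ≠ i1 ∧ i3 ≠ i2)
    (v : Fin n → F) (hv : hermForm n F q v v = 1) : Conn n q v (Pi.single i0 1) := by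
  have hq2 := two_le_q hF
  have he : ∀ i : Fin n, hermForm n F q (Pi.single i (1 : F)) (Pi.single i 1) = 1 := fun i => by
    rw [uherm_single_single Φ, if_pos rfl]
  by_cases hex : ∃ i, v i * Φ.φ (v i) ≠ 1
  · obtain ⟨i, hi⟩ := hex
    refine connF_trans (conn_adj' hF Φ v (Pi.single i 1) hv (he i) ?_) (conn_single hF Φ i i0)
    rw [uherm_single_right Φ]
    exact hi
  · push Not at hex
    have hv0 : ∀ i, Φ.φ (v i) ≠ 0 := by
      intro i h
      have := hex i
      rw [h, mul_zero] at this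
      exact zero_ne_one this
    have hk : ∀ i, (Φ.φ (v i))⁻¹ * (v i)⁻¹ = 1 := by
      intro i
      rw [← mul_inv, mul_comm, hex i, inv_one]
    by_cases hq : q = 2
    · obtain ⟨i3, h30, h31, h32⟩ := h4 hq
      obtain ⟨l, hl, hl1, -⟩ := exists_norm_one_ne hF
      have h2 := two_eq_zero_of_q hF hq
      have hφl : Φ.φ l = l ^ 2 := by rw [Φ.hφ, hq]
      have hl3 : l ^ 3 = 1 := by
        rw [hq] at hl
        linear_combination hl
      have hl2 : l ^ 2 + l + 1 = 0 := by
        have : (l - 1) * (l ^ 2 + l + 1) = 0 := by linear_combination hl3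
        exact (mul_eq_zero.mp this).resolve_left (sub_ne_zero.mpr hl1)
      obtain ⟨w, hw⟩ : ∃ w : Fin n → F, w = (Φ.φ (v i0))⁻¹ • Pi.single i0 1 +
          (l * (Φ.φ (v i1))⁻¹) • Pi.single i1 1 + (l ^ 2 * (Φ.φ (v i2))⁻¹) • Pi.single i2 1 :=
        ⟨_, rfl⟩
      have hw0 : w i0 = (Φ.φ (v i0))⁻¹ := by simp [hw, Pi.single_apply, h01, h02]
      have hw1 : w i1 = l * (Φ.φ (v i1))⁻¹ := by simp [hw, Pi.single_apply, h01.symm, h12]
      have hw2 : w i2 = l ^ 2 * (Φ.φ (v i2))⁻¹ := by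
        simp [hw, Pi.single_apply, h02.symm, h12.symm]
      have hw3 : w i3 = 0 := by simp [hw, Pi.single_apply, h30, h31, h32]
      have hwx : ∀ x, hermForm n F q w x = (Φ.φ (v i0))⁻¹ * Φ.φ (x i0) +
          (l * (Φ.φ (v i1))⁻¹) * Φ.φ (x i1) + (l ^ 2 * (Φ.φ (v i2))⁻¹) * Φ.φ (x i2) := by
        intro x
        rw [hw]
        exact uherm_comb3 Φ _ _ _ i0 i1 i2 x
      have hwv : hermForm n F q w v = 0 := by
        rw [hwx, inv_mul_cancel₀ (hv0 i0), mul_assoc, inv_mul_cancel₀ (hv0 i1), mul_assoc,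
          inv_mul_cancel₀ (hv0 i2)]
        linear_combination hl2
      have hww : hermForm n F q w w = 1 := by
        rw [hwx, hw0, hw1, hw2]
        simp only [map_mul, map_inv₀, map_pow, Φ.hφ2, hφl]
        linear_combination hk i0 + l ^ 3 * hk i1 + l ^ 6 * hk i2 + (l ^ 3 + 2) * hl3 + h2
      have hvw : hermForm n F q v w = 0 := by rw [← uherm_conj Φ, hwv, map_zero]
      have c1 : Conn n q v w := conn_orth hF Φ v w hv hww hvw
      have c2 : Conn n q w (Pi.single i3 1) := by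
        apply conn_orth hF Φ w _ hww (he i3)
        rw [uherm_single_right Φ, hw3]
      exact connF_trans c1 (connF_trans c2 (conn_single hF Φ i3 i0))
    · obtain ⟨s, hs1, hs2⟩ := exists_s hF Φ (by omega)
      have hfix : Φ.φ (1 + s * Φ.φ s)⁻¹ = (1 + s * Φ.φ s)⁻¹ := by
        rw [map_inv₀, map_add, map_one, map_mul, Φ.hφ2, mul_comm]
      obtain ⟨a, ha⟩ := exists_unorm hF Φ _ (inv_ne_zero hs2) hfix
      have hinv : (1 + s * Φ.φ s) * (a * Φ.φ a) = 1 := by rw [ha, mul_inv_cancel₀ hs2]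
      obtain ⟨w, hw⟩ : ∃ w : Fin n → F, w = (a * (Φ.φ (v i0))⁻¹) • Pi.single i0 1 +
          (s * a * (Φ.φ (v i1))⁻¹) • Pi.single i1 1 + (0 : F) • Pi.single i2 1 := ⟨_, rfl⟩
      have hw0 : w i0 = a * (Φ.φ (v i0))⁻¹ := by simp [hw, Pi.single_apply, h01, h02]
      have hw1 : w i1 = s * a * (Φ.φ (v i1))⁻¹ := by simp [hw, Pi.single_apply, h01.symm, h12]
      have hw2 : w i2 = 0 := by simp [hw, Pi.single_apply, h02.symm, h12.symm]
      have hwx : ∀ x, hermForm n F q w x = (a * (Φ.φ (v i0))⁻¹) * Φ.φ (x i0) +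
          (s * a * (Φ.φ (v i1))⁻¹) * Φ.φ (x i1) + 0 * Φ.φ (x i2) := by
        intro x
        rw [hw]
        exact uherm_comb3 Φ _ _ _ i0 i1 i2 x
      have hwv : hermForm n F q w v = a + s * a := by
        rw [hwx, mul_assoc, inv_mul_cancel₀ (hv0 i0), mul_assoc, inv_mul_cancel₀ (hv0 i1)]
        ring
      have hww : hermForm n F q w w = 1 := by
        rw [hwx, hw0, hw1]
        simp only [map_mul, map_inv₀, Φ.hφ2]
        linear_combination (a * Φ.φ a) * hk i0 + (s * Φ.φ s * a * Φ.φ a) * hk i1 + hinv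
      have hvw : hermForm n F q v w = Φ.φ (a + s * a) := by rw [← uherm_conj Φ, hwv]
      have c1 : Conn n q v w := by
        apply conn_adj' hF Φ v w hv hww
        rw [hvw, Φ.hφ2]
        intro h
        rw [map_add, map_mul] at h
        have h0 : (a * Φ.φ a) * (s + Φ.φ s) = 0 := by linear_combination h - hinv
        rcases mul_eq_zero.mp h0 with h1 | h1
        · rw [h1, mul_zero] at hinv
          exact zero_ne_one hinv
        · exact hs1 h1
      have c2 : Conn n q w (Pi.single i2 1) := by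
        apply conn_orth hF Φ w _ hww (he i2)
        rw [uherm_single_right Φ, hw2]
      exact connF_trans c1 (connF_trans c2 (conn_single hF Φ i2 i0))

theorem reduce_core (Φ : Frob F q) (hq0 : q ≠ 0) {n : ℕ}
    (M : Matrix (Fin (n + 1)) (Fin (n + 1)) F) (hM : HPres (n + 1) q M) (hdet : M.det = 1)
    (g : Matrix (Fin (n + 1)) (Fin (n + 1)) F) (hg : g ∈ TM (F := F) (n + 1) q)
    (hfix : g *ᵥ (M *ᵥ Pi.single 0 1) = Pi.single 0 1) :
    ∃ A : Matrix (Fin n) (Fin n) F, HPres n q A ∧ A.det = 1 ∧ g * M = bd A ∧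
      (bd A ∈ TM (F := F) (n + 1) q → M ∈ TM (F := F) (n + 1) q) := by
  obtain ⟨g', hg', h1, h2⟩ := TM_inv Φ g hg
  obtain ⟨hgp, hgd⟩ := TM_pres Φ g hg
  have hNp : HPres (n + 1) q (g * M) := hgp.mul hM
  have hNd : (g * M).det = 1 := by rw [Matrix.det_mul, hgd, hdet, mul_one]
  have hN0 : (g * M) *ᵥ Pi.single 0 1 = Pi.single 0 1 := by
    rw [← Matrix.mulVec_mulVec]
    exact hfix
  have hNeq := eq_bd_of_fix hq0 (g * M) hNp hN0
  have hAp : HPres n q ((g * M).submatrix Fin.succ Fin.succ) :=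
    (bd_pres_iff _).mp (by rw [← hNeq]; exact hNp)
  have hAd : ((g * M).submatrix Fin.succ Fin.succ).det = 1 := by
    rw [← det_bd, ← hNeq]
    exact hNd
  refine ⟨_, hAp, hAd, hNeq, fun hmem => ?_⟩
  rw [← hNeq] at hmem
  have : M = g' * (g * M) := by rw [← Matrix.mul_assoc, h1, Matrix.one_mul]
  rw [this]
  exact Submonoid.mul_mem _ hg' hmem

end UnitE

end Cfsg.Agent.Helper16
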