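import Mathlib
import Cfsg.Agent.Helper16.UnitE

set_option autoImplicit false
set_option linter.unusedSectionVars false
set_option linter.style.haveILetI false
set_option linter.unusedSimpArgs false
set_option linter.unusedVariables false

namespace Cfsg.Agent.Helper16

open Cfsg Matrix Cfsg.Agent.Helper3

noncomputable section UnitF

variable {F : Type*} [Field F] [Fintype F] {q : ℕ}

/-- the exceptional step: `SU₃(2)` inside `SU₄(2)` consists of products of transvections -/
theorem bd_TM_three (hF : Fintype.card F = q ^ 2) (Φ : Frob F q) (hq : q = 2)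
    (A : Matrix (Fin 3) (Fin 3) F) (hA : HPres 3 q A) (hdet : A.det = 1) :
    bd A ∈ TM (F := F) 4 q := by
  have hq0 : q ≠ 0 := by omega
  have h2 := two_eq_zero_of_q hF hq
  have hφ2' : ∀ x : F, Φ.φ x = x ^ 2 := fun x => by rw [Φ.hφ, hq]
  have hcube : ∀ x : F, x ≠ 0 → x ^ 3 = 1 := by
    intro x hx
    have h := FiniteField.pow_card_sub_one_eq_one x hx
    rw [hF, hq] at h
    exact h
  have he : ∀ i : Fin 4, hermForm 4 F q (Pi.single i (1 : F)) (Pi.single i 1) = 1 := fun i => by
    rw [uherm_single_single Φ, if_pos rfl]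
  have hN : HPres 4 q (bd A) := (bd_pres_iff A).mpr hA
  have hNdet : (bd A).det = 1 := by rw [det_bd, hdet]
  obtain ⟨f₀, hf₀⟩ : ∃ f₀ : Fin 4 → F, f₀ = bd A *ᵥ Pi.single 1 1 := ⟨_, rfl⟩
  have hf₀n : hermForm 4 F q f₀ f₀ = 1 := by rw [hf₀, hN, he]
  have hf₀0 : f₀ 0 = 0 := by
    rw [hf₀, bd_mulVec]
    simp
  have he0f : hermForm 4 F q (Pi.single 0 1) f₀ = 0 := by
    rw [uherm_single_left Φ, hf₀0, map_zero]
  have key : ConnF 4 q (Pi.single 0 1) f₀ (Pi.single 1 1) := by
    by_cases hy : f₀ 1 = 0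
    · apply connF_orth hF Φ _ f₀ _ hf₀n (he 1)
      · rw [uherm_single_right Φ]
        exact hy
      · exact he0f
      · rw [uherm_single_single Φ, if_neg (by decide)]
    · obtain ⟨l, hl, hl1, -⟩ := exists_norm_one_ne hF
      have hl3 : l ^ 3 = 1 := by
        rw [hq] at hl
        linear_combination hl
      have hl2 : l ^ 2 + l + 1 = 0 := by
        have : (l - 1) * (l ^ 2 + l + 1) = 0 := by linear_combination hl3
        exact (mul_eq_zero.mp this).resolve_left (sub_ne_zero.mpr hl1)
      have hy3 : f₀ 1 ^ 3 = 1 := hcube _ hy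
      obtain ⟨c, hc⟩ : ∃ c : F, c = f₀ 1 * l := ⟨_, rfl⟩
      obtain ⟨w, hw⟩ : ∃ w : Fin 4 → F, w = f₀ - c • Pi.single 1 1 := ⟨_, rfl⟩
      have hf₀e1 : hermForm 4 F q f₀ (Pi.single 1 1) = f₀ 1 := uherm_single_right Φ f₀ 1
      have he1f₀ : hermForm 4 F q (Pi.single 1 1) f₀ = f₀ 1 ^ 2 := by
        rw [uherm_single_left Φ, hφ2']
      have hww : hermForm 4 F q w w = 1 := by
        rw [hw]
        simp only [uherm_sub_left, uherm_sub_right Φ, uherm_smul_left, uherm_smul_right Φ]
        rw [hf₀n, hf₀e1, he1f₀, he 1, hφ2', hc]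
        linear_combination (l ^ 3 - l ^ 2 - l) * hy3 + hl3 - hl2 + h2
      have hwe0 : hermForm 4 F q w (Pi.single 0 1) = 0 := by
        rw [uherm_single_right Φ, hw]
        simp [hf₀0]
      have he0w : hermForm 4 F q (Pi.single 0 1) w = 0 := by
        rw [← uherm_conj Φ, hwe0, map_zero]
      have hf₀w : hermForm 4 F q f₀ w = 1 - l ^ 2 := by
        rw [hw, uherm_sub_right Φ, uherm_smul_right Φ, hf₀n, hf₀e1, hφ2', hc]
        linear_combination (-(l ^ 2)) * hy3
      have hf₀e0 : hermForm 4 F q f₀ (Pi.single 0 1) = 0 := by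
        rw [uherm_single_right Φ, hf₀0]
      -- first move
      have hB1 := cT_pB_mul Φ (Pi.single 0 1) w (he 0) hww he0w
      have hD1p : HPres 2 q (Matrix.diagonal ![l ^ 2, l]) := by
        apply diag_pres
        intro i
        fin_cases i
        · simp only [hq, Fin.zero_eta, Matrix.cons_val_zero]
          linear_combination (l ^ 3 + 1) * hl3
        · simp only [hq, Fin.mk_one, Matrix.cons_val_one, Matrix.cons_val_zero, Matrix.cons_val_fin_one, Matrix.head_cons]
          linear_combination hl3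
      have hD1d : (Matrix.diagonal ![l ^ 2, l]).det = 1 := by
        rw [Matrix.det_diagonal, Fin.prod_univ_two]
        simp only [Matrix.cons_val_zero, Matrix.cons_val_one]
        linear_combination hl3
      have hg₁ := femb_TM Φ (pB (Pi.single 0 1) w) hB1 _ (TM_two hF _ hD1p hD1d)
      have hg₁e0 : femb Φ (pB (Pi.single 0 1) w) (Matrix.diagonal ![l ^ 2, l]) *ᵥ
          (Pi.single 0 1) = (l ^ 2) • (Pi.single 0 1 : Fin 4 → F) := by
        have e : pB (Pi.single 0 1) w *ᵥ ![1, 0] = (Pi.single 0 1 : Fin 4 → F) := by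
          rw [pB_mulVec]
          simp
        have e2 := femb_mulVec_B Φ (pB (Pi.single 0 1) w) hB1 (Matrix.diagonal ![l ^ 2, l])
          ![1, 0]
        rw [e] at e2
        have hd : Matrix.diagonal ![l ^ 2, l] *ᵥ ![1, 0] = ![l ^ 2, 0] := by
          ext i
          fin_cases i <;> simp [Matrix.mulVec_diagonal]
        rw [e2, hd, pB_mulVec]
        simp
      have hg₁f : femb Φ (pB (Pi.single 0 1) w) (Matrix.diagonal ![l ^ 2, l]) *ᵥ f₀ =
          c • (Pi.single 1 1 : Fin 4 → F) := by
        rw [femb_mulVec, cT_pB_mulVec, hf₀w, hf₀e0]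
        have hd : (Matrix.diagonal ![l ^ 2, l] - 1) *ᵥ ![0, 1 - l ^ 2] = ![0, -1] := by
          ext i
          fin_cases i
          · simp [Matrix.sub_mulVec, Matrix.mulVec_diagonal]
          · simp only [Matrix.sub_mulVec, Matrix.one_mulVec, Pi.sub_apply,
              Matrix.mulVec_diagonal, Fin.mk_one, Matrix.cons_val_one, Matrix.cons_val_zero, Matrix.cons_val_fin_one, Matrix.head_cons]
            linear_combination hl2 - hl3 - h2
        rw [hd, pB_mulVec, hw]
        simp
      -- second move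
      have he02 : hermForm 4 F q (Pi.single 0 (1 : F)) (Pi.single 2 1) = 0 := by
        rw [uherm_single_single Φ, if_neg (by decide)]
      have hB2 := cT_pB_mul Φ (Pi.single 0 (1 : F)) (Pi.single 2 1) (he 0) (he 2) he02
      have hD2p : HPres 2 q (Matrix.diagonal ![l, l ^ 2]) := by
        apply diag_pres
        intro i
        fin_cases i
        · simp only [hq, Fin.zero_eta, Matrix.cons_val_zero]
          linear_combination hl3
        · simp only [hq, Fin.mk_one, Matrix.cons_val_one, Matrix.cons_val_zero, Matrix.cons_val_fin_one, Matrix.head_cons]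
          linear_combination (l ^ 3 + 1) * hl3
      have hD2d : (Matrix.diagonal ![l, l ^ 2]).det = 1 := by
        rw [Matrix.det_diagonal, Fin.prod_univ_two]
        simp only [Matrix.cons_val_zero, Matrix.cons_val_one]
        linear_combination hl3
      have hg₂ := femb_TM Φ (pB (Pi.single 0 (1 : F)) (Pi.single 2 1)) hB2 _
        (TM_two hF _ hD2p hD2d)
      have hg₂e0 : femb Φ (pB (Pi.single 0 (1 : F)) (Pi.single 2 1))
          (Matrix.diagonal ![l, l ^ 2]) *ᵥ (Pi.single 0 1) =
          l • (Pi.single 0 1 : Fin 4 → F) := by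
        have e : pB (Pi.single 0 (1 : F)) (Pi.single 2 1) *ᵥ ![1, 0] =
            (Pi.single 0 1 : Fin 4 → F) := by
          rw [pB_mulVec]
          simp
        have e2 := femb_mulVec_B Φ (pB (Pi.single 0 (1 : F)) (Pi.single 2 1)) hB2
          (Matrix.diagonal ![l, l ^ 2]) ![1, 0]
        rw [e] at e2
        have hd : Matrix.diagonal ![l, l ^ 2] *ᵥ ![1, 0] = ![l, 0] := by
          ext i
          fin_cases i <;> simp [Matrix.mulVec_diagonal]
        rw [e2, hd, pB_mulVec]
        simp
      have hg₂f : femb Φ (pB (Pi.single 0 (1 : F)) (Pi.single 2 1))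
          (Matrix.diagonal ![l, l ^ 2]) *ᵥ (c • (Pi.single 1 1 : Fin 4 → F)) =
          c • (Pi.single 1 1 : Fin 4 → F) := by
        apply femb_fix
        rw [cT_pB_mulVec, uherm_smul_left, uherm_smul_left, uherm_single_single Φ,
          uherm_single_single Φ, if_neg (by decide), if_neg (by decide)]
        simp
      have step1 : ConnF 4 q (Pi.single 0 1) f₀ (c • (Pi.single 1 1 : Fin 4 → F)) := by
        refine ⟨_, Submonoid.mul_mem _ hg₂ hg₁, ?_, ?_⟩
        · rw [← Matrix.mulVec_mulVec, hg₁e0, Matrix.mulVec_smul, hg₂e0, smul_smul]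
          have : l ^ 2 * l = 1 := by linear_combination hl3
          rw [this, one_smul]
        · rw [← Matrix.mulVec_mulVec, hg₁f, hg₂f]
      have hcn : hermForm 4 F q (c • (Pi.single 1 1 : Fin 4 → F)) (c • Pi.single 1 1) = 1 := by
        rw [uherm_smul_left, uherm_smul_right Φ, he 1, hφ2', hc]
        linear_combination (l ^ 3) * hy3 + hl3
      have step2 : ConnF 4 q (Pi.single 0 1) (c • (Pi.single 1 1 : Fin 4 → F))
          (Pi.single 2 1) := by
        apply connF_orth hF Φ _ _ _ hcn (he 2)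
        · rw [uherm_smul_left, uherm_single_single Φ, if_neg (by decide), mul_zero]
        · rw [uherm_smul_right Φ, uherm_single_single Φ, if_neg (by decide), mul_zero]
        · exact he02
      have step3 : ConnF 4 q (Pi.single 0 (1 : F)) (Pi.single 2 1) (Pi.single 1 1) := by
        apply connF_orth hF Φ _ _ _ (he 2) (he 1)
        · rw [uherm_single_single Φ, if_neg (by decide)]
        · exact he02
        · rw [uherm_single_single Φ, if_neg (by decide)]
      exact connF_trans step1 (connF_trans step2 step3)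
  obtain ⟨g, hg, hge0, hgf⟩ := key
  have hfix : g *ᵥ (bd A *ᵥ Pi.single 0 1) = Pi.single 0 1 := by
    rw [bd_fix]
    exact hge0
  obtain ⟨A', hA'p, hA'd, hNeq, himp⟩ := reduce_core Φ hq0 (bd A) hN hNdet g hg hfix
  apply himp
  have hA'0 : A' *ᵥ Pi.single 0 1 = Pi.single 0 1 := by
    have h1 : (g * bd A) *ᵥ (Pi.single 1 1 : Fin 4 → F) = Pi.single 1 1 := by
      rw [← Matrix.mulVec_mulVec, ← hf₀]
      exact hgf
    rw [hNeq, bd_mulVec] at h1
    have ht : Fin.tail (Pi.single 1 1 : Fin 4 → F) = (Pi.single 0 1 : Fin 3 → F) := by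
      ext i
      fin_cases i <;> simp [Fin.tail, Pi.single_apply]
    rw [ht] at h1
    ext i
    have h3 := congrFun h1 i.succ
    rw [Fin.cons_succ] at h3
    rw [h3]
    fin_cases i <;> simp [Pi.single_apply]
  have hA'eq := eq_bd_of_fix hq0 A' hA'p hA'0
  have hBp : HPres 2 q (A'.submatrix Fin.succ Fin.succ) :=
    (bd_pres_iff _).mp (by rw [← hA'eq]; exact hA'p)
  have hBd : (A'.submatrix Fin.succ Fin.succ).det = 1 := by
    rw [← det_bd, ← hA'eq]
    exact hA'd
  rw [hA'eq]
  exact bd_TM Φ _ (bd_TM Φ _ (TM_two hF _ hBp hBd))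

/-- every special unitary matrix is a product of unitary transvections -/
theorem TM_all (hF : Fintype.card F = q ^ 2) : ∀ n : ℕ, ¬ (n = 3 ∧ q = 2) →
    ∀ M : Matrix (Fin n) (Fin n) F, HPres n q M → M.det = 1 → M ∈ TM (F := F) n q := by
  obtain ⟨Φ⟩ := exists_Frob hF
  have hq2 := two_le_q hF
  intro n
  induction n with
  | zero =>
    intro _ M _ _
    have : M = 1 := Subsingleton.elim _ _
    rw [this]
    exact Submonoid.one_mem _
  | succ n ih =>
    intro h32 M hM hdet
    rcases Nat.lt_or_ge n 2 with hn | hn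
    · interval_cases n
      · have h00 : M 0 0 = 1 := by
          rw [← Matrix.det_fin_one M]
          exact hdet
        have : M = 1 := by
          ext i j
          fin_cases i
          fin_cases j
          simpa using h00
        rw [this]
        exact Submonoid.one_mem _
      · exact TM_two hF M hM hdet
    · have hv : hermForm (n + 1) F q (M *ᵥ Pi.single 0 1) (M *ᵥ Pi.single 0 1) = 1 := by
        rw [hM, uherm_single_single Φ, if_pos rfl]
      have hconn := conn_e0 hF Φ (0 : Fin (n + 1)) ⟨1, by omega⟩ ⟨2, by omega⟩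
        (by simp [Fin.ext_iff]) (by simp [Fin.ext_iff]) (by simp [Fin.ext_iff])
        (fun hq => ⟨⟨3, by
          have : n + 1 ≠ 3 := fun h => h32 ⟨h, hq⟩
          omega⟩, by simp [Fin.ext_iff], by simp [Fin.ext_iff], by simp [Fin.ext_iff]⟩) _ hv
      rw [conn_iff] at hconn
      obtain ⟨g, hg, hgv⟩ := hconn
      obtain ⟨A, hAp, hAd, hNeq, himp⟩ := reduce_core Φ (by omega) M hM hdet g hg hgv
      apply himp
      by_cases h : n = 3 ∧ q = 2
      · obtain ⟨rfl, hq⟩ := h
        exact bd_TM_three hF Φ hq A hAp hAd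
      · exact bd_TM Φ A (ih h A hAp hAd)

/-- `SU_n(q)` is generated by unitary transvections -/
theorem SU_gen (hF : Fintype.card F = q ^ 2) (n : ℕ) (h32 : ¬ (n = 3 ∧ q = 2)) :
    Subgroup.closure {A : ↥(Cfsg.SU n F q) | ∃ (v : Fin n → F) (c : F),
      Cfsg.hermForm n F q v v = 0 ∧
      ((A : Matrix.SpecialLinearGroup (Fin n) F) : Matrix (Fin n) (Fin n) F) =
        Cfsg.unitaryTransvection n q v c} = ⊤ := by
  obtain ⟨Φ⟩ := exists_Frob hF
  rw [eq_top_iff]
  intro A _
  have hA : (A.1.1) ∈ TM (F := F) n q := TM_all hF n h32 A.1.1 ((mem_SU_iff A.1).mp A.2) A.1.2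
  have key : ∀ M ∈ TM (F := F) n q, ∃ B : ↥(Cfsg.SU n F q), B.1.1 = M ∧
      B ∈ Subgroup.closure {A : ↥(Cfsg.SU n F q) | ∃ (v : Fin n → F) (c : F),
        Cfsg.hermForm n F q v v = 0 ∧
        ((A : Matrix.SpecialLinearGroup (Fin n) F) : Matrix (Fin n) (Fin n) F) =
          Cfsg.unitaryTransvection n q v c} := by
    intro M hM
    induction hM using Submonoid.closure_induction with
    | mem M hM =>
      obtain ⟨v, c, hv, hc, rfl⟩ := hM
      exact ⟨⟨⟨_, ut_det v c hv⟩, (mem_SU_iff _).mpr (ut_pres Φ v c hv hc)⟩, rfl,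
        Subgroup.subset_closure ⟨v, c, hv, rfl⟩⟩
    | one => exact ⟨1, rfl, Subgroup.one_mem _⟩
    | mul X Y _ _ hX hY =>
      obtain ⟨B, rfl, hB⟩ := hX
      obtain ⟨C, rfl, hC⟩ := hY
      exact ⟨B * C, rfl, Subgroup.mul_mem _ hB hC⟩
  obtain ⟨B, hB, hBm⟩ := key _ hA
  have : B = A := Subtype.ext (Subtype.ext hB)
  rw [← this]
  exact hBm

end UnitF

end Cfsg.Agent.Helper16
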