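import Mathlib
import Cfsg.Agent.Helper16.UnitF

set_option autoImplicit false
set_option linter.unusedSectionVars false
set_option linter.style.haveILetI false
set_option linter.unusedSimpArgs false
set_option linter.unusedVariables false

namespace Cfsg.Agent.Helper16

open Cfsg Matrix Cfsg.Agent.Helper3

noncomputable section UnitG

variable {F : Type*} [Field F] [Fintype F] {q : ℕ}

theorem exists_tr_ne (hF : Fintype.card F = q ^ 2) (Φ : Frob F q) :
    ∃ s : F, s + Φ.φ s ≠ 0 := by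
  classical
  have hq2 := two_le_q hF
  by_contra hcon
  push Not at hcon
  have hp : (Polynomial.X ^ q + Polynomial.X : Polynomial F).natDegree = q := by
    rw [Polynomial.natDegree_add_eq_left_of_natDegree_lt]
    · simp
    · simp
      omega
  have hp0 : (Polynomial.X ^ q + Polynomial.X : Polynomial F) ≠ 0 := by
    intro h
    rw [h] at hp
    simp at hp
    omega
  have hA : (Finset.univ : Finset F).card ≤ q := by
    refine le_trans (Polynomial.card_le_degree_of_subset_roots ?_) (le_of_eq hp)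
    intro s _
    rw [Polynomial.mem_roots hp0]
    simp only [Polynomial.IsRoot, Polynomial.eval_add, Polynomial.eval_pow, Polynomial.eval_X]
    have := hcon s
    rw [Φ.hφ] at this
    linear_combination this
  rw [Finset.card_univ, hF] at hA
  nlinarith

theorem exists_tr_one (hF : Fintype.card F = q ^ 2) (Φ : Frob F q) :
    ∃ b : F, b + Φ.φ b = 1 := by
  obtain ⟨s, hs⟩ := exists_tr_ne hF Φ
  refine ⟨s / (s + Φ.φ s), ?_⟩
  rw [map_div₀, map_add, Φ.hφ2, add_comm (Φ.φ s) s, ← add_div, div_self hs]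

theorem exists_pres_fix_of_ne (Φ : Frob F q) {n : ℕ} (x y : Fin n → F)
    (hx : hermForm n F q x x = 1) (hy : hermForm n F q y y = 1)
    (hxy : hermForm n F q x y ≠ 1) :
    ∃ M : Matrix (Fin n) (Fin n) F, HPres n q M ∧ M *ᵥ x = y ∧
      ∀ a, hermForm n F q a x = 0 → hermForm n F q a y = 0 → M *ᵥ a = a := by
  obtain ⟨a, ha⟩ : ∃ a : F, a = 1 - hermForm n F q x y := ⟨_, rfl⟩
  have ha0 : a ≠ 0 := by
    rw [ha]
    exact sub_ne_zero.mpr (Ne.symm hxy)
  have hφa0 : Φ.φ a ≠ 0 := by rwa [Ne, map_eq_zero]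
  have hww : hermForm n F q (x - y) (x - y) = a + Φ.φ a := by
    rw [uherm_sub_left, uherm_sub_right Φ, uherm_sub_right Φ, hx, hy, ha, map_sub, map_one,
      uherm_conj Φ]
    ring
  have hxw : hermForm n F q x (x - y) = a := by
    rw [uherm_sub_right Φ, hx, ha]
  refine ⟨qrefl n q (x - y) a⁻¹, qrefl_pres Φ.φ Φ.hφ Φ.hφ2 _ _ ?_, ?_, ?_⟩
  · rw [hww, map_inv₀]
    field_simp
    ring
  · rw [qrefl_mulVec, hxw, inv_mul_cancel₀ ha0, one_smul, sub_sub_cancel]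
  · intro z hzx hzy
    rw [qrefl_mulVec, uherm_sub_right Φ, hzx, hzy, sub_zero, mul_zero, zero_smul, sub_zero]

theorem exists_pres_fix (hF : Fintype.card F = q ^ 2) (Φ : Frob F q) {n : ℕ} (x y : Fin n → F)
    (hx : hermForm n F q x x = 1) (hy : hermForm n F q y y = 1) :
    ∃ M : Matrix (Fin n) (Fin n) F, HPres n q M ∧ M *ᵥ x = y ∧
      ∀ a, hermForm n F q a x = 0 → hermForm n F q a y = 0 → M *ᵥ a = a := by
  by_cases hxy : hermForm n F q x y = 1
  · obtain ⟨l, hl, hl1, -⟩ := exists_norm_one_ne hF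
    have hl' : l * Φ.φ l = 1 := by rw [Φ.hφ]; exact hl
    have hφl1 : Φ.φ l ≠ 1 := by
      intro h
      rw [h, mul_one] at hl'
      exact hl1 hl'
    have h1 : hermForm n F q (l • x) (l • x) = 1 := by
      rw [uherm_smul_left, uherm_smul_right Φ, hx]
      linear_combination hl'
    have h2 : hermForm n F q x (l • x) ≠ 1 := by
      rw [uherm_smul_right Φ, hx, mul_one]
      exact hφl1
    have h3 : hermForm n F q (l • x) y ≠ 1 := by
      rw [uherm_smul_left, hxy, mul_one]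
      exact hl1
    obtain ⟨M₁, hM₁, hM₁x, hM₁f⟩ := exists_pres_fix_of_ne Φ x (l • x) hx h1 h2
    obtain ⟨M₂, hM₂, hM₂x, hM₂f⟩ := exists_pres_fix_of_ne Φ (l • x) y h1 hy h3
    refine ⟨M₂ * M₁, hM₂.mul hM₁, ?_, ?_⟩
    · rw [← Matrix.mulVec_mulVec, hM₁x, hM₂x]
    · intro a hax hay
      have hal : hermForm n F q a (l • x) = 0 := by
        rw [uherm_smul_right Φ, hax, mul_zero]
      rw [← Matrix.mulVec_mulVec, hM₁f a hax hal, hM₂f a hal hay]
  · exact exists_pres_fix_of_ne Φ x y hx hy hxy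

/-- a special unitary matrix taking an orthonormal pair to two basis vectors -/
theorem exists_pair_std (hF : Fintype.card F = q ^ 2) (Φ : Frob F q) {n : ℕ}
    (i0 i1 i2 : Fin n) (h01 : i0 ≠ i1) (h02 : i0 ≠ i2) (h12 : i1 ≠ i2)
    (u₁ u₂ : Fin n → F) (h1 : hermForm n F q u₁ u₁ = 1) (h2 : hermForm n F q u₂ u₂ = 1)
    (h3 : hermForm n F q u₁ u₂ = 0) :
    ∃ g : Matrix (Fin n) (Fin n) F, HPres n q g ∧ g.det = 1 ∧ g *ᵥ u₁ = Pi.single i0 1 ∧
      g *ᵥ u₂ = Pi.single i1 1 := by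
  have he : ∀ i : Fin n, hermForm n F q (Pi.single i (1 : F)) (Pi.single i 1) = 1 := fun i => by
    rw [uherm_single_single Φ, if_pos rfl]
  obtain ⟨M₁, hM₁, hM₁u, -⟩ := exists_pres_fix hF Φ u₁ (Pi.single i0 1) h1 (he i0)
  have hy1 : hermForm n F q (M₁ *ᵥ u₂) (M₁ *ᵥ u₂) = 1 := by rw [hM₁, h2]
  have hy0 : hermForm n F q (Pi.single i0 1) (M₁ *ᵥ u₂) = 0 := by rw [← hM₁u, hM₁, h3]
  obtain ⟨M₂, hM₂, hM₂y, hM₂f⟩ := exists_pres_fix hF Φ (M₁ *ᵥ u₂) (Pi.single i1 1) hy1 (he i1)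
  have hM₂0 : M₂ *ᵥ Pi.single i0 1 = Pi.single i0 1 :=
    hM₂f _ hy0 (by rw [uherm_single_single Φ, if_neg h01])
  have hg₀ : HPres n q (M₂ * M₁) := hM₂.mul hM₁
  have hδ := det_norm hF _ hg₀
  obtain ⟨δ, hδd⟩ : ∃ δ : F, δ = (M₂ * M₁).det := ⟨_, rfl⟩
  rw [← hδd] at hδ
  have hδ0 : δ ≠ 0 := by
    rintro rfl
    rw [zero_mul] at hδ
    exact zero_ne_one hδ
  obtain ⟨d, hd⟩ : ∃ d : Fin n → F, d = Function.update (fun _ => (1 : F)) i2 δ⁻¹ := ⟨_, rfl⟩
  have hdi : d i2 = δ⁻¹ := by rw [hd]; simp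
  have hdj : ∀ j, j ≠ i2 → d j = 1 := fun j hj => by rw [hd]; simp [hj]
  have hDp : HPres n q (Matrix.diagonal d) := by
    apply diag_pres
    intro i
    by_cases hi : i = i2
    · rw [hi, hdi, inv_pow, ← mul_inv, hδ, inv_one]
    · rw [hdj i hi, one_pow, mul_one]
  have hDd : (Matrix.diagonal d).det = δ⁻¹ := by
    rw [Matrix.det_diagonal, hd, Finset.prod_update_of_mem (Finset.mem_univ _)]
    simp
  have hDe : ∀ j, j ≠ i2 → Matrix.diagonal d *ᵥ Pi.single j 1 = Pi.single j 1 := by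
    intro j hj
    ext k
    rw [Matrix.mulVec_diagonal]
    by_cases hk : k = j
    · rw [hk, hdj j hj, one_mul]
    · rw [Pi.single_eq_of_ne hk, mul_zero]
  refine ⟨Matrix.diagonal d * (M₂ * M₁), hDp.mul hg₀, ?_, ?_, ?_⟩
  · rw [Matrix.det_mul, hDd, ← hδd, inv_mul_cancel₀ hδ0]
  · rw [← Matrix.mulVec_mulVec, ← Matrix.mulVec_mulVec, hM₁u, hM₂0, hDe i0 h02]
  · rw [← Matrix.mulVec_mulVec, ← Matrix.mulVec_mulVec, hM₂y, hDe i1 h12]

/-- the special unitary group is transitive on hyperbolic pairs -/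
theorem exists_hyp_move (hF : Fintype.card F = q ^ 2) (Φ : Frob F q) {n : ℕ}
    (i0 i1 i2 : Fin n) (h01 : i0 ≠ i1) (h02 : i0 ≠ i2) (h12 : i1 ≠ i2)
    (v w v' w' : Fin n → F) (hv : hermForm n F q v v = 0) (hw : hermForm n F q w w = 0)
    (hvw : hermForm n F q v w = 1) (hv' : hermForm n F q v' v' = 0)
    (hw' : hermForm n F q w' w' = 0) (hvw' : hermForm n F q v' w' = 1) :
    ∃ g : Matrix (Fin n) (Fin n) F, HPres n q g ∧ g.det = 1 ∧ g *ᵥ v = v' ∧ g *ᵥ w = w' := by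
  have hq0 : q ≠ 0 := by have := two_le_q hF; omega
  obtain ⟨b, hb⟩ := exists_tr_one hF Φ
  obtain ⟨ε, hε⟩ := exists_unorm hF Φ (-1) (neg_ne_zero.mpr one_ne_zero)
    (by rw [map_neg, map_one])
  have hε0 : ε ≠ 0 := by
    rintro rfl
    rw [zero_mul] at hε
    exact one_ne_zero (neg_eq_zero.mp hε.symm)
  have key : ∀ v w : Fin n → F, hermForm n F q v v = 0 → hermForm n F q w w = 0 →
      hermForm n F q v w = 1 →
      hermForm n F q (v + b • w) (v + b • w) = 1 ∧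
      hermForm n F q (ε • (v - Φ.φ b • w)) (ε • (v - Φ.φ b • w)) = 1 ∧
      hermForm n F q (v + b • w) (ε • (v - Φ.φ b • w)) = 0 ∧
      v = Φ.φ b • (v + b • w) + (b * ε⁻¹) • (ε • (v - Φ.φ b • w)) ∧
      w = (v + b • w) - ε⁻¹ • (ε • (v - Φ.φ b • w)) := by
    intro v w hv hw hvw
    have hwv : hermForm n F q w v = 1 := by rw [← uherm_conj Φ, hvw, map_one]
    refine ⟨?_, ?_, ?_, ?_, ?_⟩
    · simp only [uherm_add_left, uherm_add_right Φ, uherm_smul_left, uherm_smul_right Φ, hv, hw,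
        hvw, hwv]
      linear_combination hb
    · simp only [uherm_sub_left, uherm_sub_right Φ, uherm_smul_left, uherm_smul_right Φ, hv, hw,
        hvw, hwv, Φ.hφ2]
      linear_combination (-(b + Φ.φ b)) * hε + hb
    · simp only [uherm_add_left, uherm_sub_right Φ, uherm_smul_left, uherm_smul_right Φ, hv, hw,
        hvw, hwv, Φ.hφ2]
      ring
    · rw [smul_smul, mul_assoc, inv_mul_cancel₀ hε0, mul_one]
      ext i
      simp only [Pi.add_apply, Pi.smul_apply, Pi.sub_apply, smul_eq_mul]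
      linear_combination (-(v i)) * hb
    · rw [smul_smul, inv_mul_cancel₀ hε0, one_smul]
      ext i
      simp only [Pi.add_apply, Pi.smul_apply, Pi.sub_apply, smul_eq_mul]
      linear_combination (-(w i)) * hb
  obtain ⟨k1, k2, k3, k4, k5⟩ := key v w hv hw hvw
  obtain ⟨k1', k2', k3', k4', k5'⟩ := key v' w' hv' hw' hvw'
  obtain ⟨g₁, hg₁, hg₁d, hg₁a, hg₁b⟩ :=
    exists_pair_std hF Φ i0 i1 i2 h01 h02 h12 _ _ k1 k2 k3
  obtain ⟨g₂, hg₂, hg₂d, hg₂a, hg₂b⟩ :=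
    exists_pair_std hF Φ i0 i1 i2 h01 h02 h12 _ _ k1' k2' k3'
  have hu : IsUnit g₂.det := by rw [hg₂d]; exact isUnit_one
  have hinv1 : g₂ * g₂⁻¹ = 1 := Matrix.mul_nonsing_inv g₂ hu
  have hinv2 : g₂⁻¹ * g₂ = 1 := Matrix.nonsing_inv_mul g₂ hu
  have hg₂' : HPres n q g₂⁻¹ := uhpres_inv g₂ g₂⁻¹ hg₂ hinv1
  have hg₂'d : (g₂⁻¹).det = 1 := by
    have := congrArg Matrix.det hinv2
    rw [Matrix.det_mul, hg₂d, mul_one, Matrix.det_one] at this
    exact this
  have ha : (g₂⁻¹ * g₁) *ᵥ (v + b • w) = v' + b • w' := by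
    rw [← Matrix.mulVec_mulVec, hg₁a, ← hg₂a, Matrix.mulVec_mulVec, hinv2, Matrix.one_mulVec]
  have hb' : (g₂⁻¹ * g₁) *ᵥ (ε • (v - Φ.φ b • w)) = ε • (v' - Φ.φ b • w') := by
    rw [← Matrix.mulVec_mulVec, hg₁b, ← hg₂b, Matrix.mulVec_mulVec, hinv2, Matrix.one_mulVec]
  refine ⟨g₂⁻¹ * g₁, hg₂'.mul hg₁, by rw [Matrix.det_mul, hg₂'d, hg₁d, mul_one], ?_, ?_⟩
  · conv_lhs => rw [k4]
    rw [Matrix.mulVec_add, Matrix.mulVec_smul, Matrix.mulVec_smul, ha, hb']
    exact k4'.symm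
  · conv_lhs => rw [k5]
    rw [Matrix.mulVec_sub, Matrix.mulVec_smul, ha, hb']
    exact k5'.symm

/-- every nonzero isotropic vector has a hyperbolic partner -/
theorem exists_partner (hF : Fintype.card F = q ^ 2) (Φ : Frob F q) {n : ℕ} (v : Fin n → F)
    (hv0 : v ≠ 0) (hv : hermForm n F q v v = 0) :
    ∃ w : Fin n → F, hermForm n F q w w = 0 ∧ hermForm n F q v w = 1 := by
  obtain ⟨b, hb⟩ := exists_tr_one hF Φ
  obtain ⟨i, hi⟩ : ∃ i, v i ≠ 0 := by
    by_contra hcon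
    push Not at hcon
    exact hv0 (funext hcon)
  obtain ⟨t, ht⟩ : ∃ t : F, t = Φ.φ (v i)⁻¹ := ⟨_, rfl⟩
  have hφt : Φ.φ t = (v i)⁻¹ := by rw [ht, Φ.hφ2]
  obtain ⟨x, hx⟩ : ∃ x : Fin n → F, x = t • Pi.single i 1 := ⟨_, rfl⟩
  have hvx : hermForm n F q v x = 1 := by
    rw [hx, uherm_smul_right Φ, uherm_single_right Φ, hφt, inv_mul_cancel₀ hi]
  have hxv : hermForm n F q x v = 1 := by
    rw [← uherm_conj Φ, hvx, map_one]
  have hxx : hermForm n F q x x = t * Φ.φ t := by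
    rw [hx, uherm_smul_left, uherm_smul_right Φ, uherm_single_single Φ, if_pos rfl]
    ring
  refine ⟨x + (-(t * Φ.φ t) * b) • v, ?_, ?_⟩
  · simp only [uherm_add_left, uherm_add_right Φ, uherm_smul_left, uherm_smul_right Φ, hv, hvx,
      hxv, hxx]
    simp only [map_mul, map_neg, Φ.hφ2]
    linear_combination (-(t * Φ.φ t)) * hb
  · rw [uherm_add_right Φ, uherm_smul_right Φ, hv, hvx]
    ring

end UnitG

end Cfsg.Agent.Helper16
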