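import Mathlib
import Cfsg.Agent.Helper16.UnitG

set_option autoImplicit false
set_option linter.unusedSectionVars false
set_option linter.style.haveILetI false
set_option linter.unusedSimpArgs false
set_option linter.unusedVariables false

namespace Cfsg.Agent.Helper16

open Cfsg Matrix Cfsg.Agent.Helper3

noncomputable section UnitH

variable {F : Type*} [Field F] [Fintype F] {q : ℕ}

theorem vmv_mulVec' {n : ℕ} (a ψ x : Fin n → F) :
    Matrix.vecMulVec a ψ *ᵥ x = (ψ ⬝ᵥ x) • a := by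
  ext i
  simp only [Matrix.mulVec, dotProduct, Matrix.vecMulVec_apply, Pi.smul_apply, smul_eq_mul,
    Finset.sum_mul]
  apply Finset.sum_congr rfl
  intro j _
  ring

/-- a rank one matrix is an outer product -/
theorem rank_one_form {n : ℕ} (T : Matrix (Fin n) (Fin n) F) (hT : T.rank = 1) :
    ∃ a ψ : Fin n → F, a ≠ 0 ∧ ψ ≠ 0 ∧ T = Matrix.vecMulVec a ψ := by
  have h1 : Module.finrank F (LinearMap.range T.mulVecLin) = 1 := hT
  obtain ⟨⟨a, ha⟩, ha0, hspan⟩ := finrank_eq_one_iff'.mp h1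
  have ha0' : a ≠ 0 := by
    rintro rfl
    exact ha0 rfl
  obtain ⟨k, hk⟩ : ∃ k, a k ≠ 0 := by
    by_contra hcon
    push Not at hcon
    exact ha0' (funext hcon)
  have hcol : ∀ j, ∃ c : F, ∀ i, T i j = c * a i := by
    intro j
    obtain ⟨c, hc⟩ := hspan ⟨T *ᵥ Pi.single j 1, ⟨Pi.single j 1, rfl⟩⟩
    refine ⟨c, fun i => ?_⟩
    have h2 := congrArg Subtype.val hc
    have h3 := congrFun h2 i
    simp only [SetLike.val_smul, Pi.smul_apply, smul_eq_mul] at h3
    rw [h3, Matrix.mulVec_single_one]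
    rfl
  choose c hc using hcol
  have hcj : ∀ j, c j = T k j / a k := by
    intro j
    rw [hc j k, mul_div_assoc, div_self hk, mul_one]
  refine ⟨a, fun j => T k j / a k, ha0', ?_, ?_⟩
  · intro h0
    have hT0 : T = 0 := by
      ext i j
      rw [hc j i, hcj j]
      have := congrFun h0 j
      simp only [Pi.zero_apply] at this
      rw [this, zero_mul]
      rfl
    rw [hT0, Matrix.rank_zero] at hT
    exact zero_ne_one hT
  · ext i j
    rw [Matrix.vecMulVec_apply, hc j i, hcj j]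
    ring

/-- a transvection preserving the hermitian form is a unitary transvection -/
theorem tv_structure (Φ : Frob F q) {n : ℕ} (M : Matrix (Fin n) (Fin n) F)
    (hM : HPres n q M) (hT : Cfsg.IsTransvection M) :
    ∃ (a : Fin n → F) (c : F), a ≠ 0 ∧ hermForm n F q a a = 0 ∧ c ≠ 0 ∧ c + Φ.φ c = 0 ∧
      M = unitaryTransvection n q a c := by
  obtain ⟨hr, hsq⟩ := hT
  obtain ⟨a, ψ, ha0, hψ0, hTeq⟩ := rank_one_form (M - 1) hr
  have hMeq : M = 1 + Matrix.vecMulVec a ψ := by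
    rw [← hTeq]
    abel
  have hMx : ∀ x, M *ᵥ x = x + (ψ ⬝ᵥ x) • a := by
    intro x
    rw [hMeq, Matrix.add_mulVec, Matrix.one_mulVec, vmv_mulVec']
  obtain ⟨j₀, hj₀⟩ : ∃ j, ψ j ≠ 0 := by
    by_contra hcon
    push Not at hcon
    exact hψ0 (funext hcon)
  obtain ⟨k, hk⟩ : ∃ k, a k ≠ 0 := by
    by_contra hcon
    push Not at hcon
    exact ha0 (funext hcon)
  obtain ⟨x₀, hx₀⟩ : ∃ x₀ : Fin n → F, ψ ⬝ᵥ x₀ = 1 := by
    refine ⟨(ψ j₀)⁻¹ • Pi.single j₀ 1, ?_⟩
    rw [dotProduct_smul, dotProduct_single_one, smul_eq_mul, inv_mul_cancel₀ hj₀]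
  have hψa : ψ ⬝ᵥ a = 0 := by
    have h1 : ((M - 1) * (M - 1)) *ᵥ x₀ = 0 := by rw [hsq, Matrix.zero_mulVec]
    rw [← Matrix.mulVec_mulVec, hTeq, vmv_mulVec', vmv_mulVec', hx₀, one_smul] at h1
    have h2 := congrFun h1 k
    simp only [Pi.smul_apply, smul_eq_mul, Pi.zero_apply] at h2
    exact (mul_eq_zero.mp h2).resolve_right hk
  have hMa : M *ᵥ a = a := by rw [hMx, hψa, zero_smul, add_zero]
  have hMx₀ : M *ᵥ x₀ = x₀ + a := by rw [hMx, hx₀, one_smul]
  have haa : hermForm n F q a a = 0 := by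
    have h := hM x₀ a
    rw [hMa, hMx₀, uherm_add_left] at h
    linear_combination h
  have hker : ∀ y, ψ ⬝ᵥ y = 0 → hermForm n F q a y = 0 := by
    intro y hy
    have h := hM x₀ y
    rw [hMx₀, hMx y, hy, zero_smul, add_zero, uherm_add_left] at h
    linear_combination h
  obtain ⟨d, hd⟩ : ∃ d : F, d = hermForm n F q x₀ a := ⟨_, rfl⟩
  have hxa : ∀ x, hermForm n F q x a = (ψ ⬝ᵥ x) * d := by
    intro x
    have h1 : ψ ⬝ᵥ (x - (ψ ⬝ᵥ x) • x₀) = 0 := by
      rw [dotProduct_sub, dotProduct_smul, hx₀, smul_eq_mul, mul_one, sub_self]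
    have h2 := hker _ h1
    have h3 : hermForm n F q (x - (ψ ⬝ᵥ x) • x₀) a = 0 := by
      rw [← uherm_conj Φ, h2, map_zero]
    rw [uherm_sub_left, uherm_smul_left, ← hd] at h3
    linear_combination h3
  have hd0 : d ≠ 0 := by
    intro h0
    have h1 := hxa (Pi.single k 1)
    rw [h0, mul_zero, uherm_single_left Φ] at h1
    exact hk ((map_eq_zero Φ.φ).mp h1)
  have hφd0 : Φ.φ d ≠ 0 := by rwa [Ne, map_eq_zero]
  have hdd : d + Φ.φ d = 0 := by
    have h := hM x₀ x₀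
    rw [hMx₀, uherm_add_left, uherm_add_right Φ, uherm_add_right Φ, haa, ← hd,
      ← uherm_conj Φ x₀ a, ← hd] at h
    linear_combination h
  refine ⟨a, d⁻¹, ha0, haa, inv_ne_zero hd0, ?_, ?_⟩
  · rw [map_inv₀]
    field_simp
    linear_combination hdd
  · apply umat_ext
    intro x
    rw [hMx, ut_mulVec, hxa]
    congr 2
    field_simp

theorem ut_smul (Φ : Frob F q) {n : ℕ} (lam : F) (v : Fin n → F) (c : F) :
    unitaryTransvection n q (lam • v) c = unitaryTransvection n q v (c * (lam * Φ.φ lam)) := by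
  apply umat_ext
  intro x
  rw [ut_mulVec, ut_mulVec, uherm_smul_right Φ, smul_smul]
  congr 2
  ring

theorem ut_comm_pres {n : ℕ} (g : Matrix (Fin n) (Fin n) F) (hg : HPres n q g)
    (v : Fin n → F) (c : F) :
    g * unitaryTransvection n q v c = unitaryTransvection n q (g *ᵥ v) c * g := by
  apply umat_ext
  intro x
  rw [← Matrix.mulVec_mulVec, ← Matrix.mulVec_mulVec, ut_mulVec, ut_mulVec, Matrix.mulVec_add,
    Matrix.mulVec_smul, hg]

/-- any two transvections of `SU_n` are conjugate (matrix form) -/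
theorem tv_conj_exists (hF : Fintype.card F = q ^ 2) {n : ℕ} (hn : 3 ≤ n)
    (S T : Matrix (Fin n) (Fin n) F) (hS : HPres n q S) (hT : HPres n q T)
    (hSt : Cfsg.IsTransvection S) (hTt : Cfsg.IsTransvection T) :
    ∃ g : Matrix (Fin n) (Fin n) F, HPres n q g ∧ g.det = 1 ∧ g * S = T * g := by
  obtain ⟨Φ⟩ := exists_Frob hF
  obtain ⟨a, c, ha0, haa, hc0, hc, rfl⟩ := tv_structure Φ S hS hSt
  obtain ⟨a', c', ha0', haa', hc0', hc', rfl⟩ := tv_structure Φ T hT hTt
  obtain ⟨w, hww, haw⟩ := exists_partner hF Φ a ha0 haa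
  obtain ⟨w', hww', haw'⟩ := exists_partner hF Φ a' ha0' haa'
  have hφc : Φ.φ c = -c := by linear_combination hc
  have hφc' : Φ.φ c' = -c' := by linear_combination hc'
  have hr : Φ.φ (c' / c) = c' / c := by
    rw [map_div₀, hφc, hφc', neg_div_neg_eq]
  obtain ⟨lam, hlam⟩ := exists_unorm hF Φ (c' / c) (div_ne_zero hc0' hc0) hr
  have hlam0 : lam ≠ 0 := by
    rintro rfl
    rw [zero_mul] at hlam
    exact div_ne_zero hc0' hc0 hlam.symm
  have hφlam0 : Φ.φ lam ≠ 0 := by rwa [Ne, map_eq_zero]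
  have h1 : hermForm n F q (lam • a') (lam • a') = 0 := by
    rw [uherm_smul_left, uherm_smul_right Φ, haa', mul_zero, mul_zero]
  have h2 : hermForm n F q ((Φ.φ lam)⁻¹ • w') ((Φ.φ lam)⁻¹ • w') = 0 := by
    rw [uherm_smul_left, uherm_smul_right Φ, hww', mul_zero, mul_zero]
  have h3 : hermForm n F q (lam • a') ((Φ.φ lam)⁻¹ • w') = 1 := by
    rw [uherm_smul_left, uherm_smul_right Φ, haw', map_inv₀, Φ.hφ2, mul_one,
      mul_inv_cancel₀ hlam0]
  obtain ⟨g, hg, hgd, hga, -⟩ := exists_hyp_move hF Φ (⟨0, by omega⟩ : Fin n) ⟨1, by omega⟩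
    ⟨2, by omega⟩ (by simp [Fin.ext_iff]) (by simp [Fin.ext_iff]) (by simp [Fin.ext_iff])
    a w (lam • a') ((Φ.φ lam)⁻¹ • w') haa hww haw h1 h2 h3
  refine ⟨g, hg, hgd, ?_⟩
  rw [ut_comm_pres g hg, hga, ut_smul Φ, hlam, mul_div_cancel₀ c' hc0]

end UnitH

end Cfsg.Agent.Helper16
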