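import Mathlib
import Cfsg.Agent.Helper16.UnitH

set_option autoImplicit false
set_option linter.unusedSectionVars false
set_option linter.style.haveILetI false
set_option linter.unusedSimpArgs false
set_option linter.unusedVariables false

namespace Cfsg.Agent.Helper16

open Cfsg Matrix Cfsg.Agent.Helper3

noncomputable section UnitI

variable {F : Type*} [Field F] [Fintype F] {q : ℕ}

/-- the action of a special unitary group element on vectors -/
def sact {n : ℕ} (g : ↥(SU n F q)) (u : Fin n → F) : Fin n → F :=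
  (g.1.1 : Matrix (Fin n) (Fin n) F) *ᵥ u

theorem sact_one {n : ℕ} (u : Fin n → F) : sact (1 : ↥(SU n F q)) u = u :=
  Matrix.one_mulVec u

theorem sact_mul {n : ℕ} (g h : ↥(SU n F q)) (u : Fin n → F) :
    sact (g * h) u = sact g (sact h u) :=
  (Matrix.mulVec_mulVec u (g.1.1 : Matrix (Fin n) (Fin n) F) h.1.1).symm

theorem sact_herm {n : ℕ} (g : ↥(SU n F q)) (u v : Fin n → F) :
    hermForm n F q (sact g u) (sact g v) = hermForm n F q u v :=
  ((mem_SU_iff g.1).mp g.2) u v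

theorem sact_zero {n : ℕ} (g : ↥(SU n F q)) : sact g (0 : Fin n → F) = 0 :=
  Matrix.mulVec_zero _

theorem sact_add {n : ℕ} (g : ↥(SU n F q)) (u v : Fin n → F) :
    sact g (u + v) = sact g u + sact g v := Matrix.mulVec_add _ _ _

theorem sact_smul {n : ℕ} (g : ↥(SU n F q)) (c : F) (u : Fin n → F) :
    sact g (c • u) = c • sact g u := Matrix.mulVec_smul _ _ _

theorem sact_ne_zero {n : ℕ} (g : ↥(SU n F q)) (u : Fin n → F) (hu : u ≠ 0) :
    sact g u ≠ 0 := by
  intro h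
  apply hu
  have h1 := congrArg (sact g⁻¹) h
  rw [← sact_mul, inv_mul_cancel, sact_one, sact_zero] at h1
  exact h1

/-- a special unitary group element from a matrix -/
def mkSU {n : ℕ} (g : Matrix (Fin n) (Fin n) F) (hg : HPres n q g) (hd : g.det = 1) :
    ↥(SU n F q) := ⟨⟨g, hd⟩, (mem_SU_iff _).mpr hg⟩

theorem sact_mkSU {n : ℕ} (g : Matrix (Fin n) (Fin n) F) (hg : HPres n q g) (hd : g.det = 1)
    (u : Fin n → F) : sact (mkSU g hg hd) u = g *ᵥ u := rfl

theorem su_ext {n : ℕ} (g h : ↥(SU n F q)) (hh : ∀ u, sact g u = sact h u) : g = h :=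
  Subtype.ext (Subtype.ext (umat_ext _ _ hh))

/-- isotropic points -/
def IsoPt (n : ℕ) (F : Type*) [Field F] (q : ℕ) : Type _ :=
  {P : Submodule F (Fin n → F) // ∃ u : Fin n → F, u ≠ 0 ∧ hermForm n F q u u = 0 ∧
    P = Submodule.span F {u}}

/-- the isotropic point spanned by an isotropic vector -/
def mkIso {n : ℕ} (u : Fin n → F) (hu0 : u ≠ 0) (hu : hermForm n F q u u = 0) : IsoPt n F q :=
  ⟨Submodule.span F {u}, u, hu0, hu, rfl⟩

theorem exists_mkIso {n : ℕ} (P : IsoPt n F q) : ∃ u hu0 hu, P = mkIso u hu0 hu := by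
  obtain ⟨u, hu0, hu, hP⟩ := P.2
  exact ⟨u, hu0, hu, Subtype.ext hP⟩

theorem mkIso_eq_of_smul {n : ℕ} (u v : Fin n → F) (hu0 : u ≠ 0)
    (hu : hermForm n F q u u = 0) (hv0 : v ≠ 0) (hv : hermForm n F q v v = 0) (c : F)
    (h : u = c • v) : mkIso u hu0 hu = mkIso v hv0 hv := by
  apply Subtype.ext
  show Submodule.span F {u} = Submodule.span F {v}
  have hc : c ≠ 0 := by
    rintro rfl
    rw [zero_smul] at h
    exact hu0 h
  rw [h]
  exact Submodule.span_singleton_smul_eq (IsUnit.mk0 c hc) v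

theorem mem_of_mkIso_eq {n : ℕ} (u v : Fin n → F) (hu0 : u ≠ 0)
    (hu : hermForm n F q u u = 0) (hv0 : v ≠ 0) (hv : hermForm n F q v v = 0)
    (h : mkIso u hu0 hu = mkIso v hv0 hv) : ∃ c : F, u = c • v := by
  have h1 : Submodule.span F {u} = Submodule.span F {v} := congrArg Subtype.val h
  have h2 : u ∈ Submodule.span F {v} := h1 ▸ Submodule.mem_span_singleton_self u
  obtain ⟨c, hc⟩ := Submodule.mem_span_singleton.1 h2
  exact ⟨c, hc.symm⟩

instance isoAct (n : ℕ) (F : Type*) [Field F] [Fintype F] (q : ℕ) :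
    MulAction ↥(SU n F q) (IsoPt n F q) where
  smul g P := ⟨P.1.map (Matrix.mulVecLin (g.1.1 : Matrix (Fin n) (Fin n) F)), by
    obtain ⟨u, hu0, hu, hP⟩ := P.2
    exact ⟨sact g u, sact_ne_zero g u hu0, (sact_herm g u u).trans hu, by
      rw [hP, Submodule.map_span, Set.image_singleton]
      rfl⟩⟩
  one_smul P := Subtype.ext (by
    show P.1.map (Matrix.mulVecLin (1 : Matrix (Fin n) (Fin n) F)) = P.1
    rw [Matrix.mulVecLin_one]
    exact Submodule.map_id _)
  mul_smul g h P := Subtype.ext (by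
    show P.1.map (Matrix.mulVecLin ((g.1.1 : Matrix (Fin n) (Fin n) F) * h.1.1)) =
      (P.1.map (Matrix.mulVecLin (h.1.1 : Matrix (Fin n) (Fin n) F))).map
        (Matrix.mulVecLin (g.1.1 : Matrix (Fin n) (Fin n) F))
    rw [Matrix.mulVecLin_mul, Submodule.map_comp])

theorem smul_iso_val {n : ℕ} (g : ↥(SU n F q)) (P : IsoPt n F q) :
    (g • P).1 = P.1.map (Matrix.mulVecLin (g.1.1 : Matrix (Fin n) (Fin n) F)) := rfl

theorem smul_mkIso {n : ℕ} (g : ↥(SU n F q)) (u : Fin n → F) (hu0 : u ≠ 0)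
    (hu : hermForm n F q u u = 0) :
    g • mkIso u hu0 hu = mkIso (sact g u) (sact_ne_zero g u hu0)
      ((sact_herm g u u).trans hu) := by
  apply Subtype.ext
  rw [smul_iso_val]
  show (Submodule.span F {u}).map _ = Submodule.span F {sact g u}
  rw [Submodule.map_span, Set.image_singleton]
  rfl

theorem mem_smul_iso {n : ℕ} (g : ↥(SU n F q)) (P : IsoPt n F q) (x : Fin n → F) :
    x ∈ (g • P).1 ↔ ∃ u ∈ P.1, sact g u = x := by
  rw [smul_iso_val, Submodule.mem_map]
  rfl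

/-- prescribing two values of the form against independent vectors -/
theorem exists_two_vals (Φ : Frob F q) {n : ℕ} (x s : Fin n → F) (hx0 : x ≠ 0)
    (hind : ∀ c : F, s ≠ c • x) (p r : F) :
    ∃ y : Fin n → F, hermForm n F q y x = p ∧ hermForm n F q y s = r := by
  obtain ⟨j, hj⟩ : ∃ j, x j ≠ 0 := by
    by_contra hcon
    push Not at hcon
    exact hx0 (funext hcon)
  obtain ⟨i, hi⟩ : ∃ i, s i - s j / x j * x i ≠ 0 := by
    by_contra hcon
    push Not at hcon
    apply hind (s j / x j)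
    ext i
    have := hcon i
    simp only [Pi.smul_apply, smul_eq_mul]
    linear_combination this
  obtain ⟨Δ, hΔ⟩ : ∃ Δ : F, Δ = Φ.φ (x i) * Φ.φ (s j) - Φ.φ (x j) * Φ.φ (s i) := ⟨_, rfl⟩
  have hΔ0 : Δ ≠ 0 := by
    have h1 : Δ = Φ.φ (-(x j) * (s i - s j / x j * x i)) := by
      rw [hΔ, ← map_mul, ← map_mul, ← map_sub]
      congr 1
      field_simp
      ring
    rw [h1, Ne, map_eq_zero]
    exact mul_ne_zero (neg_ne_zero.mpr hj) hi
  refine ⟨((p * Φ.φ (s j) - r * Φ.φ (x j)) / Δ) • Pi.single i 1 +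
    ((r * Φ.φ (x i) - p * Φ.φ (s i)) / Δ) • Pi.single j 1, ?_, ?_⟩
  · simp only [uherm_add_left, uherm_smul_left, uherm_single_left Φ]
    rw [div_mul_eq_mul_div, div_mul_eq_mul_div, ← add_div, div_eq_iff hΔ0, hΔ]
    ring
  · simp only [uherm_add_left, uherm_smul_left, uherm_single_left Φ]
    rw [div_mul_eq_mul_div, div_mul_eq_mul_div, ← add_div, div_eq_iff hΔ0, hΔ]
    ring

theorem exists_skew (hF : Fintype.card F = q ^ 2) (Φ : Frob F q) :
    ∃ d : F, d ≠ 0 ∧ d + Φ.φ d = 0 := by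
  obtain ⟨l, hl, hl1, hl2⟩ := exists_norm_one_ne hF
  refine ⟨l - Φ.φ l, ?_, ?_⟩
  · intro h
    apply hl2
    have h1 : Φ.φ l = l := by linear_combination -h
    rw [← Φ.hφ, h1] at hl
    exact hl
  · rw [map_sub, Φ.hφ2]
    ring

/-- an isotropic vector non-orthogonal to two given isotropic vectors -/
theorem exists_iso_nonorth (hF : Fintype.card F = q ^ 2) (Φ : Frob F q) {n : ℕ}
    (x s : Fin n → F) (hx0 : x ≠ 0) (hs0 : s ≠ 0) (hx : hermForm n F q x x = 0)
    (hs : hermForm n F q s s = 0) :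
    ∃ z : Fin n → F, hermForm n F q z z = 0 ∧ hermForm n F q z x ≠ 0 ∧
      hermForm n F q z s ≠ 0 := by
  by_cases hxs : hermForm n F q x s = 0
  · have hsx : hermForm n F q s x = 0 := by rw [← uherm_conj Φ, hxs, map_zero]
    by_cases hdep : ∃ c : F, s = c • x
    · obtain ⟨c, hc⟩ := hdep
      have hc0 : c ≠ 0 := by
        rintro rfl
        rw [zero_smul] at hc
        exact hs0 hc
      obtain ⟨w, hww, hxw⟩ := exists_partner hF Φ x hx0 hx
      have hwx : hermForm n F q w x = 1 := by rw [← uherm_conj Φ, hxw, map_one]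
      refine ⟨w, hww, ?_, ?_⟩
      · rw [hwx]
        exact one_ne_zero
      · rw [hc, uherm_smul_right Φ, hwx, mul_one, Ne, map_eq_zero]
        exact hc0
    · push Not at hdep
      obtain ⟨y₀, hy₀x, hy₀s⟩ := exists_two_vals Φ x s hx0 hdep 1 1
      obtain ⟨b, hb⟩ := exists_tr_one hF Φ
      have hxy₀ : hermForm n F q x y₀ = 1 := by rw [← uherm_conj Φ, hy₀x, map_one]
      have hN : Φ.φ (hermForm n F q y₀ y₀) = hermForm n F q y₀ y₀ := uherm_conj Φ y₀ y₀
      refine ⟨y₀ + (-(hermForm n F q y₀ y₀) * b) • x, ?_, ?_, ?_⟩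
      · simp only [uherm_add_left, uherm_add_right Φ, uherm_smul_left, uherm_smul_right Φ, hx,
          hy₀x, hxy₀, map_mul, map_neg, hN]
        linear_combination (-(hermForm n F q y₀ y₀)) * hb
      · rw [uherm_add_left, uherm_smul_left, hx, hy₀x, mul_zero, add_zero]
        exact one_ne_zero
      · rw [uherm_add_left, uherm_smul_left, hxs, hy₀s, mul_zero, add_zero]
        exact one_ne_zero
  · obtain ⟨d, hd0, hd⟩ := exists_skew hF Φ
    have hφd0 : Φ.φ d ≠ 0 := by rwa [Ne, map_eq_zero]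
    obtain ⟨lam, hlam⟩ : ∃ lam : F, lam = Φ.φ (d / hermForm n F q x s) := ⟨_, rfl⟩
    have hφlam : Φ.φ lam * hermForm n F q x s = d := by
      rw [hlam, Φ.hφ2, div_mul_cancel₀ d hxs]
    have hsx : hermForm n F q s x = Φ.φ (hermForm n F q x s) := (uherm_conj Φ x s).symm
    have hlam2 : lam * Φ.φ (hermForm n F q x s) = Φ.φ d := by
      rw [← hφlam, map_mul, Φ.hφ2]
    refine ⟨x + lam • s, ?_, ?_, ?_⟩
    · simp only [uherm_add_left, uherm_add_right Φ, uherm_smul_left, uherm_smul_right Φ, hx, hs,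
        hsx]
      linear_combination hφlam + hlam2 + hd
    · rw [uherm_add_left, uherm_smul_left, hx, hsx, zero_add, hlam2]
      exact hφd0
    · rw [uherm_add_left, uherm_smul_left, hs, mul_zero, add_zero]
      exact hxs

/-- `SU_n` is transitive on nonzero isotropic vectors -/
theorem exists_su_move (hF : Fintype.card F = q ^ 2) (Φ : Frob F q) {n : ℕ} (hn : 3 ≤ n)
    (x y : Fin n → F) (hx0 : x ≠ 0) (hy0 : y ≠ 0) (hx : hermForm n F q x x = 0)
    (hy : hermForm n F q y y = 0) : ∃ g : ↥(SU n F q), sact g x = y := by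
  obtain ⟨w, hww, hxw⟩ := exists_partner hF Φ x hx0 hx
  obtain ⟨w', hww', hyw'⟩ := exists_partner hF Φ y hy0 hy
  obtain ⟨g, hg, hgd, hgx, -⟩ := exists_hyp_move hF Φ (⟨0, by omega⟩ : Fin n) ⟨1, by omega⟩
    ⟨2, by omega⟩ (by simp [Fin.ext_iff]) (by simp [Fin.ext_iff]) (by simp [Fin.ext_iff])
    x w y w' hx hww hxw hy hww' hyw'
  exact ⟨mkSU g hg hgd, hgx⟩

/-- the stabiliser of an isotropic vector is transitive on the points opposite to it -/
theorem exists_su_stab_move (hF : Fintype.card F = q ^ 2) (Φ : Frob F q) {n : ℕ} (hn : 3 ≤ n)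
    (x y z : Fin n → F) (hx : hermForm n F q x x = 0) (hy : hermForm n F q y y = 0)
    (hz : hermForm n F q z z = 0) (hxy : hermForm n F q x y ≠ 0)
    (hxz : hermForm n F q x z ≠ 0) :
    ∃ g : ↥(SU n F q), sact g x = x ∧ ∃ c : F, sact g y = c • z := by
  have hφy : Φ.φ (hermForm n F q x y) ≠ 0 := by rwa [Ne, map_eq_zero]
  have hφz : Φ.φ (hermForm n F q x z) ≠ 0 := by rwa [Ne, map_eq_zero]
  have h1 : hermForm n F q ((Φ.φ (hermForm n F q x y))⁻¹ • y)
      ((Φ.φ (hermForm n F q x y))⁻¹ • y) = 0 := by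
    rw [uherm_smul_left, uherm_smul_right Φ, hy, mul_zero, mul_zero]
  have h2 : hermForm n F q ((Φ.φ (hermForm n F q x z))⁻¹ • z)
      ((Φ.φ (hermForm n F q x z))⁻¹ • z) = 0 := by
    rw [uherm_smul_left, uherm_smul_right Φ, hz, mul_zero, mul_zero]
  have h3 : hermForm n F q x ((Φ.φ (hermForm n F q x y))⁻¹ • y) = 1 := by
    rw [uherm_smul_right Φ, map_inv₀, Φ.hφ2, inv_mul_cancel₀ hxy]
  have h4 : hermForm n F q x ((Φ.φ (hermForm n F q x z))⁻¹ • z) = 1 := by
    rw [uherm_smul_right Φ, map_inv₀, Φ.hφ2, inv_mul_cancel₀ hxz]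
  obtain ⟨g, hg, hgd, hgx, hgy⟩ := exists_hyp_move hF Φ (⟨0, by omega⟩ : Fin n) ⟨1, by omega⟩
    ⟨2, by omega⟩ (by simp [Fin.ext_iff]) (by simp [Fin.ext_iff]) (by simp [Fin.ext_iff])
    x _ x _ hx h1 h3 hx h2 h4
  refine ⟨mkSU g hg hgd, hgx, Φ.φ (hermForm n F q x y) * (Φ.φ (hermForm n F q x z))⁻¹, ?_⟩
  rw [sact_mkSU]
  rw [Matrix.mulVec_smul] at hgy
  have h5 := congrArg (fun v => Φ.φ (hermForm n F q x y) • v) hgy
  simp only [smul_smul, mul_inv_cancel₀ hφy, one_smul] at h5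
  rw [h5]

end UnitI

end Cfsg.Agent.Helper16
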