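import Mathlib
import Cfsg.Prelude.Def_Classical
import Cfsg.Prelude.Def_ClassicalGeometry
import Cfsg.Prelude.Def_LieClassical
import Cfsg.Agent.Helper3.Unitary
import Cfsg.Agent.Helper16.UnitI
import Cfsg.Agent.Helper16.NormA

set_option autoImplicit false
set_option linter.unusedSectionVars false
set_option linter.style.haveILetI false
set_option linter.unusedSimpArgs false
set_option linter.unusedVariables false

namespace Cfsg.Agent.Helper16

open Cfsg Matrix Cfsg.Agent.Helper3

noncomputable section NormB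

variable {K : Type*} [Field K] [Fintype K] {q : ℕ}

/-- conjugate transpose with respect to the Frobenius involution -/
def ctr (Φ : Frob K q) {n : ℕ} (M : Matrix (Fin n) (Fin n) K) : Matrix (Fin n) (Fin n) K :=
  (M.map Φ.φ)ᵀ

theorem ctr_apply (Φ : Frob K q) {n : ℕ} (M : Matrix (Fin n) (Fin n) K) (i j : Fin n) :
    ctr Φ M i j = Φ.φ (M j i) := rfl

theorem ctr_mul (Φ : Frob K q) {n : ℕ} (M N : Matrix (Fin n) (Fin n) K) :
    ctr Φ (M * N) = ctr Φ N * ctr Φ M := by
  unfold ctr
  rw [Matrix.map_mul, Matrix.transpose_mul]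

theorem ctr_ctr (Φ : Frob K q) {n : ℕ} (M : Matrix (Fin n) (Fin n) K) :
    ctr Φ (ctr Φ M) = M := by
  ext i j
  simp only [ctr_apply, Φ.hφ2]

theorem ctr_one (Φ : Frob K q) {n : ℕ} : ctr Φ (1 : Matrix (Fin n) (Fin n) K) = 1 := by
  ext i j
  rw [ctr_apply, Matrix.one_apply, Matrix.one_apply]
  by_cases h : i = j
  · subst h; simp
  · rw [if_neg h, if_neg (Ne.symm h), map_zero]

theorem ctr_zero (Φ : Frob K q) {n : ℕ} : ctr Φ (0 : Matrix (Fin n) (Fin n) K) = 0 := by
  ext i j
  simp [ctr_apply]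

theorem ctr_add (Φ : Frob K q) {n : ℕ} (M N : Matrix (Fin n) (Fin n) K) :
    ctr Φ (M + N) = ctr Φ M + ctr Φ N := by
  ext i j
  simp [ctr_apply]

theorem ctr_algebraMap (Φ : Frob K q) {n : ℕ} (a : K) :
    ctr Φ (algebraMap K (Matrix (Fin n) (Fin n) K) a)
      = algebraMap K (Matrix (Fin n) (Fin n) K) (Φ.φ a) := by
  ext i j
  rw [ctr_apply, Matrix.algebraMap_matrix_apply, Matrix.algebraMap_matrix_apply]
  by_cases h : i = j
  · subst h; simp
  · rw [if_neg h, if_neg (Ne.symm h), map_zero]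

theorem ctr_det (Φ : Frob K q) {n : ℕ} (M : Matrix (Fin n) (Fin n) K) :
    (ctr Φ M).det = Φ.φ M.det := by
  unfold ctr
  rw [Matrix.det_transpose]
  exact (RingHom.map_det Φ.φ M).symm

/-- a matrix preserves the hermitian form iff it is unitary -/
theorem hpres_iff (hK : Fintype.card K = q ^ 2) (Φ : Frob K q) {n : ℕ}
    (M : Matrix (Fin n) (Fin n) K) : HPres n q M ↔ ctr Φ M * M = 1 := by
  have hq : q ≠ 0 := by have := two_le_q hK; omega
  constructor
  · intro hM
    have h1 : Mᵀ * (M.map Φ.φ) = 1 := by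
      ext a b
      have h := hM (Pi.single a 1) (Pi.single b 1)
      rw [herm_single hq, Matrix.mulVec_single_one, Matrix.mulVec_single_one,
        herm_phi Φ.φ Φ.hφ] at h
      rw [Matrix.mul_apply, Matrix.one_apply, ← h]
      rfl
    have h2 := congrArg Matrix.transpose h1
    rw [Matrix.transpose_mul, Matrix.transpose_transpose, Matrix.transpose_one] at h2
    exact h2
  · intro h u v
    have h1 : Mᵀ * (M.map Φ.φ) = 1 := by
      have h2 := congrArg Matrix.transpose h
      rw [Matrix.transpose_mul, Matrix.transpose_one] at h2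
      unfold ctr at h2
      rw [Matrix.transpose_transpose] at h2
      exact h2
    rw [uherm_eq Φ, uherm_eq Φ]
    have e1 : ∀ w : Fin n → K, (fun i => Φ.φ ((M *ᵥ w) i))
        = (M.map Φ.φ) *ᵥ (fun i => Φ.φ (w i)) := by
      intro w; funext i
      simp only [Matrix.mulVec, dotProduct, map_sum, map_mul, Matrix.map_apply]
    show (M *ᵥ u) ⬝ᵥ (fun i => Φ.φ ((M *ᵥ v) i)) = u ⬝ᵥ (fun i => Φ.φ (v i))
    rw [e1, Matrix.dotProduct_mulVec, ← Matrix.vecMul_transpose, Matrix.vecMul_vecMul, h1,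
      Matrix.vecMul_one]

/-- the double centralizer of a matrix -/
def dcen {n : ℕ} (h : Matrix (Fin n) (Fin n) K) : Subring (Matrix (Fin n) (Fin n) K) :=
  Subring.centralizer
    (Subring.centralizer ({h} : Set (Matrix (Fin n) (Fin n) K)) : Set (Matrix (Fin n) (Fin n) K))

theorem mem_dcen {n : ℕ} (h x : Matrix (Fin n) (Fin n) K) :
    x ∈ dcen h ↔ ∀ g, g * h = h * g → g * x = x * g := by
  unfold dcen
  rw [Subring.mem_centralizer_iff]
  constructor
  · intro hx g hg
    apply hx g
    rw [SetLike.mem_coe, Subring.mem_centralizer_iff]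
    intro y hy
    rw [Set.mem_singleton_iff] at hy
    rw [hy, hg]
  · intro hx g hg
    apply hx g
    rw [SetLike.mem_coe, Subring.mem_centralizer_iff] at hg
    exact (hg h rfl).symm

theorem self_mem_dcen {n : ℕ} (h : Matrix (Fin n) (Fin n) K) : h ∈ dcen h := by
  rw [mem_dcen]
  intro g hg
  exact hg

theorem dcen_comm {n : ℕ} (h x y : Matrix (Fin n) (Fin n) K) (hx : x ∈ dcen h)
    (hy : y ∈ dcen h) : x * y = y * x := by
  have h1 : h * y = y * h := (mem_dcen h y).mp hy h rfl
  exact ((mem_dcen h x).mp hx y h1.symm).symm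

/-- **hermitian square roots**: an invertible hermitian matrix `h` is `c* c` for some `c` in the
double centralizer of `h` -/
theorem exists_ctr_sqrt (hK : Fintype.card K = q ^ 2) (Φ : Frob K q) {n : ℕ} [NeZero n]
    (h hi : Matrix (Fin n) (Fin n) K) (hh : ctr Φ h = h) (h1 : h * hi = 1) (h2 : hi * h = 1) :
    ∃ c : Matrix (Fin n) (Fin n) K, ctr Φ c * c = h ∧ ∀ X, X * h = h * X → X * c = c * X := by
  classical
  letI : CommRing (dcen h) :=
    { (inferInstance : Ring (dcen h)) with
      mul_comm := fun a b => Subtype.ext (dcen_comm h a.1 b.1 a.2 b.2) }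
  have hp : (ringChar K).Prime := CharP.char_is_prime K (ringChar K)
  haveI : Fact (ringChar K).Prime := ⟨hp⟩
  haveI : CharP (Matrix (Fin n) (Fin n) K) (ringChar K) := inferInstance
  haveI : CharP (dcen h) (ringChar K) := CharP.subring _ _ _
  have hstab : ∀ x, x ∈ dcen h → ctr Φ x ∈ dcen h := by
    intro x hx
    rw [mem_dcen] at hx ⊢
    intro g hg
    have hg' : ctr Φ g * h = h * ctr Φ g := by
      have := congrArg (ctr Φ) hg
      rw [ctr_mul, ctr_mul, hh] at this
      exact this.symm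
    have := congrArg (ctr Φ) (hx _ hg')
    rw [ctr_mul, ctr_mul, ctr_ctr] at this
    exact this.symm
  let σ : dcen h →+* dcen h :=
    { toFun := fun x => ⟨ctr Φ x.1, hstab x.1 x.2⟩
      map_one' := Subtype.ext (ctr_one Φ)
      map_mul' := fun x y => Subtype.ext (by
        show ctr Φ (x.1 * y.1) = ctr Φ x.1 * ctr Φ y.1
        rw [ctr_mul]
        exact dcen_comm h _ _ (hstab y.1 y.2) (hstab x.1 x.2))
      map_zero' := Subtype.ext (ctr_zero Φ)
      map_add' := fun x y => Subtype.ext (ctr_add Φ x.1 y.1) }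
  have hσ : ∀ x, σ (σ x) = x := fun x => Subtype.ext (ctr_ctr Φ x.1)
  have hsc : ∀ a : K, algebraMap K (Matrix (Fin n) (Fin n) K) a ∈ dcen h := by
    intro a
    rw [mem_dcen]
    intro g _
    exact (Algebra.commutes a g).symm
  obtain ⟨l, hl⟩ := exists_tr_one hK Φ
  obtain ⟨d, hd0, hd⟩ := exists_skew hK Φ
  obtain ⟨e, -, he⟩ := FiniteField.card K (ringChar K)
  have hres := norm_surj (S := dcen h) σ hσ (ringChar K) ⟨_, hsc l⟩ ?_ ⟨_, hsc d⟩ ?_ ?_
    (e : ℕ) e.pos ?_ ⟨h, self_mem_dcen h⟩ ?_ ?_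
  · obtain ⟨c, hc⟩ := hres
    refine ⟨c.1, ?_, ?_⟩
    · exact congrArg Subtype.val hc
    · intro X hX
      exact (mem_dcen h c.1).mp c.2 X hX
  · apply Subtype.ext
    show algebraMap K (Matrix (Fin n) (Fin n) K) l
      + ctr Φ (algebraMap K (Matrix (Fin n) (Fin n) K) l) = 1
    rw [ctr_algebraMap, ← map_add, hl, map_one]
  · apply Subtype.ext
    show ctr Φ (algebraMap K (Matrix (Fin n) (Fin n) K) d)
      = -algebraMap K (Matrix (Fin n) (Fin n) K) d
    rw [ctr_algebraMap, ← map_neg]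
    congr 1
    linear_combination hd
  · refine IsUnit.of_mul_eq_one (⟨_, hsc ((d ^ 2)⁻¹)⟩ : dcen h) ?_
    apply Subtype.ext
    show (algebraMap K (Matrix (Fin n) (Fin n) K) d) ^ 2
      * algebraMap K (Matrix (Fin n) (Fin n) K) ((d ^ 2)⁻¹) = 1
    rw [← map_pow, ← map_mul, mul_inv_cancel₀ (pow_ne_zero 2 hd0), map_one]
  · apply Subtype.ext
    show ((algebraMap K (Matrix (Fin n) (Fin n) K) d) ^ 2) ^ (ringChar K ^ (e : ℕ))
      = (algebraMap K (Matrix (Fin n) (Fin n) K) d) ^ 2
    rw [← map_pow, ← map_pow, ← he, FiniteField.pow_card]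
  · have hi_mem : hi ∈ dcen h := by
      rw [mem_dcen]
      intro g hg
      calc g * hi = (hi * h) * g * hi := by rw [h2, one_mul]
        _ = hi * (h * g) * hi := by rw [mul_assoc hi h g]
        _ = hi * (g * h) * hi := by rw [hg]
        _ = hi * g * (h * hi) := by simp only [mul_assoc]
        _ = hi * g := by rw [h1, mul_one]
    exact IsUnit.of_mul_eq_one (⟨hi, hi_mem⟩ : dcen h) (Subtype.ext h1)
  · exact Subtype.ext hh

end NormB

end Cfsg.Agent.Helper16
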