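import Mathlib
import Cfsg.Prelude.Def_Classical
import Cfsg.Prelude.Def_ClassicalGeometry
import Cfsg.Prelude.Def_LieClassical
import Cfsg.Agent.Helper3.Unitary
import Cfsg.Agent.Helper16.UnitI
import Cfsg.Agent.Helper16.NormA
import Cfsg.Agent.Helper16.NormB

set_option autoImplicit false
set_option linter.unusedSectionVars false
set_option linter.style.haveILetI false
set_option linter.unusedSimpArgs false
set_option linter.unusedVariables false

namespace Cfsg.Agent.Helper16

open Cfsg Matrix Cfsg.Agent.Helper3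

noncomputable section NormC

/-- Hilbert 90 for a finite commutative ring with an involution whose norm map is onto the
fixed units (by counting) -/
theorem hilbert90 {S : Type*} [CommRing S] [Finite S] (σ : S →+* S) (hσ : ∀ x, σ (σ x) = x)
    (hN : ∀ h : S, IsUnit h → σ h = h → ∃ c : S, σ c * c = h)
    (s : S) (hs : σ s * s = 1) : ∃ u : S, IsUnit u ∧ σ u * s = u := by
  classical
  let σu : Sˣ →* Sˣ := Units.map (σ : S →* S)
  have hσu : ∀ x : Sˣ, σu (σu x) = x := fun x => Units.ext (hσ x)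
  let f : Sˣ →* Sˣ :=
    { toFun := fun u => u * (σu u)⁻¹
      map_one' := by simp
      map_mul' := fun a b => by rw [map_mul, mul_inv]; exact mul_mul_mul_comm _ _ _ _ }
  let N : Sˣ →* Sˣ :=
    { toFun := fun u => σu u * u
      map_one' := by simp
      map_mul' := fun a b => by rw [map_mul]; exact mul_mul_mul_comm _ _ _ _ }
  have hker : f.ker = N.range := by
    ext x
    rw [MonoidHom.mem_ker, MonoidHom.mem_range]
    constructor
    · intro hx
      have hfix : σu x = x := by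
        have h1 : x * (σu x)⁻¹ = 1 := hx
        rw [mul_inv_eq_one] at h1
        exact h1.symm
      obtain ⟨c, hc⟩ := hN x x.isUnit (congrArg Units.val hfix)
      have hcu : IsUnit c := by
        refine IsUnit.of_mul_eq_one (σ c * ((x⁻¹ : Sˣ) : S)) ?_
        calc c * (σ c * ((x⁻¹ : Sˣ) : S)) = (σ c * c) * ((x⁻¹ : Sˣ) : S) := by ring
          _ = 1 := by rw [hc, Units.mul_inv]
      obtain ⟨cu, hcu'⟩ := hcu
      refine ⟨cu, Units.ext ?_⟩
      show σ cu * cu = x
      rw [hcu', hc]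
    · rintro ⟨c, rfl⟩
      show σu c * c * (σu (σu c * c))⁻¹ = 1
      rw [map_mul, hσu, mul_comm (σu c) c, mul_inv_cancel]
  have hle : f.range ≤ N.ker := by
    rintro x ⟨u, rfl⟩
    rw [MonoidHom.mem_ker]
    show σu (u * (σu u)⁻¹) * (u * (σu u)⁻¹) = 1
    rw [map_mul, map_inv, hσu]
    group
  have hcard : Nat.card N.ker ≤ Nat.card f.range := by
    have h1 : Nat.card f.ker * Nat.card f.range = Nat.card Sˣ := by
      rw [← Subgroup.index_ker]; exact Subgroup.card_mul_index _
    have h2 : Nat.card N.ker * Nat.card N.range = Nat.card Sˣ := by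
      rw [← Subgroup.index_ker]; exact Subgroup.card_mul_index _
    rw [hker] at h1
    have hpos : 0 < Nat.card N.range := Nat.card_pos
    have h3 : Nat.card N.range * Nat.card f.range = Nat.card N.range * Nat.card N.ker := by
      rw [h1, mul_comm, h2]
    exact (Nat.eq_of_mul_eq_mul_left hpos h3).ge
  have heq : f.range = N.ker := Subgroup.eq_of_le_of_card_ge hle hcard
  have hsu : IsUnit s := IsUnit.of_mul_eq_one (σ s) (by rw [mul_comm]; exact hs)
  obtain ⟨su, hsu'⟩ := hsu
  have hsk : su ∈ N.ker := by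
    rw [MonoidHom.mem_ker]
    apply Units.ext
    show σ su * su = 1
    rw [hsu', hs]
  rw [← heq] at hsk
  obtain ⟨u, hu⟩ := hsk
  refine ⟨u, u.isUnit, ?_⟩
  have h4 : (σu u) * su = u := by
    rw [← hu]
    show σu u * (u * (σu u)⁻¹) = u
    rw [mul_comm u, mul_inv_cancel_left]
  have h5 := congrArg Units.val h4
  rw [← hsu']
  exact h5

variable {K : Type*} [Field K] [Fintype K] {q : ℕ}

/-- **twisted Hilbert 90 for matrices**: for an invertible `g`, there is an invertible `u` in the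
double centralizer of `s = g⁻¹ g*` such that `g u` is hermitian -/
theorem twisted_h90 (hK : Fintype.card K = q ^ 2) (Φ : Frob K q) {n : ℕ} [NeZero n]
    (g gi : Matrix (Fin n) (Fin n) K) (hg1 : g * gi = 1) (hg2 : gi * g = 1) :
    ∃ u ui : Matrix (Fin n) (Fin n) K, u * ui = 1 ∧ ui * u = 1 ∧ ctr Φ (g * u) = g * u ∧
      ∀ X, X * (gi * ctr Φ g) = (gi * ctr Φ g) * X → X * u = u * X := by
  classical
  obtain ⟨s, hs⟩ : ∃ s, s = gi * ctr Φ g := ⟨_, rfl⟩
  obtain ⟨si, hsi⟩ : ∃ si, si = ctr Φ gi * g := ⟨_, rfl⟩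
  have hcg1 : ctr Φ g * ctr Φ gi = 1 := by rw [← ctr_mul, hg2, ctr_one]
  have hcg2 : ctr Φ gi * ctr Φ g = 1 := by rw [← ctr_mul, hg1, ctr_one]
  have hs1 : s * si = 1 := by
    rw [hs, hsi]
    calc gi * ctr Φ g * (ctr Φ gi * g) = gi * (ctr Φ g * ctr Φ gi) * g := by simp only [mul_assoc]
      _ = 1 := by rw [hcg1, mul_one, hg2]
  have hs2 : si * s = 1 := mul_eq_one_comm.mp hs1
  -- the twisted involution
  obtain ⟨T, hT⟩ : ∃ T : Matrix (Fin n) (Fin n) K → Matrix (Fin n) (Fin n) K,
      T = fun x => gi * ctr Φ x * g := ⟨_, rfl⟩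
  have hTmul : ∀ x y, T (x * y) = T y * T x := by
    intro x y
    rw [hT]
    show gi * ctr Φ (x * y) * g = gi * ctr Φ y * g * (gi * ctr Φ x * g)
    rw [ctr_mul]
    calc gi * (ctr Φ y * ctr Φ x) * g = gi * ctr Φ y * 1 * (ctr Φ x * g) := by
          simp only [mul_assoc, one_mul]
      _ = gi * ctr Φ y * g * (gi * ctr Φ x * g) := by rw [← hg1]; simp only [mul_assoc]
  have hTT : ∀ x, T (T x) = s * x * si := by
    intro x
    rw [hT, hs, hsi]
    show gi * ctr Φ (gi * ctr Φ x * g) * g = gi * ctr Φ g * x * (ctr Φ gi * g)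
    rw [ctr_mul, ctr_mul, ctr_ctr]
    simp only [mul_assoc]
  have hTs : T s = si := by
    rw [hT, hs, hsi]
    show gi * ctr Φ (gi * ctr Φ g) * g = ctr Φ gi * g
    rw [ctr_mul, ctr_ctr]
    calc gi * (g * ctr Φ gi) * g = (gi * g) * ctr Φ gi * g := by simp only [mul_assoc]
      _ = ctr Φ gi * g := by rw [hg2, one_mul]
  have hTone : T 1 = 1 := by
    rw [hT]
    show gi * ctr Φ 1 * g = 1
    rw [ctr_one, mul_one, hg2]
  have hTadd : ∀ x y, T (x + y) = T x + T y := by
    intro x y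
    rw [hT]
    show gi * ctr Φ (x + y) * g = gi * ctr Φ x * g + gi * ctr Φ y * g
    rw [ctr_add, mul_add, add_mul]
  have hTzero : T 0 = 0 := by
    rw [hT]
    show gi * ctr Φ 0 * g = 0
    rw [ctr_zero, mul_zero, zero_mul]
  have hTsc : ∀ a : K, T (algebraMap K (Matrix (Fin n) (Fin n) K) a)
      = algebraMap K (Matrix (Fin n) (Fin n) K) (Φ.φ a) := by
    intro a
    rw [hT]
    show gi * ctr Φ (algebraMap K (Matrix (Fin n) (Fin n) K) a) * g = _
    rw [ctr_algebraMap, ← Algebra.commutes, mul_assoc, hg2, mul_one]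
  letI : CommRing (dcen s) :=
    { (inferInstance : Ring (dcen s)) with
      mul_comm := fun a b => Subtype.ext (dcen_comm s a.1 b.1 a.2 b.2) }
  have hp : (ringChar K).Prime := CharP.char_is_prime K (ringChar K)
  haveI : Fact (ringChar K).Prime := ⟨hp⟩
  haveI : CharP (Matrix (Fin n) (Fin n) K) (ringChar K) := inferInstance
  haveI : CharP (dcen s) (ringChar K) := CharP.subring _ _ _
  have hcs : ∀ x, x ∈ dcen s → x * s = s * x := fun x hx => ((mem_dcen s x).mp hx s rfl).symm
  have hstab : ∀ x, x ∈ dcen s → T x ∈ dcen s := by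
    intro x hx
    rw [mem_dcen]
    intro y hy
    -- T y commutes with s
    have h1 : si * T y = T y * si := by
      have := congrArg T hy
      rw [hTmul, hTmul, hTs] at this
      exact this
    have h2 : T y * s = s * T y := by
      calc T y * s = (s * si) * T y * s := by rw [hs1, one_mul]
        _ = s * (si * T y) * s := by simp only [mul_assoc]
        _ = s * (T y * si) * s := by rw [h1]
        _ = s * T y * (si * s) := by simp only [mul_assoc]
        _ = s * T y := by rw [hs2, mul_one]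
    have h3 : T y * x = x * T y := (mem_dcen s x).mp hx _ h2
    have h4 := congrArg T h3
    rw [hTmul, hTmul, hTT] at h4
    have h5 : s * y * si = y := by
      calc s * y * si = y * (s * si) := by rw [← hy]; simp only [mul_assoc]
        _ = y := by rw [hs1, mul_one]
    rw [h5] at h4
    exact h4.symm
  have hTTid : ∀ x, x ∈ dcen s → T (T x) = x := by
    intro x hx
    rw [hTT]
    calc s * x * si = x * (s * si) := by rw [← hcs x hx]; simp only [mul_assoc]
      _ = x := by rw [hs1, mul_one]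
  let σ : dcen s →+* dcen s :=
    { toFun := fun x => ⟨T x.1, hstab x.1 x.2⟩
      map_one' := Subtype.ext hTone
      map_mul' := fun x y => Subtype.ext (by
        show T (x.1 * y.1) = T x.1 * T y.1
        rw [hTmul]
        exact dcen_comm s _ _ (hstab y.1 y.2) (hstab x.1 x.2))
      map_zero' := Subtype.ext hTzero
      map_add' := fun x y => Subtype.ext (hTadd x.1 y.1) }
  have hσ : ∀ x, σ (σ x) = x := fun x => Subtype.ext (hTTid x.1 x.2)
  have hsc : ∀ a : K, algebraMap K (Matrix (Fin n) (Fin n) K) a ∈ dcen s := by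
    intro a
    rw [mem_dcen]
    intro y _
    exact (Algebra.commutes a y).symm
  obtain ⟨l, hl⟩ := exists_tr_one hK Φ
  obtain ⟨d, hd0, hd⟩ := exists_skew hK Φ
  obtain ⟨e, -, he⟩ := FiniteField.card K (ringChar K)
  have hl' : (⟨_, hsc l⟩ : dcen s) + σ ⟨_, hsc l⟩ = 1 := by
    apply Subtype.ext
    show algebraMap K (Matrix (Fin n) (Fin n) K) l
      + T (algebraMap K (Matrix (Fin n) (Fin n) K) l) = 1
    rw [hTsc, ← map_add, hl, map_one]
  have hθ' : σ (⟨_, hsc d⟩ : dcen s) = -⟨_, hsc d⟩ := by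
    apply Subtype.ext
    show T (algebraMap K (Matrix (Fin n) (Fin n) K) d)
      = -algebraMap K (Matrix (Fin n) (Fin n) K) d
    rw [hTsc, ← map_neg]
    congr 1
    linear_combination hd
  have hθu : IsUnit ((⟨_, hsc d⟩ : dcen s) ^ 2) := by
    refine IsUnit.of_mul_eq_one (⟨_, hsc ((d ^ 2)⁻¹)⟩ : dcen s) ?_
    apply Subtype.ext
    show (algebraMap K (Matrix (Fin n) (Fin n) K) d) ^ 2
      * algebraMap K (Matrix (Fin n) (Fin n) K) ((d ^ 2)⁻¹) = 1
    rw [← map_pow, ← map_mul, mul_inv_cancel₀ (pow_ne_zero 2 hd0), map_one]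
  have hθe : ((⟨_, hsc d⟩ : dcen s) ^ 2) ^ (ringChar K ^ (e : ℕ)) = (⟨_, hsc d⟩ : dcen s) ^ 2 := by
    apply Subtype.ext
    show ((algebraMap K (Matrix (Fin n) (Fin n) K) d) ^ 2) ^ (ringChar K ^ (e : ℕ))
      = (algebraMap K (Matrix (Fin n) (Fin n) K) d) ^ 2
    rw [← map_pow, ← map_pow, ← he, FiniteField.pow_card]
  have hN : ∀ h : dcen s, IsUnit h → σ h = h → ∃ c : dcen s, σ c * c = h := fun h hh hσh =>
    norm_surj σ hσ (ringChar K) ⟨_, hsc l⟩ hl' ⟨_, hsc d⟩ hθ' hθu (e : ℕ) e.pos hθe h hh hσh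
  have hs' : σ (⟨s, self_mem_dcen s⟩ : dcen s) * ⟨s, self_mem_dcen s⟩ = 1 := by
    apply Subtype.ext
    show T s * s = 1
    rw [hTs, hs2]
  obtain ⟨u, huu, hu⟩ := hilbert90 σ hσ hN ⟨s, self_mem_dcen s⟩ hs'
  obtain ⟨uu, huu'⟩ := huu
  refine ⟨u.1, ((uu⁻¹ : (dcen s)ˣ) : dcen s).1, ?_, ?_, ?_, ?_⟩
  · have h1 : (uu : dcen s) * ((uu⁻¹ : (dcen s)ˣ) : dcen s) = 1 := uu.mul_inv
    rw [huu'] at h1
    exact congrArg Subtype.val h1
  · have h1 : ((uu⁻¹ : (dcen s)ˣ) : dcen s) * (uu : dcen s) = 1 := uu.inv_mul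
    rw [huu'] at h1
    exact congrArg Subtype.val h1
  · have h1 : T u.1 * s = u.1 := congrArg Subtype.val hu
    obtain ⟨um, hum⟩ : ∃ um : Matrix (Fin n) (Fin n) K, um = u.1 := ⟨_, rfl⟩
    rw [← hum] at h1 ⊢
    have h2 : gi * ctr Φ um * g * (gi * ctr Φ g) = um := by
      have h1' := h1
      rw [hT] at h1'
      have h1'' : gi * ctr Φ um * g * s = um := h1'
      rw [← hs]
      exact h1''
    have h3 : ctr Φ um * ctr Φ g = g * um := by
      calc ctr Φ um * ctr Φ g = (g * gi) * ctr Φ um * (g * gi) * ctr Φ g := by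
            rw [hg1, one_mul, mul_one]
        _ = g * (gi * ctr Φ um * g * (gi * ctr Φ g)) := by simp only [mul_assoc]
        _ = g * um := by rw [h2]
    rw [ctr_mul, h3]
  · intro X hX
    rw [← hs] at hX
    exact (mem_dcen s u.1).mp u.2 X hX

end NormC

end Cfsg.Agent.Helper16
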