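import Mathlib
import Cfsg.Agent.Helper16.NormC
import Cfsg.Agent.Helper29.Jordan

set_option autoImplicit false
set_option linter.unusedSectionVars false
set_option linter.style.haveILetI false
set_option linter.unusedSimpArgs false
set_option linter.unusedVariables false

namespace Cfsg.Agent.Helper16

open Cfsg Matrix Cfsg.Agent.Helper3 Cfsg.Agent.Helper29

noncomputable section NormD

variable {K : Type*} [Field K] [Fintype K] {q : ℕ}

theorem ctr_sub (Φ : Frob K q) {n : ℕ} (M N : Matrix (Fin n) (Fin n) K) :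
    ctr Φ (M - N) = ctr Φ M - ctr Φ N := by
  ext i j
  simp [ctr_apply]

theorem ctr_pow (Φ : Frob K q) {n : ℕ} (M : Matrix (Fin n) (Fin n) K) (k : ℕ) :
    ctr Φ (M ^ k) = (ctr Φ M) ^ k := by
  induction k with
  | zero => simp [ctr_one]
  | succ k ih => rw [pow_succ, ctr_mul, ih, pow_succ']

theorem map_mulVec_frob (Φ : Frob K q) {n : ℕ} (M : Matrix (Fin n) (Fin n) K) (w : Fin n → K) :
    (fun i => Φ.φ ((M *ᵥ w) i)) = (M.map Φ.φ) *ᵥ (fun i => Φ.φ (w i)) := by
  funext i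
  simp only [Matrix.mulVec, dotProduct, map_sum, map_mul, Matrix.map_apply]

theorem rank_map_frob_le (Φ : Frob K q) {n : ℕ} (M : Matrix (Fin n) (Fin n) K) :
    (M.map Φ.φ).rank ≤ M.rank := by
  classical
  let f : LinearMap.range M.mulVecLin → LinearMap.range (M.map Φ.φ).mulVecLin := fun v =>
    ⟨fun i => Φ.φ (v.1 i), by
      obtain ⟨w, hw⟩ := v.2
      refine ⟨fun i => Φ.φ (w i), ?_⟩
      rw [Matrix.mulVecLin_apply, ← map_mulVec_frob, ← Matrix.mulVecLin_apply, hw]⟩
  have hf : Function.Surjective f := by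
    rintro ⟨v, w, hw⟩
    refine ⟨⟨M *ᵥ (fun i => Φ.φ (w i)), ⟨_, rfl⟩⟩, ?_⟩
    apply Subtype.ext
    show (fun i => Φ.φ ((M *ᵥ fun i => Φ.φ (w i)) i)) = v
    rw [map_mulVec_frob]
    simp only [Φ.hφ2]
    exact hw
  have hcard := Nat.card_le_card_of_surjective f hf
  have ha := Module.natCard_eq_pow_finrank (K := K) (V := LinearMap.range M.mulVecLin)
  have hb := Module.natCard_eq_pow_finrank (K := K) (V := LinearMap.range (M.map Φ.φ).mulVecLin)
  rw [ha, hb] at hcard
  have h1 : 1 < Nat.card K := by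
    rw [Nat.card_eq_fintype_card]; exact Fintype.one_lt_card
  exact (Nat.pow_le_pow_iff_right h1).mp hcard

theorem rank_ctr (Φ : Frob K q) {n : ℕ} (M : Matrix (Fin n) (Fin n) K) :
    (ctr Φ M).rank = M.rank := by
  unfold ctr
  rw [Matrix.rank_transpose]
  apply le_antisymm (rank_map_frob_le Φ M)
  have h1 := rank_map_frob_le Φ (M.map Φ.φ)
  have h2 : (M.map Φ.φ).map Φ.φ = M := by
    ext i j
    simp only [Matrix.map_apply, Φ.hφ2]
  rw [h2] at h1
  exact h1

theorem rank_Ng_pow {n : ℕ} (g : GL (Fin n) K) (k : ℕ) :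
    Module.finrank K (LinearMap.range ((Ng g) ^ k))
      = (((g : Matrix (Fin n) (Fin n) K) - 1) ^ k).rank := by
  have h1 : (Ng g) ^ k = Matrix.toLinAlgEquiv' (((g : Matrix (Fin n) (Fin n) K) - 1) ^ k) := by
    unfold Ng
    rw [map_pow, map_sub, map_one]
  rw [h1]
  rfl

/-- a unipotent element of `GL_n(q²)` is conjugate to its inverse conjugate transpose -/
theorem unip_conj_ctr (Φ : Frob K q) {n : ℕ} (g g' : GL (Fin n) K)
    (hg' : (g' : Matrix (Fin n) (Fin n) K)
      = ctr Φ ((g⁻¹ : GL (Fin n) K) : Matrix (Fin n) (Fin n) K))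
    (hnil : ∃ k, (Ng g) ^ k = 0) : IsConj g g' := by
  classical
  obtain ⟨gm, hgm⟩ : ∃ gm, gm = (g : Matrix (Fin n) (Fin n) K) := ⟨_, rfl⟩
  obtain ⟨gi, hgi⟩ : ∃ gi, gi = ((g⁻¹ : GL (Fin n) K) : Matrix (Fin n) (Fin n) K) := ⟨_, rfl⟩
  have hgi1 : gm * gi = 1 := by rw [hgm, hgi]; exact g.mul_inv
  have hgi2 : gi * gm = 1 := by rw [hgm, hgi]; exact g.inv_mul
  have hrank : ∀ k, Module.finrank K (LinearMap.range ((Ng g) ^ k))
      = Module.finrank K (LinearMap.range ((Ng g') ^ k)) := by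
    intro k
    rw [rank_Ng_pow, rank_Ng_pow, hg', ← hgm, ← hgi]
    have h1 : ctr Φ gi - 1 = ctr Φ ((-gi) * (gm - 1)) := by
      have h1' : gi - 1 = (-gi) * (gm - 1) := by
        rw [mul_sub, neg_mul, hgi2, mul_one]
        abel
      rw [← h1', ctr_sub, ctr_one]
    have hcomm : Commute (-gi) (gm - 1) := by
      show -gi * (gm - 1) = (gm - 1) * -gi
      rw [mul_sub, sub_mul, neg_mul, mul_neg, hgi1, hgi2, mul_one, one_mul]
    have hdet : IsUnit (ctr Φ ((-gi) ^ k)).det := by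
      have h2 : (-gi) ^ k * (-gm) ^ k = 1 := by
        have hc : Commute (-gi) (-gm) := by
          show -gi * -gm = -gm * -gi
          rw [neg_mul_neg, neg_mul_neg, hgi1, hgi2]
        rw [← hc.mul_pow, neg_mul_neg, hgi2, one_pow]
      have h3 : ctr Φ ((-gm) ^ k) * ctr Φ ((-gi) ^ k) = 1 := by
        rw [← ctr_mul, h2, ctr_one]
      have h4 := congrArg Matrix.det h3
      rw [Matrix.det_mul, Matrix.det_one] at h4
      exact IsUnit.of_mul_eq_one _ (by rw [mul_comm]; exact h4)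
    rw [h1, ← ctr_pow, hcomm.mul_pow, ctr_mul, Matrix.rank_mul_eq_left_of_isUnit_det _ _ hdet,
      rank_ctr]
  obtain ⟨e, he⟩ := nilp_conj n (Fin n → K) (Fin n → K) (Ng g) (Ng g')
    (by rw [Module.finrank_fintype_fun_eq_card, Fintype.card_fin]) hnil hrank
  exact isConj_of_semiconj g g' e he

end NormD

end Cfsg.Agent.Helper16
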