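import Mathlib
import Cfsg.Agent.Helper16.NormD
import Cfsg.Agent.Helper14.RegUnip
import Cfsg.Agent.S2642

set_option autoImplicit false
set_option linter.unusedSectionVars false
set_option linter.style.haveILetI false
set_option linter.unusedSimpArgs false
set_option linter.unusedVariables false

namespace Cfsg.Agent.Helper16

open Cfsg Matrix Cfsg.Agent.Helper3 Cfsg.Agent.Helper29 Cfsg.Agent.Helper14.RegUnip

noncomputable section NormE

variable {K : Type*} [Field K] [Fintype K] {q : ℕ}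

theorem ctr_smul_one (Φ : Frob K q) {n : ℕ} (a : K) :
    ctr Φ (a • (1 : Matrix (Fin n) (Fin n) K)) = Φ.φ a • (1 : Matrix (Fin n) (Fin n) K) := by
  ext i j
  rw [ctr_apply, Matrix.smul_apply, Matrix.smul_apply, Matrix.one_apply, Matrix.one_apply]
  by_cases h : i = j
  · subst h; simp
  · rw [if_neg h, if_neg (Ne.symm h), smul_zero, smul_zero, map_zero]

/-- the determinant of a unitary matrix commuting with a regular unipotent is `a ^ n` for a
scalar `a` of norm one -/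
theorem cent_det_unitary (Φ : Frob K q) {n : ℕ} (hn : 0 < n)
    (u0 P c : Matrix (Fin n) (Fin n) K)
    (hP : IsUnit P.det) (hPJ : (u0 - 1) * P = P * J K n)
    (hc : ctr Φ c * c = 1) (hcu : c * u0 = u0 * c) :
    ∃ a : K, a * Φ.φ a = 1 ∧ c.det = a ^ n := by
  classical
  obtain ⟨X, hX⟩ : ∃ X, X = P⁻¹ * c * P := ⟨_, rfl⟩
  have hPP1 : P * P⁻¹ = 1 := Matrix.mul_nonsing_inv P hP
  have hPP2 : P⁻¹ * P = 1 := Matrix.nonsing_inv_mul P hP
  have hcN : c * (u0 - 1) = (u0 - 1) * c := by rw [mul_sub, sub_mul, hcu, mul_one, one_mul]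
  have hJ : P⁻¹ * (u0 - 1) = J K n * P⁻¹ := by
    calc P⁻¹ * (u0 - 1) = P⁻¹ * ((u0 - 1) * P) * P⁻¹ := by
          rw [mul_assoc, mul_assoc, hPP1, mul_one]
      _ = J K n * P⁻¹ := by rw [hPJ, ← mul_assoc, hPP2, one_mul]
  have hkey : ∀ t : K, (c - t • (1 : Matrix (Fin n) (Fin n) K)).det
      = (X ⟨0, hn⟩ ⟨0, hn⟩ - t) ^ n := by
    intro t
    have hXt : (X - t • (1 : Matrix (Fin n) (Fin n) K)) * J K n
        = J K n * (X - t • (1 : Matrix (Fin n) (Fin n) K)) := by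
      rw [sub_mul, mul_sub, smul_mul_assoc, one_mul, mul_smul_comm, mul_one]
      congr 1
      rw [hX]
      calc P⁻¹ * c * P * J K n = P⁻¹ * c * (P * J K n) := by rw [mul_assoc]
        _ = P⁻¹ * (c * (u0 - 1)) * P := by rw [← hPJ]; simp only [mul_assoc]
        _ = (P⁻¹ * (u0 - 1)) * c * P := by rw [hcN]; simp only [mul_assoc]
        _ = J K n * (P⁻¹ * c * P) := by rw [hJ]; simp only [mul_assoc]
    have h1 := det_of_comm hn _ hXt
    have h2 : X - t • (1 : Matrix (Fin n) (Fin n) K)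
        = P⁻¹ * (c - t • (1 : Matrix (Fin n) (Fin n) K)) * P := by
      rw [hX, mul_sub, sub_mul, mul_smul_comm, mul_one, smul_mul_assoc, hPP2]
    have h3 : (X - t • (1 : Matrix (Fin n) (Fin n) K)) ⟨0, hn⟩ ⟨0, hn⟩
        = X ⟨0, hn⟩ ⟨0, hn⟩ - t := by
      simp [Matrix.sub_apply, Matrix.smul_apply]
    rw [h3] at h1
    rw [← h1, h2, Matrix.det_mul, Matrix.det_mul]
    have h4 : P⁻¹.det * P.det = 1 := by rw [← Matrix.det_mul, hPP2, Matrix.det_one]
    linear_combination (-(c - t • (1 : Matrix (Fin n) (Fin n) K)).det) * h4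
  obtain ⟨a, ha⟩ : ∃ a, a = X ⟨0, hn⟩ ⟨0, hn⟩ := ⟨_, rfl⟩
  rw [← ha] at hkey
  have hdetc : c.det = a ^ n := by
    have := hkey 0
    simpa using this
  have hcdet : c.det ≠ 0 := by
    have h5 := congrArg Matrix.det hc
    rw [Matrix.det_mul, Matrix.det_one] at h5
    intro h0
    rw [h0, mul_zero] at h5
    exact zero_ne_one h5
  have ha0 : a ≠ 0 := by
    intro h0
    rw [hdetc, h0, zero_pow (by omega)] at hcdet
    exact hcdet rfl
  have hφa : Φ.φ a ≠ 0 := by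
    rw [Ne, map_eq_zero]
    exact ha0
  have h6 : (ctr Φ (c - a • (1 : Matrix (Fin n) (Fin n) K))).det = 0 := by
    rw [ctr_det, hkey a, sub_self, zero_pow (by omega), map_zero]
  have h7 : ctr Φ (c - a • (1 : Matrix (Fin n) (Fin n) K)) * c
      = (-(Φ.φ a)) • (c - (Φ.φ a)⁻¹ • (1 : Matrix (Fin n) (Fin n) K)) := by
    rw [ctr_sub, sub_mul, hc, ctr_smul_one, smul_mul_assoc, one_mul, smul_sub, smul_smul,
      neg_mul, mul_inv_cancel₀ hφa, neg_smul, neg_smul, one_smul]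
    abel
  have h8 := congrArg Matrix.det h7
  rw [Matrix.det_mul, h6, zero_mul, Matrix.det_smul, hkey, Fintype.card_fin] at h8
  have h9 : (a - (Φ.φ a)⁻¹) ^ n = 0 := by
    rcases mul_eq_zero.mp h8.symm with h | h
    · exact absurd ((pow_eq_zero_iff (by omega)).mp h) (neg_ne_zero.mpr hφa)
    · exact h
  have h10 : a = (Φ.φ a)⁻¹ := sub_eq_zero.mp ((pow_eq_zero_iff (by omega)).mp h9)
  refine ⟨a, ?_, hdetc⟩
  calc a * Φ.φ a = (Φ.φ a)⁻¹ * Φ.φ a := by rw [← h10]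
    _ = 1 := inv_mul_cancel₀ hφa

/-- a regular unipotent unitary matrix of determinant one exists -/
theorem exists_reg_unitary (hK : Fintype.card K = q ^ 2) (Φ : Frob K q) {n : ℕ} (hn : 0 < n) :
    ∃ u0 : Matrix (Fin n) (Fin n) K, ctr Φ u0 * u0 = 1 ∧ u0.det = 1 ∧ (u0 - 1) ^ n = 0 ∧
      (u0 - 1).rank = n - 1 := by
  classical
  have hdet : IsUnit (1 + J K n).det := by rw [det_one_add_J]; exact isUnit_one
  obtain ⟨g, hg⟩ : ∃ g : GL (Fin n) K, (g : Matrix (Fin n) (Fin n) K) = 1 + J K n :=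
    ⟨Matrix.GeneralLinearGroup.mk'' _ hdet, rfl⟩
  have hnil : ∃ k, (Ng g) ^ k = 0 := by
    refine ⟨n, ?_⟩
    unfold Ng
    rw [← map_one (Matrix.toLinAlgEquiv' (R := K) (n := Fin n)), ← map_sub, ← map_pow, hg,
      add_sub_cancel_left, J_pow_self, map_zero]
  obtain ⟨B, hB⟩ := Cfsg.Agent.S2642.unip_meets_h16 hK g hnil
  obtain ⟨c, hc⟩ := isConj_iff.mp hB
  obtain ⟨Bm, hBm⟩ : ∃ Bm, Bm = ((B : GL (Fin n) K) : Matrix (Fin n) (Fin n) K) := ⟨_, rfl⟩
  obtain ⟨cm, hcm⟩ : ∃ cm, cm = (c : Matrix (Fin n) (Fin n) K) := ⟨_, rfl⟩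
  obtain ⟨ci, hci⟩ : ∃ ci, ci = ((c⁻¹ : GL (Fin n) K) : Matrix (Fin n) (Fin n) K) := ⟨_, rfl⟩
  have hc1 : cm * ci = 1 := by rw [hcm, hci]; exact c.mul_inv
  have hc2 : ci * cm = 1 := by rw [hcm, hci]; exact c.inv_mul
  have hBeq : Bm = cm * (1 + J K n) * ci := by
    rw [hBm, ← hc, hcm, hci, ← hg]
    rfl
  have hB1 : Bm - 1 = cm * J K n * ci := by
    rw [hBeq, mul_add, add_mul, mul_one, hc1, add_sub_cancel_left]
  have hcmdet : IsUnit cm.det := by
    have := congrArg Matrix.det hc1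
    rw [Matrix.det_mul, Matrix.det_one] at this
    exact IsUnit.of_mul_eq_one _ this
  have hcidet : IsUnit ci.det := by
    have := congrArg Matrix.det hc2
    rw [Matrix.det_mul, Matrix.det_one] at this
    exact IsUnit.of_mul_eq_one _ this
  refine ⟨Bm, ?_, ?_, ?_, ?_⟩
  · rw [hBm]; exact (hpres_iff hK Φ _).mp ((mem_GU_iff _).mp B.2)
  · rw [hBeq, Matrix.det_mul, Matrix.det_mul, det_one_add_J, mul_one, ← Matrix.det_mul, hc1,
      Matrix.det_one]
  · rw [hB1]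
    have hpow : ∀ k : ℕ, (cm * J K n * ci) ^ k = cm * (J K n) ^ k * ci := by
      intro k
      induction k with
      | zero => rw [pow_zero, pow_zero, mul_one, hc1]
      | succ k ih =>
        rw [pow_succ, ih, pow_succ]
        calc cm * J K n ^ k * ci * (cm * J K n * ci)
            = cm * J K n ^ k * (ci * cm) * J K n * ci := by simp only [mul_assoc]
          _ = cm * (J K n ^ k * J K n) * ci := by rw [hc2, mul_one, mul_assoc cm]
    rw [hpow, J_pow_self, mul_zero, zero_mul]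
  · rw [hB1, Matrix.rank_mul_eq_left_of_isUnit_det _ _ hcidet,
      Matrix.rank_mul_eq_right_of_isUnit_det _ _ hcmdet, rank_J hn]

/-- two regular unipotent unitary matrices are conjugate by a unitary matrix -/
theorem reg_unitary_conj (hK : Fintype.card K = q ^ 2) (Φ : Frob K q) {n : ℕ} (hn : 0 < n)
    (u u' : Matrix (Fin n) (Fin n) K) (hu : ctr Φ u * u = 1) (hu' : ctr Φ u' * u' = 1)
    (h1 : (u - 1) ^ n = 0) (h2 : (u - 1).rank = n - 1)
    (h1' : (u' - 1) ^ n = 0) (h2' : (u' - 1).rank = n - 1) :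
    ∃ x xi : Matrix (Fin n) (Fin n) K, x * xi = 1 ∧ xi * x = 1 ∧ ctr Φ x * x = 1 ∧
      x * u = u' * x := by
  classical
  obtain ⟨P, hP, hPJ⟩ := exists_conj_J hn _ h1 h2
  obtain ⟨P', hP', hPJ'⟩ := exists_conj_J hn _ h1' h2'
  have hPP1 : P * P⁻¹ = 1 := Matrix.mul_nonsing_inv P hP
  have hPP2 : P⁻¹ * P = 1 := Matrix.nonsing_inv_mul P hP
  have hPP1' : P' * P'⁻¹ = 1 := Matrix.mul_nonsing_inv P' hP'
  have hPP2' : P'⁻¹ * P' = 1 := Matrix.nonsing_inv_mul P' hP'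
  have hJ : P⁻¹ * (u - 1) = J K n * P⁻¹ := by
    calc P⁻¹ * (u - 1) = P⁻¹ * ((u - 1) * P) * P⁻¹ := by
          rw [mul_assoc, mul_assoc, hPP1, mul_one]
      _ = J K n * P⁻¹ := by rw [hPJ, ← mul_assoc, hPP2, one_mul]
  have hgu : (P' * P⁻¹) * u = u' * (P' * P⁻¹) := by
    have h3 : (P' * P⁻¹) * (u - 1) = (u' - 1) * (P' * P⁻¹) := by
      rw [mul_assoc, hJ, ← mul_assoc, ← hPJ', mul_assoc]
    rw [mul_sub, sub_mul, mul_one, one_mul] at h3
    exact sub_left_injective h3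
  have hu2 : u * ctr Φ u = 1 := mul_eq_one_comm.mp hu
  have hu2' : u' * ctr Φ u' = 1 := mul_eq_one_comm.mp hu'
  let A : ↥(Cfsg.GU n K q) := ⟨⟨u, ctr Φ u, hu2, hu⟩, (mem_GU_iff _).mpr ((hpres_iff hK Φ u).mpr hu)⟩
  let B : ↥(Cfsg.GU n K q) :=
    ⟨⟨u', ctr Φ u', hu2', hu'⟩, (mem_GU_iff _).mpr ((hpres_iff hK Φ u').mpr hu')⟩
  let g : GL (Fin n) K := ⟨P' * P⁻¹, P * P'⁻¹, by
      calc P' * P⁻¹ * (P * P'⁻¹) = P' * (P⁻¹ * P) * P'⁻¹ := by simp only [mul_assoc]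
        _ = 1 := by rw [hPP2, mul_one, hPP1'], by
      calc P * P'⁻¹ * (P' * P⁻¹) = P * (P'⁻¹ * P') * P⁻¹ := by simp only [mul_assoc]
        _ = 1 := by rw [hPP2', mul_one, hPP1]⟩
  have hconjGL : IsConj (A : GL (Fin n) K) (B : GL (Fin n) K) := by
    refine isConj_iff.mpr ⟨g, ?_⟩
    rw [mul_inv_eq_iff_eq_mul]
    apply Units.ext
    exact hgu
  have hconj : IsConj A B := (Cfsg.Agent.S2587.result hK A B).mpr hconjGL
  obtain ⟨x, hx⟩ := isConj_iff.mp hconj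
  have hx' : x * A = B * x := mul_inv_eq_iff_eq_mul.mp hx
  refine ⟨((x : GL (Fin n) K) : Matrix (Fin n) (Fin n) K),
    (((x : GL (Fin n) K)⁻¹ : GL (Fin n) K) : Matrix (Fin n) (Fin n) K), ?_, ?_, ?_, ?_⟩
  · exact (x : GL (Fin n) K).mul_inv
  · exact (x : GL (Fin n) K).inv_mul
  · exact (hpres_iff hK Φ _).mp ((mem_GU_iff _).mp x.2)
  · have := congrArg (fun y : ↥(Cfsg.GU n K q) => ((y : GL (Fin n) K) : Matrix (Fin n) (Fin n) K)) hx'
    exact this

end NormE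

end Cfsg.Agent.Helper16
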