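import Cfsg.Agent.Helper16.SiegelOmega

set_option autoImplicit false
open Cfsg

namespace Cfsg.Agent.Helper16

open QuadraticMap Module

section RotPair
variable {ι : Type} [Fintype ι] [DecidableEq ι] {F : Type*} [Field F]

/-- rotating a pair of reflection vectors of the same norm inside their plane does not change the
product of the two reflections -/
theorem rot_pair (Q : QuadraticForm F (ι → F)) (w w' : ι → F) (hw : Q w ≠ 0) (hw' : Q w' = Q w)
    (s t μ : F) (hμ : μ = Q w * (s ^ 2 + t ^ 2) + s * t * polar Q w w') (hμ0 : μ ≠ 0) :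
    Q (s • w + t • w') = μ ∧
    Q ((-t) • w + (s + t * polar Q w w' / Q w) • w') = μ ∧
    reflElt Q w * reflElt Q w' = reflElt Q (s • w + t • w') *
      reflElt Q ((-t) • w + (s + t * polar Q w w' / Q w) • w') := by
  have h1 : Q (s • w + t • w') = μ := by
    rw [qf_add, qf_smul, qf_smul, polar_smul_left, polar_smul_right, hw', hμ]
    simp only [smul_eq_mul]
    ring
  have h2 : Q ((-t) • w + (s + t * polar Q w w' / Q w) • w') = μ := by
    rw [qf_add, qf_smul, qf_smul, polar_smul_left, polar_smul_right, hw', hμ]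
    simp only [smul_eq_mul]
    field_simp
    ring
  refine ⟨h1, h2, ?_⟩
  apply act_ext
  intro x
  rw [act_mul, act_mul, act_refl Q w hw, act_refl Q w' (by rw [hw']; exact hw),
    act_refl Q _ (by rw [h1]; exact hμ0), act_refl Q _ (by rw [h2]; exact hμ0),
    qrefl_apply, qrefl_apply, qrefl_apply, qrefl_apply, h1, h2, hw']
  have e1 : polar Q w (x - ((Q w)⁻¹ * polar Q w' x) • w') =
      polar Q w x - (Q w)⁻¹ * polar Q w' x * polar Q w w' := by
    rw [polar_sub_right, polar_smul_right, smul_eq_mul]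
  have e2 : polar Q ((-t) • w + (s + t * polar Q w w' / Q w) • w') x =
      -t * polar Q w x + (s + t * polar Q w w' / Q w) * polar Q w' x := by
    rw [polar_add_left, polar_smul_left, polar_smul_left, smul_eq_mul, smul_eq_mul]
  have e3 : polar Q (s • w + t • w') x = s * polar Q w x + t * polar Q w' x := by
    rw [polar_add_left, polar_smul_left, polar_smul_left, smul_eq_mul, smul_eq_mul]
  have e4 : polar Q (s • w + t • w') ((-t) • w + (s + t * polar Q w w' / Q w) • w') =
      s * (-t) * (2 * Q w) + s * (s + t * polar Q w w' / Q w) * polar Q w w' +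
        t * (-t) * polar Q w w' + t * (s + t * polar Q w w' / Q w) * (2 * Q w) := by
    rw [polar_add_left, polar_smul_left, polar_smul_left, polar_add_right, polar_add_right,
      polar_smul_right, polar_smul_right, polar_smul_right, polar_smul_right, qf_polar_self,
      qf_polar_self, hw', polar_comm Q w' w]
    simp only [smul_eq_mul]
    ring
  have e5 : polar Q (s • w + t • w')
      (x - (μ⁻¹ * polar Q ((-t) • w + (s + t * polar Q w w' / Q w) • w') x) •
        ((-t) • w + (s + t * polar Q w w' / Q w) • w')) =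
      s * polar Q w x + t * polar Q w' x -
        μ⁻¹ * (-t * polar Q w x + (s + t * polar Q w w' / Q w) * polar Q w' x) *
        (s * (-t) * (2 * Q w) + s * (s + t * polar Q w w' / Q w) * polar Q w w' +
        t * (-t) * polar Q w w' + t * (s + t * polar Q w w' / Q w) * (2 * Q w)) := by
    rw [polar_sub_right, polar_smul_right, e2, e3, e4, smul_eq_mul]
  rw [e1, e5, e2]
  funext i
  simp only [Pi.sub_apply, Pi.add_apply, Pi.smul_apply, smul_eq_mul]
  generalize polar Q w x = p
  generalize polar Q w' x = p'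
  generalize polar Q w w' = β at hμ ⊢
  generalize Q w = γ at hw hμ ⊢
  field_simp
  subst hμ
  ring

end RotPair

section ClassRefl
variable {ι : Type} [Fintype ι] [DecidableEq ι] {F : Type*} [Field F]

/-- reflections in vectors whose norm lies in the square class of `c` -/
def classSet (Q : QuadraticForm F (ι → F)) (c : F) : Set ↥(isometryGroup F ⇑Q) :=
  {g | ∃ (v : ι → F) (t : F), t ≠ 0 ∧ Q v = c * t ^ 2 ∧
    ((g : Matrix.GeneralLinearGroup ι F) : Matrix ι ι F) = Cfsg.reflectionMatrix ⇑Q v}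

theorem mem_classSet (Q : QuadraticForm F (ι → F)) (c : F) (hc : c ≠ 0)
    (g : ↥(isometryGroup F ⇑Q)) :
    g ∈ classSet Q c ↔ ∃ v t, t ≠ 0 ∧ Q v = c * t ^ 2 ∧ g = reflElt Q v := by
  constructor
  · rintro ⟨v, t, ht, hv, hmat⟩
    have hv0 : Q v ≠ 0 := by rw [hv]; exact mul_ne_zero hc (pow_ne_zero 2 ht)
    exact ⟨v, t, ht, hv, isom_ext _ _ _ (by rw [hmat, reflElt_coe Q v hv0])⟩
  · rintro ⟨v, t, ht, hv, rfl⟩
    exact ⟨v, t, ht, hv, reflElt_coe Q v (by rw [hv]; exact mul_ne_zero hc (pow_ne_zero 2 ht))⟩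

theorem refl_mem_class (Q : QuadraticForm F (ι → F)) (c : F) (hc : c ≠ 0)
    (v : ι → F) (t : F) (ht : t ≠ 0) (hv : Q v = c * t ^ 2) :
    reflElt Q v ∈ Subgroup.closure (classSet Q c) :=
  Subgroup.subset_closure ((mem_classSet Q c hc _).2 ⟨v, t, ht, hv, rfl⟩)

theorem class_conj (Q : QuadraticForm F (ι → F)) (c : F) (hc : c ≠ 0)
    (h k : ↥(isometryGroup F ⇑Q)) (hk : k ∈ Subgroup.closure (classSet Q c)) :
    h * k * h⁻¹ ∈ Subgroup.closure (classSet Q c) := by
  induction hk using Subgroup.closure_induction with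
  | mem x hx =>
    obtain ⟨v, t, ht, hv, rfl⟩ := (mem_classSet Q c hc x).1 hx
    have hv0 : Q v ≠ 0 := by rw [hv]; exact mul_ne_zero hc (pow_ne_zero 2 ht)
    rw [reflElt_conj Q h v hv0]
    exact refl_mem_class Q c hc _ t ht (by rw [(mem_isometryGroup_iff _ _).1 h.2 v]; exact hv)
  | one =>
    rw [mul_one, mul_inv_cancel]
    exact Subgroup.one_mem _
  | mul x y hx' hy' hx hy =>
    have e : h * (x * y) * h⁻¹ = (h * x * h⁻¹) * (h * y * h⁻¹) := by group
    rw [e]
    exact Subgroup.mul_mem _ hx hy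
  | inv x hx' hx =>
    have e : h * x⁻¹ * h⁻¹ = (h * x * h⁻¹)⁻¹ := by group
    rw [e]
    exact Subgroup.inv_mem _ hx

/-- pairs of the same norm spanning a non-degenerate plane -/
theorem class_pair_nondeg [Fintype F] (h2 : (2 : F) ≠ 0) (Q : QuadraticForm F (ι → F))
    (c : F) (hc : c ≠ 0) (w w' : ι → F) (hw : Q w ≠ 0) (hw' : Q w' = Q w)
    (hnd : polar Q w w' ^ 2 ≠ 4 * Q w ^ 2) :
    reflElt Q w * reflElt Q w' ∈ Subgroup.closure (classSet Q c) := by
  have hd : 4 * (1 : F) - (polar Q w w' / Q w) ^ 2 ≠ 0 := by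
    intro h
    apply hnd
    field_simp at h
    linear_combination -h
  obtain ⟨v, hv⟩ := exists_rep h2 (qfMinus 0 F (polar Q w w' / Q w) 1)
    (qfMinus_nondegenerate _ 1 hd) (by simp) (c / Q w) (div_ne_zero hc hw)
  rw [qfMinus_apply] at hv
  simp only [quadFormMinus, Finset.univ_eq_empty, Finset.sum_empty, zero_add] at hv
  obtain ⟨h1, h2', h⟩ := rot_pair Q w w' hw hw' (v (Sum.inr 0)) (v (Sum.inr 1)) c (by
    field_simp at hv
    linear_combination -hv) hc
  rw [h]
  exact Subgroup.mul_mem _ (refl_mem_class Q c hc _ 1 one_ne_zero (by rw [h1]; ring))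
    (refl_mem_class Q c hc _ 1 one_ne_zero (by rw [h2']; ring))

theorem exists_ne_three [Fintype F] (h4 : 4 ≤ Fintype.card F) (a b c : F) :
    ∃ τ : F, τ ≠ a ∧ τ ≠ b ∧ τ ≠ c := by
  classical
  by_contra hcon
  push Not at hcon
  have hsub : (Finset.univ : Finset F) ⊆ {a, b, c} := by
    intro x _
    simp only [Finset.mem_insert, Finset.mem_singleton]
    by_cases h1 : x = a
    · exact Or.inl h1
    · by_cases h2 : x = b
      · exact Or.inr (Or.inl h2)
      · exact Or.inr (Or.inr (hcon x h1 h2))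
  have h3 := Finset.card_le_card hsub
  have h4' : ({a, b, c} : Finset F).card ≤ 3 := Finset.card_le_three
  rw [Finset.card_univ] at h3
  omega

/-- pairs differing by a singular vector orthogonal to the first -/
theorem class_pair_deg [Fintype F] (h2 : (2 : F) ≠ 0)
    (hcase : 4 ≤ Fintype.card F ∨ 5 ≤ Fintype.card ι ∨ Fintype.card ι = 2)
    (Q : QuadraticForm F (ι → F)) (hQ : (polarBilin Q).Nondegenerate) (c : F) (hc : c ≠ 0)
    (w u : ι → F) (hw : Q w ≠ 0) (hu : Q u = 0) (hperp : polar Q w u = 0) :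
    reflElt Q w * reflElt Q (w + u) ∈ Subgroup.closure (classSet Q c) := by
  have hwu : Q (w + u) = Q w := by rw [qf_add, hu, hperp]; ring
  have h4 : (4 : F) ≠ 0 := by
    have : (4 : F) = 2 * 2 := by norm_num
    rw [this]
    exact mul_ne_zero h2 h2
  have h4g : (4 : F) * Q w ^ 2 ≠ 0 := mul_ne_zero h4 (pow_ne_zero 2 hw)
  by_cases hu0 : u = 0
  · rw [hu0, add_zero, reflElt_mul_self]
    exact Subgroup.one_mem _
  · have fin : ∀ x, Q x = Q w → polar Q w x = 0 → polar Q x u ^ 2 ≠ 4 * Q w ^ 2 →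
        reflElt Q w * reflElt Q (w + u) ∈ Subgroup.closure (classSet Q c) := by
      intro x hx hwx hxu
      have e : reflElt Q w * reflElt Q (w + u) =
          (reflElt Q w * reflElt Q x) * (reflElt Q x * reflElt Q (w + u)) := by
        rw [mul_assoc, ← mul_assoc (reflElt Q x), reflElt_mul_self, one_mul]
      rw [e]
      refine Subgroup.mul_mem _ (class_pair_nondeg h2 Q c hc w x hw hx ?_)
        (class_pair_nondeg h2 Q c hc x (w + u) (by rw [hx]; exact hw) (by rw [hwu, hx]) ?_)
      · rw [hwx]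
        intro h
        apply h4g
        rw [← h]
        ring
      · rw [polar_add_right, polar_comm Q x w, hwx, zero_add, hx]
        exact hxu
    rcases hcase with hF | hn | hn
    · -- a large field
      obtain ⟨y₀, hy₀⟩ : ∃ y, polar Q u y ≠ 0 := by
        by_contra hcon
        push Not at hcon
        exact hu0 (hQ.1 u hcon)
      have hww : polar Q w w ≠ 0 := by
        rw [qf_polar_self]
        exact mul_ne_zero h2 hw
      have hwy : polar Q w (y₀ - (polar Q w y₀ / polar Q w w) • w) = 0 := by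
        rw [polar_sub_right, polar_smul_right, smul_eq_mul, div_mul_cancel₀ _ hww, sub_self]
      have huy : polar Q u (y₀ - (polar Q w y₀ / polar Q w w) • w) ≠ 0 := by
        rw [polar_sub_right, polar_smul_right, polar_comm Q u w, hperp, smul_zero, sub_zero]
        exact hy₀
      generalize y₀ - (polar Q w y₀ / polar Q w w) • w = y at hwy huy
      obtain ⟨τ, hτ0, hτ1, hτ2⟩ := exists_ne_three hF (0 : F) (2 * Q w / polar Q u y)
        (-(2 * Q w) / polar Q u y)
      apply fin (((Q w - τ ^ 2 * Q y) / (τ * polar Q u y)) • u + τ • y)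
      · rw [qf_add, qf_smul, qf_smul, hu, polar_smul_left, polar_smul_right]
        simp only [smul_eq_mul]
        field_simp
        ring
      · rw [polar_add_right, polar_smul_right, polar_smul_right, hperp, hwy]
        simp
      · rw [polar_add_left, polar_smul_left, polar_smul_left, qf_polar_self, hu,
          polar_comm Q y u]
        simp only [smul_eq_mul, mul_zero, zero_add]
        intro h
        have h' : (τ * polar Q u y - 2 * Q w) * (τ * polar Q u y + 2 * Q w) = 0 := by
          linear_combination h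
        rcases mul_eq_zero.1 h' with h'' | h''
        · apply hτ1
          field_simp
          linear_combination h''
        · apply hτ2
          field_simp
          linear_combination h''
    · -- large dimension
      obtain ⟨x, hx, hwx, hux⟩ := exists_rep_orth_sing h2 hn Q hQ w u hw hu hu0 hperp (Q w) hw
      apply fin x hx hwx
      rw [polar_comm Q x u, hux]
      intro h
      apply h4g
      rw [← h]
      ring
    · -- dimension two: impossible
      exfalso
      have hfr : finrank F (orth Q (Submodule.span F {u})) = 1 := by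
        rw [finrank_orth Q hQ, finrank_span_singleton hu0, Module.finrank_fintype_fun_eq_card, hn]
      obtain ⟨v, hv0, hv⟩ := finrank_eq_one_iff'.1 hfr
      obtain ⟨cw, hcw⟩ := hv ⟨w, (mem_orth_span_singleton Q u w).2 (by
        rw [polar_comm]; exact hperp)⟩
      obtain ⟨cu, hcu⟩ := hv ⟨u, (mem_orth_span_singleton Q u u).2 (by
        rw [qf_polar_self, hu, mul_zero])⟩
      have hcw' : cw • (v : ι → F) = w := congrArg Subtype.val hcw
      have hcu' : cu • (v : ι → F) = u := congrArg Subtype.val hcu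
      have hcu0 : cu ≠ 0 := by
        rintro rfl
        rw [zero_smul] at hcu'
        exact hu0 hcu'.symm
      have hwu' : w = (cw / cu) • u := by
        rw [← hcu', smul_smul, div_mul_cancel₀ _ hcu0, hcw']
      apply hw
      rw [hwu', qf_smul, hu, mul_zero]

/-- all pairs of the same norm -/
theorem class_pair_mem [Fintype F] (h2 : (2 : F) ≠ 0)
    (hcase : 4 ≤ Fintype.card F ∨ 5 ≤ Fintype.card ι ∨ Fintype.card ι = 2)
    (Q : QuadraticForm F (ι → F)) (hQ : (polarBilin Q).Nondegenerate) (c : F) (hc : c ≠ 0)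
    (w w' : ι → F) (hw : Q w ≠ 0) (hw' : Q w' = Q w) :
    reflElt Q w * reflElt Q w' ∈ Subgroup.closure (classSet Q c) := by
  by_cases hnd : polar Q w w' ^ 2 = 4 * Q w ^ 2
  · have h' : (polar Q w w' - 2 * Q w) * (polar Q w w' + 2 * Q w) = 0 := by
      linear_combination hnd
    rcases mul_eq_zero.1 h' with hβ | hβ
    · have e : w' = w + (w' - w) := by abel
      rw [e]
      apply class_pair_deg h2 hcase Q hQ c hc w (w' - w) hw
      · rw [sub_eq_add_neg, qf_add, QuadraticMap.map_neg, hw', polar_neg_right,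
          polar_comm Q w' w]
        linear_combination -hβ
      · rw [polar_sub_right, qf_polar_self]
        linear_combination hβ
    · rw [← reflElt_neg Q w' (by rw [hw']; exact hw)]
      have e : -w' = w + (-w' - w) := by abel
      rw [e]
      apply class_pair_deg h2 hcase Q hQ c hc w (-w' - w) hw
      · rw [sub_eq_add_neg, qf_add, QuadraticMap.map_neg, QuadraticMap.map_neg, hw',
          polar_neg_right, polar_neg_left, polar_comm Q w' w]
        linear_combination hβ
      · rw [polar_sub_right, polar_neg_right, qf_polar_self]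
        linear_combination -hβ
  · exact class_pair_nondeg h2 Q c hc w w' hw hw' hnd

theorem nonsq_mul_nonsq [Fintype F] (a b : F) (ha : ¬ IsSquare a) (hb : ¬ IsSquare b) :
    IsSquare (a * b) := by
  classical
  have ha0 : a ≠ 0 := by
    rintro rfl
    exact ha ⟨0, by simp⟩
  have hb0 : b ≠ 0 := by
    rintro rfl
    exact hb ⟨0, by simp⟩
  rw [← quadraticChar_one_iff_isSquare (mul_ne_zero ha0 hb0), map_mul,
    quadraticChar_neg_one_iff_not_isSquare.2 ha, quadraticChar_neg_one_iff_not_isSquare.2 hb]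
  norm_num

/-- two norms outside the class of `c` differ by a square -/
theorem sq_ratio_of_bad [Fintype F] (c x y : F) (hc : c ≠ 0) (hx : x ≠ 0) (hy : y ≠ 0)
    (hxc : ¬ ∃ t : F, t ≠ 0 ∧ x = c * t ^ 2) (hyc : ¬ ∃ t : F, t ≠ 0 ∧ y = c * t ^ 2) :
    ∃ τ : F, τ ≠ 0 ∧ x = y * τ ^ 2 := by
  have key : ∀ z : F, z ≠ 0 → (¬ ∃ t : F, t ≠ 0 ∧ z = c * t ^ 2) → ¬ IsSquare (z / c) := by
    intro z hz hzc
    rintro ⟨r, hr⟩
    apply hzc
    refine ⟨r, ?_, ?_⟩
    · rintro rfl
      rw [mul_zero] at hr
      exact (div_ne_zero hz hc) hr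
    · field_simp at hr
      linear_combination hr
  obtain ⟨r, hr⟩ := nonsq_mul_nonsq _ _ (key x hx hxc) (key y hy hyc)
  have hr0 : r ≠ 0 := by
    rintro rfl
    rw [mul_zero] at hr
    exact (mul_ne_zero (div_ne_zero hx hc) (div_ne_zero hy hc)) hr
  refine ⟨r * c / y, div_ne_zero (mul_ne_zero hr0 hc) hy, ?_⟩
  field_simp
  field_simp at hr
  linear_combination hr

theorem class_dichotomy [Fintype F] (h2 : (2 : F) ≠ 0)
    (hcase : 4 ≤ Fintype.card F ∨ 5 ≤ Fintype.card ι ∨ Fintype.card ι = 2)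
    (Q : QuadraticForm F (ι → F)) (hQ : (polarBilin Q).Nondegenerate) (c : F) (hc : c ≠ 0)
    (w₀ : ι → F) (hw₀ : Q w₀ ≠ 0) (hbad₀ : ¬ ∃ t : F, t ≠ 0 ∧ Q w₀ = c * t ^ 2)
    (g : ↥(isometryGroup F ⇑Q)) :
    g ∈ Subgroup.closure (classSet Q c) ∨
      reflElt Q w₀ * g ∈ Subgroup.closure (classSet Q c) := by
  have hbad : ∀ v, Q v ≠ 0 → (¬ ∃ t : F, t ≠ 0 ∧ Q v = c * t ^ 2) →
      reflElt Q w₀ * reflElt Q v ∈ Subgroup.closure (classSet Q c) := by
    intro v hv hvbad
    obtain ⟨τ, hτ0, hτ⟩ := sq_ratio_of_bad c (Q v) (Q w₀) hc hv hw₀ hvbad hbad₀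
    rw [← reflElt_smul Q v τ⁻¹ (inv_ne_zero hτ0) hv]
    apply class_pair_mem h2 hcase Q hQ c hc w₀ (τ⁻¹ • v) hw₀
    rw [qf_smul, hτ]
    field_simp
  have hbad' : ∀ v, Q v ≠ 0 → (¬ ∃ t : F, t ≠ 0 ∧ Q v = c * t ^ 2) →
      reflElt Q v * reflElt Q w₀ ∈ Subgroup.closure (classSet Q c) := by
    intro v hv hvbad
    have := Subgroup.inv_mem _ (hbad v hv hvbad)
    rw [mul_inv_rev, reflElt_inv, reflElt_inv] at this
    exact this
  obtain ⟨vs, hvs, rfl⟩ := exists_refl_list h2 Q hQ g
  induction vs with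
  | nil =>
    left
    rw [List.map_nil, List.prod_nil]
    exact Subgroup.one_mem _
  | cons v vs ih =>
    have hv := hvs v List.mem_cons_self
    have ih' := ih (fun w hw => hvs w (List.mem_cons_of_mem _ hw))
    rw [List.map_cons, List.prod_cons]
    by_cases hvc : ∃ t : F, t ≠ 0 ∧ Q v = c * t ^ 2
    · obtain ⟨t, ht, hvt⟩ := hvc
      rcases ih' with h | h
      · left
        exact Subgroup.mul_mem _ (refl_mem_class Q c hc v t ht hvt) h
      · right
        have e : reflElt Q w₀ * (reflElt Q v * (vs.map (reflElt Q)).prod) =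
            (reflElt Q w₀ * reflElt Q v * (reflElt Q w₀)⁻¹) *
              (reflElt Q w₀ * (vs.map (reflElt Q)).prod) := by group
        rw [e]
        exact Subgroup.mul_mem _ (class_conj Q c hc _ _ (refl_mem_class Q c hc v t ht hvt)) h
    · rcases ih' with h | h
      · right
        rw [← mul_assoc]
        exact Subgroup.mul_mem _ (hbad v hv hvc) h
      · left
        have e : reflElt Q v * (vs.map (reflElt Q)).prod =
            (reflElt Q v * reflElt Q w₀) * (reflElt Q w₀ * (vs.map (reflElt Q)).prod) := by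
          rw [mul_assoc, ← mul_assoc (reflElt Q w₀), reflElt_mul_self, one_mul]
        rw [e]
        exact Subgroup.mul_mem _ (hbad' v hv hvc) h

theorem class_index [Fintype F] (h2 : (2 : F) ≠ 0)
    (hcase : 4 ≤ Fintype.card F ∨ 5 ≤ Fintype.card ι ∨ Fintype.card ι = 2)
    (hι : 2 ≤ Fintype.card ι)
    (Q : QuadraticForm F (ι → F)) (hQ : (polarBilin Q).Nondegenerate) (c : F) (hc : c ≠ 0) :
    (Subgroup.closure (classSet Q c)).index = 2 := by
  have hchar : ringChar F ≠ 2 := by
    intro h
    haveI : CharP F 2 := ringChar.eq_iff.1 h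
    exact h2 (CharTwo.two_eq_zero)
  obtain ⟨ν, hν⟩ := FiniteField.exists_nonsquare hchar
  have hν0 : ν ≠ 0 := by
    rintro rfl
    exact hν ⟨0, by simp⟩
  obtain ⟨w₀, hw₀⟩ := exists_rep h2 Q hQ hι (c * ν) (mul_ne_zero hc hν0)
  have hq₀ : Q w₀ ≠ 0 := by rw [hw₀]; exact mul_ne_zero hc hν0
  have hbad₀ : ¬ ∃ t : F, t ≠ 0 ∧ Q w₀ = c * t ^ 2 := by
    rintro ⟨t, ht, h⟩
    rw [hw₀] at h
    apply hν
    exact ⟨t, by rw [← pow_two]; exact mul_left_cancel₀ hc h⟩
  have hdich := class_dichotomy h2 hcase Q hQ c hc w₀ hq₀ hbad₀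
  have hdetne : ∀ v, Q v ≠ 0 → detZ2 h2 Q hQ (reflElt Q v) ≠ 1 := by
    intro v hv h
    rw [detZ2_eq_one_iff, det_refl Q v hv] at h
    apply h2
    linear_combination -h
  have main : ∀ ψ : ↥(isometryGroup F ⇑Q) →* Multiplicative (ZMod 2),
      (∀ v t, t ≠ 0 → Q v = c * t ^ 2 → ψ (reflElt Q v) = 1) → ψ (reflElt Q w₀) ≠ 1 →
      (Subgroup.closure (classSet Q c)).index = 2 := by
    intro ψ hψc hψb
    have hle : Subgroup.closure (classSet Q c) ≤ ψ.ker := by
      rw [Subgroup.closure_le]
      intro g hg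
      obtain ⟨v, t, ht, hv, rfl⟩ := (mem_classSet Q c hc g).1 hg
      exact hψc v t ht hv
    have hker : Subgroup.closure (classSet Q c) = ψ.ker := by
      apply le_antisymm hle
      intro g hg
      rcases hdich g with h | h
      · exact h
      · have := hle h
        rw [MonoidHom.mem_ker, map_mul, MonoidHom.mem_ker.1 hg, mul_one] at this
        exact absurd this hψb
    rw [hker]
    exact index_ker_zmod2 ψ _ hψb
  by_cases hsq : IsSquare c
  · apply main (spinorHom h2 Q hQ)
    · intro v t ht hv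
      have hv0 : Q v ≠ 0 := by rw [hv]; exact mul_ne_zero hc (pow_ne_zero 2 ht)
      rw [spinorHom_refl_eq_one_iff h2 Q hQ v hv0, hv]
      obtain ⟨r, hr⟩ := hsq
      exact ⟨r * t, by rw [hr]; ring⟩
    · rw [Ne, spinorHom_refl_eq_one_iff h2 Q hQ w₀ hq₀, hw₀]
      rintro ⟨s, hs⟩
      obtain ⟨r, hr⟩ := hsq
      have hr0 : r ≠ 0 := by
        rintro rfl
        rw [mul_zero] at hr
        exact hc hr
      apply hν
      refine ⟨s / r, ?_⟩
      field_simp
      rw [hr] at hs
      linear_combination hs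
  · apply main (spinorHom h2 Q hQ * detZ2 h2 Q hQ)
    · intro v t ht hv
      have hv0 : Q v ≠ 0 := by rw [hv]; exact mul_ne_zero hc (pow_ne_zero 2 ht)
      rw [MonoidHom.mul_apply]
      apply zmod2_mul_eq_one _ _ _ (hdetne v hv0)
      rw [Ne, spinorHom_refl_eq_one_iff h2 Q hQ v hv0, hv]
      rintro ⟨s, hs⟩
      apply hsq
      refine ⟨s / t, ?_⟩
      field_simp
      linear_combination hs
    · rw [MonoidHom.mul_apply]
      have hs : spinorHom h2 Q hQ (reflElt Q w₀) = 1 := by
        rw [spinorHom_refl_eq_one_iff h2 Q hQ w₀ hq₀, hw₀]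
        exact nonsq_mul_nonsq c ν hsq hν
      rw [hs, one_mul]
      exact hdetne w₀ hq₀

end ClassRefl

end Cfsg.Agent.Helper16
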