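import Cfsg.Prelude.Def_GeometricClasses
import Cfsg.Agent.Helper16.RotPair

set_option autoImplicit false
open Cfsg

namespace Cfsg.Agent.Helper16

open QuadraticMap Module
open scoped commutatorElement

section NotMax
variable {ι : Type} [Fintype ι] [DecidableEq ι] {F : Type*} [Field F]

/-- a bare non-degenerate quadratic form as a `QuadraticForm` -/
noncomputable def toQF (Q : (ι → F) → F) (hQ : Geo.IsNondegenerateQuadraticForm Q) :
    QuadraticForm F (ι → F) where
  toFun := Q
  toFun_smul := fun c v => by rw [hQ.smul, smul_eq_mul, pow_two]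
  exists_companion' := ⟨LinearMap.mk₂ F (QuadraticMap.polar Q) hQ.polar_bilinear.add_left
    (fun c x v => by rw [hQ.polar_bilinear.smul_left, smul_eq_mul]) hQ.polar_bilinear.add_right
    (fun c v x => by rw [hQ.polar_bilinear.smul_right, smul_eq_mul]), fun x y => by
      rw [LinearMap.mk₂_apply]
      unfold QuadraticMap.polar
      ring⟩

theorem coe_toQF (Q : (ι → F) → F) (hQ : Geo.IsNondegenerateQuadraticForm Q) :
    ⇑(toQF Q hQ) = Q := rfl

theorem toQF_nondegenerate (Q : (ι → F) → F) (hQ : Geo.IsNondegenerateQuadraticForm Q) :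
    (polarBilin (toQF Q hQ)).Nondegenerate := by
  apply ((polarBilin_isSymm _).isRefl.nondegenerate_iff_separatingLeft).2
  intro x hx
  by_contra hx0
  obtain ⟨-, ⟨y, hy⟩⟩ := hQ.nondegenerate x hx0
  exact hy (hx y)

/-- products of two reflections of the same norm lie in `Ω` -/
theorem refl_pair_mem_Omega [Finite F] (Q : QuadraticForm F (ι → F))
    (hQ : (polarBilin Q).Nondegenerate) (a b : ι → F) (ha : Q a ≠ 0) (hb : Q b = Q a) :
    reflElt Q a * reflElt Q b ∈ Omega F ⇑Q := by
  have ha0 : a ≠ 0 := by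
    rintro rfl
    exact ha (QuadraticMap.map_zero Q)
  have hb0 : b ≠ 0 := by
    rintro rfl
    rw [QuadraticMap.map_zero] at hb
    exact ha hb.symm
  obtain ⟨h, hh⟩ := witt_vector Q hQ a b ha0 hb0 hb.symm
  have h1 : reflElt Q b = h * reflElt Q a * h⁻¹ := by
    rw [reflElt_conj Q h a ha]
    show _ = reflElt Q (act ⇑Q h a)
    rw [hh]
  have e : reflElt Q a * reflElt Q b = ⁅reflElt Q a, h⁆ := by
    rw [commutatorElement_def, reflElt_inv, h1]
    group
  rw [e]
  exact Subgroup.commutator_mem_commutator (Subgroup.mem_top _) (Subgroup.mem_top _)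

/-- the action of `r_a r_(a+u)` for singular `u` orthogonal to `a` -/
theorem pair_sing_act (Q : QuadraticForm F (ι → F)) (a u : ι → F) (ha : Q a ≠ 0) (hu : Q u = 0)
    (hau : polar Q a u = 0) (x : ι → F) :
    act ⇑Q (reflElt Q a * reflElt Q (a + u)) x =
      x + ((Q a)⁻¹ * polar Q u x) • a - ((Q a)⁻¹ * polar Q (a + u) x) • u := by
  have hq : Q (a + u) = Q a := by rw [qf_add, hu, hau]; ring
  have ha' : Q (a + u) ≠ 0 := by rw [hq]; exact ha
  rw [act_mul, act_refl Q _ ha, act_refl Q _ ha', qrefl_apply, qrefl_apply, hq]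
  have h1 : polar Q a (x - ((Q a)⁻¹ * polar Q (a + u) x) • (a + u)) =
      polar Q a x - ((Q a)⁻¹ * polar Q (a + u) x) * (2 * Q a) := by
    rw [polar_sub_right, polar_smul_right, polar_add_right, qf_polar_self, hau, smul_eq_mul,
      add_zero]
  rw [h1]
  have h3 : polar Q (a + u) x = polar Q a x + polar Q u x := polar_add_left _ _ _ _
  rw [h3]
  have hc : (Q a)⁻¹ * Q a = 1 := inv_mul_cancel₀ ha
  generalize (Q a)⁻¹ = c at hc ⊢
  funext i
  simp only [Pi.sub_apply, Pi.smul_apply, Pi.add_apply, smul_eq_mul]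
  linear_combination (2 * c * (polar Q a x + polar Q u x) * a i) * hc

/-- `r_a r_(a+u)` preserves every totally singular subspace containing `u` -/
theorem pair_sing_stab (Q : QuadraticForm F (ι → F)) (U : Submodule F (ι → F)) (hU : TS Q U)
    (a u : ι → F) (ha : Q a ≠ 0) (hu : u ∈ U) (hau : polar Q a u = 0) (x : ι → F) (hx : x ∈ U) :
    act ⇑Q (reflElt Q a * reflElt Q (a + u)) x ∈ U := by
  rw [pair_sing_act Q a u ha (hU u hu) hau x, hU.polar_eq_zero hu hx, mul_zero, zero_smul,
    add_zero]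
  exact U.sub_mem hx (U.smul_mem _ hu)

theorem pair_sing_stab_inv (Q : QuadraticForm F (ι → F)) (U : Submodule F (ι → F)) (hU : TS Q U)
    (a u : ι → F) (ha : Q a ≠ 0) (hu : u ∈ U) (hau : polar Q a u = 0) (x : ι → F) (hx : x ∈ U) :
    act ⇑Q (reflElt Q a * reflElt Q (a + u))⁻¹ x ∈ U := by
  have hq : Q (a + u) = Q a := by rw [qf_add, hU u hu, hau]; ring
  have e : (reflElt Q a * reflElt Q (a + u))⁻¹ = reflElt Q (a + u) * reflElt Q ((a + u) + (-u)) := by
    rw [mul_inv_rev, reflElt_inv, reflElt_inv]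
    congr 2
    abel
  rw [e]
  apply pair_sing_stab Q U hU (a + u) (-u) (by rw [hq]; exact ha) (U.neg_mem hu) _ x hx
  rw [polar_neg_right, polar_add_left, hau, qf_polar_self, hU u hu]
  simp

theorem mem_subspaceStabilizer (g : GL ι F) (W : Submodule F (ι → F)) :
    g ∈ Geo.subspaceStabilizer W ↔ ∀ v, v ∈ W ↔ (g : Matrix ι ι F).mulVec v ∈ W := Iff.rfl

theorem mem_stab_of_maps (g : GL ι F) (W : Submodule F (ι → F))
    (h1 : ∀ v ∈ W, (g : Matrix ι ι F).mulVec v ∈ W)
    (h2 : ∀ v ∈ W, ((g⁻¹ : GL ι F) : Matrix ι ι F).mulVec v ∈ W) :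
    g ∈ Geo.subspaceStabilizer W := by
  rw [mem_subspaceStabilizer]
  intro v
  constructor
  · exact h1 v
  · intro hv
    have := h2 _ hv
    rw [Matrix.mulVec_mulVec, ← Units.val_mul, inv_mul_cancel, Units.val_one,
      Matrix.one_mulVec] at this
    exact this

theorem mem_omegaGL (Q : (ι → F) → F) (g : ↥(isometryGroup F Q)) (hg : g ∈ Omega F Q) :
    (g : GL ι F) ∈ Geo.omegaGL Q :=
  Subgroup.mem_map_of_mem _ hg

theorem exists_of_mem_omegaGL (Q : (ι → F) → F) (g : GL ι F) (hg : g ∈ Geo.omegaGL Q) :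
    ∃ g' : ↥(isometryGroup F Q), g' ∈ Omega F Q ∧ (g' : GL ι F) = g := by
  obtain ⟨g', hg', rfl⟩ := Subgroup.mem_map.1 hg
  exact ⟨g', hg', rfl⟩

/-- `Ω` moves every non-zero totally singular subspace -/
theorem exists_move_TS [Fintype F] (hn : 3 ≤ Fintype.card ι) (Q : QuadraticForm F (ι → F))
    (hQ : (polarBilin Q).Nondegenerate) (U : Submodule F (ι → F)) (hU : TS Q U)
    (x : ι → F) (hx : x ∈ U) (hx0 : x ≠ 0) :
    ∃ g : ↥(isometryGroup F ⇑Q), g ∈ Omega F ⇑Q ∧ act ⇑Q g x ∉ U := by
  obtain ⟨u, hu, hxu⟩ := exists_hyp_partner Q hQ x hx0 (hU x hx)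
  have hu0 : u ≠ 0 := by
    rintro rfl
    rw [qf_polar_zero_right] at hxu
    exact zero_ne_one hxu
  obtain ⟨a, haU, ha⟩ := exists_nonsing_of_big Q hQ (orth Q (Submodule.span F {u})) (by
    rw [finrank_orth Q hQ, finrank_span_singleton hu0, Module.finrank_fintype_fun_eq_card]
    omega)
  have hua : polar Q u a = 0 := (mem_orth_span_singleton Q u a).1 haU
  have hau : polar Q a u = 0 := by rw [polar_comm]; exact hua
  have hq : Q (a + u) = Q a := by rw [qf_add, hu, hau]; ring
  refine ⟨reflElt Q a * reflElt Q (a + u), refl_pair_mem_Omega Q hQ a (a + u) ha hq, ?_⟩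
  rw [pair_sing_act Q a u ha hu hau x]
  intro hmem
  have hd : ((Q a)⁻¹ * polar Q u x) • a - ((Q a)⁻¹ * polar Q (a + u) x) • u ∈ U := by
    have := U.sub_mem hmem hx
    have e : x + ((Q a)⁻¹ * polar Q u x) • a - ((Q a)⁻¹ * polar Q (a + u) x) • u - x =
        ((Q a)⁻¹ * polar Q u x) • a - ((Q a)⁻¹ * polar Q (a + u) x) • u := by abel
    rw [e] at this
    exact this
  have hQd := hU _ hd
  rw [sub_eq_add_neg, ← neg_smul, qf_lin2, hu, hau, polar_comm Q u x, hxu] at hQd
  have hc : (Q a)⁻¹ * Q a = 1 := inv_mul_cancel₀ ha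
  have : (Q a)⁻¹ = 0 := by
    linear_combination hQd - ((Q a)⁻¹ - 0) * hc
  exact inv_ne_zero ha this

theorem sq_eq_one_of_card_le_three [Fintype F] (hq : Fintype.card F ≤ 3) (x : F) (hx : x ≠ 0) :
    x * x = 1 := by
  have h := FiniteField.pow_card_sub_one_eq_one x hx
  have h1 : 1 < Fintype.card F := Fintype.one_lt_card
  obtain h2 | h3 : Fintype.card F = 2 ∨ Fintype.card F = 3 := by omega
  · rw [h2] at h
    have h' : x ^ 1 = 1 := h
    rw [pow_one] at h'
    rw [h']
    ring
  · rw [h3] at h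
    have h' : x ^ 2 = 1 := h
    rw [← pow_two]
    exact h'

theorem mem_stab_span_of_fix (g : GL ι F) (a : ι → F)
    (h : (g : Matrix ι ι F).mulVec a = a) : g ∈ Geo.subspaceStabilizer (Submodule.span F {a}) := by
  have h' : ((g⁻¹ : GL ι F) : Matrix ι ι F).mulVec a = a := by
    have := congrArg (fun v => ((g⁻¹ : GL ι F) : Matrix ι ι F).mulVec v) h
    simp only [Matrix.mulVec_mulVec] at this
    rw [← Units.val_mul, inv_mul_cancel, Units.val_one, Matrix.one_mulVec] at this
    exact this.symm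
  apply mem_stab_of_maps
  · intro v hv
    obtain ⟨c, rfl⟩ := Submodule.mem_span_singleton.1 hv
    rw [Matrix.mulVec_smul, h]
    exact Submodule.smul_mem _ _ (Submodule.mem_span_singleton_self a)
  · intro v hv
    obtain ⟨c, rfl⟩ := Submodule.mem_span_singleton.1 hv
    rw [Matrix.mulVec_smul, h']
    exact Submodule.smul_mem _ _ (Submodule.mem_span_singleton_self a)

/-- over a field with at most three elements the stabiliser in `Ω` of a hyperbolic plane is not
maximal: it lies strictly inside the stabiliser of a non-singular point of the plane -/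
theorem plane_not_max [Fintype F] (hq : Fintype.card F ≤ 3) (hn : 5 ≤ Fintype.card ι)
    (Q : QuadraticForm F (ι → F)) (hQ : (polarBilin Q).Nondegenerate)
    (W : Submodule F (ι → F)) (hdim : finrank F W = 2)
    (hW : Geo.IsNondegenerateOn (polar ⇑Q) W) (hWp : Geo.IsPlusTypeOn ⇑Q W) :
    ∃ K : Subgroup (GL ι F), Geo.subspaceStabilizer W ⊓ Geo.omegaGL ⇑Q < K ∧
      K < Geo.omegaGL ⇑Q := by
  obtain ⟨U, hUW, hUts, hUdim⟩ := hWp
  have hU1 : 0 < finrank F U := by omega
  obtain ⟨e', he'⟩ := Module.finrank_pos_iff_exists_ne_zero.1 hU1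
  have he0 : (e' : ι → F) ≠ 0 := fun h => he' (Subtype.ext h)
  have heU : (e' : ι → F) ∈ U := e'.2
  generalize (e' : ι → F) = e at he0 heU
  have heW : e ∈ W := hUW heU
  have he : Q e = 0 := hUts e heU
  obtain ⟨-, ⟨x, hxW, hx⟩⟩ := hW e heW he0
  obtain ⟨f, hfW, hf, hef⟩ : ∃ f ∈ W, Q f = 0 ∧ polar Q e f = 1 := by
    refine ⟨(polar Q e x)⁻¹ • x + (-(Q x / (polar Q e x) ^ 2)) • e,
      W.add_mem (W.smul_mem _ hxW) (W.smul_mem _ heW), ?_, ?_⟩
    · rw [qf_lin2, he, polar_comm Q x e]
      field_simp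
      ring
    · rw [polar_add_right, polar_smul_right, polar_smul_right, qf_polar_self, he, smul_eq_mul,
        inv_mul_cancel₀ hx]
      simp
  have hfe : polar Q f e = 1 := by rw [polar_comm]; exact hef
  have hli : LinearIndependent F ![e, f] := by
    rw [LinearIndependent.pair_iff]
    intro s t hst
    have h1 : polar Q e (s • e + t • f) = t := by
      rw [polar_add_right, polar_smul_right, polar_smul_right, qf_polar_self, he, hef]
      simp
    have h2 : polar Q f (s • e + t • f) = s := by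
      rw [polar_add_right, polar_smul_right, polar_smul_right, qf_polar_self, hf, hfe]
      simp
    rw [hst, qf_polar_zero_right] at h1 h2
    exact ⟨h2.symm, h1.symm⟩
  have hspan : Submodule.span F (Set.range ![e, f]) = W := by
    apply Submodule.eq_of_le_of_finrank_eq
    · rw [Submodule.span_le]
      rintro _ ⟨i, rfl⟩
      fin_cases i
      · exact heW
      · exact hfW
    · rw [finrank_span_eq_card hli, hdim]
      rfl
  have hWef : ∀ w ∈ W, ∃ s t : F, w = s • e + t • f := by
    intro w hw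
    rw [← hspan] at hw
    obtain ⟨cf, rfl⟩ := (Submodule.mem_span_range_iff_exists_fun F).1 hw
    exact ⟨cf 0, cf 1, by rw [Fin.sum_univ_two]; rfl⟩
  have hQa : Q (e + f) = 1 := by rw [qf_add, he, hf, hef]; ring
  have haW : e + f ∈ W := W.add_mem heW hfW
  have hsq := sq_eq_one_of_card_le_three hq
  obtain ⟨W', hW'perp, hW'dim, hW'nd⟩ := exists_hyp_split Q hQ e f he hf hef
  rw [Module.finrank_fintype_fun_eq_card] at hW'dim
  obtain ⟨zz, hzz0, hzz⟩ := exists_singular (Q.comp W'.subtype) hW'nd (by omega)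
  have hz0 : (zz : ι → F) ≠ 0 := fun h => hzz0 (Subtype.ext h)
  have hz : Q (zz : ι → F) = 0 := hzz
  obtain ⟨hez, hfz⟩ := hW'perp (zz : ι → F) zz.2
  generalize (zz : ι → F) = z at hz0 hz hez hfz
  haveI : Nontrivial ↥W' := Module.nontrivial_of_finrank_pos (R := F) (by omega)
  obtain ⟨zz₁, hzz₁⟩ := exists_nonsingular (Q.comp W'.subtype) hW'nd
  have hz₁ : Q (zz₁ : ι → F) ≠ 0 := hzz₁
  obtain ⟨hez₁, hfz₁⟩ := hW'perp (zz₁ : ι → F) zz₁.2
  generalize (zz₁ : ι → F) = z₁ at hz₁ hez₁ hfz₁
  -- the stabiliser of the plane stabilises the point `⟨e + f⟩`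
  have hSa : ∀ g ∈ Geo.subspaceStabilizer W ⊓ Geo.omegaGL ⇑Q, ∀ v ∈ Submodule.span F {e + f},
      (g : Matrix ι ι F).mulVec v ∈ Submodule.span F {e + f} := by
    rintro g ⟨hgW, hgΩ⟩ v hv
    obtain ⟨g', -, rfl⟩ := exists_of_mem_omegaGL ⇑Q g hgΩ
    obtain ⟨c, rfl⟩ := Submodule.mem_span_singleton.1 hv
    rw [Matrix.mulVec_smul]
    apply Submodule.smul_mem
    have hgaW := ((mem_subspaceStabilizer _ W).1 hgW (e + f)).1 haW
    obtain ⟨s, t, hst⟩ := hWef _ hgaW
    have hQga : Q (((g' : GL ι F) : Matrix ι ι F).mulVec (e + f)) = 1 := by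
      rw [(mem_isometryGroup_iff _ _).1 g'.2 (e + f), hQa]
    rw [hst, qf_lin2, he, hf, hef] at hQga
    have hst1 : s * t = 1 := by linear_combination hQga
    have hs0 : s ≠ 0 := by
      rintro rfl
      simp at hst1
    have hts : t = s := by
      apply mul_left_cancel₀ hs0
      rw [hst1, hsq s hs0]
    rw [hst, hts, ← smul_add]
    exact Submodule.smul_mem _ _ (Submodule.mem_span_singleton_self _)
  refine ⟨Geo.subspaceStabilizer (Submodule.span F {e + f}) ⊓ Geo.omegaGL ⇑Q, ?_, ?_⟩
  · rw [SetLike.lt_iff_le_and_exists]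
    refine ⟨fun g hg => ⟨mem_stab_of_maps g _ (hSa g hg) (hSa g⁻¹ (Subgroup.inv_mem _ hg)),
      hg.2⟩, ?_⟩
    have hQef : Q (e - f) = -1 := by
      rw [sub_eq_add_neg, qf_add, QuadraticMap.map_neg, he, hf, polar_neg_right, hef]
      ring
    have hQu : Q (e - f + z) = -1 := by
      rw [qf_add, hQef, hz, polar_sub_left, hez, hfz]
      ring
    have hm1 : (-1 : F) ≠ 0 := neg_ne_zero.2 one_ne_zero
    have hpa1 : polar Q (e - f) (e + f) = 0 := by
      rw [polar_sub_left, polar_add_right, polar_add_right, qf_polar_self, qf_polar_self, he, hf,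
        hef, hfe]
      ring
    have hpa2 : polar Q (e - f + z) (e + f) = 0 := by
      rw [polar_add_left, hpa1, polar_add_right, polar_comm Q z e, polar_comm Q z f, hez, hfz]
      ring
    have hef0 : Q (e - f) ≠ 0 := by rw [hQef]; exact hm1
    have hu0 : Q (e - f + z) ≠ 0 := by rw [hQu]; exact hm1
    refine ⟨((reflElt Q (e - f + z) * reflElt Q (e - f) : ↥(isometryGroup F ⇑Q)) : GL ι F),
      ⟨mem_stab_span_of_fix _ _ ?_, mem_omegaGL _ _ (refl_pair_mem_Omega Q hQ _ _
        hu0 (by rw [hQu, hQef]))⟩, ?_⟩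
    · show act ⇑Q (reflElt Q (e - f + z) * reflElt Q (e - f)) (e + f) = e + f
      rw [act_mul, act_refl Q (e - f) hef0, qrefl_of_orth Q _ _ hpa1,
        act_refl Q (e - f + z) hu0, qrefl_of_orth Q _ _ hpa2]
    · rintro ⟨hmem, -⟩
      have h1 := ((mem_subspaceStabilizer _ W).1 hmem e).1 heW
      have h2 : act ⇑Q (reflElt Q (e - f + z) * reflElt Q (e - f)) e = e + z := by
        rw [act_mul, act_refl Q (e - f) hef0, qrefl_apply, hQef]
        have e1 : polar Q (e - f) e = -1 := by
          rw [polar_sub_left, qf_polar_self, he, hfe]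
          ring
        have e2 : e - ((-1 : F)⁻¹ * polar Q (e - f) e) • (e - f) = f := by
          rw [e1]
          norm_num
        rw [e2, act_refl Q (e - f + z) hu0, qrefl_apply, hQu]
        have e3 : polar Q (e - f + z) f = 1 := by
          rw [polar_add_left, polar_sub_left, qf_polar_self, hf, hef, polar_comm Q z f, hfz]
          ring
        rw [e3]
        norm_num
        abel
      have h3 : e + z ∈ W := by
        rw [← h2]
        exact h1
      have hzW : z ∈ W := by
        have := W.sub_mem h3 heW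
        rw [add_sub_cancel_left] at this
        exact this
      obtain ⟨s, t, hst⟩ := hWef z hzW
      have ht : t = 0 := by
        have := hez
        rw [hst, polar_add_right, polar_smul_right, polar_smul_right, qf_polar_self, he, hef] at this
        simpa using this
      have hs : s = 0 := by
        have := hfz
        rw [hst, polar_add_right, polar_smul_right, polar_smul_right, qf_polar_self, hf, hfe] at this
        simpa using this
      apply hz0
      rw [hst, hs, ht]
      simp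
  · rw [SetLike.lt_iff_le_and_exists]
    refine ⟨inf_le_right, ?_⟩
    have hQu : Q (e + z₁) = Q z₁ := by
      rw [qf_add, he, hez₁]
      ring
    have hu0 : Q (e + z₁) ≠ 0 := by rw [hQu]; exact hz₁
    refine ⟨((reflElt Q (e + z₁) * reflElt Q z₁ : ↥(isometryGroup F ⇑Q)) : GL ι F),
      mem_omegaGL _ _ (refl_pair_mem_Omega Q hQ _ _ hu0 hQu.symm), ?_⟩
    rintro ⟨hmem, -⟩
    have h1 := ((mem_subspaceStabilizer _ _).1 hmem (e + f)).1
      (Submodule.mem_span_singleton_self _)
    have hp1 : polar Q z₁ (e + f) = 0 := by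
      rw [polar_add_right, polar_comm Q z₁ e, polar_comm Q z₁ f, hez₁, hfz₁]
      ring
    have hp2 : polar Q (e + z₁) (e + f) = 1 := by
      rw [polar_add_left, hp1, polar_add_right, qf_polar_self, he, hef]
      ring
    have h2 : act ⇑Q (reflElt Q (e + z₁) * reflElt Q z₁) (e + f) =
        (e + f) - (Q z₁)⁻¹ • (e + z₁) := by
      rw [act_mul, act_refl Q z₁ hz₁, qrefl_of_orth Q _ _ hp1, act_refl Q (e + z₁) hu0,
        qrefl_apply, hQu, hp2, mul_one]
    have h3 : (e + f) - (Q z₁)⁻¹ • (e + z₁) ∈ Submodule.span F {e + f} := by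
      rw [← h2]
      exact h1
    obtain ⟨d, hd⟩ := Submodule.mem_span_singleton.1 h3
    have hd1 : d = 1 := by
      have := congrArg (fun v => polar Q e v) hd
      simp only [polar_smul_right, polar_sub_right, polar_add_right, qf_polar_self, he, hef, hez₁,
        smul_eq_mul] at this
      linear_combination this
    rw [hd1, one_smul] at hd
    have h4 : (Q z₁)⁻¹ • (e + z₁) = 0 := by
      have := congrArg (fun v => (e + f) - v) hd
      simp only [sub_sub_cancel, sub_self] at this
      exact this.symm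
    have h5 := congrArg (fun v => polar Q f v) h4
    simp only [polar_smul_right, polar_add_right, hfe, hfz₁, qf_polar_zero_right, smul_eq_mul] at h5
    apply inv_ne_zero hz₁
    linear_combination h5

end NotMax

end Cfsg.Agent.Helper16
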