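import Cfsg.Agent.Helper16.NotMax
import Cfsg.Agent.Helper16.ParityIso
import Cfsg.Agent.Helper16.ParityPlus

set_option autoImplicit false
open Cfsg

namespace Cfsg.Agent.Helper16

open QuadraticMap Module

section NotMax2
variable {ι : Type} [Fintype ι] [DecidableEq ι] {F : Type*} [Field F]

theorem mapG_eq_of_mem_stab (g : GL ι F) (W : Submodule F (ι → F))
    (h : g ∈ Geo.subspaceStabilizer W) : mapG g W = W := by
  apply Submodule.eq_of_le_of_finrank_eq
  · intro x hx
    obtain ⟨e, he, rfl⟩ := (mem_mapG g W x).1 hx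
    exact ((mem_subspaceStabilizer g W).1 h e).1 he
  · exact finrank_mapG g W

theorem mem_stab_of_mapG_eq (g : GL ι F) (W : Submodule F (ι → F))
    (h : mapG g W = W) : g ∈ Geo.subspaceStabilizer W := by
  rw [mem_subspaceStabilizer]
  intro v
  constructor
  · intro hv
    rw [← h]
    exact (mem_mapG g W _).2 ⟨v, hv, rfl⟩
  · intro hv
    rw [← h] at hv
    obtain ⟨e, he, hev⟩ := (mem_mapG g W _).1 hv
    have : e = v := mulVecLin_injective g hev
    rw [← this]
    exact he

theorem map_toLin'_eq_mapG (g : GL ι F) (W : Submodule F (ι → F)) :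
    W.map (Matrix.toLin' (g : Matrix ι ι F)) = mapG g W := rfl

/-- the element `r_a r_(a+u)` of `Ω` stabilising the totally singular `U ∋ u` -/
theorem pair_mem_stab (Q : QuadraticForm F (ι → F)) (U : Submodule F (ι → F)) (hU : TS Q U)
    (a u : ι → F) (ha : Q a ≠ 0) (hu : u ∈ U) (hau : polar Q a u = 0) :
    ((reflElt Q a * reflElt Q (a + u) : ↥(isometryGroup F ⇑Q)) : GL ι F) ∈
      Geo.subspaceStabilizer U := by
  apply mem_stab_of_maps
  · intro v hv
    exact pair_sing_stab Q U hU a u ha hu hau v hv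
  · intro v hv
    exact pair_sing_stab_inv Q U hU a u ha hu hau v hv

/-- the stabiliser in `Ω` of a decomposition into two totally singular subspaces of odd
dimension is not maximal -/
theorem decomp_not_max [Fintype F] (Q : QuadraticForm F (ι → F))
    (hQ : (polarBilin Q).Nondegenerate) (k : ℕ) (hk : 2 * k = Fintype.card ι) (hko : Odd k)
    (hn : 3 ≤ Fintype.card ι) (D : Fin 2 → Submodule F (ι → F)) (hD : Geo.IsMDecomposition k D)
    (hts : ∀ i, TS Q (D i)) :
    ∃ K : Subgroup (GL ι F), Geo.decompositionStabilizer D ⊓ Geo.omegaGL ⇑Q < K ∧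
      K < Geo.omegaGL ⇑Q := by
  have hV : finrank F (ι → F) = 2 * k := by rw [Module.finrank_fintype_fun_eq_card, hk]
  have hdisj : D 0 ⊓ D 1 = ⊥ := disjoint_iff.1 (hD.indep.pairwiseDisjoint (by decide))
  have hfin2 : ∀ x : Fin 2, x = 0 ∨ x = 1 := by decide
  have hk0 : 0 < k := hD.pos
  -- a non-zero vector of `D 0`
  have hD0 : 0 < finrank F (D 0) := by rw [hD.finrank_eq 0]; exact hk0
  obtain ⟨u', hu'⟩ := Module.finrank_pos_iff_exists_ne_zero.1 hD0
  have hu0 : (u' : ι → F) ≠ 0 := fun h => hu' (Subtype.ext h)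
  have huD : (u' : ι → F) ∈ D 0 := u'.2
  generalize (u' : ι → F) = u at hu0 huD
  have hu : Q u = 0 := hts 0 u huD
  -- a vector of `D 1` not orthogonal to it
  obtain ⟨x, hxD, hux⟩ : ∃ x ∈ D 1, polar Q u x ≠ 0 := by
    by_contra hcon
    push Not at hcon
    apply hu0
    apply hQ.1
    intro y
    have hy : y ∈ ⨆ i, D i := by rw [hD.iSup_eq_top]; exact Submodule.mem_top
    refine Submodule.iSup_induction D (motive := fun y => polar Q u y = 0) hy ?_ ?_ ?_
    · intro i z hz
      rcases hfin2 i with rfl | rfl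
      · exact (hts 0).polar_eq_zero huD hz
      · exact hcon z hz
    · exact qf_polar_zero_right Q u
    · intro z w hz hw
      show polar Q u (z + w) = 0
      rw [polar_add_right]
      have hz' : polar Q u z = 0 := hz
      have hw' : polar Q u w = 0 := hw
      rw [hz', hw', add_zero]
  obtain ⟨a, haU, ha⟩ := exists_nonsing_of_big Q hQ (orth Q (Submodule.span F {u})) (by
    rw [finrank_orth Q hQ, finrank_span_singleton hu0, Module.finrank_fintype_fun_eq_card]
    omega)
  have hua : polar Q u a = 0 := (mem_orth_span_singleton Q u a).1 haU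
  have hau : polar Q a u = 0 := by rw [polar_comm]; exact hua
  have hq : Q (a + u) = Q a := by rw [qf_add, hu, hau]; ring
  refine ⟨Geo.subspaceStabilizer (D 0) ⊓ Geo.omegaGL ⇑Q, ?_, ?_⟩
  · rw [SetLike.lt_iff_le_and_exists]
    constructor
    · rintro g ⟨⟨σ, hσ⟩, hgΩ⟩
      refine ⟨?_, hgΩ⟩
      have h0 := hσ 0
      rw [map_toLin'_eq_mapG] at h0
      rcases hfin2 (σ 0) with h | h
      · rw [h] at h0
        exact mem_stab_of_mapG_eq g _ h0
      · exfalso
        rw [h] at h0
        obtain ⟨g', hg', rfl⟩ := exists_of_mem_omegaGL ⇑Q g hgΩ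
        have hev := parIso_Omega Q hQ hV (D 0) (hts 0) (hD.finrank_eq 0) g' hg'
        unfold lagDist at hev
        rw [h0, hdisj, finrank_bot, Nat.sub_zero] at hev
        exact (Nat.not_even_iff_odd.2 hko) hev
    · refine ⟨((reflElt Q a * reflElt Q (a + u) : ↥(isometryGroup F ⇑Q)) : GL ι F),
        ⟨pair_mem_stab Q (D 0) (hts 0) a u ha huD hau,
          mem_omegaGL _ _ (refl_pair_mem_Omega Q hQ a (a + u) ha hq)⟩, ?_⟩
      rintro ⟨⟨σ, hσ⟩, -⟩
      have h1 := hσ 1
      rw [map_toLin'_eq_mapG] at h1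
      have hgx : act ⇑Q (reflElt Q a * reflElt Q (a + u)) x ∈ D (σ 1) := by
        rw [← h1]
        exact (mem_mapG _ _ _).2 ⟨x, hxD, rfl⟩
      rcases hfin2 (σ 1) with h | h
      · -- the image lies in `D 0`: then `x ∈ D 0`
        rw [h] at hgx
        have hx0 := pair_sing_stab_inv Q (D 0) (hts 0) a u ha huD hau _ hgx
        rw [← act_mul, inv_mul_cancel, act_one] at hx0
        have hxb : x ∈ D 0 ⊓ D 1 := ⟨hx0, hxD⟩
        rw [hdisj, Submodule.mem_bot] at hxb
        rw [hxb, qf_polar_zero_right] at hux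
        exact hux rfl
      · -- the image lies in `D 1`: a non-singular vector in `D 1`
        rw [h, pair_sing_act Q a u ha hu hau x] at hgx
        have hd : ((Q a)⁻¹ * polar Q u x) • a - ((Q a)⁻¹ * polar Q (a + u) x) • u ∈ D 1 := by
          have := (D 1).sub_mem hgx hxD
          have e : x + ((Q a)⁻¹ * polar Q u x) • a - ((Q a)⁻¹ * polar Q (a + u) x) • u - x =
              ((Q a)⁻¹ * polar Q u x) • a - ((Q a)⁻¹ * polar Q (a + u) x) • u := by abel
          rw [e] at this
          exact this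
        have hQd := hts 1 _ hd
        rw [sub_eq_add_neg, ← neg_smul, qf_lin2, hu, hau] at hQd
        have hc : (Q a)⁻¹ * Q a = 1 := inv_mul_cancel₀ ha
        have h0 : (Q a)⁻¹ * polar Q u x = 0 := by
          have h' : ((Q a)⁻¹ * polar Q u x) * ((Q a)⁻¹ * polar Q u x) = 0 := by
            linear_combination (Q a)⁻¹ * hQd -
              ((Q a)⁻¹ * polar Q u x * polar Q u x * (Q a)⁻¹) * hc
          exact mul_self_eq_zero.1 h'
        rcases mul_eq_zero.1 h0 with h' | h'
        · exact inv_ne_zero ha h'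
        · exact hux h'
  · rw [SetLike.lt_iff_le_and_exists]
    refine ⟨inf_le_right, ?_⟩
    obtain ⟨g, hg, hgu⟩ := exists_move_TS hn Q hQ (D 0) (hts 0) u huD hu0
    refine ⟨(g : GL ι F), mem_omegaGL _ _ hg, ?_⟩
    rintro ⟨hmem, -⟩
    exact hgu (((mem_subspaceStabilizer _ _).1 hmem u).1 huD)

/-- the stabiliser in `Ω` of a totally singular subspace of dimension `m - 1` in a plus-type
space of dimension `2m` is not maximal -/
theorem submax_not_max [Fintype F] (Q : QuadraticForm F (ι → F))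
    (hQ : (polarBilin Q).Nondegenerate) {m : ℕ} (hV : finrank F (ι → F) = 2 * m) (hm : 2 ≤ m)
    (E : Submodule F (ι → F)) (hE : TS Q E) (hEm : finrank F E = m)
    (W : Submodule F (ι → F)) (hW : TS Q W) (hWm : finrank F W + 1 = m) :
    ∃ K : Subgroup (GL ι F), Geo.subspaceStabilizer W ⊓ Geo.omegaGL ⇑Q < K ∧
      K < Geo.omegaGL ⇑Q := by
  obtain ⟨W₁, W₂, hne, ⟨hW₁, hW₁m, hWW₁⟩, ⟨hW₂, hW₂m, hWW₂⟩, hall⟩ :=
    exists_two_lagrangians Q hQ hV E hE hEm W hW hWm
  have hcard : 3 ≤ Fintype.card ι := by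
    rw [Module.finrank_fintype_fun_eq_card] at hV
    omega
  have hW0 : 0 < finrank F W := by omega
  obtain ⟨x', hx'⟩ := Module.finrank_pos_iff_exists_ne_zero.1 hW0
  have hx0 : (x' : ι → F) ≠ 0 := fun h => hx' (Subtype.ext h)
  have hxW : (x' : ι → F) ∈ W := x'.2
  generalize (x' : ι → F) = x at hx0 hxW
  have hlt : W < W₁ := lt_of_le_of_ne hWW₁ (fun h => by
    rw [← h] at hW₁m
    omega)
  obtain ⟨u, huW₁, huW⟩ := SetLike.exists_of_lt hlt
  have hu : Q u = 0 := hW₁ u huW₁
  obtain ⟨y₀, hy₀u, hy₀x⟩ : ∃ y₀, polar Q u y₀ = 0 ∧ polar Q y₀ x ≠ 0 := by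
    by_contra hcon
    push Not at hcon
    have hx' : x ∈ orth Q (orth Q (Submodule.span F {u})) := by
      rw [mem_orth]
      intro y hy
      exact hcon y ((mem_orth_span_singleton Q u y).1 hy)
    rw [orth_orth Q hQ] at hx'
    obtain ⟨c, rfl⟩ := Submodule.mem_span_singleton.1 hx'
    have hc0 : c ≠ 0 := by
      rintro rfl
      exact hx0 (zero_smul _ _)
    apply huW
    have := W.smul_mem c⁻¹ hxW
    rw [smul_smul, inv_mul_cancel₀ hc0, one_smul] at this
    exact this
  obtain ⟨a, ha, hau, hax⟩ : ∃ a, Q a ≠ 0 ∧ polar Q a u = 0 ∧ polar Q a x ≠ 0 := by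
    have hyx : polar Q ((polar Q y₀ x)⁻¹ • y₀) x = 1 := by
      rw [polar_smul_left, smul_eq_mul, inv_mul_cancel₀ hy₀x]
    have hyu : polar Q ((polar Q y₀ x)⁻¹ • y₀) u = 0 := by
      rw [polar_smul_left, polar_comm Q y₀ u, hy₀u, smul_zero]
    generalize (polar Q y₀ x)⁻¹ • y₀ = y at hyx hyu
    have hxu : polar Q x u = 0 := hW₁.polar_eq_zero (hWW₁ hxW) huW₁
    have hQx : Q x = 0 := hW x hxW
    refine ⟨y + (1 - Q y) • x, ?_, ?_, ?_⟩
    · have : Q (y + (1 - Q y) • x) = 1 := by
        rw [qf_add, qf_smul, hQx, polar_smul_right, hyx, smul_eq_mul]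
        ring
      rw [this]
      exact one_ne_zero
    · rw [polar_add_left, polar_smul_left, hyu, hxu, smul_zero, add_zero]
    · rw [polar_add_left, polar_smul_left, hyx, qf_polar_self, hQx]
      simp
  have hq : Q (a + u) = Q a := by rw [qf_add, hu, hau]; ring
  refine ⟨Geo.subspaceStabilizer W₁ ⊓ Geo.omegaGL ⇑Q, ?_, ?_⟩
  · rw [SetLike.lt_iff_le_and_exists]
    constructor
    · rintro g ⟨hgW, hgΩ⟩
      refine ⟨?_, hgΩ⟩
      obtain ⟨g', hg', rfl⟩ := exists_of_mem_omegaGL ⇑Q g hgΩ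
      have hmapW := mapG_eq_of_mem_stab _ W hgW
      have hTS : TS Q (mapG (g' : GL ι F) W₁) := TS_mapG Q _ (isom_sing Q g') W₁ hW₁
      have hle : W ≤ mapG (g' : GL ι F) W₁ := by
        have : mapG (g' : GL ι F) W ≤ mapG (g' : GL ι F) W₁ := Submodule.map_mono hWW₁
        rw [hmapW] at this
        exact this
      rcases hall _ hTS (by rw [finrank_mapG, hW₁m]) hle with h | h
      · exact mem_stab_of_mapG_eq _ _ h
      · exfalso
        have hev := parIso_Omega Q hQ hV W₁ hW₁ hW₁m g' hg'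
        unfold lagDist at hev
        rw [h] at hev
        have h1 : finrank F W ≤ finrank F (W₁ ⊓ W₂ : Submodule F (ι → F)) :=
          Submodule.finrank_mono (le_inf hWW₁ hWW₂)
        have h2 : finrank F (W₁ ⊓ W₂ : Submodule F (ι → F)) < m := by
          by_contra hge
          push Not at hge
          apply hne
          have e1 : W₁ ⊓ W₂ = W₁ := Submodule.eq_of_le_of_finrank_eq inf_le_left (by
            have := Submodule.finrank_mono (inf_le_left : W₁ ⊓ W₂ ≤ W₁)
            omega)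
          have hle12 : W₁ ≤ W₂ := by
            rw [← e1]
            exact inf_le_right
          exact Submodule.eq_of_le_of_finrank_eq hle12 (by rw [hW₁m, hW₂m])
        have h3 : m - finrank F (W₁ ⊓ W₂ : Submodule F (ι → F)) = 1 := by omega
        rw [h3] at hev
        exact (by decide : ¬ Even 1) hev
    · refine ⟨((reflElt Q a * reflElt Q (a + u) : ↥(isometryGroup F ⇑Q)) : GL ι F),
        ⟨pair_mem_stab Q W₁ hW₁ a u ha huW₁ hau,
          mem_omegaGL _ _ (refl_pair_mem_Omega Q hQ a (a + u) ha hq)⟩, ?_⟩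
      rintro ⟨hmem, -⟩
      have h1 : act ⇑Q (reflElt Q a * reflElt Q (a + u)) x ∈ W :=
        ((mem_subspaceStabilizer _ W).1 hmem x).1 hxW
      have h2 : act ⇑Q (reflElt Q a * reflElt Q (a + u)) x =
          x - ((Q a)⁻¹ * polar Q a x) • u := by
        rw [pair_sing_act Q a u ha hu hau x, polar_add_left,
          hW₁.polar_eq_zero huW₁ (hWW₁ hxW)]
        simp
      rw [h2] at h1
      have h3 : ((Q a)⁻¹ * polar Q a x) • u ∈ W := by
        have := W.sub_mem hxW h1
        rw [sub_sub_cancel] at this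
        exact this
      apply huW
      have hc0 : (Q a)⁻¹ * polar Q a x ≠ 0 := mul_ne_zero (inv_ne_zero ha) hax
      have := W.smul_mem ((Q a)⁻¹ * polar Q a x)⁻¹ h3
      rw [smul_smul, inv_mul_cancel₀ hc0, one_smul] at this
      exact this
  · rw [SetLike.lt_iff_le_and_exists]
    refine ⟨inf_le_right, ?_⟩
    obtain ⟨g, hg, hgx⟩ := exists_move_TS hcard Q hQ W₁ hW₁ x (hWW₁ hxW) hx0
    refine ⟨(g : GL ι F), mem_omegaGL _ _ hg, ?_⟩
    rintro ⟨hmem, -⟩
    exact hgx (((mem_subspaceStabilizer _ _).1 hmem x).1 (hWW₁ hxW))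

end NotMax2

end Cfsg.Agent.Helper16
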