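import Cfsg.Agent.Helper16.Omega4Plus
import Cfsg.Agent.S0250

set_option autoImplicit false
open Cfsg

namespace Cfsg.Agent.Helper16

open Matrix

section IsomOfLin
variable {ι : Type} [Fintype ι] [DecidableEq ι] {F : Type*} [Field F]

/-- an isometry from a linear equivalence preserving the form -/
noncomputable def isomOfLin (Q : (ι → F) → F) (f : (ι → F) ≃ₗ[F] (ι → F))
    (hf : ∀ v, Q (f v) = Q v) : ↥(isometryGroup F Q) :=
  ⟨⟨LinearMap.toMatrix' (f : (ι → F) →ₗ[F] (ι → F)),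
    LinearMap.toMatrix' (f.symm : (ι → F) →ₗ[F] (ι → F)),
    by rw [← LinearMap.toMatrix'_comp, LinearEquiv.comp_symm, LinearMap.toMatrix'_id],
    by rw [← LinearMap.toMatrix'_comp, LinearEquiv.symm_comp, LinearMap.toMatrix'_id]⟩,
    (mem_isometryGroup_iff _ _).2 (fun u => by
      show Q ((LinearMap.toMatrix' (f : (ι → F) →ₗ[F] (ι → F))).mulVec u) = Q u
      rw [LinearMap.toMatrix'_mulVec]
      exact hf u)⟩

theorem act_isomOfLin (Q : (ι → F) → F) (f : (ι → F) ≃ₗ[F] (ι → F))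
    (hf : ∀ v, Q (f v) = Q v) (v : ι → F) : act Q (isomOfLin Q f hf) v = f v := by
  show (LinearMap.toMatrix' (f : (ι → F) →ₗ[F] (ι → F))).mulVec v = f v
  rw [LinearMap.toMatrix'_mulVec]
  rfl

end IsomOfLin

section O4
variable {F : Type*} [Field F]

theorem enc4_act_Phi4
    (s : Matrix.SpecialLinearGroup (Fin 2) F × Matrix.SpecialLinearGroup (Fin 2) F)
    (v : Fin 2 ⊕ Fin 2 → F) :
    enc4 (act (quadFormPlus 2 F) (Phi4 s) v) = s.1.val * enc4 v * (s.2⁻¹).val := by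
  have h : act (quadFormPlus 2 F) (Phi4 s) v =
      dec4 (actLR (slPair s : GL (Fin 2) F × GL (Fin 2) F) (enc4 v)) :=
    (model4 (F := F)).hom_act (slPair s) v
  rw [h, enc4_dec4]
  rfl

theorem enc4_injective : Function.Injective (enc4 (F := F)) := by
  intro u v h
  rw [← dec4_enc4 u, ← dec4_enc4 v, h]

/-- the swap `v ↦ (-y₀, x₁; -x₀, y₁)`, which is `X ↦ -adj X` on matrices -/
def swapLin : (Fin 2 ⊕ Fin 2 → F) →ₗ[F] (Fin 2 ⊕ Fin 2 → F) where
  toFun v := Sum.elim ![-v (Sum.inr 0), v (Sum.inl 1)] ![-v (Sum.inl 0), v (Sum.inr 1)]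
  map_add' u v := by
    ext i
    rcases i with i | i <;> fin_cases i <;> simp
    · ring
    · ring
  map_smul' c v := by
    ext i
    rcases i with i | i <;> fin_cases i <;> simp

theorem swapLin_apply (v : Fin 2 ⊕ Fin 2 → F) :
    swapLin v = Sum.elim ![-v (Sum.inr 0), v (Sum.inl 1)] ![-v (Sum.inl 0), v (Sum.inr 1)] := rfl

theorem swapLin_invol : Function.Involutive (swapLin (F := F)) := by
  intro v
  ext i
  rcases i with i | i <;> fin_cases i <;> simp [swapLin_apply]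

theorem swapLin_Q (v : Fin 2 ⊕ Fin 2 → F) :
    quadFormPlus 2 F (swapLin v) = quadFormPlus 2 F v := by
  simp [quadFormPlus, Fin.sum_univ_two, swapLin_apply]
  ring

/-- the swap as an isometry -/
noncomputable def swapIsom : ↥(isometryGroup F (quadFormPlus 2 F)) :=
  isomOfLin (quadFormPlus 2 F) (LinearEquiv.ofInvolutive swapLin swapLin_invol) swapLin_Q

theorem act_swapIsom (v : Fin 2 ⊕ Fin 2 → F) :
    act (quadFormPlus 2 F) swapIsom v = swapLin v :=
  act_isomOfLin _ _ _ v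

/-- `X ↦ -adj X` -/
def negAdj (X : Matrix (Fin 2) (Fin 2) F) : Matrix (Fin 2) (Fin 2) F :=
  !![-X 1 1, X 0 1; X 1 0, -X 0 0]

theorem enc4_swapLin (v : Fin 2 ⊕ Fin 2 → F) : enc4 (swapLin v) = negAdj (enc4 v) := by
  ext i j
  fin_cases i <;> fin_cases j <;> simp [enc4, swapLin_apply, negAdj]

theorem negAdj_mul (A X : Matrix (Fin 2) (Fin 2) F) :
    negAdj (A * X) = negAdj X * A.adjugate := by
  ext i j
  fin_cases i <;> fin_cases j <;>
    simp [negAdj, Matrix.mul_apply, Fin.sum_univ_two, Matrix.adjugate_fin_two] <;> ring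

theorem swap_conj (a : Matrix.SpecialLinearGroup (Fin 2) F) :
    swapIsom * Phi4 (a, 1) * swapIsom⁻¹ = Phi4 ((1 : Matrix.SpecialLinearGroup (Fin 2) F), a) := by
  rw [mul_inv_eq_iff_eq_mul]
  apply act_ext
  intro v
  apply enc4_injective
  rw [act_mul, act_mul, act_swapIsom, act_swapIsom, enc4_swapLin, enc4_act_Phi4, enc4_act_Phi4,
    enc4_swapLin]
  simp only [inv_one, Matrix.SpecialLinearGroup.coe_one, Matrix.mul_one, Matrix.one_mul,
    Matrix.SpecialLinearGroup.coe_inv]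
  exact negAdj_mul _ _

end O4

/-- the structure of `O⁺₄(2)` -/
theorem o4plus_two :
    Nat.card ↥(isometryGroup (ZMod 2) (quadFormPlus 2 (ZMod 2))) = 72 ∧
    ∃ (A B : Subgroup ↥(isometryGroup (ZMod 2) (quadFormPlus 2 (ZMod 2)))),
      Nonempty (↥A ≃* Equiv.Perm (Fin 3)) ∧ Nonempty (↥B ≃* Equiv.Perm (Fin 3)) ∧ A ⊓ B = ⊥ ∧
      (∀ a ∈ A, ∀ b ∈ B, a * b = b * a) ∧ (A ⊔ B).index = 2 ∧
      ∃ g : ↥(isometryGroup (ZMod 2) (quadFormPlus 2 (ZMod 2))),
        A.map (MulAut.conj g).toMonoidHom = B := by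
  have hO : Nat.card ↥(isometryGroup (ZMod 2) (quadFormPlus 2 (ZMod 2))) = 72 := by
    rw [Cfsg.Agent.S0287.result (F := ZMod 2) (q := 2) (by simp [ZMod.card]) 2 (by norm_num)]
    simp [Finset.prod_range_succ]
  refine ⟨hO, ?_⟩
  have h2 : (2 : ZMod 2) = 0 := by decide
  have hneg : ∀ M : Matrix (Fin 2) (Fin 2) (ZMod 2), -M = M := by
    intro M
    rw [neg_eq_iff_add_eq_zero, ← two_smul (ZMod 2) M, h2, zero_smul]
  have hinj : Function.Injective (Phi4 (F := ZMod 2)) := by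
    intro s t h
    rcases Phi4_pm s t h with ⟨h3, h4⟩ | ⟨h3, h4⟩
    · exact Prod.ext (Subtype.ext h3) (Subtype.ext h4)
    · rw [hneg] at h3 h4
      exact Prod.ext (Subtype.ext h3) (Subtype.ext h4)
  obtain ⟨e⟩ := Cfsg.Agent.S0250.result (F := ZMod 2) (by simp [ZMod.card])
  let iA : Matrix.SpecialLinearGroup (Fin 2) (ZMod 2) →*
      ↥(isometryGroup (ZMod 2) (quadFormPlus 2 (ZMod 2))) :=
    Phi4.comp (MonoidHom.inl _ _)
  let iB : Matrix.SpecialLinearGroup (Fin 2) (ZMod 2) →*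
      ↥(isometryGroup (ZMod 2) (quadFormPlus 2 (ZMod 2))) :=
    Phi4.comp (MonoidHom.inr _ _)
  have hiA : ∀ a, iA a = Phi4 (a, 1) := fun a => rfl
  have hiB : ∀ b, iB b = Phi4 ((1 : Matrix.SpecialLinearGroup (Fin 2) (ZMod 2)), b) := fun b => rfl
  have hiAinj : Function.Injective iA := by
    intro a a' h
    have := hinj h
    exact (Prod.mk.injEq _ _ _ _ ▸ this).1
  have hiBinj : Function.Injective iB := by
    intro a a' h
    have := hinj h
    exact (Prod.mk.injEq _ _ _ _ ▸ this).2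
  refine ⟨iA.range, iB.range, ⟨(MonoidHom.ofInjective hiAinj).symm.trans e⟩,
    ⟨(MonoidHom.ofInjective hiBinj).symm.trans e⟩, ?_, ?_, ?_, swapIsom, ?_⟩
  · rw [eq_bot_iff]
    rintro x ⟨⟨a, rfl⟩, ⟨b, hb⟩⟩
    rw [hiA, hiB] at hb
    have h3 := hinj hb
    have h4 : a = 1 := ((Prod.mk.injEq _ _ _ _ ▸ h3).1).symm
    rw [Subgroup.mem_bot, h4, map_one]
  · rintro _ ⟨a, rfl⟩ _ ⟨b, rfl⟩
    rw [hiA, hiB, ← map_mul, ← map_mul, Prod.mk_mul_mk, Prod.mk_mul_mk, mul_one, one_mul, mul_one,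
      one_mul]
  · have hsup : iA.range ⊔ iB.range = (Phi4 (F := ZMod 2)).range := by
      apply le_antisymm
      · apply sup_le
        · rintro _ ⟨a, rfl⟩
          exact ⟨(a, 1), rfl⟩
        · rintro _ ⟨b, rfl⟩
          exact ⟨(1, b), rfl⟩
      · rintro _ ⟨⟨a, b⟩, rfl⟩
        have h3 : Phi4 (a, b) = iA a * iB b := by
          rw [hiA, hiB, ← map_mul, Prod.mk_mul_mk, mul_one, one_mul]
        rw [h3]
        exact Subgroup.mul_mem_sup ⟨a, rfl⟩ ⟨b, rfl⟩
    rw [hsup]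
    have hSL : Nat.card (Matrix.SpecialLinearGroup (Fin 2) (ZMod 2)) = 6 := by
      rw [Nat.card_congr e.toEquiv, Nat.card_eq_fintype_card, Fintype.card_perm, Fintype.card_fin]
      rfl
    have hr : Nat.card ↥(Phi4 (F := ZMod 2)).range = 36 := by
      rw [← Nat.card_congr (MonoidHom.ofInjective hinj).toEquiv, Nat.card_prod, hSL]
    have h5 := (Phi4 (F := ZMod 2)).range.card_mul_index
    rw [hr, hO] at h5
    omega
  · ext y
    rw [Subgroup.mem_map]
    constructor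
    · rintro ⟨_, ⟨a, rfl⟩, rfl⟩
      refine ⟨a, ?_⟩
      rw [hiA, hiB]
      exact (swap_conj a).symm
    · rintro ⟨b, rfl⟩
      refine ⟨iA b, ⟨b, rfl⟩, ?_⟩
      rw [hiA, hiB]
      exact swap_conj b

end Cfsg.Agent.Helper16
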