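import Cfsg.Agent.Helper16.DecSwap
import Cfsg.Agent.Helper16.AutD8
import Cfsg.Agent.Helper16.FrobK

set_option autoImplicit false
open Cfsg

namespace Cfsg.Agent.Helper16

open QuadraticMap Module Matrix
open scoped Pointwise

section OSubA
variable {ι : Type} [Fintype ι] [DecidableEq ι] {F : Type*} [Field F]

/-- coordinatewise inclusion of rational vectors -/
def upv (F₀ : Subfield F) (v : ι → F₀) : ι → F := fun i => (v i : F)

variable {F₀ : Subfield F}

theorem upv_apply (v : ι → F₀) (i : ι) : upv F₀ v i = (v i : F) := rfl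

theorem upv_zero : upv F₀ (0 : ι → F₀) = 0 := rfl

theorem upv_add (v w : ι → F₀) : upv F₀ (v + w) = upv F₀ v + upv F₀ w := rfl

theorem upv_sub (v w : ι → F₀) : upv F₀ (v - w) = upv F₀ v - upv F₀ w := rfl

theorem upv_neg (v : ι → F₀) : upv F₀ (-v) = -upv F₀ v := rfl

theorem upv_smul (c : F₀) (v : ι → F₀) : upv F₀ (c • v) = (c : F) • upv F₀ v := rfl

theorem upv_injective : Function.Injective (upv F₀ : (ι → F₀) → ι → F) := by
  intro v w h
  funext i
  exact Subtype.ext (congrFun h i)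

theorem upv_single (i : ι) :
    upv F₀ (Pi.single i (1 : F₀)) = (Pi.single i (1 : F) : ι → F) := by
  funext j
  by_cases h : j = i
  · subst h
    simp [upv]
  · simp [upv, Pi.single_eq_of_ne h]

theorem exists_upv (v : ι → F) (h : ∀ i, v i ∈ F₀) : ∃ w : ι → F₀, upv F₀ w = v :=
  ⟨fun i => ⟨v i, h i⟩, rfl⟩

theorem upv_eq_zero {v : ι → F₀} (h : upv F₀ v = 0) : v = 0 :=
  upv_injective (h.trans upv_zero.symm)

theorem upv_ne_zero {v : ι → F₀} (h : v ≠ 0) : upv F₀ v ≠ 0 := fun h' => h (upv_eq_zero h')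

/-- `Q₀` is the restriction of `Q` to the rational vectors -/
def IsRes (F₀ : Subfield F) (Q : QuadraticForm F (ι → F)) (Q₀ : QuadraticForm F₀ (ι → F₀)) :
    Prop :=
  ∀ v : ι → F₀, Q (upv F₀ v) = (Q₀ v : F)

theorem exists_res (Q : QuadraticForm F (ι → F)) (hrat : ∀ v : ι → F₀, Q (upv F₀ v) ∈ F₀) :
    ∃ Q₀ : QuadraticForm F₀ (ι → F₀), IsRes F₀ Q Q₀ := by
  have hpol : ∀ v w : ι → F₀, polar Q (upv F₀ v) (upv F₀ w) ∈ F₀ := by
    intro v w
    have e : polar Q (upv F₀ v) (upv F₀ w)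
        = Q (upv F₀ (v + w)) - Q (upv F₀ v) - Q (upv F₀ w) := rfl
    rw [e]
    exact F₀.sub_mem (F₀.sub_mem (hrat _) (hrat _)) (hrat _)
  let B : LinearMap.BilinMap F₀ (ι → F₀) F₀ := LinearMap.mk₂ F₀
    (fun v w => (⟨polar Q (upv F₀ v) (upv F₀ w), hpol v w⟩ : F₀))
    (fun v v' w => Subtype.ext (by
      show polar Q (upv F₀ (v + v')) (upv F₀ w)
        = polar Q (upv F₀ v) (upv F₀ w) + polar Q (upv F₀ v') (upv F₀ w)
      rw [upv_add, polar_add_left]))
    (fun c v w => Subtype.ext (by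
      show polar Q (upv F₀ (c • v)) (upv F₀ w) = (c : F) * polar Q (upv F₀ v) (upv F₀ w)
      rw [upv_smul, polar_smul_left, smul_eq_mul]))
    (fun v w w' => Subtype.ext (by
      show polar Q (upv F₀ v) (upv F₀ (w + w'))
        = polar Q (upv F₀ v) (upv F₀ w) + polar Q (upv F₀ v) (upv F₀ w')
      rw [upv_add, polar_add_right]))
    (fun c v w => Subtype.ext (by
      show polar Q (upv F₀ v) (upv F₀ (c • w)) = (c : F) * polar Q (upv F₀ v) (upv F₀ w)
      rw [upv_smul, polar_smul_right, smul_eq_mul]))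
  refine ⟨{ toFun := fun v => ⟨Q (upv F₀ v), hrat v⟩
            toFun_smul := fun c v => Subtype.ext (by
              show Q (upv F₀ (c • v)) = ((c : F) * (c : F)) * Q (upv F₀ v)
              rw [upv_smul, qf_smul])
            exists_companion' := ⟨B, fun v w => Subtype.ext (by
              show Q (upv F₀ (v + w))
                = Q (upv F₀ v) + Q (upv F₀ w) + polar Q (upv F₀ v) (upv F₀ w)
              rw [upv_add, qf_add])⟩ }, fun v => rfl⟩

theorem IsRes.pol {Q : QuadraticForm F (ι → F)} {Q₀ : QuadraticForm F₀ (ι → F₀)}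
    (h : IsRes F₀ Q Q₀) (v w : ι → F₀) :
    polar Q (upv F₀ v) (upv F₀ w) = ((polar Q₀ v w : F₀) : F) := by
  have e : polar Q (upv F₀ v) (upv F₀ w)
      = Q (upv F₀ (v + w)) - Q (upv F₀ v) - Q (upv F₀ w) := rfl
  have e' : polar Q₀ v w = Q₀ (v + w) - Q₀ v - Q₀ w := rfl
  rw [e, e', h, h, h]
  rfl

theorem polar_eq_zero_of_basis (Q : QuadraticForm F (ι → F)) (u : ι → F)
    (h : ∀ i, polar Q u (Pi.single i 1) = 0) (y : ι → F) : polar Q u y = 0 := by
  rw [← polarVec_dot', dotProduct]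
  apply Finset.sum_eq_zero
  intro j _
  have e : Cfsg.polarVec ⇑Q u j = polar Q u (Pi.single j 1) := rfl
  rw [e, h j, zero_mul]

theorem eq_zero_of_polar_upv (Q : QuadraticForm F (ι → F)) (hQ : (polarBilin Q).Nondegenerate)
    (u : ι → F) (h : ∀ v : ι → F₀, polar Q u (upv F₀ v) = 0) : u = 0 := by
  apply hQ.1
  intro y
  apply polar_eq_zero_of_basis
  intro i
  rw [← upv_single (F₀ := F₀)]
  exact h _

theorem IsRes.nondeg {Q : QuadraticForm F (ι → F)} {Q₀ : QuadraticForm F₀ (ι → F₀)}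
    (h : IsRes F₀ Q Q₀) (hQ : (polarBilin Q).Nondegenerate) :
    (polarBilin Q₀).Nondegenerate := by
  apply ((polarBilin_isSymm _).isRefl.nondegenerate_iff_separatingLeft).2
  intro x hx
  apply upv_injective (F₀ := F₀)
  rw [upv_zero]
  apply eq_zero_of_polar_upv Q hQ (F₀ := F₀)
  intro v
  rw [h.pol]
  have h1 : polar Q₀ x v = 0 := hx v
  rw [h1]
  rfl

/-- rational matrices -/
def RMat (F₀ : Subfield F) (A : Matrix ι ι F) : Prop := ∀ i j, A i j ∈ F₀

theorem RMat.mulVec_upv {A : Matrix ι ι F} (hA : RMat F₀ A) (v : ι → F₀) :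
    ∃ w : ι → F₀, A *ᵥ upv F₀ v = upv F₀ w := by
  obtain ⟨w, hw⟩ := exists_upv (F₀ := F₀) (A *ᵥ upv F₀ v) (fun i => by
    show ∑ j, A i j * upv F₀ v j ∈ F₀
    exact F₀.sum_mem fun j _ => F₀.mul_mem (hA i j) (v j).2)
  exact ⟨w, hw.symm⟩

theorem rmat_of_upv (A : Matrix ι ι F)
    (h : ∀ v : ι → F₀, ∃ w : ι → F₀, A *ᵥ upv F₀ v = upv F₀ w) : RMat F₀ A := by
  intro i j
  obtain ⟨w, hw⟩ := h (Pi.single j 1)
  have h1 := congrFun hw i
  rw [upv_single, Matrix.mulVec_single_one] at h1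
  have h2 : A i j = upv F₀ w i := h1
  rw [h2]
  exact (w i).2

theorem RMat.mul {A B : Matrix ι ι F} (hA : RMat F₀ A) (hB : RMat F₀ B) : RMat F₀ (A * B) :=
  fun i j => by
    show ∑ k, A i k * B k j ∈ F₀
    exact F₀.sum_mem fun k _ => F₀.mul_mem (hA i k) (hB k j)

theorem RMat.smul {A : Matrix ι ι F} (hA : RMat F₀ A) {c : F} (hc : c ∈ F₀) :
    RMat F₀ (c • A) := fun i j => F₀.mul_mem hc (hA i j)

theorem RMat.det_mem {A : Matrix ι ι F} (hA : RMat F₀ A) : A.det ∈ F₀ := by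
  obtain ⟨X₀, hX₀⟩ : ∃ X₀ : Matrix ι ι F₀, ∀ i j, (X₀ i j : F) = A i j :=
    ⟨fun i j => ⟨A i j, hA i j⟩, fun i j => rfl⟩
  have hmap : (F₀.subtype : F₀ →+* F).mapMatrix X₀ = A := by
    ext i j
    exact hX₀ i j
  rw [← hmap, ← RingHom.map_det]
  exact Subtype.property _

theorem scalars_normalI : (Cfsg.Geo.scalars ι F).Normal := by
  constructor
  intro z hz g
  rw [Cfsg.Geo.mem_scalars_iff] at hz ⊢
  obtain ⟨c, hc⟩ := hz
  refine ⟨c, ?_⟩
  rw [Units.val_mul, Units.val_mul, hc, Matrix.mul_smul, Matrix.mul_one, Matrix.smul_mul,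
    ← Units.val_mul, mul_inv_cancel, Units.val_one]

/-- a criterion for membership in the subfield group (after helper6's `S5660.mem_sfg`) -/
theorem mem_sfgI (F₀ : Subfield F) (P A : GL ι F) (c : F)
    (hc : c ≠ 0) (X : Matrix ι ι F) (hX : ∀ i j, X i j ∈ F₀)
    (hA : (A : Matrix ι ι F) * (P : Matrix ι ι F) = c • ((P : Matrix ι ι F) * X)) :
    A ∈ Cfsg.Geo.subfieldSubgroup F₀ P := by
  classical
  have hdA : (A : Matrix ι ι F).det * ((A⁻¹ : GL ι F) : Matrix ι ι F).det = 1 := by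
    rw [← Matrix.det_mul, ← Units.val_mul, mul_inv_cancel, Units.val_one, Matrix.det_one]
  have hdP : (P : Matrix ι ι F).det * ((P⁻¹ : GL ι F) : Matrix ι ι F).det = 1 := by
    rw [← Matrix.det_mul, ← Units.val_mul, mul_inv_cancel, Units.val_one, Matrix.det_one]
  have hdet : X.det ≠ 0 := by
    intro h0
    have h1 := congrArg Matrix.det hA
    rw [Matrix.det_mul, Matrix.det_smul, Matrix.det_mul, h0, mul_zero, mul_zero] at h1
    rcases mul_eq_zero.mp h1 with h2 | h2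
    · rw [h2, zero_mul] at hdA
      exact zero_ne_one hdA
    · rw [h2, zero_mul] at hdP
      exact zero_ne_one hdP
  obtain ⟨X₀, hX₀⟩ : ∃ X₀ : Matrix ι ι F₀, ∀ i j, (X₀ i j : F) = X i j :=
    ⟨fun i j => ⟨X i j, hX i j⟩, fun i j => rfl⟩
  have hmap : (F₀.subtype : F₀ →+* F).mapMatrix X₀ = X := by
    ext i j
    exact hX₀ i j
  have hdet₀ : X₀.det ≠ 0 := by
    intro h0
    apply hdet
    rw [← hmap, ← RingHom.map_det, h0, map_zero]
  obtain ⟨G₀, hG₀⟩ : ∃ G₀ : GL ι F₀, (G₀ : Matrix ι ι F₀) = X₀ :=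
    ⟨Matrix.GeneralLinearGroup.mkOfDetNeZero X₀ hdet₀, rfl⟩
  obtain ⟨Z, hZ⟩ : ∃ Z : GL ι F, (Z : Matrix ι ι F) = c • 1 :=
    ⟨Matrix.GeneralLinearGroup.mkOfDetNeZero (c • (1 : Matrix ι ι F)) (by
      rw [Matrix.det_smul, Matrix.det_one, mul_one]
      exact pow_ne_zero _ hc), rfl⟩
  have hG : ((Matrix.GeneralLinearGroup.map (F₀.subtype : F₀ →+* F) G₀ : GL ι F) :
      Matrix ι ι F) = X := by
    rw [← hmap, ← hG₀]
    rfl
  unfold Cfsg.Geo.subfieldSubgroup
  rw [Subgroup.mem_map]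
  refine ⟨Matrix.GeneralLinearGroup.map (F₀.subtype : F₀ →+* F) G₀ * Z,
    Subgroup.mul_mem_sup (MonoidHom.mem_range.mpr ⟨G₀, rfl⟩) ?_, ?_⟩
  · rw [Cfsg.Geo.mem_scalars_iff]
    exact ⟨Units.mk0 c hc, hZ⟩
  · have e : (MulAut.conj P).toMonoidHom
        (Matrix.GeneralLinearGroup.map (F₀.subtype : F₀ →+* F) G₀ * Z)
        = P * (Matrix.GeneralLinearGroup.map (F₀.subtype : F₀ →+* F) G₀ * Z) * P⁻¹ := rfl
    rw [e, mul_inv_eq_iff_eq_mul]
    apply Units.ext
    rw [Units.val_mul, Units.val_mul, Units.val_mul, hZ, hG, hA, Matrix.mul_smul,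
      Matrix.mul_one, Matrix.mul_smul]

theorem sfg_one_of_rmat (A : GL ι F) (c : F) (hc : c ≠ 0)
    (hA : RMat F₀ (c • (A : Matrix ι ι F))) :
    A ∈ Cfsg.Geo.subfieldSubgroup F₀ (1 : GL ι F) := by
  apply mem_sfgI F₀ 1 A c⁻¹ (inv_ne_zero hc) (c • (A : Matrix ι ι F)) hA
  rw [Units.val_one, Matrix.mul_one, Matrix.one_mul, smul_smul, inv_mul_cancel₀ hc, one_smul]

theorem rmat_of_mem_sfg_one (A : GL ι F)
    (hA : A ∈ Cfsg.Geo.subfieldSubgroup F₀ (1 : GL ι F)) :
    ∃ c : F, c ≠ 0 ∧ RMat F₀ (c • (A : Matrix ι ι F)) := by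
  classical
  unfold Cfsg.Geo.subfieldSubgroup at hA
  rw [Subgroup.mem_map] at hA
  obtain ⟨k, hk, hkeq⟩ := hA
  have e : (MulAut.conj (1 : GL ι F)).toMonoidHom k = 1 * k * 1⁻¹ := rfl
  rw [e, one_mul, inv_one, mul_one] at hkeq
  subst hkeq
  haveI : (Cfsg.Geo.scalars ι F).Normal := scalars_normalI
  have hk' : k ∈ (((Matrix.GeneralLinearGroup.map (F₀.subtype : F₀ →+* F)).range :
      Subgroup (GL ι F)) : Set (GL ι F))
      * ((Cfsg.Geo.scalars ι F : Subgroup (GL ι F)) : Set (GL ι F)) := by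
    rw [← Subgroup.mul_normal]
    exact hk
  obtain ⟨x, hx, z, hz, hxz⟩ := Set.mem_mul.mp hk'
  obtain ⟨G₀, rfl⟩ := MonoidHom.mem_range.mp hx
  obtain ⟨c, hc⟩ := (Cfsg.Geo.mem_scalars_iff z).mp hz
  refine ⟨(c : F)⁻¹, inv_ne_zero c.ne_zero, fun i j => ?_⟩
  have h3 : ((Matrix.GeneralLinearGroup.map (F₀.subtype : F₀ →+* F) G₀ * z : GL ι F) :
      Matrix ι ι F) i j = (c : F) * ((G₀ : Matrix ι ι F₀) i j : F) := by
    rw [Units.val_mul, hc, Matrix.mul_smul, Matrix.mul_one, Matrix.smul_apply, smul_eq_mul]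
    rfl
  rw [← hxz, Matrix.smul_apply, h3, smul_eq_mul, ← mul_assoc, inv_mul_cancel₀ c.ne_zero, one_mul]
  exact ((G₀ : Matrix ι ι F₀) i j).2

theorem isMaximalIn_map {G : Type*} [Group G] (e : G ≃* G) (K H : Subgroup G)
    (h : Cfsg.Geo.IsMaximalIn K H) :
    Cfsg.Geo.IsMaximalIn (K.map e.toMonoidHom) (H.map e.toMonoidHom) := by
  obtain ⟨hlt, hmax⟩ := h
  have hinj : Function.Injective e.toMonoidHom := e.injective
  constructor
  · refine lt_of_le_of_ne (Subgroup.map_mono hlt.le) ?_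
    intro heq
    exact hlt.ne (Subgroup.map_injective hinj heq)
  · intro M hHM hMK
    have h1 : H ≤ M.comap e.toMonoidHom := Subgroup.map_le_iff_le_comap.mp hHM
    have h2 : M.comap e.toMonoidHom ≤ K := by
      have := Subgroup.comap_mono (f := e.toMonoidHom) hMK
      rwa [Subgroup.comap_map_eq_self_of_injective hinj] at this
    have hM : (M.comap e.toMonoidHom).map e.toMonoidHom = M :=
      Subgroup.map_comap_eq_self_of_surjective e.surjective M
    rcases hmax _ h1 h2 with h3 | h3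
    · left
      rw [← hM, h3]
    · right
      rw [← hM, h3]

theorem omegaGL_eq_comm (Q : (ι → F) → F) :
    Cfsg.Geo.omegaGL Q = ⁅isometryGroup F Q, isometryGroup F Q⁆ := by
  unfold Cfsg.Geo.omegaGL
  have e : (Omega F Q : Subgroup ↥(isometryGroup F Q))
      = ⁅(⊤ : Subgroup ↥(isometryGroup F Q)), ⊤⁆ := rfl
  rw [e, Subgroup.map_commutator, ← MonoidHom.range_eq_map, Subgroup.range_subtype]

theorem isometryGroup_conj (Q : (ι → F) → F) (P : GL ι F) :
    (isometryGroup F (fun v => Q ((P : Matrix ι ι F) *ᵥ v))).map (MulAut.conj P).toMonoidHom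
      = isometryGroup F Q := by
  ext g
  rw [Subgroup.mem_map]
  constructor
  · rintro ⟨k, hk, rfl⟩
    rw [mem_isometryGroup_iff] at hk ⊢
    intro u
    have e : ((MulAut.conj P).toMonoidHom k : GL ι F) = P * k * P⁻¹ := rfl
    have h1 := hk (((P⁻¹ : GL ι F) : Matrix ι ι F) *ᵥ u)
    have h2 : (P : Matrix ι ι F) *ᵥ (((P⁻¹ : GL ι F) : Matrix ι ι F) *ᵥ u) = u := by
      rw [Matrix.mulVec_mulVec, ← Units.val_mul, mul_inv_cancel, Units.val_one,
        Matrix.one_mulVec]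
    rw [h2] at h1
    rw [e, Units.val_mul, Units.val_mul, ← Matrix.mulVec_mulVec, ← Matrix.mulVec_mulVec]
    exact h1
  · intro hg
    refine ⟨P⁻¹ * g * P, ?_, ?_⟩
    · rw [mem_isometryGroup_iff] at hg ⊢
      intro u
      have h1 := hg ((P : Matrix ι ι F) *ᵥ u)
      have h2 : (P : Matrix ι ι F) *ᵥ (((P⁻¹ * g * P : GL ι F) : Matrix ι ι F) *ᵥ u)
          = (g : Matrix ι ι F) *ᵥ ((P : Matrix ι ι F) *ᵥ u) := by
        rw [Matrix.mulVec_mulVec, Matrix.mulVec_mulVec, ← Units.val_mul, ← Units.val_mul]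
        congr 2
        group
      show Q ((P : Matrix ι ι F) *ᵥ (((P⁻¹ * g * P : GL ι F) : Matrix ι ι F) *ᵥ u))
        = Q ((P : Matrix ι ι F) *ᵥ u)
      rw [h2]
      exact h1
    · show P * (P⁻¹ * g * P) * P⁻¹ = g
      group

theorem omegaGL_conj (Q : (ι → F) → F) (P : GL ι F) :
    (Cfsg.Geo.omegaGL (fun v => Q ((P : Matrix ι ι F) *ᵥ v))).map (MulAut.conj P).toMonoidHom
      = Cfsg.Geo.omegaGL Q := by
  rw [omegaGL_eq_comm, omegaGL_eq_comm, Subgroup.map_commutator, isometryGroup_conj]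

theorem sfg_conj (F₀ : Subfield F) (P : GL ι F) :
    (Cfsg.Geo.subfieldSubgroup F₀ (1 : GL ι F)).map (MulAut.conj P).toMonoidHom
      = Cfsg.Geo.subfieldSubgroup F₀ P := by
  unfold Cfsg.Geo.subfieldSubgroup
  rw [Subgroup.map_map]
  congr 1
  exact MonoidHom.ext fun g => by simp

/-! ### general Siegel lemmas -/

theorem siegT_mulVec (Q : QuadraticForm F (ι → F)) (u w v : ι → F) (hu : Q u = 0)
    (huw : polar Q u w = 0) :
    ((siegT Q u w : GL ι F) : Matrix ι ι F) *ᵥ v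
      = v + polar Q w v • u - polar Q u v • w - (Q w * polar Q u v) • u := by
  rw [siegT_eq Q u w hu huw]
  exact act_sieg Q u w hu huw v

theorem siegT_neg (Q : QuadraticForm F (ι → F)) (u w : ι → F) (hu : Q u = 0)
    (huw : polar Q u w = 0) : siegT Q u (-w) = (siegT Q u w)⁻¹ := by
  rw [eq_inv_iff_mul_eq_one, siegT_mul Q u (-w) w hu (by rw [polar_neg_right, huw, neg_zero]) huw,
    neg_add_cancel, siegT_zero_right Q u hu]

theorem siegT_add_self (Q : QuadraticForm F (ι → F)) (u w : ι → F) (c : F) (hu : Q u = 0)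
    (huw : polar Q u w = 0) : siegT Q u (w + c • u) = siegT Q u w := by
  rw [← siegT_mul Q u w (c • u) hu huw (by rw [polar_smul_right, qf_polar_self, hu]; simp),
    siegT_self Q u hu c, mul_one]

theorem siegT_CI (Q : QuadraticForm F (ι → F)) (a y a' b' : ι → F) (ha : Q a = 0)
    (hay : polar Q a y = 0) (ha' : Q a' = 0) (hb' : Q b' = 0) (hab' : polar Q a' b' = 0)
    (haa' : polar Q a a' = 0) (hab : polar Q a b' = 0) :
    siegT Q a' b' * siegT Q a y * (siegT Q a' b')⁻¹ * (siegT Q a y)⁻¹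
      = siegT Q a (polar Q b' y • a' - polar Q a' y • b') := by
  have h1 := siegT_conj Q (sieg Q a' b' ha' hab') a y ha hay
  rw [← siegT_eq Q a' b' ha' hab'] at h1
  have e1 : act ⇑Q (sieg Q a' b' ha' hab') a = a := by
    rw [act_sieg, polar_comm Q b' a, hab, polar_comm Q a' a, haa']
    simp
  have e2 : act ⇑Q (sieg Q a' b' ha' hab') y
      = (polar Q b' y • a' - polar Q a' y • b') + y := by
    rw [act_sieg, hb']
    funext i
    simp only [Pi.add_apply, Pi.sub_apply, Pi.smul_apply, smul_eq_mul]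
    ring
  have hz : polar Q a (polar Q b' y • a' - polar Q a' y • b') = 0 := by
    rw [polar_sub_right, polar_smul_right, polar_smul_right, haa', hab]
    simp
  rw [h1, e1, e2, ← siegT_mul Q a _ y ha hz hay, mul_inv_cancel_right]

theorem trace_vecMulVec_mul (u φ : ι → F) (A : Matrix ι ι F) :
    Matrix.trace (Matrix.vecMulVec u φ * A) = φ ⬝ᵥ (A *ᵥ u) := by
  rw [Matrix.trace_mul_comm, Matrix.mul_vecMulVec, Matrix.trace_vecMulVec, dotProduct_comm]

theorem siegT_coe (Q : QuadraticForm F (ι → F)) (u w : ι → F) (hu : Q u = 0)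
    (huw : polar Q u w = 0) :
    ((siegT Q u w : GL ι F) : Matrix ι ι F)
      = 1 + Matrix.vecMulVec u (Cfsg.polarVec ⇑Q w) - Matrix.vecMulVec w (Cfsg.polarVec ⇑Q u)
        - Q w • Matrix.vecMulVec u (Cfsg.polarVec ⇑Q u) := by
  apply mat_ext
  intro v
  rw [siegT_mulVec Q u w v hu huw, Matrix.sub_mulVec, Matrix.sub_mulVec, Matrix.add_mulVec,
    Matrix.one_mulVec, Matrix.smul_mulVec, Matrix.vecMulVec_mulVec, Matrix.vecMulVec_mulVec,
    Matrix.vecMulVec_mulVec, polarVec_dot', polarVec_dot', op_smul_eq_smul, op_smul_eq_smul,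
    op_smul_eq_smul, mul_smul]

theorem trace_siegT_mul (Q : QuadraticForm F (ι → F)) (u w : ι → F) (hu : Q u = 0)
    (huw : polar Q u w = 0) (A : Matrix ι ι F) :
    Matrix.trace (((siegT Q u w : GL ι F) : Matrix ι ι F) * A)
      = Matrix.trace A + polar Q w (A *ᵥ u) - polar Q u (A *ᵥ w) - Q w * polar Q u (A *ᵥ u) := by
  rw [siegT_coe Q u w hu huw, Matrix.sub_mul, Matrix.sub_mul, Matrix.add_mul, Matrix.one_mul,
    Matrix.smul_mul, Matrix.trace_sub, Matrix.trace_sub, Matrix.trace_add, Matrix.trace_smul,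
    trace_vecMulVec_mul, trace_vecMulVec_mul, trace_vecMulVec_mul, polarVec_dot', polarVec_dot',
    polarVec_dot', smul_eq_mul]

theorem nd_top (Q : QuadraticForm F (ι → F)) (hQ : (polarBilin Q).Nondegenerate) :
    ND Q (⊤ : Submodule F (ι → F)) := by
  intro w _ hw0
  obtain ⟨y, hy⟩ := exists_polar_ne Q hQ w hw0
  exact ⟨y, Submodule.mem_top, hy⟩

end OSubA

end Cfsg.Agent.Helper16
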