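import Cfsg.Agent.Helper16.OSubA

set_option autoImplicit false
open Cfsg

namespace Cfsg.Agent.Helper16

open QuadraticMap Module Matrix

section KGeom
variable {ι : Type} [Fintype ι] [DecidableEq ι] {K : Type*} [Field K]

/-- a hyperbolic pair orthogonal to a small non-degenerate subspace -/
theorem exists_hp [Fintype K] (Q : QuadraticForm K (ι → K)) (hQ : (polarBilin Q).Nondegenerate)
    (N : Submodule K (ι → K)) (hN : ND Q N) (hfin : finrank K N + 3 ≤ Fintype.card ι) :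
    ∃ e f : ι → K, e ∈ orth Q N ∧ f ∈ orth Q N ∧ Q e = 0 ∧ Q f = 0 ∧ polar Q e f = 1 := by
  have h1 : 3 ≤ finrank K (orth Q N) := by
    rw [finrank_orth Q hQ, Module.finrank_fintype_fun_eq_card]
    omega
  obtain ⟨e, he, he0, heQ⟩ := exists_sing_sub Q (orth Q N) h1
  obtain ⟨f, hf, hfQ, hef⟩ := (hN.orth_nd hQ).exists_partner e he he0 heQ
  exact ⟨e, f, he, hf, heQ, hfQ, hef⟩

theorem nd_add_hp (Q : QuadraticForm K (ι → K)) (N : Submodule K (ι → K)) (hN : ND Q N)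
    (e f : ι → K) (he : e ∈ orth Q N) (hf : f ∈ orth Q N) (heQ : Q e = 0) (hfQ : Q f = 0)
    (hef : polar Q e f = 1) :
    ND Q (N ⊔ (Submodule.span K {e} ⊔ Submodule.span K {f})) ∧
      finrank K (N ⊔ (Submodule.span K {e} ⊔ Submodule.span K {f}) : Submodule K (ι → K))
        ≤ finrank K N + 2 := by
  constructor
  · apply hN.sup (nd_hyp Q e f heQ hfQ (by rw [hef]; exact one_ne_zero))
    intro a ha b hb
    obtain ⟨b1, hb1, b2, hb2, rfl⟩ := Submodule.mem_sup.1 hb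
    obtain ⟨c, rfl⟩ := Submodule.mem_span_singleton.1 hb1
    obtain ⟨d, rfl⟩ := Submodule.mem_span_singleton.1 hb2
    rw [polar_add_right, polar_smul_right, polar_smul_right, (mem_orth Q N e).1 he a ha,
      (mem_orth Q N f).1 hf a ha]
    simp
  · have h1 := Submodule.finrank_add_le_finrank_add_finrank N
      (Submodule.span K {e} ⊔ Submodule.span K {f})
    have h2 := Submodule.finrank_add_le_finrank_add_finrank (Submodule.span K {e})
      (Submodule.span K {f})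
    have h3 := finrank_span_one_le (F := K) e
    have h4 := finrank_span_one_le (F := K) f
    omega

theorem nd_add_ns (h2 : (2 : K) ≠ 0) (Q : QuadraticForm K (ι → K)) (N : Submodule K (ι → K))
    (hN : ND Q N) (u : ι → K) (hu : u ∈ orth Q N) (huQ : Q u ≠ 0) :
    ND Q (N ⊔ Submodule.span K {u}) ∧
      finrank K (N ⊔ Submodule.span K {u} : Submodule K (ι → K)) ≤ finrank K N + 1 := by
  constructor
  · apply hN.sup (nd_span_nonsing h2 Q u huQ)
    intro a ha b hb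
    obtain ⟨c, rfl⟩ := Submodule.mem_span_singleton.1 hb
    rw [polar_smul_right, (mem_orth Q N u).1 hu a ha]
    simp
  · have h1 := Submodule.finrank_add_le_finrank_add_finrank N (Submodule.span K {u})
    have h3 := finrank_span_one_le (F := K) u
    omega

/-- every vector lies in a slightly larger non-degenerate subspace -/
theorem nd_extend (h2 : (2 : K) ≠ 0) (Q : QuadraticForm K (ι → K))
    (hQ : (polarBilin Q).Nondegenerate) (N : Submodule K (ι → K)) (hN : ND Q N) (c : ι → K) :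
    ∃ N' : Submodule K (ι → K), ND Q N' ∧ N ≤ N' ∧ c ∈ N' ∧ finrank K N' ≤ finrank K N + 2 := by
  obtain ⟨a, ha, b, hb, rfl⟩ := hN.decomp hQ c
  by_cases hb0 : b = 0
  · refine ⟨N, hN, le_rfl, ?_, by omega⟩
    rw [hb0, add_zero]
    exact ha
  · by_cases hbQ : Q b = 0
    · obtain ⟨bs, hbs, hbsQ, hbbs⟩ := (hN.orth_nd hQ).exists_partner b hb hb0 hbQ
      obtain ⟨h1, h3⟩ := nd_add_hp Q N hN b bs hb hbs hbQ hbsQ hbbs
      exact ⟨_, h1, le_sup_left, Submodule.add_mem _ (Submodule.mem_sup_left ha)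
        (Submodule.mem_sup_right (Submodule.mem_sup_left (Submodule.mem_span_singleton_self b))),
        h3⟩
    · obtain ⟨h1, h3⟩ := nd_add_ns h2 Q N hN b hb hbQ
      exact ⟨_, h1, le_sup_left, Submodule.add_mem _ (Submodule.mem_sup_left ha)
        (Submodule.mem_sup_right (Submodule.mem_span_singleton_self b)), by omega⟩

/-- a non-singular vector orthogonal to a small non-degenerate subspace is a combination of three
singular vectors orthogonal to that subspace -/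
theorem sing_decomp [Fintype K] (h2 : (2 : K) ≠ 0) (Q : QuadraticForm K (ι → K))
    (hQ : (polarBilin Q).Nondegenerate) (N : Submodule K (ι → K)) (hN : ND Q N)
    (hfin : finrank K N + 4 ≤ Fintype.card ι) (u : ι → K) (hu : u ∈ orth Q N) (huQ : Q u ≠ 0) :
    ∃ w e f : ι → K, w ∈ orth Q N ∧ e ∈ orth Q N ∧ f ∈ orth Q N ∧ Q w = 0 ∧ Q e = 0 ∧ Q f = 0 ∧
      w ≠ 0 ∧ e ≠ 0 ∧ f ≠ 0 ∧ u = w - e + Q u • f := by
  obtain ⟨hN₂, hN₂fin⟩ := nd_add_ns h2 Q N hN u hu huQ
  obtain ⟨e, f, he, hf, heQ, hfQ, hef⟩ := exists_hp Q hQ _ hN₂ (by omega)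
  have heN : e ∈ orth Q N := by
    rw [mem_orth] at he ⊢
    intro n hn'
    exact he n (Submodule.mem_sup_left hn')
  have hfN : f ∈ orth Q N := by
    rw [mem_orth] at hf ⊢
    intro n hn'
    exact hf n (Submodule.mem_sup_left hn')
  have hue : polar Q u e = 0 :=
    (mem_orth Q _ e).1 he u (Submodule.mem_sup_right (Submodule.mem_span_singleton_self u))
  have huf : polar Q u f = 0 :=
    (mem_orth Q _ f).1 hf u (Submodule.mem_sup_right (Submodule.mem_span_singleton_self u))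
  have he0 : e ≠ 0 := by
    rintro rfl
    rw [polar_zero_left] at hef
    exact zero_ne_one hef
  have hf0 : f ≠ 0 := by
    rintro rfl
    rw [polar_zero_right] at hef
    exact zero_ne_one hef
  have hwQ : Q (e + u - Q u • f) = 0 := by
    rw [sub_eq_add_neg, ← neg_smul, qf_add, qf_add, qf_smul, polar_smul_right, polar_add_left,
      heQ, hfQ, hef, huf, polar_comm Q e u, hue]
    simp
  have hw1 : polar Q (e + u - Q u • f) f = 1 := by
    rw [polar_sub_left, polar_add_left, polar_smul_left, hef, huf, qf_polar_self, hfQ]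
    simp
  have hw0 : e + u - Q u • f ≠ 0 := by
    intro h0
    rw [h0, polar_zero_left] at hw1
    exact zero_ne_one hw1
  refine ⟨e + u - Q u • f, e, f, ?_, heN, hfN, hwQ, heQ, hfQ, hw0, he0, hf0, by abel⟩
  exact (orth Q N).sub_mem ((orth Q N).add_mem heN hu) ((orth Q N).smul_mem _ hfN)

end KGeom

section OSubB
variable {ι : Type} [Fintype ι] [DecidableEq ι] {F : Type*} [Field F] [Fintype F]
variable {F₀ : Subfield F} {Q : QuadraticForm F (ι → F)} {Q₀ : QuadraticForm F₀ (ι → F₀)}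
  {H : Subgroup (GL ι F)}

/-- the standing hypotheses for the orthogonal subfield argument -/
structure OCtx (F₀ : Subfield F) (Q : QuadraticForm F (ι → F)) (Q₀ : QuadraticForm F₀ (ι → F₀))
    (H : Subgroup (GL ι F)) : Prop where
  res : IsRes F₀ Q Q₀
  nd : (polarBilin Q).Nondegenerate
  nd₀ : (polarBilin Q₀).Nondegenerate
  h2 : (2 : F) ≠ 0
  card : 13 ≤ Fintype.card ι
  odd : Odd (Fintype.card ι)
  le : H ≤ Cfsg.Geo.omegaGL ⇑Q
  rat : ∀ g : GL ι F, g ∈ Cfsg.Geo.omegaGL ⇑Q → ∀ c : F, c ≠ 0 →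
    RMat F₀ (c • (g : Matrix ι ι F)) → g ∈ H

/-- rigidity of the rational long root groups -/
def RProp (F₀ : Subfield F) (Q : QuadraticForm F (ι → F)) (Q₀ : QuadraticForm F₀ (ι → F₀))
    (H : Subgroup (GL ι F)) : Prop :=
  ∀ a b f : ι → F₀, a ≠ 0 → Q₀ a = 0 → Q₀ b = 0 → Q₀ f = 0 → polar Q₀ a b = 0 →
    polar Q₀ b f = 1 → polar Q₀ a f = 0 →
    ∀ μ : F, siegT Q (upv F₀ a) (μ • upv F₀ b) ∈ H → μ ∈ F₀

theorem OCtx.Qz (hC : OCtx F₀ Q Q₀ H) {a : ι → F₀} (ha : Q₀ a = 0) : Q (upv F₀ a) = 0 := by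
  rw [hC.res, ha]
  rfl

theorem OCtx.pz (hC : OCtx F₀ Q Q₀ H) {a w : ι → F₀} (h : polar Q₀ a w = 0) :
    polar Q (upv F₀ a) (upv F₀ w) = 0 := by
  rw [hC.res.pol, h]
  rfl

theorem OCtx.p1 (hC : OCtx F₀ Q Q₀ H) {a w : ι → F₀} (h : polar Q₀ a w = 1) :
    polar Q (upv F₀ a) (upv F₀ w) = 1 := by
  rw [hC.res.pol, h]
  rfl

theorem OCtx.two₀ (hC : OCtx F₀ Q Q₀ H) : (2 : F₀) ≠ 0 := by
  intro h
  apply hC.h2
  have h1 : (1 + 1 : F₀) = 0 := by rw [one_add_one_eq_two]; exact h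
  have h2 : ((1 + 1 : F₀) : F) = 0 := by rw [h1]; rfl
  have h3 : (1 + 1 : F) = 0 := h2
  rw [one_add_one_eq_two] at h3
  exact h3

/-- rational Siegel elements lie in `H` -/
theorem OCtx.sieg_mem (hC : OCtx F₀ Q Q₀ H) (a w : ι → F₀) (ha : Q₀ a = 0)
    (haw : polar Q₀ a w = 0) : siegT Q (upv F₀ a) (upv F₀ w) ∈ H := by
  have hQa : Q (upv F₀ a) = 0 := hC.Qz ha
  have hpol : polar Q (upv F₀ a) (upv F₀ w) = 0 := hC.pz haw
  refine hC.rat _ ?_ 1 one_ne_zero ?_
  · rw [siegT_eq Q _ _ hQa hpol]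
    exact mem_omegaGL ⇑Q _ (sieg_mem_Omega (by have := hC.card; omega) Q hC.nd _ _ hQa hpol)
  · rw [one_smul]
    apply rmat_of_upv
    intro v
    refine ⟨v + polar Q₀ w v • a - polar Q₀ a v • w - (Q₀ w * polar Q₀ a v) • a, ?_⟩
    rw [siegT_mulVec Q _ _ _ hQa hpol, hC.res.pol, hC.res.pol, hC.res]
    rfl

/-- a vector whose polar values on rational vectors are rational is rational -/
theorem OCtx.rat_of_polar (hC : OCtx F₀ Q Q₀ H) (y : ι → F)
    (h : ∀ v : ι → F₀, polar Q y (upv F₀ v) ∈ F₀) : ∃ y₀ : ι → F₀, y = upv F₀ y₀ := by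
  obtain ⟨φ, hφ⟩ : ∃ φ : Module.Dual F₀ (ι → F₀), ∀ v, ((φ v : F₀) : F) = polar Q y (upv F₀ v) :=
    ⟨{ toFun := fun v => ⟨polar Q y (upv F₀ v), h v⟩
       map_add' := fun v w => Subtype.ext (by
         show polar Q y (upv F₀ (v + w)) = polar Q y (upv F₀ v) + polar Q y (upv F₀ w)
         rw [upv_add, polar_add_right])
       map_smul' := fun c v => Subtype.ext (by
         show polar Q y (upv F₀ (c • v)) = (c : F) * polar Q y (upv F₀ v)
         rw [upv_smul, polar_smul_right, smul_eq_mul]) }, fun v => rfl⟩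
  obtain ⟨y₀, hy₀⟩ : ∃ y₀ : ι → F₀, LinearMap.BilinForm.toDual (polarBilin Q₀) hC.nd₀ y₀ = φ :=
    ⟨(LinearMap.BilinForm.toDual (polarBilin Q₀) hC.nd₀).symm φ, LinearEquiv.apply_symm_apply _ _⟩
  have hy₀' : ∀ v, polar Q₀ y₀ v = φ v := by
    intro v
    have h1 := LinearMap.BilinForm.toDual_def hC.nd₀ (m := y₀) (n := v)
    rw [hy₀] at h1
    exact h1.symm
  refine ⟨y₀, ?_⟩
  have h0 : y - upv F₀ y₀ = 0 := by
    apply eq_zero_of_polar_upv Q hC.nd (F₀ := F₀)
    intro v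
    rw [polar_sub_left, hC.res.pol, hy₀', hφ, sub_self]
  exact sub_eq_zero.mp h0

/-- **O1**: a Siegel element of `H` at a rational singular point is a rational Siegel element -/
theorem OCtx.O1 (hC : OCtx F₀ Q Q₀ H) (hR : RProp F₀ Q Q₀ H) (a : ι → F₀) (ha0 : a ≠ 0)
    (ha : Q₀ a = 0) (y : ι → F) (hay : polar Q (upv F₀ a) y = 0)
    (hT : siegT Q (upv F₀ a) y ∈ H) :
    ∃ (s : F) (y₀ : ι → F₀), y = upv F₀ y₀ + s • upv F₀ a := by
  classical
  have hn := hC.card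
  have hQa : Q (upv F₀ a) = 0 := hC.Qz ha
  obtain ⟨f1, -, hf1Q, haf1⟩ := (nd_top Q₀ hC.nd₀).exists_partner a Submodule.mem_top ha0 ha
  obtain ⟨N₁, hN₁def⟩ : ∃ N₁ : Submodule F₀ (ι → F₀),
      N₁ = Submodule.span F₀ {a} ⊔ Submodule.span F₀ {f1} := ⟨_, rfl⟩
  have hN₁ : ND Q₀ N₁ := by
    rw [hN₁def]
    exact nd_hyp Q₀ a f1 ha hf1Q (by rw [haf1]; exact one_ne_zero)
  have hN₁fin : finrank F₀ N₁ ≤ 2 := by
    rw [hN₁def]
    have h1 := Submodule.finrank_add_le_finrank_add_finrank (Submodule.span F₀ {a})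
      (Submodule.span F₀ {f1})
    have h3 := finrank_span_one_le (F := F₀) a
    have h4 := finrank_span_one_le (F := F₀) f1
    omega
  have haN : a ∈ N₁ := by
    rw [hN₁def]
    exact Submodule.mem_sup_left (Submodule.mem_span_singleton_self a)
  -- singular vectors
  have claimA : ∀ u : ι → F₀, u ∈ orth Q₀ N₁ → Q₀ u = 0 → u ≠ 0 →
      polar Q (upv F₀ u) y ∈ F₀ := by
    intro u hu huQ hu0
    obtain ⟨us, hus, husQ, huus⟩ := (hN₁.orth_nd hC.nd₀).exists_partner u hu hu0 huQ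
    obtain ⟨hN₂, hN₂fin⟩ := nd_add_hp Q₀ N₁ hN₁ u us hu hus huQ husQ huus
    obtain ⟨e, f, he, hf, heQ, hfQ, hef⟩ := exists_hp Q₀ hC.nd₀ _ hN₂ (by omega)
    obtain ⟨hN₃, hN₃fin⟩ := nd_add_hp Q₀ _ hN₂ e f he hf heQ hfQ hef
    obtain ⟨e₂, f₂, he₂, hf₂, he₂Q, hf₂Q, he₂f₂⟩ := exists_hp Q₀ hC.nd₀ _ hN₃ (by omega)
    have huN₂ : u ∈ N₁ ⊔ (Submodule.span F₀ {u} ⊔ Submodule.span F₀ {us}) :=
      Submodule.mem_sup_right (Submodule.mem_sup_left (Submodule.mem_span_singleton_self u))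
    have hau : polar Q₀ a u = 0 := (mem_orth Q₀ N₁ u).1 hu a haN
    have hae : polar Q₀ a e = 0 := (mem_orth Q₀ _ e).1 he a (Submodule.mem_sup_left haN)
    have hue : polar Q₀ u e = 0 := (mem_orth Q₀ _ e).1 he u huN₂
    have haf : polar Q₀ a f = 0 := (mem_orth Q₀ _ f).1 hf a (Submodule.mem_sup_left haN)
    have huf : polar Q₀ u f = 0 := (mem_orth Q₀ _ f).1 hf u huN₂
    have hae₂ : polar Q₀ a e₂ = 0 :=
      (mem_orth Q₀ _ e₂).1 he₂ a (Submodule.mem_sup_left (Submodule.mem_sup_left haN))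
    have hue₂ : polar Q₀ u e₂ = 0 :=
      (mem_orth Q₀ _ e₂).1 he₂ u (Submodule.mem_sup_left huN₂)
    have hee₂ : polar Q₀ e e₂ = 0 :=
      (mem_orth Q₀ _ e₂).1 he₂ e (Submodule.mem_sup_right
        (Submodule.mem_sup_left (Submodule.mem_span_singleton_self e)))
    have hfe₂ : polar Q₀ f e₂ = 0 :=
      (mem_orth Q₀ _ e₂).1 he₂ f (Submodule.mem_sup_right
        (Submodule.mem_sup_right (Submodule.mem_span_singleton_self f)))
    have haf₂ : polar Q₀ a f₂ = 0 :=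
      (mem_orth Q₀ _ f₂).1 hf₂ a (Submodule.mem_sup_left (Submodule.mem_sup_left haN))
    have m1 : siegT Q (upv F₀ u) (upv F₀ e) ∈ H := hC.sieg_mem u e huQ hue
    have c1 := siegT_CI Q (upv F₀ a) y (upv F₀ u) (upv F₀ e) hQa hay (hC.Qz huQ) (hC.Qz heQ)
      (hC.pz hue) (hC.pz hau) (hC.pz hae)
    have m2 : siegT Q (upv F₀ a)
        (polar Q (upv F₀ e) y • upv F₀ u - polar Q (upv F₀ u) y • upv F₀ e) ∈ H := by
      rw [← c1]
      exact H.mul_mem (H.mul_mem (H.mul_mem m1 hT) (H.inv_mem m1)) (H.inv_mem hT)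
    obtain ⟨z₁, hz₁⟩ : ∃ z₁ : ι → F,
        z₁ = polar Q (upv F₀ e) y • upv F₀ u - polar Q (upv F₀ u) y • upv F₀ e := ⟨_, rfl⟩
    rw [← hz₁] at m2
    have haz₁ : polar Q (upv F₀ a) z₁ = 0 := by
      rw [hz₁, polar_sub_right, polar_smul_right, polar_smul_right, hC.pz hau, hC.pz hae]
      simp
    have m3 : siegT Q (upv F₀ f) (upv F₀ e₂) ∈ H := hC.sieg_mem f e₂ hfQ hfe₂
    have c2 := siegT_CI Q (upv F₀ a) z₁ (upv F₀ f) (upv F₀ e₂) hQa haz₁ (hC.Qz hfQ)
      (hC.Qz he₂Q) (hC.pz hfe₂) (hC.pz haf) (hC.pz hae₂)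
    have m4 : siegT Q (upv F₀ a)
        (polar Q (upv F₀ e₂) z₁ • upv F₀ f - polar Q (upv F₀ f) z₁ • upv F₀ e₂) ∈ H := by
      rw [← c2]
      exact H.mul_mem (H.mul_mem (H.mul_mem m3 m2) (H.inv_mem m3)) (H.inv_mem m2)
    have e1 : polar Q (upv F₀ e₂) z₁ = 0 := by
      rw [hz₁, polar_sub_right, polar_smul_right, polar_smul_right,
        polar_comm Q (upv F₀ e₂) (upv F₀ u), hC.pz hue₂, polar_comm Q (upv F₀ e₂) (upv F₀ e),
        hC.pz hee₂]
      simp
    have e2 : polar Q (upv F₀ f) z₁ = - polar Q (upv F₀ u) y := by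
      rw [hz₁, polar_sub_right, polar_smul_right, polar_smul_right,
        polar_comm Q (upv F₀ f) (upv F₀ u), hC.pz huf, polar_comm Q (upv F₀ f) (upv F₀ e),
        hC.p1 hef]
      simp
    rw [e1, e2, zero_smul, zero_sub, neg_smul, neg_neg] at m4
    exact hR a e₂ f₂ ha0 ha he₂Q hf₂Q hae₂ he₂f₂ haf₂ _ m4
  -- all vectors of the complement
  have claimB : ∀ u : ι → F₀, u ∈ orth Q₀ N₁ → polar Q (upv F₀ u) y ∈ F₀ := by
    intro u hu
    by_cases huQ : Q₀ u = 0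
    · by_cases hu0 : u = 0
      · rw [hu0, upv_zero, polar_zero_left]
        exact F₀.zero_mem
      · exact claimA u hu huQ hu0
    · obtain ⟨w, e, f, hw, he, hf, hwQ, heQ, hfQ, hw0, he0, hf0, huw⟩ :=
        sing_decomp hC.two₀ Q₀ hC.nd₀ N₁ hN₁ (by omega) u hu huQ
      have k1 := claimA w hw hwQ hw0
      have k2 := claimA e he heQ he0
      have k3 := claimA f hf hfQ hf0
      have e3 : upv F₀ u = upv F₀ w - upv F₀ e + ((Q₀ u : F₀) : F) • upv F₀ f := by
        conv_lhs => rw [huw]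
        rw [upv_add, upv_sub, upv_smul]
      rw [e3, polar_add_left, polar_sub_left, polar_smul_left, smul_eq_mul]
      exact F₀.add_mem (F₀.sub_mem k1 k2) (F₀.mul_mem (Q₀ u).2 k3)
  obtain ⟨y₀, hy₀⟩ := hC.rat_of_polar (y - polar Q y (upv F₀ f1) • upv F₀ a) (by
    intro v
    obtain ⟨n, hn', u, hu, rfl⟩ := hN₁.decomp hC.nd₀ v
    rw [hN₁def] at hn'
    obtain ⟨n1, hn1, n2, hn2, rfl⟩ := Submodule.mem_sup.1 hn'
    obtain ⟨α, rfl⟩ := Submodule.mem_span_singleton.1 hn1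
    obtain ⟨β, rfl⟩ := Submodule.mem_span_singleton.1 hn2
    have k := claimB u hu
    have hya : polar Q y (upv F₀ a) = 0 := by rw [polar_comm]; exact hay
    have haa : polar Q (upv F₀ a) (upv F₀ a) = 0 := by rw [qf_polar_self, hQa, mul_zero]
    have haf : polar Q (upv F₀ a) (upv F₀ f1) = 1 := hC.p1 haf1
    have hau : polar Q (upv F₀ a) (upv F₀ u) = 0 := hC.pz ((mem_orth Q₀ N₁ u).1 hu a haN)
    have e : polar Q (y - polar Q y (upv F₀ f1) • upv F₀ a) (upv F₀ (α • a + β • f1 + u))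
        = polar Q (upv F₀ u) y := by
      rw [upv_add, upv_add, upv_smul, upv_smul, polar_sub_left, polar_smul_left, polar_add_right,
        polar_add_right, polar_add_right, polar_add_right, polar_smul_right, polar_smul_right,
        polar_smul_right, polar_smul_right, hya, haa, haf, hau, polar_comm Q y (upv F₀ u)]
      simp only [smul_eq_mul]
      ring
    rw [e]
    exact k)
  refine ⟨polar Q y (upv F₀ f1), y₀, ?_⟩
  rw [← hy₀]
  abel

end OSubB

end Cfsg.Agent.Helper16
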