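import Cfsg.Agent.Helper16.OSubB

set_option autoImplicit false
open Cfsg

namespace Cfsg.Agent.Helper16

open QuadraticMap Module Matrix

section OSubC
variable {ι : Type} [Fintype ι] [DecidableEq ι] {F : Type*} [Field F] [Fintype F]
variable {F₀ : Subfield F} {Q : QuadraticForm F (ι → F)} {Q₀ : QuadraticForm F₀ (ι → F₀)}
  {H : Subgroup (GL ι F)}

theorem OCtx.sieg_rmat (hC : OCtx F₀ Q Q₀ H) (a w : ι → F₀) (ha : Q₀ a = 0)
    (haw : polar Q₀ a w = 0) :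
    RMat F₀ ((siegT Q (upv F₀ a) (upv F₀ w) : GL ι F) : Matrix ι ι F) := by
  have hQa : Q (upv F₀ a) = 0 := hC.Qz ha
  have hpol : polar Q (upv F₀ a) (upv F₀ w) = 0 := hC.pz haw
  apply rmat_of_upv
  intro v
  refine ⟨v + polar Q₀ w v • a - polar Q₀ a v • w - (Q₀ w * polar Q₀ a v) • a, ?_⟩
  rw [siegT_mulVec Q _ _ _ hQa hpol, hC.res.pol, hC.res.pol, hC.res]
  rfl

theorem OCtx.mem_Omega (hC : OCtx F₀ Q Q₀ H) (g : ↥(isometryGroup F ⇑Q))
    (hg : (g : GL ι F) ∈ H) : g ∈ Omega F ⇑Q := by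
  obtain ⟨g', hg', hgg'⟩ := exists_of_mem_omegaGL ⇑Q _ (hC.le hg)
  have e : g' = g := Subtype.ext hgg'
  rw [← e]
  exact hg'

theorem OCtx.sing_of_coe (hC : OCtx F₀ Q Q₀ H) {a : ι → F₀} (h : Q (upv F₀ a) = 0) :
    Q₀ a = 0 := by
  have h1 := hC.res a
  rw [h] at h1
  exact Subtype.ext h1.symm

theorem OCtx.pz_of_coe (hC : OCtx F₀ Q Q₀ H) {a w : ι → F₀}
    (h : polar Q (upv F₀ a) (upv F₀ w) = 0) : polar Q₀ a w = 0 := by
  have h1 := hC.res.pol a w
  rw [h] at h1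
  exact Subtype.ext h1.symm

set_option maxHeartbeats 1000000 in
/-- **O2**: an element of `H` mapping a rational singular point to a rational point is
rational -/
theorem OCtx.O2 (hC : OCtx F₀ Q Q₀ H) (hR : RProp F₀ Q Q₀ H) (g : ↥(isometryGroup F ⇑Q))
    (hg : (g : GL ι F) ∈ H) (a a' : ι → F₀) (ha0 : a ≠ 0) (ha : Q₀ a = 0) (lam : F)
    (hga : act ⇑Q g (upv F₀ a) = lam • upv F₀ a') :
    RMat F₀ ((g : GL ι F) : Matrix ι ι F) := by
  classical
  have hn := hC.card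
  have hn5 : 5 ≤ Fintype.card ι := by omega
  have hgΩ := hC.mem_Omega g hg
  have hQa : Q (upv F₀ a) = 0 := hC.Qz ha
  have hne : act ⇑Q g (upv F₀ a) ≠ 0 := act_ne_zero ⇑Q g _ (upv_ne_zero ha0)
  have hlam : lam ≠ 0 := by
    rintro rfl
    rw [zero_smul] at hga
    exact hne hga
  have ha'0 : a' ≠ 0 := by
    rintro rfl
    rw [upv_zero, smul_zero] at hga
    exact hne hga
  have hQa'F : Q (upv F₀ a') = 0 := by
    have h1 := act_Q ⇑Q g (upv F₀ a)
    rw [hga, hQa] at h1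
    have h2 : Q (lam • upv F₀ a') = 0 := h1
    rw [qf_smul] at h2
    rcases mul_eq_zero.mp h2 with h3 | h3
    · exact absurd (mul_self_eq_zero.mp h3) hlam
    · exact h3
  have ha' : Q₀ a' = 0 := hC.sing_of_coe hQa'F
  obtain ⟨as, -, hasQ, haas⟩ := (nd_top Q₀ hC.nd₀).exists_partner a Submodule.mem_top ha0 ha
  obtain ⟨as', -, has'Q, ha'as'⟩ :=
    (nd_top Q₀ hC.nd₀).exists_partner a' Submodule.mem_top ha'0 ha'
  have hperp : ∀ w : ι → F₀, polar Q₀ a w = 0 →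
      polar Q (upv F₀ a') (act ⇑Q g (upv F₀ w)) = 0 := by
    intro w haw
    have h1 := act_polar ⇑Q g (upv F₀ a) (upv F₀ w)
    rw [hga, hC.pz haw] at h1
    have h2 : polar Q (lam • upv F₀ a') (act ⇑Q g (upv F₀ w)) = 0 := h1
    rw [polar_smul_left, smul_eq_mul] at h2
    rcases mul_eq_zero.mp h2 with h3 | h3
    · exact absurd h3 hlam
    · exact h3
  have key : ∀ w : ι → F₀, polar Q₀ a w = 0 → ∃ (s : F) (w₁ : ι → F₀),
      lam • act ⇑Q g (upv F₀ w) = upv F₀ w₁ + s • upv F₀ a' := by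
    intro w haw
    have m1 := hC.sieg_mem a w ha haw
    have c := siegT_conj Q g (upv F₀ a) (upv F₀ w) hQa (hC.pz haw)
    have m2 : siegT Q (act ⇑Q g (upv F₀ a)) (act ⇑Q g (upv F₀ w)) ∈ H := by
      rw [← c]
      exact H.mul_mem (H.mul_mem hg m1) (H.inv_mem hg)
    have hp := hperp w haw
    rw [hga, siegT_smul Q (upv F₀ a') _ lam hQa'F hp] at m2
    exact hC.O1 hR a' ha'0 ha' _ (by rw [polar_smul_right, hp, smul_zero]) m2
  obtain ⟨r', hr'def⟩ : ∃ r' : ι → F, r' = lam • act ⇑Q g (upv F₀ as) := ⟨_, rfl⟩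
  have hr'Q : Q r' = 0 := by
    have h1 : Q (act ⇑Q g (upv F₀ as)) = Q (upv F₀ as) := act_Q ⇑Q g (upv F₀ as)
    rw [hr'def, qf_smul, h1, hC.Qz hasQ, mul_zero]
  have har' : polar Q (upv F₀ a') r' = 1 := by
    have h1 := act_polar ⇑Q g (upv F₀ a) (upv F₀ as)
    rw [hga, hC.p1 haas] at h1
    have h2 : polar Q (lam • upv F₀ a') (act ⇑Q g (upv F₀ as)) = 1 := h1
    rw [polar_smul_left, smul_eq_mul] at h2
    rw [hr'def, polar_smul_right, smul_eq_mul]
    exact h2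
  have hz : polar Q (upv F₀ a') (upv F₀ as' - r') = 0 := by
    rw [polar_sub_right, hC.p1 ha'as', har', sub_self]
  obtain ⟨u, hudef⟩ : ∃ u : ↥(isometryGroup F ⇑Q),
      u = sieg Q (upv F₀ a') (upv F₀ as' - r') hQa'F hz := ⟨_, rfl⟩
  have hu_mv : act ⇑Q u (upv F₀ as') = r' := by
    rw [hudef]
    exact sieg_move Q (upv F₀ a') (upv F₀ as') r' hQa'F (hC.Qz has'Q) hr'Q (hC.p1 ha'as') har'
  have hu_fix : act ⇑Q u (upv F₀ a') = upv F₀ a' := by
    rw [hudef]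
    exact sieg_fix Q _ _ hQa'F hz
  have huΩ : u ∈ Omega F ⇑Q := by
    rw [hudef]
    exact sieg_mem_Omega hn5 Q hC.nd _ _ hQa'F hz
  have hui_fix : act ⇑Q u⁻¹ (upv F₀ a') = upv F₀ a' := by
    have h2 := congrArg (act ⇑Q u⁻¹) hu_fix
    rw [act_inv_act] at h2
    exact h2.symm
  have hui_mv : act ⇑Q u⁻¹ r' = upv F₀ as' := by
    have h2 := congrArg (act ⇑Q u⁻¹) hu_mv
    rw [act_inv_act] at h2
    exact h2.symm
  have hu_perp : ∀ x, polar Q (upv F₀ a') x = 0 →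
      ∃ t : F, act ⇑Q u⁻¹ x = x + t • upv F₀ a' := by
    intro x hx
    refine ⟨- polar Q (upv F₀ as' - r') x, ?_⟩
    have h1 : act ⇑Q u (x + (- polar Q (upv F₀ as' - r') x) • upv F₀ a') = x := by
      rw [act_add, act_smul, hu_fix, hudef, act_sieg, hx]
      funext i
      simp only [Pi.add_apply, Pi.sub_apply, Pi.smul_apply, smul_eq_mul]
      ring
    have h2 := congrArg (act ⇑Q u⁻¹) h1
    rw [act_inv_act] at h2
    exact h2.symm
  obtain ⟨l, hldef⟩ : ∃ l : ↥(isometryGroup F ⇑Q), l = u⁻¹ * g := ⟨_, rfl⟩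
  have hl_a : act ⇑Q l (upv F₀ a) = lam • upv F₀ a' := by
    rw [hldef, act_mul, hga, act_smul, hui_fix]
  have hl_as : lam • act ⇑Q l (upv F₀ as) = upv F₀ as' := by
    rw [hldef, act_mul, ← act_smul, ← hr'def, hui_mv]
  obtain ⟨N, hNdef⟩ : ∃ N : Submodule F₀ (ι → F₀),
      N = Submodule.span F₀ {a} ⊔ Submodule.span F₀ {as} := ⟨_, rfl⟩
  have hN : ND Q₀ N := by
    rw [hNdef]
    exact nd_hyp Q₀ a as ha hasQ (by rw [haas]; exact one_ne_zero)
  have hNfin : finrank F₀ N ≤ 2 := by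
    rw [hNdef]
    have h1 := Submodule.finrank_add_le_finrank_add_finrank (Submodule.span F₀ {a})
      (Submodule.span F₀ {as})
    have h3 := finrank_span_one_le (F := F₀) a
    have h4 := finrank_span_one_le (F := F₀) as
    omega
  have haN : a ∈ N := by
    rw [hNdef]
    exact Submodule.mem_sup_left (Submodule.mem_span_singleton_self a)
  have hasN : as ∈ N := by
    rw [hNdef]
    exact Submodule.mem_sup_right (Submodule.mem_span_singleton_self as)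
  have hlw : ∀ w : ι → F₀, w ∈ orth Q₀ N →
      ∃ w₂ : ι → F₀, lam • act ⇑Q l (upv F₀ w) = upv F₀ w₂ := by
    intro w hw
    have haw : polar Q₀ a w = 0 := (mem_orth Q₀ N w).1 hw a haN
    have hasw : polar Q₀ as w = 0 := (mem_orth Q₀ N w).1 hw as hasN
    obtain ⟨s, w₁, hw₁⟩ := key w haw
    have hp1 : polar Q (upv F₀ a') (upv F₀ w₁) = 0 := by
      have h1 : polar Q (upv F₀ a') (lam • act ⇑Q g (upv F₀ w)) = 0 := by
        rw [polar_smul_right, hperp w haw, smul_zero]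
      rw [hw₁, polar_add_right, polar_smul_right, qf_polar_self, hQa'F] at h1
      simpa using h1
    obtain ⟨t, ht⟩ := hu_perp (upv F₀ w₁) hp1
    have e1 : lam • act ⇑Q l (upv F₀ w) = upv F₀ w₁ + (t + s) • upv F₀ a' := by
      rw [hldef, act_mul, ← act_smul, hw₁, act_add, act_smul, ht, hui_fix]
      module
    have e2 : polar Q (lam • act ⇑Q l (upv F₀ w)) (upv F₀ as') = 0 := by
      rw [← hl_as, polar_smul_left, polar_smul_right, act_polar, polar_comm Q (upv F₀ w),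
        hC.pz hasw]
      simp
    rw [e1, polar_add_left, polar_smul_left, hC.p1 ha'as', smul_eq_mul, mul_one, hC.res.pol]
      at e2
    refine ⟨w₁ - polar Q₀ w₁ as' • a', ?_⟩
    have h5 : t + s = -((polar Q₀ w₁ as' : F₀) : F) := by linear_combination e2
    rw [e1, upv_sub, upv_smul, h5]
    module
  obtain ⟨c₂, hc₂⟩ : ∃ c₂ : F₀, (c₂ : F) = lam * lam := by
    have hne' : orth Q₀ N ≠ ⊥ := ne_bot_of_finrank_pos _ (by
      rw [finrank_orth Q₀ hC.nd₀, Module.finrank_fintype_fun_eq_card]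
      omega)
    obtain ⟨w, hw, hwQ⟩ := (hN.orth_nd hC.nd₀).exists_nonsing hne'
    obtain ⟨w₂, hw₂⟩ := hlw w hw
    have h0 : Q (act ⇑Q l (upv F₀ w)) = Q (upv F₀ w) := act_Q ⇑Q l (upv F₀ w)
    have h1 : Q (lam • act ⇑Q l (upv F₀ w)) = lam * lam * Q (upv F₀ w) := by
      rw [qf_smul, h0]
    rw [hw₂, hC.res, hC.res] at h1
    refine ⟨Q₀ w₂ / Q₀ w, ?_⟩
    have hw' : ((Q₀ w : F₀) : F) ≠ 0 := fun h => hwQ (Subtype.ext h)
    rw [Subfield.coe_div, h1]
    field_simp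
  have hRl : RMat F₀ (lam • ((l : GL ι F) : Matrix ι ι F)) := by
    apply rmat_of_upv
    intro v
    obtain ⟨n, hn', w, hw, rfl⟩ := hN.decomp hC.nd₀ v
    rw [hNdef] at hn'
    obtain ⟨n1, hn1, n2, hn2, rfl⟩ := Submodule.mem_sup.1 hn'
    obtain ⟨α, rfl⟩ := Submodule.mem_span_singleton.1 hn1
    obtain ⟨β, rfl⟩ := Submodule.mem_span_singleton.1 hn2
    obtain ⟨w₂, hw₂⟩ := hlw w hw
    refine ⟨(α * c₂) • a' + β • as' + w₂, ?_⟩
    have e : (lam • ((l : GL ι F) : Matrix ι ι F)) *ᵥ upv F₀ (α • a + β • as + w)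
        = lam • act ⇑Q l (upv F₀ (α • a + β • as + w)) := by
      rw [Matrix.smul_mulVec]
      rfl
    have e3 : lam • ((β : F) • act ⇑Q l (upv F₀ as)) = (β : F) • upv F₀ as' := by
      rw [smul_comm, hl_as]
    rw [e, upv_add, upv_add, upv_smul, upv_smul, act_add, act_add, act_smul, act_smul, hl_a,
      smul_add, smul_add, hw₂, e3, upv_add, upv_add, upv_smul, upv_smul, Subfield.coe_mul, hc₂]
    module
  have hlH : (l : GL ι F) ∈ H := by
    refine hC.rat _ ?_ lam hlam hRl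
    apply mem_omegaGL
    rw [hldef]
    exact (Omega F ⇑Q).mul_mem ((Omega F ⇑Q).inv_mem huΩ) hgΩ
  have huH : (u : GL ι F) ∈ H := by
    have e : (u : GL ι F) = (g : GL ι F) * (l : GL ι F)⁻¹ := by
      rw [hldef, Subgroup.coe_mul, Subgroup.coe_inv]
      group
    rw [e]
    exact H.mul_mem hg (H.inv_mem hlH)
  have huT : siegT Q (upv F₀ a') (upv F₀ as' - r') ∈ H := by
    rw [siegT_eq Q _ _ hQa'F hz, ← hudef]
    exact huH
  obtain ⟨s, z₀, hz₀⟩ := hC.O1 hR a' ha'0 ha' _ hz huT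
  have hz₀p : polar Q₀ a' z₀ = 0 := by
    apply hC.pz_of_coe
    have h1 := hz
    rw [hz₀, polar_add_right, polar_smul_right, qf_polar_self, hQa'F] at h1
    simpa using h1
  have hRu : RMat F₀ ((u : GL ι F) : Matrix ι ι F) := by
    have e : (u : GL ι F) = siegT Q (upv F₀ a') (upv F₀ z₀) := by
      rw [hudef, ← siegT_eq Q _ _ hQa'F hz, hz₀, siegT_add_self Q _ _ s hQa'F (hC.pz hz₀p)]
    rw [e]
    exact hC.sieg_rmat a' z₀ ha' hz₀p
  have hRg : RMat F₀ (lam • ((g : GL ι F) : Matrix ι ι F)) := by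
    have e : lam • ((g : GL ι F) : Matrix ι ι F)
        = ((u : GL ι F) : Matrix ι ι F) * (lam • ((l : GL ι F) : Matrix ι ι F)) := by
      rw [Matrix.mul_smul, ← Units.val_mul, ← Subgroup.coe_mul, hldef, mul_inv_cancel_left]
    rw [e]
    exact hRu.mul hRl
  have hdet : ((g : GL ι F) : Matrix ι ι F).det = 1 := Omega_det hC.h2 Q hC.nd ⟨g, hgΩ⟩
  have h5 := hRg.det_mem
  rw [Matrix.det_smul, hdet, mul_one] at h5
  obtain ⟨k, hk⟩ := hC.odd
  have hlamF : lam ∈ F₀ := by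
    have h6 : lam ^ (2 * k + 1) = ((c₂ ^ k : F₀) : F) * lam := by
      rw [pow_succ, pow_mul, pow_two, ← hc₂]
      rfl
    rw [hk, h6] at h5
    have hc₂0 : ((c₂ ^ k : F₀) : F) ≠ 0 := by
      have e9 : ((c₂ ^ k : F₀) : F) = (c₂ : F) ^ k := rfl
      rw [e9, hc₂]
      exact pow_ne_zero _ (mul_ne_zero hlam hlam)
    have h7 := F₀.mul_mem (F₀.inv_mem (c₂ ^ k).2) h5
    rwa [← mul_assoc, inv_mul_cancel₀ hc₂0, one_mul] at h7
  intro i j
  have h8 := F₀.mul_mem (F₀.inv_mem hlamF) (hRg i j)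
  rwa [Matrix.smul_apply, smul_eq_mul, ← mul_assoc, inv_mul_cancel₀ hlam, one_mul] at h8

/-- **L1**: a singular vector carrying a Siegel element of `H` and orthogonal to a rational
hyperbolic configuration spans a rational point -/
theorem OCtx.L1 (hC : OCtx F₀ Q Q₀ H) (hR : RProp F₀ Q Q₀ H) (z y : ι → F) (hz : Q z = 0)
    (hzy : polar Q z y = 0) (hT : siegT Q z y ∈ H) (e f e' e'' f'' : ι → F₀) (heQ : Q₀ e = 0)
    (hfQ : Q₀ f = 0) (he'Q : Q₀ e' = 0) (he''Q : Q₀ e'' = 0) (hef : polar Q₀ e f = 1)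
    (he''f'' : polar Q₀ e'' f'' = 1) (he'e : polar Q₀ e' e = 0) (he'f : polar Q₀ e' f = 0)
    (he'e'' : polar Q₀ e' e'' = 0) (he''e : polar Q₀ e'' e = 0) (he''f : polar Q₀ e'' f = 0)
    (hze : polar Q z (upv F₀ e) = 0) (hzf : polar Q z (upv F₀ f) = 0)
    (hze' : polar Q z (upv F₀ e') = 0) (hze'' : polar Q z (upv F₀ e'') = 0)
    (hzf'' : polar Q z (upv F₀ f'') = 0) (hne : polar Q (upv F₀ e') y ≠ 0) :
    ∃ (c : F) (z₀ : ι → F₀), c ≠ 0 ∧ c • z = upv F₀ z₀ := by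
  have hfe'' : polar Q₀ f e'' = 0 := by rw [polar_comm]; exact he''f
  have m1 : siegT Q (upv F₀ e') (upv F₀ e) ∈ H := hC.sieg_mem e' e he'Q he'e
  have c1 := siegT_CI Q z y (upv F₀ e') (upv F₀ e) hz hzy (hC.Qz he'Q) (hC.Qz heQ) (hC.pz he'e)
    hze' hze
  have m2 : siegT Q z (polar Q (upv F₀ e) y • upv F₀ e' - polar Q (upv F₀ e') y • upv F₀ e)
      ∈ H := by
    rw [← c1]
    exact H.mul_mem (H.mul_mem (H.mul_mem m1 hT) (H.inv_mem m1)) (H.inv_mem hT)
  obtain ⟨z₁, hz₁⟩ : ∃ z₁ : ι → F,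
      z₁ = polar Q (upv F₀ e) y • upv F₀ e' - polar Q (upv F₀ e') y • upv F₀ e := ⟨_, rfl⟩
  rw [← hz₁] at m2
  have hzz₁ : polar Q z z₁ = 0 := by
    rw [hz₁, polar_sub_right, polar_smul_right, polar_smul_right, hze', hze]
    simp
  have m3 : siegT Q (upv F₀ f) (upv F₀ e'') ∈ H := hC.sieg_mem f e'' hfQ hfe''
  have c2 := siegT_CI Q z z₁ (upv F₀ f) (upv F₀ e'') hz hzz₁ (hC.Qz hfQ) (hC.Qz he''Q)
    (hC.pz hfe'') hzf hze''
  have m4 : siegT Q z (polar Q (upv F₀ e'') z₁ • upv F₀ f - polar Q (upv F₀ f) z₁ • upv F₀ e'')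
      ∈ H := by
    rw [← c2]
    exact H.mul_mem (H.mul_mem (H.mul_mem m3 m2) (H.inv_mem m3)) (H.inv_mem m2)
  have e1 : polar Q (upv F₀ e'') z₁ = 0 := by
    rw [hz₁, polar_sub_right, polar_smul_right, polar_smul_right,
      polar_comm Q (upv F₀ e'') (upv F₀ e'), hC.pz he'e'', hC.pz he''e]
    simp
  have e2 : polar Q (upv F₀ f) z₁ = - polar Q (upv F₀ e') y := by
    rw [hz₁, polar_sub_right, polar_smul_right, polar_smul_right,
      polar_comm Q (upv F₀ f) (upv F₀ e'), hC.pz he'f, polar_comm Q (upv F₀ f) (upv F₀ e),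
      hC.p1 hef]
    simp
  rw [e1, e2, zero_smul, zero_sub, neg_smul, neg_neg] at m4
  obtain ⟨c, hcdef⟩ : ∃ c : F, c = polar Q (upv F₀ e') y := ⟨_, rfl⟩
  rw [← hcdef] at m4 hne
  have hzc : polar Q z (c • upv F₀ e'') = 0 := by rw [polar_smul_right, hze'', smul_zero]
  have hQc : Q (c • upv F₀ e'') = 0 := by rw [qf_smul, hC.Qz he''Q, mul_zero]
  have hp0 : polar Q (upv F₀ e'') (-z) = 0 := by
    rw [polar_neg_right, polar_comm, hze'', neg_zero]
  rw [siegT_symm Q z (c • upv F₀ e'') hz hQc hzc,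
    siegT_smul Q (upv F₀ e'') (-z) c (hC.Qz he''Q) hp0] at m4
  have he''0 : e'' ≠ 0 := by
    rintro rfl
    rw [polar_zero_left] at he''f''
    exact zero_ne_one he''f''
  obtain ⟨s, z₁', hz₁'⟩ := hC.O1 hR e'' he''0 he''Q (c • -z)
    (by rw [polar_smul_right, hp0, smul_zero]) m4
  have h1 : polar Q (c • -z) (upv F₀ f'') = 0 := by
    rw [polar_smul_left, polar_neg_left, hzf'', neg_zero, smul_zero]
  rw [hz₁', polar_add_left, polar_smul_left, hC.p1 he''f'', hC.res.pol, smul_eq_mul, mul_one]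
    at h1
  refine ⟨-c, z₁' - polar Q₀ z₁' f'' • e'', neg_ne_zero.mpr hne, ?_⟩
  have h2 : s = -((polar Q₀ z₁' f'' : F₀) : F) := by linear_combination h1
  have h3 : (-c) • z = c • -z := by rw [neg_smul, smul_neg]
  rw [upv_sub, upv_smul, h3, hz₁', h2]
  module

end OSubC

end Cfsg.Agent.Helper16
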