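import Cfsg.Agent.Helper16.OSubC

set_option autoImplicit false
open Cfsg

namespace Cfsg.Agent.Helper16

open QuadraticMap Module Matrix

section OSubD0
variable {ι : Type} [Fintype ι] [DecidableEq ι] {F : Type*} [Field F]

theorem nd_bot (Q : QuadraticForm F (ι → F)) : ND Q (⊥ : Submodule F (ι → F)) :=
  fun w hw hw0 => absurd ((Submodule.mem_bot F).1 hw) hw0

theorem mem_orth_bot (Q : QuadraticForm F (ι → F)) (u : ι → F) :
    u ∈ orth Q (⊥ : Submodule F (ι → F)) := by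
  rw [mem_orth]
  intro n hn'
  rw [(Submodule.mem_bot F).1 hn', polar_zero_left]

theorem trace_siegT (Q : QuadraticForm F (ι → F)) (u w : ι → F) (hu : Q u = 0)
    (huw : polar Q u w = 0) :
    Matrix.trace ((siegT Q u w : GL ι F) : Matrix ι ι F) = (Fintype.card ι : F) := by
  have h := trace_siegT_mul Q u w hu huw 1
  rw [Matrix.mul_one, Matrix.one_mulVec, Matrix.one_mulVec, Matrix.trace_one, polar_comm Q w u,
    huw, qf_polar_self, hu] at h
  rw [h]
  ring

theorem siegT_wedge1 (Q : QuadraticForm F (ι → F)) (x y : ι → F) (hx : Q x = 0) (hy : Q y = 0)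
    (hxy : polar Q x y = 0) (γ δ : F) (hγ : γ ≠ 0) :
    siegT Q (γ • x + δ • y) (γ⁻¹ • y) = siegT Q x y := by
  have hz : Q (γ • x + δ • y) = 0 := by
    rw [qf_lin2, hx, hy, hxy]
    ring
  have hzy : polar Q (γ • x + δ • y) (γ⁻¹ • y) = 0 := by
    rw [polar_add_left, polar_smul_left, polar_smul_left, polar_smul_right, polar_smul_right, hxy,
      qf_polar_self, hy]
    simp
  apply Units.ext
  apply mat_ext
  intro v
  rw [siegT_mulVec Q _ _ v hz hzy, siegT_mulVec Q x y v hx hxy, qf_smul, hy, polar_smul_left,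
    polar_add_left, polar_smul_left, polar_smul_left]
  funext i
  simp only [Pi.add_apply, Pi.sub_apply, Pi.smul_apply, smul_eq_mul]
  field_simp
  ring

theorem siegT_wedge2 (Q : QuadraticForm F (ι → F)) (x y : ι → F) (hx : Q x = 0) (hy : Q y = 0)
    (hxy : polar Q x y = 0) (δ : F) (hδ : δ ≠ 0) :
    siegT Q (δ • y) ((-δ⁻¹) • x) = siegT Q x y := by
  have hyx : polar Q y ((-δ⁻¹) • x) = 0 := by
    rw [polar_smul_right, polar_comm, hxy, smul_zero]
  rw [siegT_smul Q y _ δ hy hyx, smul_smul, mul_neg, mul_inv_cancel₀ hδ, neg_one_smul,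
    ← siegT_symm Q x y hx hy hxy]

/-- a short Siegel element determines its singular point -/
theorem sieg_point (h2 : (2 : F) ≠ 0) (Q : QuadraticForm F (ι → F)) (u w a w' : ι → F)
    (hu : Q u = 0) (huw : polar Q u w = 0) (ha : Q a = 0) (haw' : polar Q a w' = 0)
    (hw : Q w ≠ 0) (hu0 : u ≠ 0) (heq : siegT Q u w = siegT Q a w') : ∃ κ : F, u = κ • a := by
  have hm : ∀ v, ((siegT Q u w : GL ι F) : Matrix ι ι F) *ᵥ v
      = ((siegT Q a w' : GL ι F) : Matrix ι ι F) *ᵥ v := by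
    intro v
    rw [heq]
  have h1 := hm a
  rw [siegT_mulVec Q u w a hu huw, siegT_mulVec Q a w' a ha haw', polar_comm Q w' a, haw',
    qf_polar_self, ha] at h1
  have h1' : (polar Q w a - Q w * polar Q u a) • u - polar Q u a • w = 0 := by
    rw [← sub_eq_zero] at h1
    rw [← h1]
    module
  by_cases hua : polar Q u a = 0
  · rw [hua, mul_zero, sub_zero, zero_smul, sub_zero] at h1'
    have hwa : polar Q w a = 0 := by
      rcases smul_eq_zero.mp h1' with h | h
      · exact h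
      · exact absurd h hu0
    have h3 := hm w
    rw [siegT_mulVec Q u w w hu huw, siegT_mulVec Q a w' w ha haw', huw, polar_comm Q a w, hwa,
      qf_polar_self] at h3
    refine ⟨(2 * Q w)⁻¹ * polar Q w' w, ?_⟩
    have h4 : (2 * Q w) • u - polar Q w' w • a = 0 := by
      rw [← sub_eq_zero] at h3
      rw [← h3]
      module
    have h5 : (2 * Q w) • u = polar Q w' w • a := sub_eq_zero.mp h4
    rw [mul_smul, ← h5, smul_smul, inv_mul_cancel₀ (mul_ne_zero h2 hw), one_smul]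
  · exfalso
    have h5 : w = ((polar Q u a)⁻¹ * (polar Q w a - Q w * polar Q u a)) • u := by
      have h6 : polar Q u a • w = (polar Q w a - Q w * polar Q u a) • u :=
        (sub_eq_zero.mp h1').symm
      rw [mul_smul, ← h6, smul_smul, inv_mul_cancel₀ hua, one_smul]
    apply hw
    rw [h5, qf_smul, hu, mul_zero]

/-- an isometry differing from the identity by maps into `⟨a, b⟩` and fixing `b` modulo `a` is a
Siegel element -/
theorem sieg_of_shape0 (h2 : (2 : F) ≠ 0) (Q : QuadraticForm F (ι → F))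
    (hQ : (polarBilin Q).Nondegenerate) (g : ↥(isometryGroup F ⇑Q)) (a b as : ι → F)
    (ha : Q a = 0) (hab : polar Q a b = 0) (hb : Q b ≠ 0) (has : Q as = 0)
    (haas : polar Q a as = 1) (hasb : polar Q as b = 0)
    (hshape : ∀ v, ∃ α β : F, act ⇑Q g v = v + α • a + β • b) (α : F)
    (hgb : act ⇑Q g b = b + α • a) :
    ∃ t : F, ∀ hp : polar Q a (t • b) = 0, g = sieg Q a (t • b) ha hp := by
  have hfix : ∀ v, polar Q a v = 0 → polar Q b v = 0 → act ⇑Q g v = v := by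
    intro v hav hbv
    have hd : act ⇑Q g v - v = 0 := by
      apply hQ.1
      intro u'
      obtain ⟨α', β', hu⟩ := hshape (act ⇑Q g⁻¹ u')
      rw [act_act_inv] at hu
      have h1 : polar Q (act ⇑Q g v) u' = polar Q v (act ⇑Q g⁻¹ u') := by
        conv_lhs => rw [← act_act_inv ⇑Q g u']
        exact act_polar ⇑Q g v _
      have h2' : polar Q v u' = polar Q v (act ⇑Q g⁻¹ u') := by
        conv_lhs => rw [hu]
        rw [polar_add_right, polar_add_right, polar_smul_right, polar_smul_right,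
          polar_comm Q v a, hav, polar_comm Q v b, hbv]
        simp
      show polar Q (act ⇑Q g v - v) u' = 0
      rw [polar_sub_left, h1, h2', sub_self]
    exact sub_eq_zero.mp hd
  have haa : polar Q a a = 0 := by rw [qf_polar_self, ha, mul_zero]
  have hba : polar Q b a = 0 := by rw [polar_comm]; exact hab
  have hasa : polar Q as a = 1 := by rw [polar_comm]; exact haas
  have hbas : polar Q b as = 0 := by rw [polar_comm]; exact hasb
  have hbb : polar Q b b = 2 * Q b := qf_polar_self Q b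
  obtain ⟨δ, γ, hgas⟩ := hshape as
  have r1 : α = -(2 * γ * Q b) := by
    have h1 := act_polar ⇑Q g as b
    rw [hgas, hgb, hasb] at h1
    simp only [polar_add_left, polar_add_right, polar_smul_left, polar_smul_right, smul_eq_mul,
      hasb, hasa, hab, hba, haa, hbb] at h1
    linear_combination h1
  have r2 : δ = -(γ * γ * Q b) := by
    have h0 : Q (act ⇑Q g as) = Q as := act_Q ⇑Q g as
    rw [hgas, has] at h0
    rw [qf_add, qf_add, qf_smul, qf_smul, has, ha] at h0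
    simp only [polar_add_left, polar_smul_left, polar_smul_right, smul_eq_mul, hasb, hasa, hab,
      haas] at h0
    linear_combination h0
  refine ⟨-γ, fun hp => ?_⟩
  apply act_ext
  intro x
  obtain ⟨p, hp'⟩ : ∃ p : F, p = polar Q a x := ⟨_, rfl⟩
  obtain ⟨q, hq⟩ : ∃ q : F, polar Q b x = q * (2 * Q b) :=
    ⟨polar Q b x / (2 * Q b), by field_simp⟩
  have hx' := hfix (x - p • as - q • b) (by
    rw [polar_sub_right, polar_sub_right, polar_smul_right, polar_smul_right, haas, hab, hp']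
    simp) (by
    rw [polar_sub_right, polar_sub_right, polar_smul_right, polar_smul_right, hbas, hbb, hq]
    simp)
  have hx : x = (x - p • as - q • b) + p • as + q • b := by abel
  have e1 : act ⇑Q g x
      = (x - p • as - q • b) + p • (as + δ • a + γ • b) + q • (b + α • a) := by
    conv_lhs => rw [hx]
    rw [act_add, act_add, act_smul, act_smul, hx', hgas, hgb]
  rw [e1, act_sieg, polar_smul_left, qf_smul, ← hp', hq, r1, r2]
  simp only [smul_eq_mul]
  module

theorem sieg_of_shape [Fintype F] (h2 : (2 : F) ≠ 0) (hn : 5 ≤ Fintype.card ι)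
    (Q : QuadraticForm F (ι → F)) (hQ : (polarBilin Q).Nondegenerate)
    (g : ↥(isometryGroup F ⇑Q)) (hdet : ((g : GL ι F) : Matrix ι ι F).det = 1)
    (a b as : ι → F) (ha : Q a = 0) (hab : polar Q a b = 0) (hb : Q b ≠ 0) (has : Q as = 0)
    (haas : polar Q a as = 1) (hasb : polar Q as b = 0)
    (hshape : ∀ v, ∃ α β : F, act ⇑Q g v = v + α • a + β • b) :
    ∃ t : F, ∀ hp : polar Q a (t • b) = 0, g = sieg Q a (t • b) ha hp := by
  obtain ⟨α, β, hgb⟩ := hshape b
  have hβ : β = 0 ∨ β = -2 := by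
    have h1 : Q (act ⇑Q g b) = Q b := act_Q ⇑Q g b
    rw [hgb] at h1
    have e : b + α • a + β • b = α • a + (1 + β) • b := by module
    rw [e, qf_lin2, ha, hab] at h1
    have h3 : β * (β + 2) * Q b = 0 := by linear_combination h1
    rcases mul_eq_zero.mp h3 with h4 | h4
    · rcases mul_eq_zero.mp h4 with h5 | h5
      · exact Or.inl h5
      · exact Or.inr (by linear_combination h5)
    · exact absurd h4 hb
  rcases hβ with rfl | rfl
  · exact sieg_of_shape0 h2 Q hQ g a b as ha hab hb has haas hasb hshape α (by rw [hgb]; module)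
  · exfalso
    have hsh2 : ∀ v, ∃ α' β' : F, act ⇑Q (reflElt Q b * g) v = v + α' • a + β' • b := by
      intro v
      obtain ⟨α', β', hv⟩ := hshape v
      refine ⟨α', β' - (Q b)⁻¹ * polar Q b (act ⇑Q g v), ?_⟩
      rw [act_mul, act_refl Q b hb, qrefl_apply, hv]
      module
    have hgb2 : act ⇑Q (reflElt Q b * g) b = b + α • a := by
      rw [act_mul, act_refl Q b hb, qrefl_apply, hgb, polar_add_right, polar_add_right,
        polar_smul_right, polar_smul_right, polar_comm Q b a, hab, qf_polar_self]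
      have e5 : (Q b)⁻¹ * (2 * Q b + α • (0 : F) + (-2 : F) • (2 * Q b)) = -2 := by
        simp only [smul_eq_mul]
        field_simp
        ring
      rw [e5]
      module
    obtain ⟨t, ht⟩ := sieg_of_shape0 h2 Q hQ (reflElt Q b * g) a b as ha hab hb has haas hasb
      hsh2 α hgb2
    have hp : polar Q a (t • b) = 0 := by rw [polar_smul_right, hab, smul_zero]
    have hd1 : (((reflElt Q b * g : ↥(isometryGroup F ⇑Q)) : GL ι F) : Matrix ι ι F).det
        = -1 := by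
      rw [Subgroup.coe_mul, Units.val_mul, Matrix.det_mul, det_refl Q b hb, hdet, mul_one]
    have hd2 : (((reflElt Q b * g : ↥(isometryGroup F ⇑Q)) : GL ι F) : Matrix ι ι F).det
        = 1 := by
      rw [ht hp]
      exact Omega_det h2 Q hQ ⟨_, sieg_mem_Omega hn Q hQ a (t • b) ha hp⟩
    rw [hd1] at hd2
    exact h2 (by linear_combination -hd2)

end OSubD0

section OSubD
variable {ι : Type} [Fintype ι] [DecidableEq ι] {F : Type*} [Field F] [Fintype F]
variable {F₀ : Subfield F} {Q : QuadraticForm F (ι → F)} {Q₀ : QuadraticForm F₀ (ι → F₀)}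
  {H : Subgroup (GL ι F)}

theorem OCtx.exists_sing_polar_ne (hC : OCtx F₀ Q Q₀ H) (v : ι → F) (hv : v ≠ 0) :
    ∃ a : ι → F₀, Q₀ a = 0 ∧ polar Q (upv F₀ a) v ≠ 0 := by
  classical
  have hn := hC.card
  by_contra hcon
  push Not at hcon
  apply hv
  apply eq_zero_of_polar_upv Q hC.nd (F₀ := F₀)
  intro u
  rw [polar_comm]
  by_cases huQ : Q₀ u = 0
  · exact hcon u huQ
  · obtain ⟨w, e, f, -, -, -, hwQ, heQ, hfQ, -, -, -, huw⟩ :=
      sing_decomp hC.two₀ Q₀ hC.nd₀ ⊥ (nd_bot Q₀) (by rw [finrank_bot]; omega) u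
        (mem_orth_bot Q₀ u) huQ
    have e3 : upv F₀ u = upv F₀ w - upv F₀ e + ((Q₀ u : F₀) : F) • upv F₀ f := by
      conv_lhs => rw [huw]
      rw [upv_add, upv_sub, upv_smul]
    rw [e3, polar_add_left, polar_sub_left, polar_smul_left, hcon w hwQ, hcon e heQ,
      hcon f hfQ]
    simp

theorem OCtx.perp_span (hC : OCtx F₀ Q Q₀ H) (a₀ : ι → F₀) (ha₀0 : a₀ ≠ 0) (ha₀ : Q₀ a₀ = 0)
    (η : ι → F) (h : ∀ w : ι → F₀, polar Q₀ a₀ w = 0 → polar Q η (upv F₀ w) = 0) :
    ∃ t : F, η = t • upv F₀ a₀ := by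
  obtain ⟨as, -, hasQ, haas⟩ := (nd_top Q₀ hC.nd₀).exists_partner a₀ Submodule.mem_top ha₀0 ha₀
  refine ⟨polar Q η (upv F₀ as), ?_⟩
  have h0 : η - polar Q η (upv F₀ as) • upv F₀ a₀ = 0 := by
    apply eq_zero_of_polar_upv Q hC.nd (F₀ := F₀)
    intro v
    have hw : polar Q₀ a₀ (v - polar Q₀ a₀ v • as) = 0 := by
      rw [polar_sub_right, polar_smul_right, haas]
      simp
    have hv : upv F₀ v = upv F₀ (v - polar Q₀ a₀ v • as)
        + ((polar Q₀ a₀ v : F₀) : F) • upv F₀ as := by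
      rw [upv_sub, upv_smul]
      abel
    rw [hv, polar_sub_left, polar_add_right, polar_add_right, polar_smul_right, polar_smul_left,
      polar_smul_left, polar_smul_right, h _ hw, hC.pz hw, hC.p1 haas]
    simp only [smul_eq_mul]
    ring
  exact sub_eq_zero.mp h0

theorem OCtx.exists_config (hC : OCtx F₀ Q Q₀ H) (N : Submodule F₀ (ι → F₀)) (hN : ND Q₀ N)
    (hNfin : finrank F₀ N ≤ 6) (e' : ι → F₀) (he' : e' ∈ orth Q₀ N) (he'0 : e' ≠ 0)
    (he'Q : Q₀ e' = 0) :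
    ∃ e f e'' f'' : ι → F₀, e ∈ orth Q₀ N ∧ f ∈ orth Q₀ N ∧ e'' ∈ orth Q₀ N ∧ f'' ∈ orth Q₀ N ∧
      Q₀ e = 0 ∧ Q₀ f = 0 ∧ Q₀ e'' = 0 ∧ Q₀ f'' = 0 ∧ polar Q₀ e f = 1 ∧
      polar Q₀ e'' f'' = 1 ∧ polar Q₀ e' e = 0 ∧ polar Q₀ e' f = 0 ∧ polar Q₀ e' e'' = 0 ∧
      polar Q₀ e'' e = 0 ∧ polar Q₀ e'' f = 0 := by
  classical
  have hn := hC.card
  obtain ⟨f', hf', hf'Q, he'f'⟩ := (hN.orth_nd hC.nd₀).exists_partner e' he' he'0 he'Q
  obtain ⟨hN₂, hN₂fin⟩ := nd_add_hp Q₀ N hN e' f' he' hf' he'Q hf'Q he'f'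
  obtain ⟨e, f, he, hf, heQ, hfQ, hef⟩ := exists_hp Q₀ hC.nd₀ _ hN₂ (by omega)
  obtain ⟨hN₃, hN₃fin⟩ := nd_add_hp Q₀ _ hN₂ e f he hf heQ hfQ hef
  obtain ⟨e'', f'', he'', hf'', he''Q, hf''Q, he''f''⟩ := exists_hp Q₀ hC.nd₀ _ hN₃ (by omega)
  have sub1 : ∀ x, x ∈ orth Q₀ (N ⊔ (Submodule.span F₀ {e'} ⊔ Submodule.span F₀ {f'})) →
      x ∈ orth Q₀ N := fun x hx => by
    rw [mem_orth] at hx ⊢
    intro n hn'
    exact hx n (Submodule.mem_sup_left hn')
  have sub2 : ∀ x, x ∈ orth Q₀ (N ⊔ (Submodule.span F₀ {e'} ⊔ Submodule.span F₀ {f'}) ⊔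
      (Submodule.span F₀ {e} ⊔ Submodule.span F₀ {f})) →
      x ∈ orth Q₀ (N ⊔ (Submodule.span F₀ {e'} ⊔ Submodule.span F₀ {f'})) := fun x hx => by
    rw [mem_orth] at hx ⊢
    intro n hn'
    exact hx n (Submodule.mem_sup_left hn')
  have he'N₂ : e' ∈ N ⊔ (Submodule.span F₀ {e'} ⊔ Submodule.span F₀ {f'}) :=
    Submodule.mem_sup_right (Submodule.mem_sup_left (Submodule.mem_span_singleton_self e'))
  refine ⟨e, f, e'', f'', sub1 e he, sub1 f hf, sub1 _ (sub2 _ he''), sub1 _ (sub2 _ hf''), heQ,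
    hfQ, he''Q, hf''Q, hef, he''f'', (mem_orth Q₀ _ e).1 he e' he'N₂,
    (mem_orth Q₀ _ f).1 hf e' he'N₂, (mem_orth Q₀ _ e'').1 he'' e' (Submodule.mem_sup_left he'N₂),
    ?_, ?_⟩
  · rw [polar_comm]
    exact (mem_orth Q₀ _ e'').1 he'' e (Submodule.mem_sup_right
      (Submodule.mem_sup_left (Submodule.mem_span_singleton_self e)))
  · rw [polar_comm]
    exact (mem_orth Q₀ _ e'').1 he'' f (Submodule.mem_sup_right
      (Submodule.mem_sup_right (Submodule.mem_span_singleton_self f)))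

/-- an element of `H` moving every rational singular point off the rational points cannot send
a rational singular point into a vector orthogonal to the rational singular vectors of the
complement of a small rational subspace -/
theorem OCtx.Lx (hC : OCtx F₀ Q Q₀ H) (hR : RProp F₀ Q Q₀ H) (k : ↥(isometryGroup F ⇑Q))
    (hk : (k : GL ι F) ∈ H)
    (hB0 : ∀ (a a' : ι → F₀) (lam : F), a ≠ 0 → Q₀ a = 0 →
      act ⇑Q k (upv F₀ a) ≠ lam • upv F₀ a')
    (hB0' : ∀ (a a' : ι → F₀) (lam : F), a ≠ 0 → Q₀ a = 0 →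
      act ⇑Q k⁻¹ (upv F₀ a) ≠ lam • upv F₀ a')
    (N : Submodule F₀ (ι → F₀)) (hN : ND Q₀ N) (hNfin : finrank F₀ N ≤ 6) (a₀ : ι → F₀)
    (ha₀0 : a₀ ≠ 0) (ha₀ : Q₀ a₀ = 0)
    (hperp : ∀ u ∈ orth Q₀ N, Q₀ u = 0 →
      polar Q (act ⇑Q k (upv F₀ a₀)) (upv F₀ u) = 0) : False := by
  classical
  have hn := hC.card
  obtain ⟨e', f', he', hf', he'Q, hf'Q, he'f'⟩ := exists_hp Q₀ hC.nd₀ N hN (by omega)
  have he'0 : e' ≠ 0 := by
    rintro rfl
    rw [polar_zero_left] at he'f'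
    exact zero_ne_one he'f'
  obtain ⟨e, f, e'', f'', he, hf, he'', hf'', heQ, hfQ, he''Q, hf''Q, hef, he''f'', he'e, he'f,
    he'e'', he''e, he''f⟩ := hC.exists_config N hN hNfin e' he' he'0 he'Q
  have hη : ∃ w : ι → F₀, polar Q₀ a₀ w = 0 ∧
      polar Q (act ⇑Q k⁻¹ (upv F₀ e')) (upv F₀ w) ≠ 0 := by
    by_contra hcon
    push Not at hcon
    obtain ⟨t, ht⟩ := hC.perp_span a₀ ha₀0 ha₀ _ hcon
    exact hB0' e' a₀ t he'0 he'Q ht
  obtain ⟨w, ha₀w, hw⟩ := hη
  have hQa₀ := hC.Qz ha₀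
  have hT : siegT Q (act ⇑Q k (upv F₀ a₀)) (act ⇑Q k (upv F₀ w)) ∈ H := by
    rw [← siegT_conj Q k _ _ hQa₀ (hC.pz ha₀w)]
    exact H.mul_mem (H.mul_mem hk (hC.sieg_mem a₀ w ha₀ ha₀w)) (H.inv_mem hk)
  have hne : polar Q (upv F₀ e') (act ⇑Q k (upv F₀ w)) ≠ 0 := by
    have h1 := act_polar ⇑Q k (act ⇑Q k⁻¹ (upv F₀ e')) (upv F₀ w)
    rw [act_act_inv] at h1
    rw [h1]
    exact hw
  obtain ⟨c, z₀, hc, hz₀⟩ := hC.L1 hR _ _ ((act_Q ⇑Q k _).trans hQa₀)
    ((act_polar ⇑Q k _ _).trans (hC.pz ha₀w)) hT e f e' e'' f'' heQ hfQ he'Q he''Q hef he''f''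
    he'e he'f he'e'' he''e he''f (hperp e he heQ) (hperp f hf hfQ) (hperp e' he' he'Q)
    (hperp e'' he'' he''Q) (hperp f'' hf'' hf''Q) hne
  apply hB0 a₀ z₀ c⁻¹ ha₀0 ha₀
  rw [← hz₀, smul_smul, inv_mul_cancel₀ hc, one_smul]

end OSubD

end Cfsg.Agent.Helper16
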