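import Cfsg.Agent.Helper16.OSubD

set_option autoImplicit false
open Cfsg

namespace Cfsg.Agent.Helper16

open QuadraticMap Module Matrix

section OSubE0
variable {ι : Type} [Fintype ι] [DecidableEq ι] {F : Type*} [Field F]

theorem trace_sieg_sieg (Q : QuadraticForm F (ι → F)) (u w x y : ι → F) (hu : Q u = 0)
    (huw : polar Q u w = 0) (hx : Q x = 0) (hy : Q y = 0) (hxy : polar Q x y = 0) :
    Matrix.trace (((siegT Q u w : GL ι F) : Matrix ι ι F) * ((siegT Q x y : GL ι F) : Matrix ι ι F))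
      = (Fintype.card ι : F) + 2 * (polar Q u y * polar Q w x - polar Q u x * polar Q w y) := by
  have hwu : polar Q w u = 0 := by rw [polar_comm]; exact huw
  have huu : polar Q u u = 0 := by rw [qf_polar_self, hu, mul_zero]
  rw [trace_siegT_mul Q u w hu huw, trace_siegT Q x y hx hxy, siegT_mulVec Q x y u hx hxy,
    siegT_mulVec Q x y w hx hxy, hy]
  simp only [polar_add_right, polar_sub_right, polar_smul_right, smul_eq_mul, zero_mul, mul_zero,
    sub_zero, huw, hwu, huu, zero_add, polar_comm Q y u, polar_comm Q x u, polar_comm Q y w,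
    polar_comm Q x w]
  ring

end OSubE0

section OSubE
variable {ι : Type} [Fintype ι] [DecidableEq ι] {F : Type*} [Field F] [Fintype F]
variable {F₀ : Subfield F} {Q : QuadraticForm F (ι → F)} {Q₀ : QuadraticForm F₀ (ι → F₀)}
  {H : Subgroup (GL ι F)}

set_option maxHeartbeats 4000000 in
/-- under the rigidity hypothesis every element of `H` is rational -/
theorem OCtx.all_rat (hC : OCtx F₀ Q Q₀ H) (hR : RProp F₀ Q Q₀ H) (g : ↥(isometryGroup F ⇑Q))
    (hg : (g : GL ι F) ∈ H) : RMat F₀ ((g : GL ι F) : Matrix ι ι F) := by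
  classical
  by_contra hbad
  have hn := hC.card
  have hn5 : 5 ≤ Fintype.card ι := by omega
  have hgi : ((g⁻¹ : ↥(isometryGroup F ⇑Q)) : GL ι F) ∈ H := by
    rw [Subgroup.coe_inv]
    exact H.inv_mem hg
  have hB0 : ∀ (a a' : ι → F₀) (lam : F), a ≠ 0 → Q₀ a = 0 →
      act ⇑Q g (upv F₀ a) ≠ lam • upv F₀ a' := by
    intro a a' lam ha0 ha h
    exact hbad (hC.O2 hR g hg a a' ha0 ha lam h)
  have hB0' : ∀ (a a' : ι → F₀) (lam : F), a ≠ 0 → Q₀ a = 0 →
      act ⇑Q g⁻¹ (upv F₀ a) ≠ lam • upv F₀ a' := by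
    intro a a' lam ha0 ha h
    have hne : act ⇑Q g⁻¹ (upv F₀ a) ≠ 0 := act_ne_zero ⇑Q g⁻¹ _ (upv_ne_zero ha0)
    have hlam : lam ≠ 0 := by
      rintro rfl
      rw [zero_smul] at h
      exact hne h
    have ha'0 : a' ≠ 0 := by
      rintro rfl
      rw [upv_zero, smul_zero] at h
      exact hne h
    have hQ' : Q₀ a' = 0 := by
      apply hC.sing_of_coe
      have h1 : Q (act ⇑Q g⁻¹ (upv F₀ a)) = Q (upv F₀ a) := act_Q ⇑Q g⁻¹ _
      rw [h, hC.Qz ha, qf_smul] at h1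
      rcases mul_eq_zero.mp h1 with h3 | h3
      · exact absurd (mul_self_eq_zero.mp h3) hlam
      · exact h3
    apply hB0 a' a lam⁻¹ ha'0 hQ'
    have h2 := congrArg (act ⇑Q g) h
    rw [act_act_inv, act_smul] at h2
    rw [h2, smul_smul, inv_mul_cancel₀ hlam, one_smul]
  have hB0i : ∀ (a a' : ι → F₀) (lam : F), a ≠ 0 → Q₀ a = 0 →
      act ⇑Q (g⁻¹)⁻¹ (upv F₀ a) ≠ lam • upv F₀ a' := by
    rw [inv_inv]
    exact hB0
  -- the long root element `T`
  obtain ⟨a₂, a₂s, -, -, ha₂Q, ha₂sQ, ha₂a₂s⟩ :=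
    exists_hp Q₀ hC.nd₀ ⊥ (nd_bot Q₀) (by rw [finrank_bot]; omega)
  obtain ⟨hNa2, hNa2fin⟩ := nd_add_hp Q₀ ⊥ (nd_bot Q₀) a₂ a₂s (mem_orth_bot Q₀ _)
    (mem_orth_bot Q₀ _) ha₂Q ha₂sQ ha₂a₂s
  rw [finrank_bot] at hNa2fin
  obtain ⟨b₂, b₂s, hb₂, hb₂s, hb₂Q, hb₂sQ, hb₂b₂s⟩ := exists_hp Q₀ hC.nd₀ _ hNa2 (by omega)
  obtain ⟨hN₂, hN₂fin⟩ := nd_add_hp Q₀ _ hNa2 b₂ b₂s hb₂ hb₂s hb₂Q hb₂sQ hb₂b₂s
  obtain ⟨N₂, hN₂def⟩ : ∃ N₂ : Submodule F₀ (ι → F₀),
      N₂ = ⊥ ⊔ (Submodule.span F₀ {a₂} ⊔ Submodule.span F₀ {a₂s}) ⊔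
        (Submodule.span F₀ {b₂} ⊔ Submodule.span F₀ {b₂s}) := ⟨_, rfl⟩
  rw [← hN₂def] at hN₂ hN₂fin
  have ha₂Na : a₂ ∈ (⊥ : Submodule F₀ (ι → F₀)) ⊔
      (Submodule.span F₀ {a₂} ⊔ Submodule.span F₀ {a₂s}) :=
    Submodule.mem_sup_right (Submodule.mem_sup_left (Submodule.mem_span_singleton_self a₂))
  have ha₂sNa : a₂s ∈ (⊥ : Submodule F₀ (ι → F₀)) ⊔
      (Submodule.span F₀ {a₂} ⊔ Submodule.span F₀ {a₂s}) :=
    Submodule.mem_sup_right (Submodule.mem_sup_right (Submodule.mem_span_singleton_self a₂s))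
  have ha₂N : a₂ ∈ N₂ := by
    rw [hN₂def]
    exact Submodule.mem_sup_left ha₂Na
  have hb₂N : b₂ ∈ N₂ := by
    rw [hN₂def]
    exact Submodule.mem_sup_right (Submodule.mem_sup_left (Submodule.mem_span_singleton_self b₂))
  have ha₂b₂ : polar Q₀ a₂ b₂ = 0 := (mem_orth Q₀ _ b₂).1 hb₂ a₂ ha₂Na
  have ha₂sb₂ : polar Q₀ a₂s b₂ = 0 := (mem_orth Q₀ _ b₂).1 hb₂ a₂s ha₂sNa
  have ha₂b₂s : polar Q₀ a₂ b₂s = 0 := (mem_orth Q₀ _ b₂s).1 hb₂s a₂ ha₂Na
  have ha₂0 : a₂ ≠ 0 := by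
    rintro rfl
    rw [polar_zero_left] at ha₂a₂s
    exact zero_ne_one ha₂a₂s
  obtain ⟨x, hxdef⟩ : ∃ x : ι → F, x = act ⇑Q g (upv F₀ a₂) := ⟨_, rfl⟩
  obtain ⟨y, hydef⟩ : ∃ y : ι → F, y = act ⇑Q g (upv F₀ b₂) := ⟨_, rfl⟩
  have hxQ : Q x = 0 := by
    rw [hxdef]
    exact (act_Q ⇑Q g _).trans (hC.Qz ha₂Q)
  have hyQ : Q y = 0 := by
    rw [hydef]
    exact (act_Q ⇑Q g _).trans (hC.Qz hb₂Q)
  have hxy : polar Q x y = 0 := by
    rw [hxdef, hydef]
    exact (act_polar ⇑Q g _ _).trans (hC.pz ha₂b₂)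
  have hx0 : x ≠ 0 := by
    rw [hxdef]
    exact act_ne_zero ⇑Q g _ (upv_ne_zero ha₂0)
  have hTH : siegT Q x y ∈ H := by
    rw [hxdef, hydef, ← siegT_conj Q g _ _ (hC.Qz ha₂Q) (hC.pz ha₂b₂)]
    exact H.mul_mem (H.mul_mem hg (hC.sieg_mem a₂ b₂ ha₂Q ha₂b₂)) (H.inv_mem hg)
  have hind : ∀ γ δ : F, γ • x + δ • y = 0 → γ = 0 ∧ δ = 0 := by
    intro γ δ h
    have h1 : act ⇑Q g (γ • upv F₀ a₂ + δ • upv F₀ b₂) = 0 := by
      rw [act_add, act_smul, act_smul, ← hxdef, ← hydef]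
      exact h
    have h2 : γ • upv F₀ a₂ + δ • upv F₀ b₂ = 0 := by
      by_contra hne
      exact act_ne_zero ⇑Q g _ hne h1
    constructor
    · have h3 := congrArg (fun t => polar Q t (upv F₀ a₂s)) h2
      simp only [polar_add_left, polar_smul_left, hC.p1 ha₂a₂s, polar_zero_left, smul_eq_mul,
        polar_comm Q (upv F₀ b₂) (upv F₀ a₂s), hC.pz ha₂sb₂] at h3
      simpa using h3
    · have h3 := congrArg (fun t => polar Q t (upv F₀ b₂s)) h2
      simp only [polar_add_left, polar_smul_left, hC.p1 hb₂b₂s, polar_zero_left, smul_eq_mul,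
        hC.pz ha₂b₂s] at h3
      simpa using h3
  -- the short root group `P`
  obtain ⟨a, haQ, hax⟩ := hC.exists_sing_polar_ne x hx0
  have ha0 : a ≠ 0 := by
    rintro rfl
    rw [upv_zero, polar_zero_left] at hax
    exact hax rfl
  obtain ⟨as, -, hasQ, haas⟩ := (nd_top Q₀ hC.nd₀).exists_partner a Submodule.mem_top ha0 haQ
  obtain ⟨Na, hNadef⟩ : ∃ Na : Submodule F₀ (ι → F₀),
      Na = Submodule.span F₀ {a} ⊔ Submodule.span F₀ {as} := ⟨_, rfl⟩
  have hNaND : ND Q₀ Na := by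
    rw [hNadef]
    exact nd_hyp Q₀ a as haQ hasQ (by rw [haas]; exact one_ne_zero)
  have hNafin : finrank F₀ Na ≤ 2 := by
    rw [hNadef]
    have h1 := Submodule.finrank_add_le_finrank_add_finrank (Submodule.span F₀ {a})
      (Submodule.span F₀ {as})
    have h3 := finrank_span_one_le (F := F₀) a
    have h4 := finrank_span_one_le (F := F₀) as
    omega
  have haNa : a ∈ Na := by
    rw [hNadef]
    exact Submodule.mem_sup_left (Submodule.mem_span_singleton_self a)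
  have hasNa : as ∈ Na := by
    rw [hNadef]
    exact Submodule.mem_sup_right (Submodule.mem_span_singleton_self as)
  obtain ⟨ξ, hξdef⟩ : ∃ ξ : ι → F,
      ξ = polar Q (upv F₀ a) x • y - polar Q (upv F₀ a) y • x := ⟨_, rfl⟩
  have hb₁ : ∃ b₁ : ι → F₀, b₁ ∈ orth Q₀ Na ∧ Q₀ b₁ ≠ 0 ∧ polar Q (upv F₀ b₁) ξ ≠ 0 := by
    by_contra hall
    push Not at hall
    have hallu : ∀ u ∈ orth Q₀ Na, polar Q (upv F₀ u) ξ = 0 := by
      intro u hu
      by_cases huQ : Q₀ u = 0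
      · obtain ⟨N', hN', hle, huN', hfin'⟩ := nd_extend hC.two₀ Q₀ hC.nd₀ Na hNaND u
        have hne' : orth Q₀ N' ≠ ⊥ := ne_bot_of_finrank_pos _ (by
          rw [finrank_orth Q₀ hC.nd₀, Module.finrank_fintype_fun_eq_card]
          omega)
        obtain ⟨u', hu', hu'Q⟩ := (hN'.orth_nd hC.nd₀).exists_nonsing hne'
        have hu'Na : u' ∈ orth Q₀ Na := by
          rw [mem_orth] at hu' ⊢
          intro n hn'
          exact hu' n (hle hn')
        have huu' : polar Q₀ u u' = 0 := (mem_orth Q₀ N' u').1 hu' u huN'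
        have h1 := hall u' hu'Na hu'Q
        have h2 := hall (u + u') ((orth Q₀ Na).add_mem hu hu'Na) (by
          rw [qf_add, huQ, huu']
          simpa using hu'Q)
        rw [upv_add, polar_add_left, h1, add_zero] at h2
        exact h2
      · exact hall u hu huQ
    have haξ : polar Q (upv F₀ a) ξ = 0 := by
      rw [hξdef, polar_sub_right, polar_smul_right, polar_smul_right]
      simp only [smul_eq_mul]
      ring
    have hξ' : ξ - polar Q ξ (upv F₀ as) • upv F₀ a = 0 := by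
      apply eq_zero_of_polar_upv Q hC.nd (F₀ := F₀)
      intro v
      obtain ⟨n, hn', u, hu, rfl⟩ := hNaND.decomp hC.nd₀ v
      rw [hNadef] at hn'
      obtain ⟨n1, hn1, n2, hn2, rfl⟩ := Submodule.mem_sup.1 hn'
      obtain ⟨α, rfl⟩ := Submodule.mem_span_singleton.1 hn1
      obtain ⟨β, rfl⟩ := Submodule.mem_span_singleton.1 hn2
      have k1 : polar Q ξ (upv F₀ u) = 0 := by rw [polar_comm]; exact hallu u hu
      have k2 : polar Q ξ (upv F₀ a) = 0 := by rw [polar_comm]; exact haξ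
      have k3 : polar Q (upv F₀ a) (upv F₀ u) = 0 := hC.pz ((mem_orth Q₀ Na u).1 hu a haNa)
      have k4 : polar Q (upv F₀ a) (upv F₀ a) = 0 := by rw [qf_polar_self, hC.Qz haQ, mul_zero]
      rw [upv_add, upv_add, upv_smul, upv_smul, polar_sub_left, polar_smul_left, polar_add_right,
        polar_add_right, polar_add_right, polar_add_right, polar_smul_right, polar_smul_right,
        polar_smul_right, polar_smul_right, k1, k2, k3, k4, hC.p1 haas]
      simp only [smul_eq_mul]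
      ring
    have hξa : ξ = polar Q ξ (upv F₀ as) • upv F₀ a := sub_eq_zero.mp hξ'
    have hξx : polar Q ξ x = 0 := by
      rw [hξdef, polar_sub_left, polar_smul_left, polar_smul_left, polar_comm Q y x, hxy,
        qf_polar_self, hxQ]
      simp
    have hs0 : polar Q ξ (upv F₀ as) = 0 := by
      have h7 : polar Q (polar Q ξ (upv F₀ as) • upv F₀ a) x = 0 := by
        rw [← hξa]
        exact hξx
      rw [polar_smul_left, smul_eq_mul] at h7
      rcases mul_eq_zero.mp h7 with h | h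
      · exact h
      · exact absurd h hax
    have hξ0 : ξ = 0 := by rw [hξa, hs0, zero_smul]
    have h8 := hind (-(polar Q (upv F₀ a) y)) (polar Q (upv F₀ a) x) (by
      rw [← hξ0, hξdef]
      module)
    exact hax h8.2
  obtain ⟨b₁, hb₁Na, hb₁Q, hb₁ξ⟩ := hb₁
  have hab₁ : polar Q₀ a b₁ = 0 := (mem_orth Q₀ Na b₁).1 hb₁Na a haNa
  have hasb₁ : polar Q₀ as b₁ = 0 := (mem_orth Q₀ Na b₁).1 hb₁Na as hasNa
  obtain ⟨hNP, hNPfin⟩ := nd_add_ns hC.two₀ Q₀ Na hNaND b₁ hb₁Na hb₁Q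
  -- genericity
  have hG1 : ∀ (v₀ : ι → F₀) (α β γ δ : F),
      upv F₀ v₀ = α • upv F₀ a + β • upv F₀ b₁ + γ • x + δ • y → γ = 0 ∧ δ = 0 := by
    intro v₀ α β γ δ hv
    by_contra hγδ
    obtain ⟨z, hzdef⟩ : ∃ z : ι → F, z = γ • x + δ • y := ⟨_, rfl⟩
    have hzQ : Q z = 0 := by
      rw [hzdef, qf_lin2, hxQ, hyQ, hxy]
      ring
    have hzv : z = upv F₀ v₀ - α • upv F₀ a - β • upv F₀ b₁ := by
      rw [hzdef, hv]
      abel
    obtain ⟨NG, hNG, hle, hvNG, hNGfin⟩ := nd_extend hC.two₀ Q₀ hC.nd₀ _ hNP v₀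
    have haNG : a ∈ NG := hle (Submodule.mem_sup_left haNa)
    have hb₁NG : b₁ ∈ NG :=
      hle (Submodule.mem_sup_right (Submodule.mem_span_singleton_self b₁))
    have hzperp : ∀ u ∈ orth Q₀ NG, polar Q z (upv F₀ u) = 0 := by
      intro u hu
      rw [hzv, polar_sub_left, polar_sub_left, polar_smul_left, polar_smul_left,
        hC.pz ((mem_orth Q₀ NG u).1 hu v₀ hvNG), hC.pz ((mem_orth Q₀ NG u).1 hu a haNG),
        hC.pz ((mem_orth Q₀ NG u).1 hu b₁ hb₁NG)]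
      simp
    have hy'' : ∃ (y'' : ι → F) (p q : F), polar Q z y'' = 0 ∧ siegT Q z y'' ∈ H ∧
        x = p • z + q • y'' := by
      by_cases hγ : γ = 0
      · have hδ : δ ≠ 0 := fun h => hγδ ⟨hγ, h⟩
        refine ⟨(-δ⁻¹) • x, 0, -δ, ?_, ?_, ?_⟩
        · rw [hzdef, hγ, zero_smul, zero_add, polar_smul_left, polar_smul_right,
            polar_comm Q y x, hxy]
          simp
        · rw [hzdef, hγ, zero_smul, zero_add, siegT_wedge2 Q x y hxQ hyQ hxy δ hδ]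
          exact hTH
        · rw [smul_smul, neg_mul_neg, mul_inv_cancel₀ hδ, one_smul, zero_smul, zero_add]
      · refine ⟨γ⁻¹ • y, γ⁻¹, -δ, ?_, ?_, ?_⟩
        · rw [hzdef, polar_add_left, polar_smul_left, polar_smul_left, polar_smul_right,
            polar_smul_right, hxy, qf_polar_self, hyQ]
          simp
        · rw [hzdef, siegT_wedge1 Q x y hxQ hyQ hxy γ δ hγ]
          exact hTH
        · rw [hzdef, smul_add, smul_smul, smul_smul, smul_smul, inv_mul_cancel₀ hγ, one_smul]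
          module
    obtain ⟨y'', p, q, hzy'', hT'', hxpq⟩ := hy''
    by_cases hcase : ∃ e' : ι → F₀, e' ∈ orth Q₀ NG ∧ Q₀ e' = 0 ∧ polar Q (upv F₀ e') y'' ≠ 0
    · obtain ⟨e', he', he'Q, he'y⟩ := hcase
      have he'0 : e' ≠ 0 := by
        rintro rfl
        rw [upv_zero, polar_zero_left] at he'y
        exact he'y rfl
      obtain ⟨e, f, e'', f'', he, hf, he'', hf'', heQ, hfQ, he''Q, hf''Q, hef, he''f'', he'e,
        he'f, he'e'', he''e, he''f⟩ := hC.exists_config NG hNG (by omega) e' he' he'0 he'Q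
      obtain ⟨c, z₀, hc, hz₀⟩ := hC.L1 hR z y'' hzQ hzy'' hT'' e f e' e'' f'' heQ hfQ he'Q he''Q
        hef he''f'' he'e he'f he'e'' he''e he''f (hzperp e he) (hzperp f hf) (hzperp e' he')
        (hzperp e'' he'') (hzperp f'' hf'') he'y
      have hz0 : z ≠ 0 := by
        intro h0
        rw [hzdef] at h0
        exact hγδ (hind γ δ h0)
      have hz₀0 : z₀ ≠ 0 := by
        rintro rfl
        rw [upv_zero] at hz₀
        rcases smul_eq_zero.mp hz₀ with h | h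
        · exact hc h
        · exact hz0 h
      have hz₀Q : Q₀ z₀ = 0 := by
        apply hC.sing_of_coe
        rw [← hz₀, qf_smul, hzQ, mul_zero]
      have hgz : act ⇑Q g⁻¹ (upv F₀ z₀) = c • (γ • upv F₀ a₂ + δ • upv F₀ b₂) := by
        have h1 : act ⇑Q g (c • (γ • upv F₀ a₂ + δ • upv F₀ b₂)) = upv F₀ z₀ := by
          rw [act_smul, act_add, act_smul, act_smul, ← hxdef, ← hydef, ← hzdef, hz₀]
        rw [← h1, act_inv_act]
      apply hC.Lx hR g⁻¹ hgi hB0' hB0i N₂ hN₂ (by omega) z₀ hz₀0 hz₀Q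
      intro u hu huQ
      rw [hgz, polar_smul_left, polar_add_left, polar_smul_left, polar_smul_left,
        hC.pz ((mem_orth Q₀ N₂ u).1 hu a₂ ha₂N), hC.pz ((mem_orth Q₀ N₂ u).1 hu b₂ hb₂N)]
      simp
    · push Not at hcase
      apply hC.Lx hR g hg hB0 hB0' NG hNG (by omega) a₂ ha₂0 ha₂Q
      intro u hu huQ
      have h1 : polar Q (upv F₀ u) y'' = 0 := hcase u hu huQ
      rw [← hxdef, hxpq, polar_add_left, polar_smul_left, polar_smul_left, hzperp u hu,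
        polar_comm Q y'', h1]
      simp
  -- the group `X`
  have hAQ : Q (upv F₀ a) = 0 := hC.Qz haQ
  have hAB : polar Q (upv F₀ a) (upv F₀ b₁) = 0 := hC.pz hab₁
  have hABf : ∀ f : F, polar Q (upv F₀ a) (f • upv F₀ b₁) = 0 := fun f => by
    rw [polar_smul_right, hAB, smul_zero]
  have hBQ : Q (upv F₀ b₁) ≠ 0 := fun h => hb₁Q (hC.sing_of_coe h)
  obtain ⟨s, hsdef⟩ : ∃ s : F → GL ι F, ∀ f, s f = siegT Q (upv F₀ a) (f • upv F₀ b₁) :=
    ⟨_, fun f => rfl⟩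
  have hs_mul : ∀ f f' : F, s f * s f' = s (f + f') := by
    intro f f'
    rw [hsdef, hsdef, hsdef, siegT_mul Q _ _ _ hAQ (hABf f) (hABf f'), add_smul]
  have hs_zero : s 0 = 1 := by rw [hsdef, zero_smul, siegT_zero_right Q _ hAQ]
  have hs_inv : ∀ f : F, (s f)⁻¹ = s (-f) := by
    intro f
    rw [inv_eq_iff_eq_inv, eq_inv_iff_mul_eq_one, hs_mul, add_neg_cancel, hs_zero]
  have hsH : ∀ f : F₀, s (f : F) ∈ H := by
    intro f
    rw [hsdef, ← upv_smul]
    exact hC.sieg_mem a (f • b₁) haQ (by rw [polar_smul_right, hab₁, smul_zero])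
  obtain ⟨S, hS⟩ : ∃ S : Set (GL ι F),
      S = {k | k = siegT Q x y ∨ ∃ f : F₀, k = s (f : F)} := ⟨_, rfl⟩
  obtain ⟨X, hXdef⟩ : ∃ X : Subgroup (GL ι F), X = Subgroup.closure S := ⟨_, rfl⟩
  have hXH : X ≤ H := by
    rw [hXdef, Subgroup.closure_le]
    intro k hk
    rw [hS] at hk
    rcases hk with rfl | ⟨f, rfl⟩
    · exact hTH
    · exact hsH f
  have hTX : siegT Q x y ∈ X := by
    rw [hXdef]
    apply Subgroup.subset_closure
    rw [hS]
    exact Or.inl rfl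
  have hsX : ∀ f : F₀, s (f : F) ∈ X := fun f => by
    rw [hXdef]
    apply Subgroup.subset_closure
    rw [hS]
    exact Or.inr ⟨f, rfl⟩
  -- the shape of the elements of `X`
  obtain ⟨Sh, hSh⟩ : ∃ Sh : GL ι F → Prop, ∀ k, Sh k ↔ ∀ v, ∃ α β γ δ : F,
      (k : Matrix ι ι F) *ᵥ v = v + α • upv F₀ a + β • upv F₀ b₁ + γ • x + δ • y :=
    ⟨_, fun k => Iff.rfl⟩
  have hFm_mul : ∀ k k' : GL ι F, Sh k → Sh k' → Sh (k * k') := by
    intro k k' hk hk'
    rw [hSh] at hk hk' ⊢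
    intro v
    obtain ⟨α', β', γ', δ', e'⟩ := hk' v
    obtain ⟨α1, β1, γ1, δ1, e1⟩ := hk v
    obtain ⟨α2, β2, γ2, δ2, e2⟩ := hk (upv F₀ a)
    obtain ⟨α3, β3, γ3, δ3, e3⟩ := hk (upv F₀ b₁)
    obtain ⟨α4, β4, γ4, δ4, e4⟩ := hk x
    obtain ⟨α5, β5, γ5, δ5, e5⟩ := hk y
    refine ⟨α1 + α' * (1 + α2) + β' * α3 + γ' * α4 + δ' * α5,
      β1 + α' * β2 + β' * (1 + β3) + γ' * β4 + δ' * β5,
      γ1 + α' * γ2 + β' * γ3 + γ' * (1 + γ4) + δ' * γ5,
      δ1 + α' * δ2 + β' * δ3 + γ' * δ4 + δ' * (1 + δ5), ?_⟩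
    rw [Units.val_mul, ← Matrix.mulVec_mulVec, e', Matrix.mulVec_add, Matrix.mulVec_add,
      Matrix.mulVec_add, Matrix.mulVec_add, Matrix.mulVec_smul, Matrix.mulVec_smul,
      Matrix.mulVec_smul, Matrix.mulVec_smul, e1, e2, e3, e4, e5]
    module
  have hFm_one : Sh 1 := by
    rw [hSh]
    intro v
    refine ⟨0, 0, 0, 0, ?_⟩
    rw [Units.val_one, Matrix.one_mulVec]
    module
  have hFm_pow : ∀ k : GL ι F, Sh k → ∀ n : ℕ, Sh (k ^ n) := by
    intro k hk n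
    induction n with
    | zero => rw [pow_zero]; exact hFm_one
    | succ n ih => rw [pow_succ]; exact hFm_mul _ _ ih hk
  have hFm_inv : ∀ k : GL ι F, Sh k → Sh k⁻¹ := by
    intro k hk
    have hpos : 0 < orderOf k := orderOf_pos k
    have e : k⁻¹ = k ^ (orderOf k - 1) := by
      apply inv_eq_of_mul_eq_one_right
      rw [← pow_succ', Nat.sub_add_cancel hpos, pow_orderOf_eq_one]
    rw [e]
    exact hFm_pow k hk _
  have hFmX : ∀ k ∈ X, Sh k := by
    intro k hk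
    rw [hXdef] at hk
    induction hk using Subgroup.closure_induction with
    | mem k hk =>
      rw [hS] at hk
      rcases hk with rfl | ⟨f, rfl⟩
      · rw [hSh]
        intro v
        refine ⟨0, 0, polar Q y v - Q y * polar Q x v, -polar Q x v, ?_⟩
        rw [siegT_mulVec Q x y v hxQ hxy]
        module
      · rw [hSh]
        intro v
        refine ⟨polar Q ((f : F) • upv F₀ b₁) v
          - Q ((f : F) • upv F₀ b₁) * polar Q (upv F₀ a) v, -(polar Q (upv F₀ a) v * f), 0, 0, ?_⟩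
        rw [hsdef, siegT_mulVec Q _ _ v hAQ (hABf _)]
        module
    | one => exact hFm_one
    | mul k k' _ _ hk hk' => exact hFm_mul k k' hk hk'
    | inv k _ hk => exact hFm_inv k hk
  -- normalisers and centralisers
  have hNC : ∀ k ∈ X, ∀ f f' : F₀, f ≠ 0 → k * s (f : F) * k⁻¹ = s (f' : F) →
      ∃ f'' : F₀, k = s (f'' : F) := by
    intro k hkX f f' hf hconj
    have hkH := hXH hkX
    have hsh := (hSh _).1 (hFmX _ hkX)
    obtain ⟨k', hk'Ω, rfl⟩ := exists_of_mem_omegaGL ⇑Q k (hC.le hkH)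
    have hfF : (f : F) ≠ 0 := fun h => hf (Subtype.ext h)
    have c := siegT_conj Q k' (upv F₀ a) ((f : F) • upv F₀ b₁) hAQ (hABf _)
    rw [← hsdef, hconj, hsdef] at c
    have hwQ : Q (act ⇑Q k' ((f : F) • upv F₀ b₁)) ≠ 0 := by
      have h1 : Q (act ⇑Q k' ((f : F) • upv F₀ b₁)) = Q ((f : F) • upv F₀ b₁) := act_Q ⇑Q k' _
      rw [h1, qf_smul]
      exact mul_ne_zero (mul_ne_zero hfF hfF) hBQ
    obtain ⟨κ, hκ⟩ := sieg_point hC.h2 Q (act ⇑Q k' (upv F₀ a))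
      (act ⇑Q k' ((f : F) • upv F₀ b₁)) (upv F₀ a) ((f' : F) • upv F₀ b₁)
      ((act_Q ⇑Q k' _).trans hAQ) ((act_polar ⇑Q k' _ _).trans (hABf _)) hAQ (hABf _) hwQ
      (act_ne_zero ⇑Q k' _ (upv_ne_zero ha0)) c.symm
    have hRk := hC.O2 hR k' hkH a a ha0 haQ κ hκ
    have hrat_shape : ∀ v₀ : ι → F₀, ∃ α β : F,
        act ⇑Q k' (upv F₀ v₀) = upv F₀ v₀ + α • upv F₀ a + β • upv F₀ b₁ := by
      intro v₀
      obtain ⟨α, β, γ, δ, e⟩ := hsh (upv F₀ v₀)
      obtain ⟨w, hw⟩ := hRk.mulVec_upv v₀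
      have e' : upv F₀ (w - v₀) = α • upv F₀ a + β • upv F₀ b₁ + γ • x + δ • y := by
        rw [upv_sub, ← hw, e]
        abel
      obtain ⟨hγ, hδ⟩ := hG1 (w - v₀) α β γ δ e'
      refine ⟨α, β, ?_⟩
      show ((k' : GL ι F) : Matrix ι ι F) *ᵥ upv F₀ v₀ = _
      rw [e, hγ, hδ, zero_smul, zero_smul, add_zero, add_zero]
    have hW : ∀ v : ι → F, act ⇑Q k' v - v ∈ Submodule.span F {upv F₀ a, upv F₀ b₁} := by
      intro v
      have hv : v = ∑ i, v i • (Pi.single i (1 : F) : ι → F) := by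
        funext j
        simp [Finset.sum_apply, Pi.single_apply]
      have h1 : act ⇑Q k' v - v
          = ∑ i, v i • (act ⇑Q k' (Pi.single i (1 : F)) - Pi.single i (1 : F)) := by
        conv_lhs => rw [hv]
        unfold act
        rw [Matrix.mulVec_sum, ← Finset.sum_sub_distrib]
        apply Finset.sum_congr rfl
        intro i _
        rw [Matrix.mulVec_smul, smul_sub]
      rw [h1]
      apply Submodule.sum_mem
      intro i _
      apply Submodule.smul_mem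
      obtain ⟨α, β, e⟩ := hrat_shape (Pi.single i 1)
      rw [upv_single] at e
      rw [e, Submodule.mem_span_pair]
      exact ⟨α, β, by abel⟩
    have hshape : ∀ v : ι → F, ∃ α β : F,
        act ⇑Q k' v = v + α • upv F₀ a + β • upv F₀ b₁ := by
      intro v
      obtain ⟨α, β, e⟩ := Submodule.mem_span_pair.1 (hW v)
      exact ⟨α, β, by rw [add_assoc, e]; abel⟩
    have hdet : ((k' : GL ι F) : Matrix ι ι F).det = 1 := Omega_det hC.h2 Q hC.nd ⟨k', hk'Ω⟩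
    obtain ⟨t, ht⟩ := sieg_of_shape hC.h2 hn5 Q hC.nd k' hdet (upv F₀ a) (upv F₀ b₁)
      (upv F₀ as) hAQ hAB hBQ (hC.Qz hasQ) (hC.p1 haas) (hC.pz hasb₁) hshape
    have ht' := ht (hABf t)
    obtain ⟨w, hw⟩ := hRk.mulVec_upv as
    have e1 : act ⇑Q k' (upv F₀ as) = upv F₀ w := hw
    rw [ht', act_sieg] at e1
    have e2 := congrArg (fun z => polar Q z (upv F₀ b₁)) e1
    simp only [polar_add_left, polar_sub_left, polar_smul_left, smul_eq_mul, hC.pz hasb₁, hAB,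
      qf_polar_self, hC.res.pol, hC.res, hC.p1 haas, polar_comm Q (upv F₀ b₁) (upv F₀ as),
      mul_zero, zero_mul, sub_zero, zero_add, add_zero, mul_one, one_mul] at e2
    have htF : t ∈ F₀ := by
      have h2F : (2 : F) ∈ F₀ := by
        rw [← one_add_one_eq_two]
        exact F₀.add_mem F₀.one_mem F₀.one_mem
      have hb' : ((Q₀ b₁ : F₀) : F) ≠ 0 := fun h => hb₁Q (Subtype.ext h)
      rw [haas] at e2
      have e2' : -(t * (2 * ((Q₀ b₁ : F₀) : F))) = ((polar Q₀ w b₁ : F₀) : F) := by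
        have h21 : ((2 * Q₀ b₁ : F₀) : F) = 2 * ((Q₀ b₁ : F₀) : F) := rfl
        have h11 : ((1 : F₀) : F) = 1 := rfl
        rw [← e2, h21, h11]
        ring
      have e3 : t = -((polar Q₀ w b₁ : F₀) : F) / (2 * ((Q₀ b₁ : F₀) : F)) := by
        rw [eq_div_iff (mul_ne_zero hC.h2 hb')]
        linear_combination -e2'
      rw [e3]
      exact F₀.div_mem (F₀.neg_mem (polar Q₀ w b₁).2) (F₀.mul_mem h2F (Q₀ b₁).2)
    refine ⟨⟨t, htF⟩, ?_⟩
    rw [hsdef, siegT_eq Q _ _ hAQ (hABf t), ht']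
  obtain ⟨P, hP⟩ : ∃ P : Subgroup X, ∀ z : X, z ∈ P ↔ ∃ f : F₀, (z : GL ι F) = s (f : F) :=
    ⟨{ carrier := {z | ∃ f : F₀, (z : GL ι F) = s (f : F)}
       mul_mem' := by
         rintro z z' ⟨f, hz⟩ ⟨f', hz'⟩
         exact ⟨f + f', by rw [Subgroup.coe_mul, hz, hz', hs_mul]; rfl⟩
       one_mem' := ⟨0, by rw [Subgroup.coe_one]; exact hs_zero.symm⟩
       inv_mem' := by
         rintro z ⟨f, hz⟩
         exact ⟨-f, by rw [Subgroup.coe_inv, hz, hs_inv]; rfl⟩ }, fun z => Iff.rfl⟩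
  obtain ⟨p, hpdef⟩ : ∃ p : ℕ, p = ringChar F := ⟨_, rfl⟩
  haveI hcharP : CharP F p := by rw [hpdef]; exact ringChar.charP F
  haveI hpp : Fact p.Prime := ⟨CharP.char_is_prime F p⟩
  have hs_pow : ∀ (f : F) (n : ℕ), s f ^ n = s ((n : F) * f) := by
    intro f n
    induction n with
    | zero => rw [pow_zero, Nat.cast_zero, zero_mul, hs_zero]
    | succ n ih =>
      rw [pow_succ, ih, hs_mul]
      congr 1
      push_cast
      ring
  have hpgrp : IsPGroup p P := by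
    rintro ⟨z, hz⟩
    obtain ⟨f, hzf⟩ := (hP z).1 hz
    refine ⟨1, ?_⟩
    apply Subtype.ext
    apply Subtype.ext
    rw [pow_one]
    show ((z ^ p : X) : GL ι F) = 1
    rw [Subgroup.coe_pow, hzf, hs_pow, CharP.cast_eq_zero F p, zero_mul, hs_zero]
  have hcomm : ∀ z ∈ P, ∀ z' ∈ P, z * z' = z' * z := by
    intro z hz z' hz'
    obtain ⟨f, hzf⟩ := (hP z).1 hz
    obtain ⟨f', hzf'⟩ := (hP z').1 hz'
    apply Subtype.ext
    rw [Subgroup.coe_mul, Subgroup.coe_mul, hzf, hzf', hs_mul, hs_mul, add_comm]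
  have hNP : ∀ k : X, (∀ z ∈ P, k * z * k⁻¹ ∈ P) → k ∈ P := by
    intro k hk
    have hs1 : (⟨s ((1 : F₀) : F), hsX 1⟩ : X) ∈ P := (hP _).2 ⟨1, rfl⟩
    obtain ⟨f', heq⟩ := (hP _).1 (hk _ hs1)
    rw [Subgroup.coe_mul, Subgroup.coe_mul, Subgroup.coe_inv] at heq
    exact (hP k).2 (hNC k k.2 1 f' one_ne_zero heq)
  have hCP : ∀ z ∈ P, z ≠ 1 → ∀ k : X, k * z * k⁻¹ = z → k ∈ P := by
    intro z hz hz1 k hkz
    obtain ⟨f, hzf⟩ := (hP z).1 hz
    have hf0 : f ≠ 0 := by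
      rintro rfl
      apply hz1
      apply Subtype.ext
      rw [hzf, Subgroup.coe_one]
      exact hs_zero
    have heq := congrArg (fun t : X => (t : GL ι F)) hkz
    rw [Subgroup.coe_mul, Subgroup.coe_mul, Subgroup.coe_inv, hzf] at heq
    exact (hP k).2 (hNC k k.2 f f hf0 heq)
  obtain ⟨K, hKP, hK⟩ := frob_kernel p P hpgrp hcomm hNP hCP
  -- traces
  have htr : ∀ z : X, z ∉ K →
      Matrix.trace ((z : GL ι F) : Matrix ι ι F) = (Fintype.card ι : F) := by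
    intro z hz
    obtain ⟨k, s₀, hs₀, rfl⟩ := hK z hz
    obtain ⟨f, hf⟩ := (hP s₀).1 hs₀
    rw [Subgroup.coe_mul, Subgroup.coe_mul, Subgroup.coe_inv, Units.val_mul, Units.val_mul,
      Matrix.trace_mul_comm, ← Matrix.mul_assoc, ← Units.val_mul, inv_mul_cancel, Units.val_one,
      Matrix.one_mul, hf, hsdef]
    exact trace_siegT Q _ _ hAQ (hABf _)
  have hinK : ∀ f : F₀, f ≠ 0 → ∀ hmem : s (f : F) * siegT Q x y ∈ X,
      (⟨s (f : F) * siegT Q x y, hmem⟩ : X) ∈ K := by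
    intro f hf hmem
    by_contra hnot
    have h1 : Matrix.trace ((s (f : F) * siegT Q x y : GL ι F) : Matrix ι ι F)
        = (Fintype.card ι : F) := htr _ hnot
    have hfF : (f : F) ≠ 0 := fun h => hf (Subtype.ext h)
    rw [Units.val_mul, hsdef, trace_sieg_sieg Q _ _ x y hAQ (hABf _) hxQ hyQ hxy,
      polar_smul_left, polar_smul_left] at h1
    have h2 : polar Q (upv F₀ b₁) ξ
        = polar Q (upv F₀ a) x * polar Q (upv F₀ b₁) y
          - polar Q (upv F₀ a) y * polar Q (upv F₀ b₁) x := by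
      rw [hξdef, polar_sub_right, polar_smul_right, polar_smul_right]
      rfl
    have h3 : 2 * (f : F) * polar Q (upv F₀ b₁) ξ = 0 := by
      rw [h2]
      simp only [smul_eq_mul] at h1
      linear_combination -h1
    exact mul_ne_zero (mul_ne_zero hC.h2 hfF) hb₁ξ h3
  have h1X := X.mul_mem (hsX 1) hTX
  have hm1X := X.mul_mem (hsX (-1)) hTX
  have hk1 := hinK 1 one_ne_zero h1X
  have hk2 := hinK (-1) (neg_ne_zero.mpr one_ne_zero) hm1X
  have hq : (⟨s ((1 : F₀) : F), hsX 1⟩ : X) * (⟨s ((-1 : F₀) : F), hsX (-1)⟩ : X)⁻¹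
      ∈ K ⊓ P := by
    refine ⟨?_, P.mul_mem ((hP _).2 ⟨1, rfl⟩) (P.inv_mem ((hP _).2 ⟨-1, rfl⟩))⟩
    have h5 := K.mul_mem hk1 (K.inv_mem hk2)
    have e : (⟨s ((1 : F₀) : F) * siegT Q x y, h1X⟩ : X)
        * (⟨s ((-1 : F₀) : F) * siegT Q x y, hm1X⟩ : X)⁻¹
        = (⟨s ((1 : F₀) : F), hsX 1⟩ : X) * (⟨s ((-1 : F₀) : F), hsX (-1)⟩ : X)⁻¹ := by
      apply Subtype.ext
      rw [Subgroup.coe_mul, Subgroup.coe_inv, Subgroup.coe_mul, Subgroup.coe_inv]
      show s ((1 : F₀) : F) * siegT Q x y * (s ((-1 : F₀) : F) * siegT Q x y)⁻¹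
        = s ((1 : F₀) : F) * (s ((-1 : F₀) : F))⁻¹
      group
    rwa [e] at h5
  rw [hKP, Subgroup.mem_bot] at hq
  have h6 : s ((1 : F₀) : F) = s ((-1 : F₀) : F) := by
    have h7 := congrArg (fun t : X => (t : GL ι F)) hq
    rw [Subgroup.coe_mul, Subgroup.coe_inv, Subgroup.coe_one] at h7
    exact mul_inv_eq_one.mp h7
  have e11 : ((1 : F₀) : F) = 1 := rfl
  have em1 : ((-1 : F₀) : F) = -1 := rfl
  rw [e11, em1] at h6
  have h8 := congrArg (fun t : GL ι F => (t : Matrix ι ι F) *ᵥ upv F₀ as) h6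
  rw [hsdef, hsdef, siegT_mulVec Q _ _ _ hAQ (hABf _), siegT_mulVec Q _ _ _ hAQ (hABf _)] at h8
  have h9 := congrArg (fun z => polar Q z (upv F₀ b₁)) h8
  simp only [polar_add_left, polar_sub_left, polar_smul_left, smul_eq_mul, hC.pz hasb₁, hAB,
    qf_polar_self, hC.p1 haas, polar_comm Q (upv F₀ b₁) (upv F₀ as), mul_zero, zero_mul,
    sub_zero, zero_add, add_zero, mul_one, one_mul] at h9
  have h10 : (4 : F) * Q (upv F₀ b₁) = 0 := by linear_combination -h9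
  have h4 : (4 : F) ≠ 0 := by
    have e4 : (4 : F) = 2 * 2 := by norm_num
    rw [e4]
    exact mul_ne_zero hC.h2 hC.h2
  exact hBQ ((mul_eq_zero.mp h10).resolve_left h4)

end OSubE

end Cfsg.Agent.Helper16
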