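import Cfsg.Agent.Helper16.OSubE

set_option autoImplicit false
open Cfsg

namespace Cfsg.Agent.Helper16

open QuadraticMap Module Matrix

section OSubF0
variable {F : Type*} [Field F] [Fintype F]

/-- a subalgebra over a subfield of prime index containing an element outside the subfield is
everything -/
theorem subalg_top (F₀ : Subfield F) (r : ℕ) (hr : r.Prime)
    (hcard : Fintype.card F = Nat.card F₀ ^ r) (A : Subalgebra F₀ F) (μ₀ : F) (hμ₀ : μ₀ ∉ F₀)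
    (hμA : μ₀ ∈ A) (lam : F) : lam ∈ A := by
  classical
  have hfr : Module.finrank F₀ F = r := by
    have h1 := Module.card_eq_pow_finrank (K := F₀) (V := F)
    rw [hcard, Nat.card_eq_fintype_card] at h1
    have h2 : 2 ≤ Fintype.card F₀ := Fintype.one_lt_card
    exact (Nat.pow_right_injective h2 h1).symm
  have hE : IntermediateField.adjoin F₀ ({μ₀} : Set F) = ⊤ := by
    have h1 : Module.finrank F₀ (IntermediateField.adjoin F₀ ({μ₀} : Set F))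
        * Module.finrank (IntermediateField.adjoin F₀ ({μ₀} : Set F)) F = r := by
      rw [Module.finrank_mul_finrank, hfr]
    have h2 : Module.finrank F₀ (IntermediateField.adjoin F₀ ({μ₀} : Set F)) ≠ 1 := by
      intro h
      rw [IntermediateField.finrank_eq_one_iff] at h
      have h3 : μ₀ ∈ IntermediateField.adjoin F₀ ({μ₀} : Set F) :=
        IntermediateField.subset_adjoin F₀ _ (Set.mem_singleton μ₀)
      rw [h, IntermediateField.mem_bot] at h3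
      obtain ⟨f, hf⟩ := h3
      apply hμ₀
      rw [← hf]
      exact f.2
    have h3 : Module.finrank F₀ (IntermediateField.adjoin F₀ ({μ₀} : Set F)) = r := by
      have hdvd : Module.finrank F₀ (IntermediateField.adjoin F₀ ({μ₀} : Set F)) ∣ r :=
        Dvd.intro _ h1
      rcases (Nat.dvd_prime hr).mp hdvd with h | h
      · exact absurd h h2
      · exact h
    apply IntermediateField.eq_of_le_of_finrank_eq le_top
    rw [h3, IntermediateField.finrank_top', hfr]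
  have h1 : (IntermediateField.adjoin F₀ ({μ₀} : Set F)).toSubalgebra
      = Algebra.adjoin F₀ ({μ₀} : Set F) :=
    IntermediateField.adjoin_toSubalgebra_of_isAlgebraic (fun x _ =>
      Algebra.IsAlgebraic.isAlgebraic x)
  have h2 : Algebra.adjoin F₀ ({μ₀} : Set F) ≤ A :=
    Algebra.adjoin_le (Set.singleton_subset_iff.mpr hμA)
  apply h2
  rw [← h1, hE]
  exact IntermediateField.mem_top

end OSubF0

section OSubF1
variable {ι : Type} [Fintype ι] [DecidableEq ι] {K : Type*} [Field K]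

theorem finrank_hyp_le (e f : ι → K) :
    finrank K (Submodule.span K {e} ⊔ Submodule.span K {f} : Submodule K (ι → K)) ≤ 2 := by
  have h2 := Submodule.finrank_add_le_finrank_add_finrank (Submodule.span K {e})
    (Submodule.span K {f})
  have h3 := finrank_span_one_le (F := K) e
  have h4 := finrank_span_one_le (F := K) f
  omega

theorem mem_orth_hyp (Q : QuadraticForm K (ι → K)) (e f x : ι → K) (h1 : polar Q e x = 0)
    (h2 : polar Q f x = 0) : x ∈ orth Q (Submodule.span K {e} ⊔ Submodule.span K {f}) := by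
  rw [mem_orth]
  intro n hn
  obtain ⟨b1, hb1, b2, hb2, rfl⟩ := Submodule.mem_sup.1 hn
  obtain ⟨c, rfl⟩ := Submodule.mem_span_singleton.1 hb1
  obtain ⟨d, rfl⟩ := Submodule.mem_span_singleton.1 hb2
  rw [polar_add_left, polar_smul_left, polar_smul_left, h1, h2]
  simp

theorem siegT_swap (Q : QuadraticForm K (ι → K)) (u w : ι → K) (c : K) (hu : Q u = 0)
    (hw : Q w = 0) (huw : polar Q u w = 0) : siegT Q u (c • w) = siegT Q w ((-c) • u) := by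
  rw [siegT_symm Q u (c • w) hu (by rw [qf_smul, hw, mul_zero])
    (by rw [polar_smul_right, huw, smul_zero]),
    siegT_smul Q w (-u) c hw (by rw [polar_neg_right, polar_comm, huw, neg_zero]), smul_neg,
    neg_smul]

/-- the transfer lemma for long root groups -/
theorem siegT_K1 (Q : QuadraticForm K (ι → K)) (H : Subgroup (GL ι K)) (a b a' b' : ι → K)
    (μ ν : K) (ha : Q a = 0) (hab : polar Q a b = 0) (ha' : Q a' = 0) (hb' : Q b' = 0)
    (ha'b' : polar Q a' b' = 0) (haa' : polar Q a a' = 0) (hab' : polar Q a b' = 0)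
    (hb'b : polar Q b' b = 0) (ha'b : polar Q a' b = 1) (h1 : siegT Q a (μ • b) ∈ H)
    (h2 : siegT Q a' (ν • b') ∈ H) : siegT Q a ((μ * ν) • b') ∈ H := by
  have hci := siegT_CI Q a (μ • b) a' (ν • b') ha (by rw [polar_smul_right, hab, smul_zero]) ha'
    (by rw [qf_smul, hb', mul_zero]) (by rw [polar_smul_right, ha'b', smul_zero]) haa'
    (by rw [polar_smul_right, hab', smul_zero])
  have e : polar Q (ν • b') (μ • b) • a' - polar Q a' (μ • b) • (ν • b') = -((μ * ν) • b') := by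
    rw [polar_smul_left, polar_smul_right, hb'b, polar_smul_right, ha'b, smul_zero, smul_zero,
      zero_smul, zero_sub, smul_eq_mul, mul_one, smul_smul]
  rw [e, siegT_neg Q a _ ha (by rw [polar_smul_right, hab', smul_zero])] at hci
  have h3 : (siegT Q a ((μ * ν) • b'))⁻¹ ∈ H := by
    rw [← hci]
    exact H.mul_mem (H.mul_mem (H.mul_mem h2 h1) (H.inv_mem h2)) (H.inv_mem h1)
  exact (H.inv_mem_iff).1 h3

end OSubF1

section OSubF
variable {ι : Type} [Fintype ι] [DecidableEq ι] {F : Type*} [Field F] [Fintype F]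
variable {F₀ : Subfield F} {Q : QuadraticForm F (ι → F)} {Q₀ : QuadraticForm F₀ (ι → F₀)}
  {H : Subgroup (GL ι F)}

/-- every multiple of the rational vector `d` gives a Siegel element of `H` at `c` -/
def FullP (F₀ : Subfield F) (Q : QuadraticForm F (ι → F)) (H : Subgroup (GL ι F))
    (c d : ι → F₀) : Prop :=
  ∀ μ : F, siegT Q (upv F₀ c) (μ • upv F₀ d) ∈ H

theorem OCtx.full_T1 (hC : OCtx F₀ Q Q₀ H) (a b a' b' : ι → F₀) (ha : Q₀ a = 0)
    (hab : polar Q₀ a b = 0) (ha' : Q₀ a' = 0) (hb' : Q₀ b' = 0) (ha'b' : polar Q₀ a' b' = 0)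
    (haa' : polar Q₀ a a' = 0) (hab' : polar Q₀ a b' = 0) (hb'b : polar Q₀ b' b = 0)
    (ha'b : polar Q₀ a' b = 1) (h : FullP F₀ Q H a b) : FullP F₀ Q H a b' := by
  intro μ
  have h1 := siegT_K1 Q H (upv F₀ a) (upv F₀ b) (upv F₀ a') (upv F₀ b') μ 1 (hC.Qz ha)
    (hC.pz hab) (hC.Qz ha') (hC.Qz hb') (hC.pz ha'b') (hC.pz haa') (hC.pz hab') (hC.pz hb'b)
    (hC.p1 ha'b) (h μ) (by rw [one_smul]; exact hC.sieg_mem a' b' ha' ha'b')
  rwa [mul_one] at h1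

theorem OCtx.full_T2 (hC : OCtx F₀ Q Q₀ H) (a b : ι → F₀) (ha : Q₀ a = 0) (hb : Q₀ b = 0)
    (hab : polar Q₀ a b = 0) (h : FullP F₀ Q H a b) : FullP F₀ Q H b a := by
  intro μ
  have h1 := h (-μ)
  rw [siegT_swap Q _ _ (-μ) (hC.Qz ha) (hC.Qz hb) (hC.pz hab), neg_neg] at h1
  exact h1

/-- without rigidity some long root group is full -/
theorem OCtx.full_seed (hC : OCtx F₀ Q Q₀ H) (r : ℕ) (hr : r.Prime)
    (hcard : Fintype.card F = Nat.card F₀ ^ r) (hnR : ¬ RProp F₀ Q Q₀ H) :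
    ∃ e1 f1 e2 f2 : ι → F₀, Q₀ e1 = 0 ∧ Q₀ f1 = 0 ∧ Q₀ e2 = 0 ∧ Q₀ f2 = 0 ∧
      polar Q₀ e1 f1 = 1 ∧ polar Q₀ e2 f2 = 1 ∧ polar Q₀ e1 e2 = 0 ∧ polar Q₀ e1 f2 = 0 ∧
      polar Q₀ f1 e2 = 0 ∧ polar Q₀ f1 f2 = 0 ∧ FullP F₀ Q H e1 e2 := by
  classical
  have hn := hC.card
  unfold RProp at hnR
  push Not at hnR
  obtain ⟨e1, e2, f2, he10, he1Q, he2Q, hf2Q, he1e2, he2f2, he1f2, μ₀, hμ₀H, hμ₀⟩ := hnR
  have hN₂ : ND Q₀ (Submodule.span F₀ {e2} ⊔ Submodule.span F₀ {f2}) :=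
    nd_hyp Q₀ e2 f2 he2Q hf2Q (by rw [he2f2]; exact one_ne_zero)
  have he1N : e1 ∈ orth Q₀ (Submodule.span F₀ {e2} ⊔ Submodule.span F₀ {f2}) :=
    mem_orth_hyp Q₀ e2 f2 e1 ((polar_comm Q₀ e2 e1).trans he1e2)
      ((polar_comm Q₀ f2 e1).trans he1f2)
  obtain ⟨f1, hf1N, hf1Q, he1f1⟩ := (hN₂.orth_nd hC.nd₀).exists_partner e1 he1N he10 he1Q
  have he2f1 : polar Q₀ e2 f1 = 0 :=
    (mem_orth Q₀ _ f1).1 hf1N e2 (Submodule.mem_sup_left (Submodule.mem_span_singleton_self e2))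
  have hf2f1 : polar Q₀ f2 f1 = 0 :=
    (mem_orth Q₀ _ f1).1 hf1N f2 (Submodule.mem_sup_right (Submodule.mem_span_singleton_self f2))
  obtain ⟨hN₄, hN₄fin⟩ := nd_add_hp Q₀ _ hN₂ e1 f1 he1N hf1N he1Q hf1Q he1f1
  have hN₂fin := finrank_hyp_le e2 f2
  obtain ⟨e3, f3, he3N, hf3N, he3Q, hf3Q, he3f3⟩ := exists_hp Q₀ hC.nd₀ _ hN₄ (by omega)
  have m_e2 : e2 ∈ (Submodule.span F₀ {e2} ⊔ Submodule.span F₀ {f2}) ⊔
      (Submodule.span F₀ {e1} ⊔ Submodule.span F₀ {f1}) :=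
    Submodule.mem_sup_left (Submodule.mem_sup_left (Submodule.mem_span_singleton_self e2))
  have m_f2 : f2 ∈ (Submodule.span F₀ {e2} ⊔ Submodule.span F₀ {f2}) ⊔
      (Submodule.span F₀ {e1} ⊔ Submodule.span F₀ {f1}) :=
    Submodule.mem_sup_left (Submodule.mem_sup_right (Submodule.mem_span_singleton_self f2))
  have m_e1 : e1 ∈ (Submodule.span F₀ {e2} ⊔ Submodule.span F₀ {f2}) ⊔
      (Submodule.span F₀ {e1} ⊔ Submodule.span F₀ {f1}) :=
    Submodule.mem_sup_right (Submodule.mem_sup_left (Submodule.mem_span_singleton_self e1))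
  have m_f1 : f1 ∈ (Submodule.span F₀ {e2} ⊔ Submodule.span F₀ {f2}) ⊔
      (Submodule.span F₀ {e1} ⊔ Submodule.span F₀ {f1}) :=
    Submodule.mem_sup_right (Submodule.mem_sup_right (Submodule.mem_span_singleton_self f1))
  have o3 := (mem_orth Q₀ _ e3).1 he3N
  have o3' := (mem_orth Q₀ _ f3).1 hf3N
  -- the `F`-vectors
  have hE1 : Q (upv F₀ e1) = 0 := hC.Qz he1Q
  have hE2 : Q (upv F₀ e2) = 0 := hC.Qz he2Q
  have hE3 : Q (upv F₀ e3) = 0 := hC.Qz he3Q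
  have hF1 : Q (upv F₀ f1) = 0 := hC.Qz hf1Q
  have hF2 : Q (upv F₀ f2) = 0 := hC.Qz hf2Q
  have hF3 : Q (upv F₀ f3) = 0 := hC.Qz hf3Q
  have hE1E2 : polar Q (upv F₀ e1) (upv F₀ e2) = 0 := hC.pz he1e2
  have hF2E3 : polar Q (upv F₀ f2) (upv F₀ e3) = 0 := hC.pz (o3 f2 m_f2)
  have hE1F2 : polar Q (upv F₀ e1) (upv F₀ f2) = 0 := hC.pz he1f2
  have hE1E3 : polar Q (upv F₀ e1) (upv F₀ e3) = 0 := hC.pz (o3 e1 m_e1)
  have hE3E2 : polar Q (upv F₀ e3) (upv F₀ e2) = 0 :=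
    hC.pz ((polar_comm Q₀ e3 e2).trans (o3 e2 m_e2))
  have hF2E2 : polar Q (upv F₀ f2) (upv F₀ e2) = 1 := hC.p1 ((polar_comm Q₀ f2 e2).trans he2f2)
  have hE3E1 : polar Q (upv F₀ e3) (upv F₀ e1) = 0 :=
    hC.pz ((polar_comm Q₀ e3 e1).trans (o3 e1 m_e1))
  have hf1f2 : polar Q₀ f1 f2 = 0 := (polar_comm Q₀ f1 f2).trans hf2f1
  have hF1F2 : polar Q (upv F₀ f1) (upv F₀ f2) = 0 := hC.pz hf1f2
  have hE3F1 : polar Q (upv F₀ e3) (upv F₀ f1) = 0 :=
    hC.pz ((polar_comm Q₀ e3 f1).trans (o3 f1 m_f1))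
  have hE3F2 : polar Q (upv F₀ e3) (upv F₀ f2) = 0 :=
    hC.pz ((polar_comm Q₀ e3 f2).trans (o3 f2 m_f2))
  have hF2E1 : polar Q (upv F₀ f2) (upv F₀ e1) = 0 :=
    hC.pz ((polar_comm Q₀ f2 e1).trans he1f2)
  have hF1E1 : polar Q (upv F₀ f1) (upv F₀ e1) = 1 := hC.p1 ((polar_comm Q₀ f1 e1).trans he1f1)
  have hf3e2 : polar Q₀ f3 e2 = 0 := (polar_comm Q₀ f3 e2).trans (o3' e2 m_e2)
  have hF3E2 : polar Q (upv F₀ f3) (upv F₀ e2) = 0 := hC.pz hf3e2
  have hE1F3 : polar Q (upv F₀ e1) (upv F₀ f3) = 0 := hC.pz (o3' e1 m_e1)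
  have hE2E3 : polar Q (upv F₀ e2) (upv F₀ e3) = 0 := hC.pz (o3 e2 m_e2)
  have hF3E3 : polar Q (upv F₀ f3) (upv F₀ e3) = 1 := hC.p1 ((polar_comm Q₀ f3 e3).trans he3f3)
  have r1 : siegT Q (upv F₀ f2) ((1 : F) • upv F₀ e3) ∈ H := by
    rw [one_smul]
    exact hC.sieg_mem f2 e3 hf2Q (o3 f2 m_f2)
  have r2 : siegT Q (upv F₀ f1) ((1 : F) • upv F₀ f2) ∈ H := by
    rw [one_smul]
    exact hC.sieg_mem f1 f2 hf1Q hf1f2
  have r3 : siegT Q (upv F₀ f3) ((1 : F) • upv F₀ e2) ∈ H := by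
    rw [one_smul]
    exact hC.sieg_mem f3 e2 hf3Q hf3e2
  have key : ∀ μ ν : F, siegT Q (upv F₀ e1) (μ • upv F₀ e2) ∈ H →
      siegT Q (upv F₀ e1) (ν • upv F₀ e2) ∈ H →
      siegT Q (upv F₀ e1) ((μ * ν) • upv F₀ e2) ∈ H := by
    intro μ ν hμ hν
    have s1 : siegT Q (upv F₀ e1) (ν • upv F₀ e3) ∈ H := by
      have := siegT_K1 Q H (upv F₀ e1) (upv F₀ e2) (upv F₀ f2) (upv F₀ e3) ν 1 hE1 hE1E2 hF2 hE3
        hF2E3 hE1F2 hE1E3 hE3E2 hF2E2 hν r1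
      rwa [mul_one] at this
    have s2 : siegT Q (upv F₀ e3) ((-ν) • upv F₀ e1) ∈ H := by
      rw [← siegT_swap Q (upv F₀ e1) (upv F₀ e3) ν hE1 hE3 hE1E3]
      exact s1
    have s3 : siegT Q (upv F₀ e3) ((-ν) • upv F₀ f2) ∈ H := by
      have := siegT_K1 Q H (upv F₀ e3) (upv F₀ e1) (upv F₀ f1) (upv F₀ f2) (-ν) 1 hE3 hE3E1 hF1
        hF2 hF1F2 hE3F1 hE3F2 hF2E1 hF1E1 s2 r2
      rwa [mul_one] at this
    have s4 : siegT Q (upv F₀ f2) (ν • upv F₀ e3) ∈ H := by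
      rw [siegT_swap Q (upv F₀ e3) (upv F₀ f2) (-ν) hE3 hF2 hE3F2, neg_neg] at s3
      exact s3
    have s5 : siegT Q (upv F₀ e1) ((μ * ν) • upv F₀ e3) ∈ H :=
      siegT_K1 Q H (upv F₀ e1) (upv F₀ e2) (upv F₀ f2) (upv F₀ e3) μ ν hE1 hE1E2 hF2 hE3
        hF2E3 hE1F2 hE1E3 hE3E2 hF2E2 hμ s4
    have := siegT_K1 Q H (upv F₀ e1) (upv F₀ e3) (upv F₀ f3) (upv F₀ e2) (μ * ν) 1 hE1 hE1E3 hF3
      hE2 hF3E2 hE1F3 hE1E2 hE2E3 hF3E3 s5 r3
    rwa [mul_one] at this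
  have hratm : ∀ f : F₀, siegT Q (upv F₀ e1) ((f : F) • upv F₀ e2) ∈ H := by
    intro f
    rw [← upv_smul]
    exact hC.sieg_mem e1 (f • e2) he1Q (by rw [polar_smul_right, he1e2, smul_zero])
  have hpolm : ∀ μ : F, polar Q (upv F₀ e1) (μ • upv F₀ e2) = 0 := fun μ => by
    rw [polar_smul_right, hE1E2, smul_zero]
  obtain ⟨A, hA⟩ : ∃ A : Subalgebra F₀ F, ∀ lam : F, lam ∈ A ↔
      siegT Q (upv F₀ e1) (lam • upv F₀ e2) ∈ H :=
    ⟨{ carrier := {lam | siegT Q (upv F₀ e1) (lam • upv F₀ e2) ∈ H}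
       mul_mem' := fun {μ ν} hμ hν => key μ ν hμ hν
       one_mem' := hratm 1
       add_mem' := by
         intro μ ν hμ hν
         show siegT Q (upv F₀ e1) ((μ + ν) • upv F₀ e2) ∈ H
         rw [add_smul, ← siegT_mul Q _ _ _ hE1 (hpolm μ) (hpolm ν)]
         exact H.mul_mem hμ hν
       zero_mem' := by
         show siegT Q (upv F₀ e1) ((0 : F) • upv F₀ e2) ∈ H
         rw [zero_smul, siegT_zero_right Q _ hE1]
         exact H.one_mem
       algebraMap_mem' := fun f => hratm f }, fun lam => Iff.rfl⟩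
  have hAtop := subalg_top F₀ r hr hcard A μ₀ hμ₀ ((hA μ₀).2 hμ₀H)
  exact ⟨e1, f1, e2, f2, he1Q, hf1Q, he2Q, hf2Q, he1f1, he2f2, he1e2, he1f2,
    (polar_comm Q₀ f1 e2).trans he2f1, hf1f2, fun μ => (hA μ).1 (hAtop μ)⟩

end OSubF

end Cfsg.Agent.Helper16
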