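import Cfsg.Agent.Helper16.SL2Gen
import Cfsg.Agent.S0264
import Cfsg.Agent.S0286

set_option autoImplicit false
open Cfsg

namespace Cfsg.Agent.Helper16

open Matrix

section O3
variable {F : Type*} [Field F]

/-- encoding of vectors as symmetric matrices -/
def enc3 : (Unit ⊕ (Fin 1 ⊕ Fin 1) → F) →ₗ[F] Matrix (Fin 2) (Fin 2) F where
  toFun v := !![v (Sum.inr (Sum.inl 0)), v (Sum.inl ()); v (Sum.inl ()), -v (Sum.inr (Sum.inr 0))]
  map_add' u v := by
    ext i j
    fin_cases i <;> fin_cases j <;> simp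
    ring
  map_smul' c v := by
    ext i j
    fin_cases i <;> fin_cases j <;> simp

/-- decoding -/
def dec3 : Matrix (Fin 2) (Fin 2) F →ₗ[F] (Unit ⊕ (Fin 1 ⊕ Fin 1) → F) where
  toFun X := Sum.elim (fun _ => X 0 1) (Sum.elim (fun _ => X 0 0) (fun _ => -X 1 1))
  map_add' X Y := by
    ext i
    rcases i with i | i | i <;> simp
    ring
  map_smul' c X := by
    ext i
    rcases i with i | i | i <;> simp

theorem dec3_enc3 (v : Unit ⊕ (Fin 1 ⊕ Fin 1) → F) : dec3 (enc3 v) = v := by
  ext i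
  rcases i with i | i | i
  · rfl
  · show v (Sum.inr (Sum.inl 0)) = v (Sum.inr (Sum.inl i))
    rw [Subsingleton.elim i 0]
  · show - -v (Sum.inr (Sum.inr 0)) = v (Sum.inr (Sum.inr i))
    rw [Subsingleton.elim i 0, neg_neg]

theorem enc3_dec3 (X : Matrix (Fin 2) (Fin 2) F) (h : X 1 0 = X 0 1) : enc3 (dec3 X) = X := by
  ext i j
  fin_cases i <;> fin_cases j <;> simp [enc3, dec3, h]

theorem enc3_symm (v : Unit ⊕ (Fin 1 ⊕ Fin 1) → F) : (enc3 v) 1 0 = (enc3 v) 0 1 := rfl

/-- the action of `GL₂` on matrices, `X ↦ (det A)⁻¹ A X Aᵀ` -/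
def act3 : GL (Fin 2) F →* Module.End F (Matrix (Fin 2) (Fin 2) F) where
  toFun A :=
    { toFun := fun X => ((A : Matrix (Fin 2) (Fin 2) F).det)⁻¹ •
        ((A : Matrix (Fin 2) (Fin 2) F) * X * (A : Matrix (Fin 2) (Fin 2) F)ᵀ)
      map_add' := fun X Y => by rw [Matrix.mul_add, Matrix.add_mul, smul_add]
      map_smul' := fun c X => by
        rw [Matrix.mul_smul, Matrix.smul_mul, smul_comm]
        rfl }
  map_one' := by
    apply LinearMap.ext
    intro X
    show ((1 : Matrix (Fin 2) (Fin 2) F).det)⁻¹ • ((1 : Matrix (Fin 2) (Fin 2) F) * X *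
      (1 : Matrix (Fin 2) (Fin 2) F)ᵀ) = X
    simp
  map_mul' A B := by
    apply LinearMap.ext
    intro X
    show (((A : Matrix (Fin 2) (Fin 2) F) * (B : Matrix (Fin 2) (Fin 2) F)).det)⁻¹ •
      (((A : Matrix (Fin 2) (Fin 2) F) * (B : Matrix (Fin 2) (Fin 2) F)) * X *
        ((A : Matrix (Fin 2) (Fin 2) F) * (B : Matrix (Fin 2) (Fin 2) F))ᵀ) =
      ((A : Matrix (Fin 2) (Fin 2) F).det)⁻¹ • ((A : Matrix (Fin 2) (Fin 2) F) *
        (((B : Matrix (Fin 2) (Fin 2) F).det)⁻¹ • ((B : Matrix (Fin 2) (Fin 2) F) * X *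
          (B : Matrix (Fin 2) (Fin 2) F)ᵀ)) * (A : Matrix (Fin 2) (Fin 2) F)ᵀ)
    rw [Matrix.det_mul, Matrix.transpose_mul, Matrix.mul_smul, Matrix.smul_mul, smul_smul,
      mul_inv]
    simp only [Matrix.mul_assoc]

theorem act3_apply (A : GL (Fin 2) F) (X : Matrix (Fin 2) (Fin 2) F) :
    act3 A X = ((A : Matrix (Fin 2) (Fin 2) F).det)⁻¹ •
        ((A : Matrix (Fin 2) (Fin 2) F) * X * (A : Matrix (Fin 2) (Fin 2) F)ᵀ) := rfl

theorem gl_det_ne_zero {n : Type*} [Fintype n] [DecidableEq n] (A : GL n F) :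
    (A : Matrix n n F).det ≠ 0 :=
  isUnit_iff_ne_zero.1 ((Matrix.isUnit_iff_isUnit_det _).1 A.isUnit)

/-- the model of the three-dimensional orthogonal space by symmetric matrices -/
def model3 : ModelData (quadFormOdd 1 F) (Matrix (Fin 2) (Fin 2) F) (GL (Fin 2) F) where
  enc := enc3
  dec := dec3
  actM := act3
  N := fun X => -X.det
  dec_enc := dec3_enc3
  stable := by
    intro A v
    apply enc3_dec3
    rw [act3_apply]
    have hs : ((A : Matrix (Fin 2) (Fin 2) F) * enc3 v * (A : Matrix (Fin 2) (Fin 2) F)ᵀ)ᵀ =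
        (A : Matrix (Fin 2) (Fin 2) F) * enc3 v * (A : Matrix (Fin 2) (Fin 2) F)ᵀ := by
      rw [Matrix.transpose_mul, Matrix.transpose_mul, Matrix.transpose_transpose, Matrix.mul_assoc]
      congr 2
      ext i j
      fin_cases i <;> fin_cases j <;> rfl
    have h1 := congrFun (congrFun hs 0) 1
    rw [Matrix.transpose_apply] at h1
    rw [Matrix.smul_apply, Matrix.smul_apply, h1]
  N_enc := by
    intro v
    simp [enc3, Matrix.det_fin_two, quadFormOdd]
    ring
  N_act := by
    intro A v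
    have hd := gl_det_ne_zero A
    rw [act3_apply, Matrix.det_smul, Matrix.det_mul, Matrix.det_mul, Matrix.det_transpose,
      Fintype.card_fin]
    field_simp

/-- the homomorphism `SL₂ → O₃` -/
noncomputable def Phi3 : Matrix.SpecialLinearGroup (Fin 2) F →*
    ↥(isometryGroup F (quadFormOdd 1 F)) :=
  (model3 (F := F)).hom.comp Matrix.SpecialLinearGroup.toGL

theorem Phi3_eq_iff (s t : Matrix.SpecialLinearGroup (Fin 2) F) :
    Phi3 s = Phi3 t ↔ ∀ X : Matrix (Fin 2) (Fin 2) F, X 1 0 = X 0 1 →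
      s.val * X * s.valᵀ = t.val * X * t.valᵀ := by
  have hs : ∀ (s : Matrix.SpecialLinearGroup (Fin 2) F) (X : Matrix (Fin 2) (Fin 2) F),
      act3 (Matrix.SpecialLinearGroup.toGL s) X = s.val * X * s.valᵀ := by
    intro s X
    rw [act3_apply]
    have : ((Matrix.SpecialLinearGroup.toGL s : GL (Fin 2) F) : Matrix (Fin 2) (Fin 2) F) =
        s.val := rfl
    rw [this, s.2, inv_one, one_smul]
  show (model3 (F := F)).hom (Matrix.SpecialLinearGroup.toGL s) =
    (model3 (F := F)).hom (Matrix.SpecialLinearGroup.toGL t) ↔ _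
  rw [ModelData.hom_eq_iff]
  constructor
  · intro h X hX
    have h1 := h (dec3 X)
    have h2 : act3 (Matrix.SpecialLinearGroup.toGL s) (enc3 (dec3 X)) =
        act3 (Matrix.SpecialLinearGroup.toGL t) (enc3 (dec3 X)) := h1
    rw [enc3_dec3 X hX, hs, hs] at h2
    exact h2
  · intro h v
    show act3 (Matrix.SpecialLinearGroup.toGL s) (enc3 v) =
        act3 (Matrix.SpecialLinearGroup.toGL t) (enc3 v)
    rw [hs, hs]
    exact h _ (enc3_symm v)

/-- a matrix of determinant one fixing all symmetric matrices under congruence is `±1` -/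
theorem pm_one_of_fix_symm (C : Matrix.SpecialLinearGroup (Fin 2) F)
    (h : ∀ X : Matrix (Fin 2) (Fin 2) F, X 1 0 = X 0 1 → C.val * X * C.valᵀ = X) :
    C.val = 1 ∨ C.val = -1 := by
  have hdet := sl2_det C
  obtain ⟨α, hα⟩ : ∃ α, α = C.val 0 0 := ⟨_, rfl⟩
  obtain ⟨β, hβ⟩ : ∃ β, β = C.val 0 1 := ⟨_, rfl⟩
  obtain ⟨γ, hγ⟩ : ∃ γ, γ = C.val 1 0 := ⟨_, rfl⟩
  obtain ⟨δ, hδ⟩ : ∃ δ, δ = C.val 1 1 := ⟨_, rfl⟩
  rw [← hα, ← hβ, ← hγ, ← hδ] at hdet
  have hC : C.val = !![α, β; γ, δ] := by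
    rw [hα, hβ, hγ, hδ]
    exact Matrix.eta_fin_two _
  have h1 := h !![1, 0; 0, 0] rfl
  have h2 := h !![0, 0; 0, 1] rfl
  rw [hC] at h1 h2
  have h1a := congrFun (congrFun h1 0) 0
  have h1b := congrFun (congrFun h1 1) 1
  have h2a := congrFun (congrFun h2 0) 0
  have h2b := congrFun (congrFun h2 1) 1
  simp [Matrix.mul_apply, Fin.sum_univ_two] at h1a h1b h2a h2b
  have hγ0 : γ = 0 := h1b
  have hβ0 : β = 0 := h2a
  have hαδ : α * δ = 1 := by rw [hβ0] at hdet; linear_combination hdet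
  have hαα : α * α = 1 := h1a
  have hδα : δ = α := by
    have hα0 : α ≠ 0 := left_ne_zero_of_mul_eq_one hαδ
    have : α * (δ - α) = 0 := by linear_combination hαδ - hαα
    rcases mul_eq_zero.1 this with h3 | h3
    · exact absurd h3 hα0
    · linear_combination h3
  have hα1 : (α - 1) * (α + 1) = 0 := by linear_combination hαα
  rcases mul_eq_zero.1 hα1 with h3 | h3
  · left
    have : α = 1 := by linear_combination h3
    rw [hC, hγ0, hβ0, hδα, this, Matrix.one_fin_two]
  · right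
    have : α = -1 := by linear_combination h3
    rw [hC, hγ0, hβ0, hδα, this]
    ext i j
    fin_cases i <;> fin_cases j <;> simp

theorem Phi3_pm (s t : Matrix.SpecialLinearGroup (Fin 2) F) (h : Phi3 s = Phi3 t) :
    s.val = t.val ∨ s.val = -t.val := by
  have h1 : Phi3 (t⁻¹ * s) = Phi3 1 := by rw [map_mul, map_inv, h, inv_mul_cancel, map_one]
  rw [Phi3_eq_iff] at h1
  have h2 := pm_one_of_fix_symm (t⁻¹ * s) (by
    intro X hX
    have := h1 X hX
    simpa using this)
  have h3 : s.val = t.val * (t⁻¹ * s).val := by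
    rw [← Matrix.SpecialLinearGroup.coe_mul, mul_inv_cancel_left]
  rcases h2 with h2 | h2
  · left
    rw [h3, h2, mul_one]
  · right
    rw [h3, h2, mul_neg, mul_one]

end O3

section O3fin
variable {F : Type*} [Field F] [Fintype F]

theorem pomega3_iso (hodd : Odd (Fintype.card F)) :
    Nonempty (POmega F (quadFormOdd 1 F) ≃* Matrix.ProjectiveSpecialLinearGroup (Fin 2) F) := by
  classical
  have h2 : (2 : F) ≠ 0 := two_ne_zero_of_odd_card hodd
  obtain ⟨q, hq⟩ : ∃ q, q = Fintype.card F := ⟨_, rfl⟩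
  have hq3 : 3 ≤ q := by
    have h1 : 1 < Fintype.card F := Fintype.one_lt_card
    rcases hodd with ⟨k, hk⟩
    omega
  refine iso_of_hom_general (Phi3 (F := F))
    (QuotientGroup.mk' (Subgroup.center (Matrix.SpecialLinearGroup (Fin 2) F)))
    (QuotientGroup.mk'_surjective _) ?_ ?_ ?_
  · intro s
    have hmem : (Matrix.SpecialLinearGroup.toGL s : GL (Fin 2) F) ∈ commutator (GL (Fin 2) F) := by
      rw [Cfsg.Agent.S0264.result (F := F) 2 (fun _ => ⟨-1, neg_ne_zero.2 one_ne_zero,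
        fun h => h2 (by linear_combination (-1 : F) * h)⟩), MonoidHom.mem_ker]
      apply Units.ext
      exact s.2
    exact map_mem_commutator (model3 (F := F)).hom _ hmem
  · have hO : Nat.card ↥(isometryGroup F (quadFormOdd 1 F)) = 2 * q * (q ^ 2 - 1) := by
      have h := Cfsg.Agent.S0286.result hq.symm (by rw [hq]; exact hodd) 1
      simpa using h
    have hidx : (Omega F (quadFormOdd 1 F)).index = 4 := by
      have h := Omega_index_odd h2 (by simp) (qfOdd 1 F) (qfOdd_nondegenerate h2)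
      rw [coe_qfOdd] at h
      exact h
    have hΩ := Subgroup.card_mul_index (Omega F (quadFormOdd 1 F))
    rw [hidx, hO] at hΩ
    have hS : (q - 1) * Nat.card (Matrix.SpecialLinearGroup (Fin 2) F) =
        (q ^ 2 - 1) * (q ^ 2 - q) := by
      have h := Cfsg.Agent.S0242.result hq.symm 2 (by norm_num)
      simpa [Fin.prod_univ_two] using h
    have hker : Nat.card (Phi3 (F := F)).ker ≤ 2 := by
      apply card_le_two_of_pair _ negOne2
      intro g hg
      have h1 : Phi3 g = Phi3 1 := by rw [map_one]; exact hg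
      rcases Phi3_pm g 1 h1 with h3 | h3
      · left
        exact Subtype.ext h3
      · right
        exact Subtype.ext h3
    have hki := Subgroup.card_mul_index (Phi3 (F := F)).ker
    rw [Subgroup.index_ker] at hki
    obtain ⟨k, rfl⟩ : ∃ k, q = k + 1 := ⟨q - 1, by omega⟩
    have e1 : (k + 1) ^ 2 - 1 = k * (k + 2) := by
      have : (k + 1) ^ 2 = k * (k + 2) + 1 := by ring
      omega
    have e2 : (k + 1) ^ 2 - (k + 1) = k * (k + 1) := by
      have : (k + 1) ^ 2 = k * (k + 1) + (k + 1) := by ring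
      omega
    rw [e1] at hΩ
    rw [e1, e2, Nat.add_sub_cancel] at hS
    have hk : 0 < k := by omega
    have hS' : Nat.card (Matrix.SpecialLinearGroup (Fin 2) F) = (k + 2) * (k * (k + 1)) := by
      apply Nat.eq_of_mul_eq_mul_left hk
      rw [hS]
      ring
    rw [hS'] at hki
    show Nat.card ↥(Omega F (quadFormOdd 1 F)) ≤ _
    have h5 : Nat.card ↥(Omega F (quadFormOdd 1 F)) * 2 =
        Nat.card (Phi3 (F := F)).ker * Nat.card (Phi3 (F := F)).range := by
      rw [hki]
      have : Nat.card ↥(Omega F (quadFormOdd 1 F)) * 4 = 2 * ((k + 2) * (k * (k + 1))) := by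
        rw [hΩ]; ring
      omega
    have h6 : Nat.card (Phi3 (F := F)).ker * Nat.card (Phi3 (F := F)).range ≤
        2 * Nat.card (Phi3 (F := F)).range := Nat.mul_le_mul_right _ hker
    omega
  · intro s
    rw [QuotientGroup.mk'_apply, QuotientGroup.eq_one_iff]
    constructor
    · intro h
      apply sl2_central_of_pm
      · exact Phi3_pm _ _ (h (E12 1))
      · exact Phi3_pm _ _ (h (E21 1))
    · intro h t
      rw [Subgroup.mem_center_iff] at h
      rw [h t]

end O3fin

end Cfsg.Agent.Helper16
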