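import Cfsg.Agent.Helper16.QuadExt
import Cfsg.Agent.S0288
import Cfsg.Agent.S2540

set_option autoImplicit false
open Cfsg

namespace Cfsg.Agent.Helper16

open Matrix
open scoped commutatorElement

section AbstractIndex

/-- the cardinality bound needed for the isomorphism criterion -/
theorem card_commutator_le_range {S O : Type*} [Group S] [Group O] [Finite O]
    (Φ : S →* O) (N : ℕ) (hS : Nat.card S = N) (hO : Nat.card O = 2 * N) (hN : 0 < N)
    (h : Nat.card Φ.ker = 1 ∨ (Nat.card Φ.ker ≤ 2 ∧ (commutator O).index = 4)) :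
    Nat.card (commutator O) ≤ Nat.card Φ.range := by
  have hki := Subgroup.card_mul_index Φ.ker
  rw [Subgroup.index_ker, hS] at hki
  rcases h with h | ⟨h, hidx⟩
  · rw [h, one_mul] at hki
    have hri := Subgroup.card_mul_index Φ.range
    rw [hki, hO] at hri
    have hidx : Φ.range.index = 2 := by
      have : N * Φ.range.index = N * 2 := by rw [hri]; ring
      exact Nat.eq_of_mul_eq_mul_left hN this
    exact Subgroup.card_le_of_le (commutator_le_of_index_two _ hidx)
  · have hΩ := Subgroup.card_mul_index (commutator O)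
    rw [hidx, hO] at hΩ
    have h6 : Nat.card Φ.ker * Nat.card Φ.range ≤ 2 * Nat.card Φ.range :=
      Nat.mul_le_mul_right _ h
    omega

end AbstractIndex

section O4m
variable {F K : Type*} [Field F] [Field K] {a b : F} {q : ℕ} (E : QExt F K a b q)

/-- conjugate transpose -/
def QExt.star (X : Matrix (Fin 2) (Fin 2) K) : Matrix (Fin 2) (Fin 2) K := (X.map E.conj)ᵀ

theorem QExt.star_apply (X : Matrix (Fin 2) (Fin 2) K) (i j : Fin 2) :
    E.star X i j = E.conj (X j i) := rfl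

theorem QExt.star_mul (X Y : Matrix (Fin 2) (Fin 2) K) : E.star (X * Y) = E.star Y * E.star X := by
  unfold QExt.star
  rw [Matrix.map_mul, Matrix.transpose_mul]

theorem QExt.star_star (X : Matrix (Fin 2) (Fin 2) K) : E.star (E.star X) = X := by
  ext i j
  rw [E.star_apply, E.star_apply, E.conj_conj']

theorem QExt.star_one : E.star (1 : Matrix (Fin 2) (Fin 2) K) = 1 := by
  ext i j
  rw [E.star_apply, Matrix.one_apply, Matrix.one_apply]
  by_cases h : i = j
  · rw [if_pos h, if_pos h.symm, map_one]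
  · rw [if_neg h, if_neg (Ne.symm h), map_zero]

theorem QExt.det_star (X : Matrix (Fin 2) (Fin 2) K) : (E.star X).det = E.conj X.det := by
  unfold QExt.star
  rw [Matrix.det_transpose, RingHom.map_det]
  rfl

/-- the Hermitian matrix of a vector -/
def QExt.herm (v : (Fin 1 ⊕ Fin 1) ⊕ Fin 2 → F) : Matrix (Fin 2) (Fin 2) K :=
  !![E.ι (v (Sum.inl (Sum.inl 0))), E.ι (v (Sum.inr 0)) + E.ι (v (Sum.inr 1)) * E.θ;
     E.ι (v (Sum.inr 0)) + E.ι (v (Sum.inr 1)) * (E.ι a - E.θ), -E.ι (v (Sum.inl (Sum.inr 0)))]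

/-- the vector of a matrix -/
def QExt.unherm (X : Matrix (Fin 2) (Fin 2) K) : (Fin 1 ⊕ Fin 1) ⊕ Fin 2 → F :=
  Sum.elim (Sum.elim (fun _ => (E.co (X 0 0)).1) (fun _ => -(E.co (X 1 1)).1))
    ![(E.co (X 0 1)).1, (E.co (X 0 1)).2]

theorem QExt.unherm_herm (v : (Fin 1 ⊕ Fin 1) ⊕ Fin 2 → F) : E.unherm (E.herm v) = v := by
  ext i
  rcases i with (i | i) | i
  · show (E.co (E.ι (v (Sum.inl (Sum.inl 0))))).1 = v (Sum.inl (Sum.inl i))
    rw [E.co_ι, Subsingleton.elim i 0]
  · show -(E.co (-E.ι (v (Sum.inl (Sum.inr 0))))).1 = v (Sum.inl (Sum.inr i))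
    rw [E.co_neg, E.co_ι, Subsingleton.elim i 0]
    simp
  · have h : E.co (E.ι (v (Sum.inr 0)) + E.ι (v (Sum.inr 1)) * E.θ) =
        (v (Sum.inr 0), v (Sum.inr 1)) := E.co_ι_add _ _
    fin_cases i
    · show (E.co (E.ι (v (Sum.inr 0)) + E.ι (v (Sum.inr 1)) * E.θ)).1 = v (Sum.inr 0)
      rw [h]
    · show (E.co (E.ι (v (Sum.inr 0)) + E.ι (v (Sum.inr 1)) * E.θ)).2 = v (Sum.inr 1)
      rw [h]

theorem QExt.herm_unherm (X : Matrix (Fin 2) (Fin 2) K) (hX : E.star X = X) :
    E.herm (E.unherm X) = X := by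
  have h00 : E.conj (X 0 0) = X 0 0 := by
    have := congrFun (congrFun hX 0) 0
    rwa [E.star_apply] at this
  have h11 : E.conj (X 1 1) = X 1 1 := by
    have := congrFun (congrFun hX 1) 1
    rwa [E.star_apply] at this
  have h10 : E.conj (X 0 1) = X 1 0 := by
    have := congrFun (congrFun hX 1) 0
    rwa [E.star_apply] at this
  ext i j
  fin_cases i <;> fin_cases j
  · show E.ι (E.co (X 0 0)).1 = X 0 0
    exact (E.fixed_of_conj _ h00).symm
  · show E.ι (E.co (X 0 1)).1 + E.ι (E.co (X 0 1)).2 * E.θ = X 0 1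
    exact (E.hco _).symm
  · show E.ι (E.co (X 0 1)).1 + E.ι (E.co (X 0 1)).2 * (E.ι a - E.θ) = X 1 0
    rw [← E.conj_coord, ← E.hco, h10]
  · show -E.ι (-(E.co (X 1 1)).1) = X 1 1
    rw [map_neg, neg_neg]
    exact (E.fixed_of_conj _ h11).symm

theorem QExt.star_herm (v : (Fin 1 ⊕ Fin 1) ⊕ Fin 2 → F) : E.star (E.herm v) = E.herm v := by
  ext i j
  rw [E.star_apply]
  fin_cases i <;> fin_cases j
  · exact E.conj_ι' _
  · show E.conj (E.ι (v (Sum.inr 0)) + E.ι (v (Sum.inr 1)) * (E.ι a - E.θ)) = _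
    rw [map_add, map_mul, map_sub, E.conj_ι', E.conj_ι', E.conj_ι', E.conj_θ']
    show _ = E.ι (v (Sum.inr 0)) + E.ι (v (Sum.inr 1)) * E.θ
    ring
  · exact E.conj_coord _ _
  · show E.conj (-E.ι (v (Sum.inl (Sum.inr 0)))) = -E.ι (v (Sum.inl (Sum.inr 0)))
    rw [map_neg, E.conj_ι']

theorem QExt.herm_add (u v : (Fin 1 ⊕ Fin 1) ⊕ Fin 2 → F) :
    E.herm (u + v) = E.herm u + E.herm v := by
  ext i j
  fin_cases i <;> fin_cases j <;> simp [QExt.herm] <;> ring

theorem QExt.herm_smul (c : F) (v : (Fin 1 ⊕ Fin 1) ⊕ Fin 2 → F) :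
    E.herm (c • v) = E.ι c • E.herm v := by
  ext i j
  fin_cases i <;> fin_cases j <;> simp [QExt.herm] <;> ring

theorem QExt.unherm_add (X Y : Matrix (Fin 2) (Fin 2) K) :
    E.unherm (X + Y) = E.unherm X + E.unherm Y := by
  ext i
  rcases i with (i | i) | i
  · show (E.co (X 0 0 + Y 0 0)).1 = (E.co (X 0 0)).1 + (E.co (Y 0 0)).1
    rw [E.co_add]
    rfl
  · show -(E.co (X 1 1 + Y 1 1)).1 = -(E.co (X 1 1)).1 + -(E.co (Y 1 1)).1
    rw [E.co_add]
    show -((E.co (X 1 1)).1 + (E.co (Y 1 1)).1) = _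
    ring
  · fin_cases i
    · show (E.co (X 0 1 + Y 0 1)).1 = (E.co (X 0 1)).1 + (E.co (Y 0 1)).1
      rw [E.co_add]
      rfl
    · show (E.co (X 0 1 + Y 0 1)).2 = (E.co (X 0 1)).2 + (E.co (Y 0 1)).2
      rw [E.co_add]
      rfl

theorem QExt.unherm_smul (c : F) (X : Matrix (Fin 2) (Fin 2) K) :
    E.unherm (E.ι c • X) = c • E.unherm X := by
  ext i
  rcases i with (i | i) | i
  · show (E.co (E.ι c * X 0 0)).1 = c * (E.co (X 0 0)).1
    rw [E.co_ι_mul]
  · show -(E.co (E.ι c * X 1 1)).1 = c * -(E.co (X 1 1)).1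
    rw [E.co_ι_mul]
    ring
  · fin_cases i
    · show (E.co (E.ι c * X 0 1)).1 = c * (E.co (X 0 1)).1
      rw [E.co_ι_mul]
    · show (E.co (E.ι c * X 0 1)).2 = c * (E.co (X 0 1)).2
      rw [E.co_ι_mul]

theorem QExt.det_herm (v : (Fin 1 ⊕ Fin 1) ⊕ Fin 2 → F) :
    (E.herm v).det = -E.ι (quadFormMinus 1 F a b v) := by
  have h := E.norm_eq (v (Sum.inr 0)) (v (Sum.inr 1))
  simp only [QExt.herm, Matrix.det_fin_two_of, quadFormMinus, Finset.univ_unique,
    Fin.default_eq_zero, Finset.sum_singleton, map_add, map_mul, map_pow] at h ⊢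
  linear_combination (-1 : K) * h

/-- the congruence `X ↦ A X A*` -/
def QExt.cong (A X : Matrix (Fin 2) (Fin 2) K) : Matrix (Fin 2) (Fin 2) K := A * X * E.star A

theorem QExt.star_cong (A X : Matrix (Fin 2) (Fin 2) K) (hX : E.star X = X) :
    E.star (E.cong A X) = E.cong A X := by
  unfold QExt.cong
  rw [E.star_mul, E.star_mul, E.star_star, hX, Matrix.mul_assoc]

/-- the action of `SL₂(K)` on the four-dimensional space -/
def QExt.actH : Matrix.SpecialLinearGroup (Fin 2) K →*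
    Module.End F ((Fin 1 ⊕ Fin 1) ⊕ Fin 2 → F) where
  toFun A :=
    { toFun := fun v => E.unherm (E.cong A.val (E.herm v))
      map_add' := fun u v => by
        unfold QExt.cong
        rw [E.herm_add, Matrix.mul_add, Matrix.add_mul, E.unherm_add]
      map_smul' := fun c v => by
        unfold QExt.cong
        rw [E.herm_smul, Matrix.mul_smul, Matrix.smul_mul, E.unherm_smul]
        rfl }
  map_one' := by
    apply LinearMap.ext
    intro v
    show E.unherm (E.cong (1 : Matrix.SpecialLinearGroup (Fin 2) K).val (E.herm v)) = v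
    unfold QExt.cong
    rw [Matrix.SpecialLinearGroup.coe_one, E.star_one, Matrix.one_mul, Matrix.mul_one,
      E.unherm_herm]
  map_mul' A B := by
    apply LinearMap.ext
    intro v
    show E.unherm (E.cong (A * B).val (E.herm v)) =
      E.unherm (E.cong A.val (E.herm (E.unherm (E.cong B.val (E.herm v)))))
    rw [E.herm_unherm _ (E.star_cong _ _ (E.star_herm v))]
    unfold QExt.cong
    rw [Matrix.SpecialLinearGroup.coe_mul, E.star_mul]
    simp only [Matrix.mul_assoc]

theorem QExt.actH_apply (A : Matrix.SpecialLinearGroup (Fin 2) K)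
    (v : (Fin 1 ⊕ Fin 1) ⊕ Fin 2 → F) :
    E.actH A v = E.unherm (E.cong A.val (E.herm v)) := rfl

theorem QExt.herm_actH (A : Matrix.SpecialLinearGroup (Fin 2) K)
    (v : (Fin 1 ⊕ Fin 1) ⊕ Fin 2 → F) :
    E.herm (E.actH A v) = E.cong A.val (E.herm v) := by
  rw [E.actH_apply, E.herm_unherm _ (E.star_cong _ _ (E.star_herm v))]

/-- the model of the minus-type four-dimensional space -/
def QExt.model4m : ModelData (quadFormMinus 1 F a b) ((Fin 1 ⊕ Fin 1) ⊕ Fin 2 → F)
    (Matrix.SpecialLinearGroup (Fin 2) K) where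
  enc := LinearMap.id
  dec := LinearMap.id
  actM := E.actH
  N := quadFormMinus 1 F a b
  dec_enc := fun v => rfl
  stable := fun s v => rfl
  N_enc := fun v => rfl
  N_act := by
    intro A v
    show quadFormMinus 1 F a b (E.actH A v) = quadFormMinus 1 F a b v
    apply E.ι_injective
    have h1 := E.det_herm (E.actH A v)
    have h2 := E.det_herm v
    rw [E.herm_actH] at h1
    unfold QExt.cong at h1
    rw [Matrix.det_mul, Matrix.det_mul, E.det_star, A.2, map_one, one_mul, mul_one, h2] at h1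
    linear_combination h1

/-- the homomorphism `SL₂(K) → O⁻₄(F)` -/
noncomputable def QExt.Phi4m : Matrix.SpecialLinearGroup (Fin 2) K →*
    ↥(isometryGroup F (quadFormMinus 1 F a b)) := E.model4m.hom

theorem QExt.Phi4m_eq_iff (s t : Matrix.SpecialLinearGroup (Fin 2) K) :
    E.Phi4m s = E.Phi4m t ↔ ∀ v, E.cong s.val (E.herm v) = E.cong t.val (E.herm v) := by
  show E.model4m.hom s = E.model4m.hom t ↔ _
  rw [ModelData.hom_eq_iff]
  constructor
  · intro h v
    have h1 : E.actH s v = E.actH t v := h v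
    rw [← E.herm_actH, ← E.herm_actH, h1]
  · intro h v
    show E.actH s v = E.actH t v
    rw [E.actH_apply, E.actH_apply, h v]

/-- a matrix fixing all Hermitian matrices is `±1` -/
theorem QExt.pm_one_of_fix_herm (C : Matrix.SpecialLinearGroup (Fin 2) K)
    (h : ∀ v, E.cong C.val (E.herm v) = E.herm v) : C.val = 1 ∨ C.val = -1 := by
  have hdet := sl2_det C
  obtain ⟨α, hα⟩ : ∃ α, α = C.val 0 0 := ⟨_, rfl⟩
  obtain ⟨β, hβ⟩ : ∃ β, β = C.val 0 1 := ⟨_, rfl⟩
  obtain ⟨γ, hγ⟩ : ∃ γ, γ = C.val 1 0 := ⟨_, rfl⟩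
  obtain ⟨δ, hδ⟩ : ∃ δ, δ = C.val 1 1 := ⟨_, rfl⟩
  rw [← hα, ← hβ, ← hγ, ← hδ] at hdet
  have hC : C.val = !![α, β; γ, δ] := by
    rw [hα, hβ, hγ, hδ]
    exact Matrix.eta_fin_two _
  have hstar : E.star C.val = !![E.conj α, E.conj γ; E.conj β, E.conj δ] := by
    rw [hC]
    ext i j
    fin_cases i <;> fin_cases j <;> rfl
  have hconj0 : ∀ x : K, x * E.conj x = 0 → x = 0 := by
    intro x hx
    rcases mul_eq_zero.1 hx with h1 | h1
    · exact h1
    · have h2 := E.conj_conj' x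
      rw [h1, map_zero] at h2
      exact h2.symm
  have e1 : E.herm (Pi.single (Sum.inl (Sum.inl 0)) 1 : (Fin 1 ⊕ Fin 1) ⊕ Fin 2 → F) =
      !![1, 0; 0, 0] := by
    ext i j
    fin_cases i <;> fin_cases j <;> simp [QExt.herm]
  have e2 : E.herm (Pi.single (Sum.inl (Sum.inr 0)) 1 : (Fin 1 ⊕ Fin 1) ⊕ Fin 2 → F) =
      !![0, 0; 0, -1] := by
    ext i j
    fin_cases i <;> fin_cases j <;> simp [QExt.herm]
  have e3 : E.herm (Pi.single (Sum.inr 0) 1 : (Fin 1 ⊕ Fin 1) ⊕ Fin 2 → F) =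
      !![0, 1; 1, 0] := by
    ext i j
    fin_cases i <;> fin_cases j <;> simp [QExt.herm]
  have h1 := h (Pi.single (Sum.inl (Sum.inl 0)) 1)
  have h2 := h (Pi.single (Sum.inl (Sum.inr 0)) 1)
  have h3 := h (Pi.single (Sum.inr 0) 1)
  unfold QExt.cong at h1 h2 h3
  rw [e1, hstar, hC, Matrix.mul_fin_two, Matrix.mul_fin_two] at h1
  rw [e2, hstar, hC, Matrix.mul_fin_two, Matrix.mul_fin_two] at h2
  rw [e3, hstar, hC, Matrix.mul_fin_two, Matrix.mul_fin_two] at h3
  have h1a := congrFun (congrFun h1 0) 0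
  have h1b := congrFun (congrFun h1 1) 1
  have h2a := congrFun (congrFun h2 0) 0
  have h3a := congrFun (congrFun h3 0) 1
  simp at h1a h1b h2a h3a
  have hγ0 : γ = 0 := h1b
  have hβ0 : β = 0 := h2a
  rw [hβ0] at h3a hdet
  simp at h3a
  have hαδ : α * δ = 1 := by linear_combination hdet
  have hα0 : α ≠ 0 := left_ne_zero_of_mul_eq_one hαδ
  have hδc : E.conj δ = δ := mul_left_cancel₀ hα0 (h3a.trans hαδ.symm)
  have hαc : E.conj α = δ := mul_left_cancel₀ hα0 (h1a.trans hαδ.symm)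
  have hδδ : δ * δ = 1 := by
    have := congrArg E.conj hαδ
    rw [map_mul, map_one, hαc, hδc] at this
    exact this
  have hαδ' : α = δ := by
    have : δ * (α - δ) = 0 := by linear_combination hαδ - hδδ
    rcases mul_eq_zero.1 this with h4 | h4
    · rw [h4, zero_mul] at hδδ
      exact absurd hδδ zero_ne_one
    · linear_combination h4
  have hδ1 : (δ - 1) * (δ + 1) = 0 := by linear_combination hδδ
  rcases mul_eq_zero.1 hδ1 with h4 | h4
  · left
    have : δ = 1 := by linear_combination h4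
    rw [hC, hγ0, hβ0, hαδ', this, Matrix.one_fin_two]
  · right
    have : δ = -1 := by linear_combination h4
    rw [hC, hγ0, hβ0, hαδ', this]
    ext i j
    fin_cases i <;> fin_cases j <;> simp

theorem QExt.Phi4m_pm (s t : Matrix.SpecialLinearGroup (Fin 2) K) (h : E.Phi4m s = E.Phi4m t) :
    s.val = t.val ∨ s.val = -t.val := by
  have h1 : E.Phi4m (t⁻¹ * s) = E.Phi4m 1 := by
    rw [map_mul, map_inv, h, inv_mul_cancel, map_one]
  rw [E.Phi4m_eq_iff] at h1
  have h2 := E.pm_one_of_fix_herm (t⁻¹ * s) (by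
    intro v
    have := h1 v
    unfold QExt.cong at this ⊢
    rw [this, Matrix.SpecialLinearGroup.coe_one, E.star_one, Matrix.one_mul, Matrix.mul_one])
  have h3 : s.val = t.val * (t⁻¹ * s).val := by
    rw [← Matrix.SpecialLinearGroup.coe_mul, mul_inv_cancel_left]
  rcases h2 with h2 | h2
  · left
    rw [h3, h2, mul_one]
  · right
    rw [h3, h2, mul_neg, mul_one]

theorem QExt.Phi4m_ker_le :
    E.Phi4m.ker ≤ Subgroup.center (Matrix.SpecialLinearGroup (Fin 2) K) := by
  intro g hg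
  have h1 : E.Phi4m g = E.Phi4m 1 := by rw [map_one]; exact hg
  rw [Subgroup.mem_center_iff]
  intro x
  apply Subtype.ext
  show x.val * g.val = g.val * x.val
  rcases E.Phi4m_pm g 1 h1 with h3 | h3
  · rw [h3, Matrix.SpecialLinearGroup.coe_one, mul_one, one_mul]
  · rw [h3, Matrix.SpecialLinearGroup.coe_one, mul_neg, mul_one, neg_mul, one_mul]

end O4m

section O4mfin
variable {F K : Type*} [Field F] [Fintype F] [Field K] [Fintype K]

theorem pomega4minus_iso {q : ℕ} (hF : Fintype.card F = q) (hK : Fintype.card K = q ^ 2)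
    (a b : F) (hab : ∀ z₁ z₂ : F, z₁ ^ 2 + a * z₁ * z₂ + b * z₂ ^ 2 = 0 → z₁ = 0 ∧ z₂ = 0) :
    Nonempty (POmega F (quadFormMinus 1 F a b) ≃*
      Matrix.ProjectiveSpecialLinearGroup (Fin 2) K) := by
  classical
  obtain ⟨E⟩ := exists_qext hF hK a b hab
  have hq2 : 2 ≤ q := by rw [← hF]; exact Fintype.one_lt_card
  have hK4 : 4 ≤ Fintype.card K := by rw [hK]; nlinarith
  obtain ⟨c, hc0, hc2⟩ := Cfsg.Agent.S2540.exists_sq_ne_one hK4
  have hd := minus_disc_ne_all a b hab
  refine iso_of_hom_perfect E.Phi4m (Matrix.SL2.commutator_eq_top hc0 hc2) E.Phi4m_ker_le ?_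
  obtain ⟨Q, hQ⟩ : ∃ Q, Q = q ^ 2 := ⟨_, rfl⟩
  have hQ4 : 4 ≤ Q := by rw [hQ]; nlinarith
  have hO : Nat.card ↥(isometryGroup F (quadFormMinus 1 F a b)) =
      2 * Q * (Q + 1) * (Q - 1) := by
    have h := Cfsg.Agent.S0288.result hF 2 (by norm_num) a b hab
    rw [hQ]
    simpa using h
  have hS : (Q - 1) * Nat.card (Matrix.SpecialLinearGroup (Fin 2) K) =
      (Q ^ 2 - 1) * (Q ^ 2 - Q) := by
    have h := Cfsg.Agent.S0242.result (hK.trans hQ.symm) 2 (by norm_num)
    simpa [Fin.prod_univ_two] using h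
  obtain ⟨k, rfl⟩ : ∃ k, Q = k + 1 := ⟨Q - 1, by omega⟩
  have e1 : (k + 1) ^ 2 - 1 = k * (k + 2) := by
    have : (k + 1) ^ 2 = k * (k + 2) + 1 := by ring
    omega
  have e2 : (k + 1) ^ 2 - (k + 1) = k * (k + 1) := by
    have : (k + 1) ^ 2 = k * (k + 1) + (k + 1) := by ring
    omega
  rw [e1, e2, Nat.add_sub_cancel] at hS
  rw [Nat.add_sub_cancel] at hO
  have hk : 0 < k := by omega
  have hS' : Nat.card (Matrix.SpecialLinearGroup (Fin 2) K) = (k + 2) * (k * (k + 1)) := by
    apply Nat.eq_of_mul_eq_mul_left hk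
    rw [hS]
    ring
  apply card_commutator_le_range E.Phi4m ((k + 2) * (k * (k + 1))) hS'
    (by rw [hO]; ring) (by positivity)
  by_cases h2 : (2 : F) = 0
  · left
    apply card_eq_one_of_trivial
    intro g hg
    have h1 : E.Phi4m g = E.Phi4m 1 := by rw [map_one]; exact hg
    have h2K : (2 : K) = 0 := by
      have := congrArg E.ι h2
      rwa [map_ofNat, map_zero] at this
    have hneg : ∀ M : Matrix (Fin 2) (Fin 2) K, -M = M := by
      intro M
      rw [neg_eq_iff_add_eq_zero, ← two_smul K M, h2K, zero_smul]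
    rcases E.Phi4m_pm g 1 h1 with h3 | h3
    · exact Subtype.ext h3
    · rw [hneg] at h3
      exact Subtype.ext h3
  · right
    constructor
    · apply card_le_two_of_pair _ negOne2
      intro g hg
      have h1 : E.Phi4m g = E.Phi4m 1 := by rw [map_one]; exact hg
      rcases E.Phi4m_pm g 1 h1 with h3 | h3
      · left
        exact Subtype.ext h3
      · right
        exact Subtype.ext h3
    · have h := Omega_index_odd h2 (by simp) (qfMinus 1 F a b) (qfMinus_nondegenerate a b hd)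
      rw [coe_qfMinus] at h
      exact h

end O4mfin

end Cfsg.Agent.Helper16
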