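import Cfsg.Agent.Helper16.Omega3
import Cfsg.Agent.S0287

set_option autoImplicit false
open Cfsg

namespace Cfsg.Agent.Helper16

open Matrix
open scoped commutatorElement

section O4
variable {F : Type*} [Field F]

/-- encoding of vectors as two by two matrices, `det` being the quadratic form -/
def enc4 : (Fin 2 ⊕ Fin 2 → F) →ₗ[F] Matrix (Fin 2) (Fin 2) F where
  toFun v := !![v (Sum.inl 0), v (Sum.inl 1); -v (Sum.inr 1), v (Sum.inr 0)]
  map_add' u v := by
    ext i j
    fin_cases i <;> fin_cases j <;> simp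
    ring
  map_smul' c v := by
    ext i j
    fin_cases i <;> fin_cases j <;> simp

/-- decoding -/
def dec4 : Matrix (Fin 2) (Fin 2) F →ₗ[F] (Fin 2 ⊕ Fin 2 → F) where
  toFun X := Sum.elim ![X 0 0, X 0 1] ![X 1 1, -X 1 0]
  map_add' X Y := by
    ext i
    rcases i with i | i <;> fin_cases i <;> simp
    ring
  map_smul' c X := by
    ext i
    rcases i with i | i <;> fin_cases i <;> simp

theorem dec4_enc4 (v : Fin 2 ⊕ Fin 2 → F) : dec4 (enc4 v) = v := by
  ext i
  rcases i with i | i <;> fin_cases i <;> simp [dec4, enc4]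

theorem enc4_dec4 (X : Matrix (Fin 2) (Fin 2) F) : enc4 (dec4 X) = X := by
  ext i j
  fin_cases i <;> fin_cases j <;> simp [enc4, dec4]

/-- the action `X ↦ A X B⁻¹` of `GL₂ × GL₂` on matrices -/
def actLR : GL (Fin 2) F × GL (Fin 2) F →* Module.End F (Matrix (Fin 2) (Fin 2) F) where
  toFun p :=
    { toFun := fun X => (p.1 : Matrix (Fin 2) (Fin 2) F) * X *
        ((p.2⁻¹ : GL (Fin 2) F) : Matrix (Fin 2) (Fin 2) F)
      map_add' := fun X Y => by rw [Matrix.mul_add, Matrix.add_mul]
      map_smul' := fun c X => by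
        rw [Matrix.mul_smul, Matrix.smul_mul]
        rfl }
  map_one' := by
    apply LinearMap.ext
    intro X
    show ((1 : GL (Fin 2) F) : Matrix (Fin 2) (Fin 2) F) * X *
        (((1 : GL (Fin 2) F)⁻¹ : GL (Fin 2) F) : Matrix (Fin 2) (Fin 2) F) = X
    simp
  map_mul' p r := by
    apply LinearMap.ext
    intro X
    show ((p.1 * r.1 : GL (Fin 2) F) : Matrix (Fin 2) (Fin 2) F) * X *
        (((p.2 * r.2)⁻¹ : GL (Fin 2) F) : Matrix (Fin 2) (Fin 2) F) =
      (p.1 : Matrix (Fin 2) (Fin 2) F) * ((r.1 : Matrix (Fin 2) (Fin 2) F) * X *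
        ((r.2⁻¹ : GL (Fin 2) F) : Matrix (Fin 2) (Fin 2) F)) *
        ((p.2⁻¹ : GL (Fin 2) F) : Matrix (Fin 2) (Fin 2) F)
    rw [_root_.mul_inv_rev, Units.val_mul, Units.val_mul]
    simp only [Matrix.mul_assoc]

theorem actLR_apply (p : GL (Fin 2) F × GL (Fin 2) F) (X : Matrix (Fin 2) (Fin 2) F) :
    actLR p X = (p.1 : Matrix (Fin 2) (Fin 2) F) * X *
        ((p.2⁻¹ : GL (Fin 2) F) : Matrix (Fin 2) (Fin 2) F) := rfl

/-- pairs of invertible matrices with the same determinant -/
def eqDet : Subgroup (GL (Fin 2) F × GL (Fin 2) F) where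
  carrier := {p | (p.1 : Matrix (Fin 2) (Fin 2) F).det = (p.2 : Matrix (Fin 2) (Fin 2) F).det}
  mul_mem' := by
    intro p r hp hr
    show ((p.1 * r.1 : GL (Fin 2) F) : Matrix (Fin 2) (Fin 2) F).det =
      ((p.2 * r.2 : GL (Fin 2) F) : Matrix (Fin 2) (Fin 2) F).det
    rw [Units.val_mul, Units.val_mul, Matrix.det_mul, Matrix.det_mul]
    have hp' : (p.1 : Matrix (Fin 2) (Fin 2) F).det = (p.2 : Matrix (Fin 2) (Fin 2) F).det := hp
    have hr' : (r.1 : Matrix (Fin 2) (Fin 2) F).det = (r.2 : Matrix (Fin 2) (Fin 2) F).det := hr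
    rw [hp', hr']
  one_mem' := rfl
  inv_mem' := by
    intro p hp
    have hp' : (p.1 : Matrix (Fin 2) (Fin 2) F).det = (p.2 : Matrix (Fin 2) (Fin 2) F).det := hp
    show ((p.1⁻¹ : GL (Fin 2) F) : Matrix (Fin 2) (Fin 2) F).det =
      ((p.2⁻¹ : GL (Fin 2) F) : Matrix (Fin 2) (Fin 2) F).det
    have h1 : (p.1 : Matrix (Fin 2) (Fin 2) F).det *
        ((p.1⁻¹ : GL (Fin 2) F) : Matrix (Fin 2) (Fin 2) F).det = 1 := by
      rw [← Matrix.det_mul, ← Units.val_mul, mul_inv_cancel, Units.val_one, Matrix.det_one]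
    have h2 : (p.2 : Matrix (Fin 2) (Fin 2) F).det *
        ((p.2⁻¹ : GL (Fin 2) F) : Matrix (Fin 2) (Fin 2) F).det = 1 := by
      rw [← Matrix.det_mul, ← Units.val_mul, mul_inv_cancel, Units.val_one, Matrix.det_one]
    have hd := gl_det_ne_zero p.1
    rw [hp'] at h1
    exact mul_left_cancel₀ (by rw [← hp']; exact hd) (h1.trans h2.symm)

theorem gl_det_inv (B : GL (Fin 2) F) : (B : Matrix (Fin 2) (Fin 2) F).det *
    ((B⁻¹ : GL (Fin 2) F) : Matrix (Fin 2) (Fin 2) F).det = 1 := by
  rw [← Matrix.det_mul, ← Units.val_mul, mul_inv_cancel, Units.val_one, Matrix.det_one]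

/-- the model of the plus-type four-dimensional space by two by two matrices -/
def model4 : ModelData (quadFormPlus 2 F) (Matrix (Fin 2) (Fin 2) F) ↥(eqDet (F := F)) where
  enc := enc4
  dec := dec4
  actM := actLR.comp (eqDet (F := F)).subtype
  N := fun X => X.det
  dec_enc := dec4_enc4
  stable := fun s v => enc4_dec4 _
  N_enc := by
    intro v
    simp [enc4, Matrix.det_fin_two, quadFormPlus, Fin.sum_univ_two]
  N_act := by
    rintro ⟨p, hp⟩ v
    have hp' : (p.1 : Matrix (Fin 2) (Fin 2) F).det = (p.2 : Matrix (Fin 2) (Fin 2) F).det := hp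
    show (actLR p (enc4 v)).det = (enc4 v).det
    rw [actLR_apply, Matrix.det_mul, Matrix.det_mul, hp']
    linear_combination (enc4 v).det * gl_det_inv p.2

/-- the inclusion `SL₂ × SL₂ → eqDet` -/
def slPair : Matrix.SpecialLinearGroup (Fin 2) F × Matrix.SpecialLinearGroup (Fin 2) F →*
    ↥(eqDet (F := F)) :=
  (MonoidHom.prodMap Matrix.SpecialLinearGroup.toGL Matrix.SpecialLinearGroup.toGL).codRestrict _
    (by
      intro p
      show (p.1.val).det = (p.2.val).det
      rw [p.1.2, p.2.2])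

/-- the homomorphism `SL₂ × SL₂ → O⁺₄` -/
noncomputable def Phi4 : Matrix.SpecialLinearGroup (Fin 2) F × Matrix.SpecialLinearGroup (Fin 2) F →*
    ↥(isometryGroup F (quadFormPlus 2 F)) :=
  (model4 (F := F)).hom.comp slPair

theorem Phi4_eq_iff (s t : Matrix.SpecialLinearGroup (Fin 2) F × Matrix.SpecialLinearGroup (Fin 2) F) :
    Phi4 s = Phi4 t ↔ ∀ X : Matrix (Fin 2) (Fin 2) F,
      s.1.val * X * (s.2⁻¹).val = t.1.val * X * (t.2⁻¹).val := by
  show (model4 (F := F)).hom (slPair s) = (model4 (F := F)).hom (slPair t) ↔ _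
  rw [ModelData.hom_eq_iff]
  constructor
  · intro h X
    have h1 := h (dec4 X)
    have h2 : actLR (slPair s : GL (Fin 2) F × GL (Fin 2) F) (enc4 (dec4 X)) =
        actLR (slPair t : GL (Fin 2) F × GL (Fin 2) F) (enc4 (dec4 X)) := h1
    rw [enc4_dec4] at h2
    exact h2
  · intro h v
    exact h (enc4 v)

/-- a pair acting trivially is `±(1,1)` -/
theorem pm_one_of_fix_all (C D : Matrix.SpecialLinearGroup (Fin 2) F)
    (h : ∀ X : Matrix (Fin 2) (Fin 2) F, C.val * X * (D⁻¹).val = X) :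
    (C.val = 1 ∧ D.val = 1) ∨ (C.val = -1 ∧ D.val = -1) := by
  have hCD : C = D := by
    have h1 := h 1
    rw [Matrix.mul_one, ← Matrix.SpecialLinearGroup.coe_mul] at h1
    have h2 : C * D⁻¹ = 1 := Subtype.ext h1
    exact mul_inv_eq_one.1 h2
  subst hCD
  have hcomm : ∀ X : Matrix (Fin 2) (Fin 2) F, C.val * X = X * C.val := by
    intro X
    have h1 := h X
    have h2 : C.val * X * (C⁻¹).val * C.val = X * C.val := by rw [h1]
    rw [Matrix.mul_assoc, ← Matrix.SpecialLinearGroup.coe_mul, inv_mul_cancel,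
      Matrix.SpecialLinearGroup.coe_one, Matrix.mul_one] at h2
    exact h2
  have hcen : C ∈ Subgroup.center (Matrix.SpecialLinearGroup (Fin 2) F) :=
    sl2_central_of_pm C (Or.inl (hcomm _)) (Or.inl (hcomm _))
  rw [Matrix.SpecialLinearGroup.mem_center_iff] at hcen
  obtain ⟨r, hr, hC⟩ := hcen
  rw [Fintype.card_fin] at hr
  have hr' : (r - 1) * (r + 1) = 0 := by linear_combination hr
  rcases mul_eq_zero.1 hr' with h3 | h3
  · left
    have : r = 1 := by linear_combination h3
    rw [← hC, this]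
    simp
  · right
    have : r = -1 := by linear_combination h3
    rw [← hC, this]
    have e : (Matrix.scalar (Fin 2)) (-1 : F) = -1 := by
      ext i j
      fin_cases i <;> fin_cases j <;> simp
    exact ⟨e, e⟩

theorem Phi4_pm (s t : Matrix.SpecialLinearGroup (Fin 2) F × Matrix.SpecialLinearGroup (Fin 2) F)
    (h : Phi4 s = Phi4 t) :
    (s.1.val = t.1.val ∧ s.2.val = t.2.val) ∨ (s.1.val = -t.1.val ∧ s.2.val = -t.2.val) := by
  have h1 : Phi4 (t⁻¹ * s) = Phi4 1 := by rw [map_mul, map_inv, h, inv_mul_cancel, map_one]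
  rw [Phi4_eq_iff] at h1
  have h2 := pm_one_of_fix_all (t.1⁻¹ * s.1) (t.2⁻¹ * s.2) (by
    intro X
    have := h1 X
    simpa using this)
  have h3 : s.1.val = t.1.val * (t.1⁻¹ * s.1).val := by
    rw [← Matrix.SpecialLinearGroup.coe_mul, mul_inv_cancel_left]
  have h4 : s.2.val = t.2.val * (t.2⁻¹ * s.2).val := by
    rw [← Matrix.SpecialLinearGroup.coe_mul, mul_inv_cancel_left]
  rcases h2 with ⟨h2a, h2b⟩ | ⟨h2a, h2b⟩
  · left
    rw [h3, h4, h2a, h2b, mul_one, mul_one]
    exact ⟨rfl, rfl⟩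
  · right
    rw [h3, h4, h2a, h2b, mul_neg, mul_one, mul_neg, mul_one]
    exact ⟨rfl, rfl⟩

/-- diagonal matrices `diag(l, 1)` -/
def diagGL (l : Fˣ) : GL (Fin 2) F :=
  ⟨!![(l : F), 0; 0, 1], !![((l⁻¹ : Fˣ) : F), 0; 0, 1], by
    rw [Matrix.mul_fin_two, Matrix.one_fin_two]
    apply mat2_ext <;> simp, by
    rw [Matrix.mul_fin_two, Matrix.one_fin_two]
    apply mat2_ext <;> simp⟩

theorem E12_inv (s : F) : (E12 s)⁻¹ = E12 (-s) := by
  apply inv_eq_of_mul_eq_one_right
  apply Subtype.ext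
  show !![(1 : F), s; 0, 1] * !![1, -s; 0, 1] = 1
  rw [Matrix.mul_fin_two, Matrix.one_fin_two]
  apply mat2_ext <;> ring

theorem E21_inv (s : F) : (E21 s)⁻¹ = E21 (-s) := by
  apply inv_eq_of_mul_eq_one_right
  apply Subtype.ext
  show !![(1 : F), 0; s, 1] * !![1, 0; -s, 1] = 1
  rw [Matrix.mul_fin_two, Matrix.one_fin_two]
  apply mat2_ext <;> ring

theorem comm_diag_E12 (l : Fˣ) (s : F) :
    ⁅diagGL l, Matrix.SpecialLinearGroup.toGL (E12 s)⁆ =
      Matrix.SpecialLinearGroup.toGL (E12 (((l : F) - 1) * s)) := by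
  rw [commutatorElement_def, ← map_inv, E12_inv]
  apply Units.ext
  show !![(l : F), 0; 0, 1] * !![1, s; 0, 1] * !![((l⁻¹ : Fˣ) : F), 0; 0, 1] * !![1, -s; 0, 1] =
    !![1, ((l : F) - 1) * s; 0, 1]
  rw [Matrix.mul_fin_two, Matrix.mul_fin_two, Matrix.mul_fin_two]
  have hl : (l : F) * ((l⁻¹ : Fˣ) : F) = 1 := by simp
  apply mat2_ext
  · linear_combination hl
  · linear_combination (-s) * hl
  · ring
  · ring

theorem comm_diag_E21 (l : Fˣ) (s : F) :
    ⁅diagGL l, Matrix.SpecialLinearGroup.toGL (E21 s)⁆ =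
      Matrix.SpecialLinearGroup.toGL (E21 ((((l⁻¹ : Fˣ) : F) - 1) * s)) := by
  rw [commutatorElement_def, ← map_inv, E21_inv]
  apply Units.ext
  show !![(l : F), 0; 0, 1] * !![1, 0; s, 1] * !![((l⁻¹ : Fˣ) : F), 0; 0, 1] * !![1, 0; -s, 1] =
    !![1, 0; (((l⁻¹ : Fˣ) : F) - 1) * s, 1]
  rw [Matrix.mul_fin_two, Matrix.mul_fin_two, Matrix.mul_fin_two]
  have hl : (l : F) * ((l⁻¹ : Fˣ) : F) = 1 := by simp
  apply mat2_ext
  · linear_combination hl
  · ring
  · ring
  · ring

/-- the elements `(A, 1)` and `(1, A)` lie in the commutator subgroup of `eqDet` -/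
theorem slPair_mem_commutator (hF : ∃ a : F, a ≠ 0 ∧ a ≠ 1)
    (p : Matrix.SpecialLinearGroup (Fin 2) F × Matrix.SpecialLinearGroup (Fin 2) F) :
    slPair p ∈ commutator ↥(eqDet (F := F)) := by
  obtain ⟨a, ha0, ha1⟩ := hF
  obtain ⟨l, hl⟩ : ∃ l : Fˣ, (l : F) = a := ⟨Units.mk0 a ha0, rfl⟩
  have hl1 : (l : F) - 1 ≠ 0 := by rw [hl]; exact sub_ne_zero.2 ha1
  have hl2 : ((l⁻¹ : Fˣ) : F) - 1 ≠ 0 := by
    intro h
    have h1 : ((l⁻¹ : Fˣ) : F) = 1 := by linear_combination h
    have h2 : (l : F) * ((l⁻¹ : Fˣ) : F) = 1 := by simp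
    rw [h1, mul_one] at h2
    exact hl1 (by rw [h2, sub_self])
  let d : ↥(eqDet (F := F)) := ⟨(diagGL l, diagGL l), rfl⟩
  have hcomm : ∀ x y : ↥(eqDet (F := F)), ⁅x, y⁆ ∈ commutator ↥(eqDet (F := F)) := by
    intro x y
    rw [commutator_def]
    exact Subgroup.commutator_mem_commutator (Subgroup.mem_top x) (Subgroup.mem_top y)
  have hL : ∀ A : Matrix.SpecialLinearGroup (Fin 2) F,
      slPair (A, 1) ∈ commutator ↥(eqDet (F := F)) := by
    intro A
    refine sl2_induction (P := fun A => slPair (A, 1) ∈ commutator ↥(eqDet (F := F))) ?_ ?_ ?_ A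
    · intro t
      have e : slPair (E12 t, 1) = ⁅d, slPair (E12 (t / ((l : F) - 1)), 1)⁆ := by
        apply Subtype.ext
        apply Prod.ext
        · show Matrix.SpecialLinearGroup.toGL (E12 t) =
            ⁅diagGL l, Matrix.SpecialLinearGroup.toGL (E12 (t / ((l : F) - 1)))⁆
          rw [comm_diag_E12, mul_div_cancel₀ _ hl1]
        · show Matrix.SpecialLinearGroup.toGL (1 : Matrix.SpecialLinearGroup (Fin 2) F) =
            ⁅diagGL l, Matrix.SpecialLinearGroup.toGL (1 : Matrix.SpecialLinearGroup (Fin 2) F)⁆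
          rw [map_one, commutatorElement_def]
          group
      rw [e]
      exact hcomm _ _
    · intro t
      have e : slPair (E21 t, 1) = ⁅d, slPair (E21 (t / (((l⁻¹ : Fˣ) : F) - 1)), 1)⁆ := by
        apply Subtype.ext
        apply Prod.ext
        · show Matrix.SpecialLinearGroup.toGL (E21 t) =
            ⁅diagGL l, Matrix.SpecialLinearGroup.toGL (E21 (t / (((l⁻¹ : Fˣ) : F) - 1)))⁆
          rw [comm_diag_E21, mul_div_cancel₀ _ hl2]
        · show Matrix.SpecialLinearGroup.toGL (1 : Matrix.SpecialLinearGroup (Fin 2) F) =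
            ⁅diagGL l, Matrix.SpecialLinearGroup.toGL (1 : Matrix.SpecialLinearGroup (Fin 2) F)⁆
          rw [map_one, commutatorElement_def]
          group
      rw [e]
      exact hcomm _ _
    · intro A B hA hB
      have e : slPair (A * B, 1) = slPair (A, 1) * slPair (B, 1) := by
        rw [← map_mul]
        congr 1
        exact Prod.ext rfl (mul_one 1).symm
      rw [e]
      exact Subgroup.mul_mem _ hA hB
  have hR : ∀ A : Matrix.SpecialLinearGroup (Fin 2) F,
      slPair (1, A) ∈ commutator ↥(eqDet (F := F)) := by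
    intro A
    refine sl2_induction (P := fun A => slPair (1, A) ∈ commutator ↥(eqDet (F := F))) ?_ ?_ ?_ A
    · intro t
      have e : slPair (1, E12 t) = ⁅d, slPair (1, E12 (t / ((l : F) - 1)))⁆ := by
        apply Subtype.ext
        apply Prod.ext
        · show Matrix.SpecialLinearGroup.toGL (1 : Matrix.SpecialLinearGroup (Fin 2) F) =
            ⁅diagGL l, Matrix.SpecialLinearGroup.toGL (1 : Matrix.SpecialLinearGroup (Fin 2) F)⁆
          rw [map_one, commutatorElement_def]
          group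
        · show Matrix.SpecialLinearGroup.toGL (E12 t) =
            ⁅diagGL l, Matrix.SpecialLinearGroup.toGL (E12 (t / ((l : F) - 1)))⁆
          rw [comm_diag_E12, mul_div_cancel₀ _ hl1]
      rw [e]
      exact hcomm _ _
    · intro t
      have e : slPair (1, E21 t) = ⁅d, slPair (1, E21 (t / (((l⁻¹ : Fˣ) : F) - 1)))⁆ := by
        apply Subtype.ext
        apply Prod.ext
        · show Matrix.SpecialLinearGroup.toGL (1 : Matrix.SpecialLinearGroup (Fin 2) F) =
            ⁅diagGL l, Matrix.SpecialLinearGroup.toGL (1 : Matrix.SpecialLinearGroup (Fin 2) F)⁆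
          rw [map_one, commutatorElement_def]
          group
        · show Matrix.SpecialLinearGroup.toGL (E21 t) =
            ⁅diagGL l, Matrix.SpecialLinearGroup.toGL (E21 (t / (((l⁻¹ : Fˣ) : F) - 1)))⁆
          rw [comm_diag_E21, mul_div_cancel₀ _ hl2]
      rw [e]
      exact hcomm _ _
    · intro A B hA hB
      have e : slPair (1, A * B) = slPair (1, A) * slPair (1, B) := by
        rw [← map_mul]
        congr 1
        exact Prod.ext (mul_one 1).symm rfl
      rw [e]
      exact Subgroup.mul_mem _ hA hB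
  have e : slPair p = slPair (p.1, 1) * slPair (1, p.2) := by
    rw [← map_mul]
    congr 1
    exact Prod.ext (mul_one _).symm (one_mul _).symm
  rw [e]
  exact Subgroup.mul_mem _ (hL _) (hR _)

end O4

section O4fin
variable {F : Type*} [Field F] [Fintype F]

theorem pomega4plus_iso (hF : 3 ≤ Fintype.card F) :
    Nonempty (POmega F (quadFormPlus 2 F) ≃* Matrix.ProjectiveSpecialLinearGroup (Fin 2) F ×
      Matrix.ProjectiveSpecialLinearGroup (Fin 2) F) := by
  classical
  obtain ⟨q, hq⟩ : ∃ q, q = Fintype.card F := ⟨_, rfl⟩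
  have hex : ∃ a : F, a ≠ 0 ∧ a ≠ 1 := by
    by_contra hcon
    push Not at hcon
    have hsub : (Finset.univ : Finset F) ⊆ {0, 1} := by
      intro x _
      by_cases hx : x = 0
      · simp [hx]
      · simp [hcon x hx]
    have := Finset.card_le_card hsub
    have h2 : ({0, 1} : Finset F).card ≤ 2 := Finset.card_insert_le _ _
    rw [Finset.card_univ] at this
    omega
  refine iso_of_hom_general (Phi4 (F := F))
    (MonoidHom.prodMap
      (QuotientGroup.mk' (Subgroup.center (Matrix.SpecialLinearGroup (Fin 2) F)))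
      (QuotientGroup.mk' (Subgroup.center (Matrix.SpecialLinearGroup (Fin 2) F))))
    (Function.Surjective.prodMap (QuotientGroup.mk'_surjective _)
      (QuotientGroup.mk'_surjective _)) ?_ ?_ ?_
  · intro s
    exact map_mem_commutator (model4 (F := F)).hom _ (slPair_mem_commutator hex s)
  · have hO : Nat.card ↥(isometryGroup F (quadFormPlus 2 F)) =
        2 * q ^ 2 * (q ^ 2 - 1) * (q ^ 2 - 1) := by
      have h := Cfsg.Agent.S0287.result hq.symm 2 (by norm_num)
      simpa using h
    have hΩ := Subgroup.card_mul_index (Omega F (quadFormPlus 2 F))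
    rw [hO] at hΩ
    have hS : (q - 1) * Nat.card (Matrix.SpecialLinearGroup (Fin 2) F) =
        (q ^ 2 - 1) * (q ^ 2 - q) := by
      have h := Cfsg.Agent.S0242.result hq.symm 2 (by norm_num)
      simpa [Fin.prod_univ_two] using h
    have hki := Subgroup.card_mul_index (Phi4 (F := F)).ker
    rw [Subgroup.index_ker, Nat.card_prod] at hki
    obtain ⟨k, rfl⟩ : ∃ k, q = k + 1 := ⟨q - 1, by omega⟩
    have e1 : (k + 1) ^ 2 - 1 = k * (k + 2) := by
      have : (k + 1) ^ 2 = k * (k + 2) + 1 := by ring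
      omega
    have e2 : (k + 1) ^ 2 - (k + 1) = k * (k + 1) := by
      have : (k + 1) ^ 2 = k * (k + 1) + (k + 1) := by ring
      omega
    rw [e1] at hΩ
    rw [e1, e2, Nat.add_sub_cancel] at hS
    have hk : 0 < k := by omega
    have hS' : Nat.card (Matrix.SpecialLinearGroup (Fin 2) F) = (k + 2) * (k * (k + 1)) := by
      apply Nat.eq_of_mul_eq_mul_left hk
      rw [hS]
      ring
    rw [hS'] at hki
    obtain ⟨N, hN⟩ : ∃ N, N = (k + 2) * (k * (k + 1)) * ((k + 2) * (k * (k + 1))) := ⟨_, rfl⟩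
    rw [← hN] at hki
    have hΩ' : Nat.card ↥(Omega F (quadFormPlus 2 F)) * (Omega F (quadFormPlus 2 F)).index =
        2 * N := by
      rw [hΩ, hN]
      ring
    show Nat.card ↥(Omega F (quadFormPlus 2 F)) ≤ _
    by_cases h2 : (2 : F) = 0
    · haveI : CharP F 2 := CharTwo.of_one_ne_zero_of_two_eq_zero one_ne_zero h2
      have hidx : (Omega F (quadFormPlus 2 F)).index = 2 := by
        have h := Omega_index_char2 (qfPlus 2 F) qfPlus_nondegenerate
          (Or.inl (by omega)) (by simp)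
        rw [coe_qfPlus] at h
        exact h
      have hker : Nat.card (Phi4 (F := F)).ker = 1 := by
        apply card_eq_one_of_trivial
        intro g hg
        have h1 : Phi4 g = Phi4 1 := by rw [map_one]; exact hg
        have hneg : ∀ M : Matrix (Fin 2) (Fin 2) F, -M = M := by
          intro M
          rw [neg_eq_iff_add_eq_zero, ← two_smul F M, h2, zero_smul]
        rcases Phi4_pm g 1 h1 with ⟨h3, h4⟩ | ⟨h3, h4⟩
        · exact Prod.ext (Subtype.ext h3) (Subtype.ext h4)
        · rw [hneg] at h3 h4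
          exact Prod.ext (Subtype.ext h3) (Subtype.ext h4)
      rw [hidx] at hΩ'
      rw [hker, one_mul] at hki
      omega
    · have hidx : (Omega F (quadFormPlus 2 F)).index = 4 := by
        have h := Omega_index_odd h2 (by simp) (qfPlus 2 F) qfPlus_nondegenerate
        rw [coe_qfPlus] at h
        exact h
      have hker : Nat.card (Phi4 (F := F)).ker ≤ 2 := by
        apply card_le_two_of_pair _ ((negOne2, negOne2) :
          Matrix.SpecialLinearGroup (Fin 2) F × Matrix.SpecialLinearGroup (Fin 2) F)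
        intro g hg
        have h1 : Phi4 g = Phi4 1 := by rw [map_one]; exact hg
        rcases Phi4_pm g 1 h1 with ⟨h3, h4⟩ | ⟨h3, h4⟩
        · left
          exact Prod.ext (Subtype.ext h3) (Subtype.ext h4)
        · right
          exact Prod.ext (Subtype.ext h3) (Subtype.ext h4)
      rw [hidx] at hΩ'
      have h6 : Nat.card (Phi4 (F := F)).ker * Nat.card (Phi4 (F := F)).range ≤
          2 * Nat.card (Phi4 (F := F)).range := Nat.mul_le_mul_right _ hker
      omega
  · intro s
    show _ ↔ (((s.1 : Matrix.ProjectiveSpecialLinearGroup (Fin 2) F),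
      (s.2 : Matrix.ProjectiveSpecialLinearGroup (Fin 2) F)) :
      Matrix.ProjectiveSpecialLinearGroup (Fin 2) F ×
        Matrix.ProjectiveSpecialLinearGroup (Fin 2) F) = 1
    rw [Prod.mk_eq_one]
    rw [QuotientGroup.eq_one_iff, QuotientGroup.eq_one_iff]
    constructor
    · intro h
      constructor
      · apply sl2_central_of_pm
        · rcases Phi4_pm _ _ (h (E12 1, 1)) with ⟨h1, -⟩ | ⟨h1, -⟩
          · exact Or.inl h1
          · exact Or.inr h1
        · rcases Phi4_pm _ _ (h (E21 1, 1)) with ⟨h1, -⟩ | ⟨h1, -⟩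
          · exact Or.inl h1
          · exact Or.inr h1
      · apply sl2_central_of_pm
        · rcases Phi4_pm _ _ (h (1, E12 1)) with ⟨-, h1⟩ | ⟨-, h1⟩
          · exact Or.inl h1
          · exact Or.inr h1
        · rcases Phi4_pm _ _ (h (1, E21 1)) with ⟨-, h1⟩ | ⟨-, h1⟩
          · exact Or.inl h1
          · exact Or.inr h1
    · rintro ⟨h1, h2⟩ t
      rw [Subgroup.mem_center_iff] at h1 h2
      have : s * t = t * s := Prod.ext (h1 t.1).symm (h2 t.2).symm
      rw [this]

end O4fin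

end Cfsg.Agent.Helper16
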