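import Cfsg.Agent.Helper16.Omega6Plus
import Cfsg.Agent.S0245
import Cfsg.Agent.S0269

set_option autoImplicit false
open Cfsg

namespace Cfsg.Agent.Helper16

open Matrix

section O5
variable {F : Type*} [Field F]

/-- embedding of the five-dimensional space into the six-dimensional one -/
def emb5 : (Unit ⊕ (Fin 2 ⊕ Fin 2) → F) →ₗ[F] (Fin 3 ⊕ Fin 3 → F) where
  toFun v := Sum.elim ![v (Sum.inr (Sum.inl 0)), v (Sum.inl ()), v (Sum.inr (Sum.inl 1))]
    ![v (Sum.inr (Sum.inr 0)), v (Sum.inl ()), v (Sum.inr (Sum.inr 1))]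
  map_add' u v := by
    ext i
    rcases i with i | i <;> fin_cases i <;> simp
  map_smul' c v := by
    ext i
    rcases i with i | i <;> fin_cases i <;> simp

/-- projection back -/
def prj5 : (Fin 3 ⊕ Fin 3 → F) →ₗ[F] (Unit ⊕ (Fin 2 ⊕ Fin 2) → F) where
  toFun u := Sum.elim (fun _ => u (Sum.inl 1))
    (Sum.elim ![u (Sum.inl 0), u (Sum.inl 2)] ![u (Sum.inr 0), u (Sum.inr 2)])
  map_add' u v := by
    ext i
    rcases i with i | i | i
    · rfl
    · fin_cases i <;> simp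
    · fin_cases i <;> simp
  map_smul' c v := by
    ext i
    rcases i with i | i | i
    · rfl
    · fin_cases i <;> simp
    · fin_cases i <;> simp

theorem prj5_emb5 (v : Unit ⊕ (Fin 2 ⊕ Fin 2) → F) : prj5 (emb5 v) = v := by
  ext i
  rcases i with i | i | i
  · rfl
  · fin_cases i <;> simp [prj5, emb5]
  · fin_cases i <;> simp [prj5, emb5]

theorem emb5_prj5 (u : Fin 3 ⊕ Fin 3 → F) (h : u (Sum.inr 1) = u (Sum.inl 1)) :
    emb5 (prj5 u) = u := by
  ext i
  rcases i with i | i <;> fin_cases i <;> simp [prj5, emb5, h]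

theorem quadFormPlus_emb5 (v : Unit ⊕ (Fin 2 ⊕ Fin 2) → F) :
    quadFormPlus 3 F (emb5 v) = quadFormOdd 2 F v := by
  simp [quadFormPlus, quadFormOdd, emb5, Fin.sum_univ_three, Fin.sum_univ_two]
  ring

/-- the polar form of the Pfaffian -/
def bpf (X Y : Matrix (Fin 4) (Fin 4) F) : F :=
  X 0 1 * Y 2 3 + Y 0 1 * X 2 3 - X 0 2 * Y 1 3 - Y 0 2 * X 1 3 + X 0 3 * Y 1 2 + Y 0 3 * X 1 2

theorem pf4_add (X Y : Matrix (Fin 4) (Fin 4) F) : pf4 (X + Y) = pf4 X + pf4 Y + bpf X Y := by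
  simp only [pf4, bpf, Matrix.add_apply]
  ring

theorem bpf_congr (A : Matrix (Fin 4) (Fin 4) F) (u w : Fin 3 ⊕ Fin 3 → F) :
    bpf (A * enc6 u * Aᵀ) (A * enc6 w * Aᵀ) = A.det * bpf (enc6 u) (enc6 w) := by
  have h1 := pf4_congr A (u + w)
  rw [map_add, Matrix.mul_add, Matrix.add_mul, pf4_add, pf4_add, pf4_congr, pf4_congr] at h1
  linear_combination h1

/-- the standard symplectic matrix on `Fin 4` -/
def J4 : Matrix (Fin 4) (Fin 4) F := !![0, 0, -1, 0; 0, 0, 0, -1; 1, 0, 0, 0; 0, 1, 0, 0]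

/-- the vector encoding `J4` -/
def uJ : Fin 3 ⊕ Fin 3 → F := Sum.elim ![0, -1, 0] ![0, 1, 0]

theorem enc6_uJ : enc6 (uJ (F := F)) = J4 := by
  ext i j
  fin_cases i <;> fin_cases j <;> simp [enc6, uJ, J4]

theorem bpf_J4 (Y : Matrix (Fin 4) (Fin 4) F) : bpf Y J4 = Y 0 2 + Y 1 3 := by
  simp [bpf, J4]

theorem pf4_J4 : pf4 (J4 (F := F)) = -1 := by
  simp [pf4, J4]

/-- identification of the index types -/
def e4 : Fin 2 ⊕ Fin 2 ≃ Fin 4 where
  toFun := Sum.elim ![0, 1] ![2, 3]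
  invFun := ![Sum.inl 0, Sum.inl 1, Sum.inr 0, Sum.inr 1]
  left_inv := by
    intro i
    rcases i with i | i <;> fin_cases i <;> rfl
  right_inv := by
    intro i
    fin_cases i <;> rfl

/-- reindexing to `Fin 4` -/
def r4 (A : Matrix (Fin 2 ⊕ Fin 2) (Fin 2 ⊕ Fin 2) F) : Matrix (Fin 4) (Fin 4) F :=
  Matrix.reindex e4 e4 A

theorem r4_mul (A B : Matrix (Fin 2 ⊕ Fin 2) (Fin 2 ⊕ Fin 2) F) : r4 (A * B) = r4 A * r4 B := by
  unfold r4
  rw [Matrix.reindex_apply, Matrix.reindex_apply, Matrix.reindex_apply,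
    Matrix.submatrix_mul_equiv]

theorem r4_one : r4 (1 : Matrix (Fin 2 ⊕ Fin 2) (Fin 2 ⊕ Fin 2) F) = 1 := by
  unfold r4
  rw [Matrix.reindex_apply, Matrix.submatrix_one_equiv]

theorem r4_neg (A : Matrix (Fin 2 ⊕ Fin 2) (Fin 2 ⊕ Fin 2) F) : r4 (-A) = -r4 A := rfl

theorem r4_transpose (A : Matrix (Fin 2 ⊕ Fin 2) (Fin 2 ⊕ Fin 2) F) : r4 Aᵀ = (r4 A)ᵀ := rfl

theorem r4_injective : Function.Injective (r4 (F := F)) := (Matrix.reindex e4 e4).injective

theorem r4_J : r4 (Matrix.J (Fin 2) F) = J4 := by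
  ext i j
  fin_cases i <;> fin_cases j <;> simp [r4, J4, Matrix.J, e4, Matrix.one_apply]

theorem r4_symp (A : ↥(Matrix.symplecticGroup (Fin 2) F)) :
    r4 A.val * J4 * (r4 A.val)ᵀ = J4 := by
  have h := SymplecticGroup.mem_iff.1 A.2
  rw [← r4_J, ← r4_transpose, ← r4_mul, ← r4_mul, h]

theorem r4_det (A : ↥(Matrix.symplecticGroup (Fin 2) F)) : (r4 A.val).det = 1 := by
  have h1 := pf4_congr (r4 A.val) (uJ (F := F))
  rw [enc6_uJ, r4_symp, pf4_J4] at h1
  linear_combination h1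

/-- the congruence action of `Sp₄` -/
def act5 : ↥(Matrix.symplecticGroup (Fin 2) F) →* Module.End F (Matrix (Fin 4) (Fin 4) F) where
  toFun A :=
    { toFun := fun X => r4 A.val * X * (r4 A.val)ᵀ
      map_add' := fun X Y => by rw [Matrix.mul_add, Matrix.add_mul]
      map_smul' := fun c X => by
        rw [Matrix.mul_smul, Matrix.smul_mul]
        rfl }
  map_one' := by
    apply LinearMap.ext
    intro X
    show r4 (1 : ↥(Matrix.symplecticGroup (Fin 2) F)).val * X *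
      (r4 (1 : ↥(Matrix.symplecticGroup (Fin 2) F)).val)ᵀ = X
    rw [Submonoid.coe_one, r4_one]
    simp
  map_mul' A B := by
    apply LinearMap.ext
    intro X
    show r4 (A * B).val * X * (r4 (A * B).val)ᵀ =
      r4 A.val * (r4 B.val * X * (r4 B.val)ᵀ) * (r4 A.val)ᵀ
    rw [Submonoid.coe_mul, r4_mul, Matrix.transpose_mul]
    simp only [Matrix.mul_assoc]

theorem act5_apply (A : ↥(Matrix.symplecticGroup (Fin 2) F)) (X : Matrix (Fin 4) (Fin 4) F) :
    act5 A X = r4 A.val * X * (r4 A.val)ᵀ := rfl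

theorem enc65_sum (v : Unit ⊕ (Fin 2 ⊕ Fin 2) → F) :
    (enc6 (emb5 v)) 0 2 + (enc6 (emb5 v)) 1 3 = 0 := by
  simp [enc6, emb5]

theorem enc65_dec (Y : Matrix (Fin 4) (Fin 4) F) (hY : IsAlt4 Y) (h : Y 0 2 + Y 1 3 = 0) :
    enc6 (emb5 (prj5 (dec6 Y))) = Y := by
  rw [emb5_prj5, enc6_dec6 Y hY]
  show -Y 1 3 = Y 0 2
  linear_combination (-1 : F) * h

/-- the model of the five-dimensional orthogonal space inside the alternating matrices -/
def model5 : ModelData (quadFormOdd 2 F) (Matrix (Fin 4) (Fin 4) F)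
    ↥(Matrix.symplecticGroup (Fin 2) F) where
  enc := enc6.comp emb5
  dec := prj5.comp dec6
  actM := act5
  N := pf4
  dec_enc := by
    intro v
    show prj5 (dec6 (enc6 (emb5 v))) = v
    rw [dec6_enc6, prj5_emb5]
  stable := by
    intro A v
    show enc6 (emb5 (prj5 (dec6 (act5 A (enc6 (emb5 v)))))) = act5 A (enc6 (emb5 v))
    rw [act5_apply]
    apply enc65_dec _ (congr_alt _ _)
    rw [← bpf_J4]
    have h1 := bpf_congr (r4 A.val) (emb5 v) (uJ (F := F))
    rw [enc6_uJ, r4_symp, bpf_J4 (enc6 (emb5 v)), enc65_sum, mul_zero] at h1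
    exact h1
  N_enc := by
    intro v
    show pf4 (enc6 (emb5 v)) = _
    rw [pf4_enc6, quadFormPlus_emb5]
  N_act := by
    intro A v
    show pf4 (act5 A (enc6 (emb5 v))) = pf4 (enc6 (emb5 v))
    rw [act5_apply, pf4_congr, r4_det, one_mul]

/-- the homomorphism `Sp₄ → O₅` -/
noncomputable def Phi5 : ↥(Matrix.symplecticGroup (Fin 2) F) →*
    ↥(isometryGroup F (quadFormOdd 2 F)) := (model5 (F := F)).hom

theorem Phi5_eq_iff (s t : ↥(Matrix.symplecticGroup (Fin 2) F)) :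
    Phi5 s = Phi5 t ↔ ∀ v : Unit ⊕ (Fin 2 ⊕ Fin 2) → F,
      r4 s.val * enc6 (emb5 v) * (r4 s.val)ᵀ = r4 t.val * enc6 (emb5 v) * (r4 t.val)ᵀ := by
  show (model5 (F := F)).hom s = (model5 (F := F)).hom t ↔ _
  rw [ModelData.hom_eq_iff]
  rfl

theorem Phi5_pm (h2 : (2 : F) ≠ 0) (s t : ↥(Matrix.symplecticGroup (Fin 2) F))
    (h : Phi5 s = Phi5 t) : s.val = t.val ∨ s.val = -t.val := by
  have h1 : Phi5 (t⁻¹ * s) = Phi5 1 := by rw [map_mul, map_inv, h, inv_mul_cancel, map_one]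
  rw [Phi5_eq_iff] at h1
  have hfix : ∀ X : Matrix (Fin 4) (Fin 4) F, IsAlt4 X →
      r4 (t⁻¹ * s).val * X * (r4 (t⁻¹ * s).val)ᵀ = X := by
    intro X hX
    obtain ⟨c, hc⟩ : ∃ c : F, c = -(X 0 2 + X 1 3) / 2 := ⟨_, rfl⟩
    have hJalt : IsAlt4 (J4 (F := F)) := by rw [← enc6_uJ]; exact enc6_alt _
    have hW : IsAlt4 (X - c • J4 (F := F)) := by
      constructor
      · intro i j
        rw [Matrix.sub_apply, Matrix.sub_apply, Matrix.smul_apply, Matrix.smul_apply, hX.1 i j,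
          hJalt.1 i j]
        simp only [smul_eq_mul]
        ring
      · intro i
        rw [Matrix.sub_apply, Matrix.smul_apply, hX.2 i, hJalt.2 i]
        simp
    have hW2 : (X - c • J4 (F := F)) 0 2 + (X - c • J4 (F := F)) 1 3 = 0 := by
      simp only [Matrix.sub_apply, Matrix.smul_apply, J4, smul_eq_mul]
      simp
      rw [hc]
      field_simp
      ring
    have h3 := h1 (prj5 (dec6 (X - c • J4)))
    rw [enc65_dec _ hW hW2, Submonoid.coe_one, r4_one, Matrix.one_mul, Matrix.transpose_one,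
      Matrix.mul_one] at h3
    have h4 := r4_symp (t⁻¹ * s)
    have e : X = (X - c • J4) + c • J4 := by rw [sub_add_cancel]
    conv_lhs => rw [e]
    rw [Matrix.mul_add, Matrix.add_mul, h3, Matrix.mul_smul, Matrix.smul_mul, h4, sub_add_cancel]
  have h5 := pm_one_of_fix_alt ⟨r4 (t⁻¹ * s).val, r4_det _⟩ hfix
  have h6 : s.val = t.val * (t⁻¹ * s).val := by
    rw [← Submonoid.coe_mul, mul_inv_cancel_left]
  rcases h5 with h5 | h5
  · left
    have h7 : (t⁻¹ * s).val = 1 := r4_injective (by rw [r4_one]; exact h5)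
    rw [h6, h7, mul_one]
  · right
    have h7 : (t⁻¹ * s).val = -1 := r4_injective (by rw [r4_neg, r4_one]; exact h5)
    rw [h6, h7, mul_neg, mul_one]

/-- the matrix `-1` in `Sp₄` -/
def negOneSp : ↥(Matrix.symplecticGroup (Fin 2) F) :=
  ⟨-1, by rw [SymplecticGroup.mem_iff]; simp⟩

theorem Phi5_ker_le (h2 : (2 : F) ≠ 0) :
    (Phi5 (F := F)).ker ≤ Subgroup.center ↥(Matrix.symplecticGroup (Fin 2) F) := by
  intro g hg
  have h1 : Phi5 g = Phi5 1 := by rw [map_one]; exact hg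
  rw [Subgroup.mem_center_iff]
  intro x
  apply Subtype.ext
  show x.val * g.val = g.val * x.val
  rcases Phi5_pm h2 g 1 h1 with h3 | h3
  · rw [h3, Submonoid.coe_one, mul_one, one_mul]
  · rw [h3, Submonoid.coe_one, mul_neg, mul_one, neg_mul, one_mul]

end O5

section O5fin
variable {F : Type*} [Field F] [Fintype F]

theorem pomega5_iso (hodd : Odd (Fintype.card F)) :
    Nonempty (POmega F (quadFormOdd 2 F) ≃* PSp 2 F) := by
  classical
  have h2 : (2 : F) ≠ 0 := two_ne_zero_of_odd_card hodd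
  obtain ⟨q, hq⟩ : ∃ q, q = Fintype.card F := ⟨_, rfl⟩
  have hq3 : 3 ≤ q := by
    have h1 : 1 < Fintype.card F := Fintype.one_lt_card
    rcases hodd with ⟨k, hk⟩
    omega
  refine iso_of_hom_perfect (Phi5 (F := F))
    (Cfsg.Agent.S0269.result 2 (Or.inr (Or.inl ⟨rfl, by omega⟩))) (Phi5_ker_le h2) ?_
  have hO : Nat.card ↥(isometryGroup F (quadFormOdd 2 F)) =
      2 * q ^ 4 * ((q ^ 2 - 1) * (q ^ 4 - 1)) := by
    have h := Cfsg.Agent.S0286.result hq.symm (by rw [hq]; exact hodd) 2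
    simpa [Finset.prod_range_succ] using h
  have hidx : (Omega F (quadFormOdd 2 F)).index = 4 := by
    have h := Omega_index_odd h2 (by simp) (qfOdd 2 F) (qfOdd_nondegenerate h2)
    rw [coe_qfOdd] at h
    exact h
  have hΩ := Subgroup.card_mul_index (Omega F (quadFormOdd 2 F))
  rw [hO, hidx] at hΩ
  have hS : Nat.card ↥(Matrix.symplecticGroup (Fin 2) F) =
      q ^ 4 * ((q ^ 2 - 1) * (q ^ 4 - 1)) := by
    have h := Cfsg.Agent.S0245.result hq.symm 2
    simpa [Finset.prod_range_succ] using h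
  have hki := Subgroup.card_mul_index (Phi5 (F := F)).ker
  rw [Subgroup.index_ker, hS] at hki
  have hker : Nat.card (Phi5 (F := F)).ker ≤ 2 := by
    apply card_le_two_of_pair _ negOneSp
    intro g hg
    have h1 : Phi5 g = Phi5 1 := by rw [map_one]; exact hg
    rcases Phi5_pm h2 g 1 h1 with h3 | h3
    · left
      exact Subtype.ext h3
    · right
      exact Subtype.ext h3
  show Nat.card ↥(Omega F (quadFormOdd 2 F)) ≤ _
  obtain ⟨N, hN⟩ : ∃ N, N = q ^ 4 * ((q ^ 2 - 1) * (q ^ 4 - 1)) := ⟨_, rfl⟩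
  rw [← hN] at hki
  have hΩ' : Nat.card ↥(Omega F (quadFormOdd 2 F)) * 4 = 2 * N := by
    rw [hΩ, hN]
    ring
  have h6 : Nat.card (Phi5 (F := F)).ker * Nat.card (Phi5 (F := F)).range ≤
      2 * Nat.card (Phi5 (F := F)).range := Nat.mul_le_mul_right _ hker
  omega

end O5fin

end Cfsg.Agent.Helper16
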