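import Cfsg.Agent.Helper16.Omega4Minus
import Cfsg.Agent.Helper3.Unitary

set_option autoImplicit false
open Cfsg

namespace Cfsg.Agent.Helper16

open Matrix

section Hodge
variable {K : Type*} [Field K]

/-- the Hodge star on four by four matrices (used on alternating ones) -/
def hodge (X : Matrix (Fin 4) (Fin 4) K) : Matrix (Fin 4) (Fin 4) K :=
  !![0, X 2 3, -X 1 3, X 1 2; -X 2 3, 0, X 0 3, -X 0 2; X 1 3, -X 0 3, 0, X 0 1;
     -X 1 2, X 0 2, -X 0 1, 0]

set_option maxHeartbeats 4000000 in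
theorem hodge_congr (A : Matrix (Fin 4) (Fin 4) K) (v : Fin 3 ⊕ Fin 3 → K) :
    Aᵀ * hodge (A * enc6 v * Aᵀ) * A = A.det • hodge (enc6 v) := by
  rw [det4]
  ext i j
  fin_cases i <;> fin_cases j <;>
  · simp only [hodge, Matrix.mul_apply, Fin.sum_univ_four, Matrix.transpose_apply,
      Matrix.smul_apply]
    simp [enc6]
    ring

theorem hodge_enc6 (v : Fin 3 ⊕ Fin 3 → K) : hodge (enc6 v) = enc6 (fun i => v i.swap) := by
  ext i j
  fin_cases i <;> fin_cases j <;> simp [hodge, enc6]

theorem enc6_map (φ : K →+* K) (v : Fin 3 ⊕ Fin 3 → K) :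
    (enc6 v).map φ = enc6 (fun i => φ (v i)) := by
  ext i j
  fin_cases i <;> fin_cases j <;> simp [enc6]

/-- the first row of an alternating matrix -/
def top3 (X : Matrix (Fin 4) (Fin 4) K) : Fin 3 → K := ![X 0 1, X 0 2, X 0 3]

theorem top3_add (X Y : Matrix (Fin 4) (Fin 4) K) : top3 (X + Y) = top3 X + top3 Y := by
  ext i
  fin_cases i <;> simp [top3]

theorem top3_smul (c : K) (X : Matrix (Fin 4) (Fin 4) K) : top3 (c • X) = c • top3 X := by
  ext i
  fin_cases i <;> simp [top3]

end Hodge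

section SD
variable {F K : Type*} [Field F] [Field K] {a b : F} {q : ℕ} (E : QExt F K a b q)

/-- the self-dual alternating matrix with first row `t` -/
def QExt.sd (t : Fin 3 → K) : Matrix (Fin 4) (Fin 4) K :=
  enc6 (Sum.elim t (fun i => E.conj (t i)))

theorem QExt.top3_sd (t : Fin 3 → K) : top3 (E.sd t) = t := by
  ext i
  fin_cases i <;> simp [top3, QExt.sd, enc6]

theorem QExt.sd_alt (t : Fin 3 → K) : IsAlt4 (E.sd t) := enc6_alt _

theorem QExt.hodge_sd (t : Fin 3 → K) : hodge (E.sd t) = (E.sd t).map E.conj := by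
  unfold QExt.sd
  rw [hodge_enc6, enc6_map]
  congr 1
  funext i
  rcases i with i | i
  · rfl
  · show t i = E.conj (E.conj (t i))
    rw [E.conj_conj']

theorem QExt.sd_top3 (X : Matrix (Fin 4) (Fin 4) K) (hX : IsAlt4 X)
    (hh : hodge X = X.map E.conj) : E.sd (top3 X) = X := by
  have h1 : Sum.elim (top3 X) (fun i => E.conj (top3 X i)) = dec6 X := by
    funext i
    rcases i with i | i
    · fin_cases i <;> rfl
    · fin_cases i
      · show E.conj (X 0 1) = X 2 3
        have := congrFun (congrFun hh 0) 1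
        simp [hodge] at this
        exact this.symm
      · show E.conj (X 0 2) = -X 1 3
        have := congrFun (congrFun hh 0) 2
        simp [hodge] at this
        exact this.symm
      · show E.conj (X 0 3) = X 1 2
        have := congrFun (congrFun hh 0) 3
        simp [hodge] at this
        exact this.symm
  unfold QExt.sd
  rw [h1, enc6_dec6 X hX]

theorem QExt.sd_add (s t : Fin 3 → K) : E.sd (s + t) = E.sd s + E.sd t := by
  unfold QExt.sd
  rw [← map_add]
  congr 1
  funext i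
  rcases i with i | i
  · rfl
  · show E.conj (s i + t i) = E.conj (s i) + E.conj (t i)
    rw [map_add]

theorem QExt.sd_smul (c : F) (t : Fin 3 → K) : E.sd (E.ι c • t) = E.ι c • E.sd t := by
  unfold QExt.sd
  rw [← map_smul]
  congr 1
  funext i
  rcases i with i | i
  · rfl
  · show E.conj (E.ι c * t i) = E.ι c * E.conj (t i)
    rw [map_mul, E.conj_ι']

theorem QExt.pf4_sd (t : Fin 3 → K) : pf4 (E.sd t) = ∑ i, t i * E.conj (t i) := by
  unfold QExt.sd
  rw [pf4_enc6]
  rfl

/-- congruence by a unitary matrix of determinant one preserves self-dual alternating matrices -/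
theorem QExt.cong_sd (A : Matrix (Fin 4) (Fin 4) K) (hdet : A.det = 1)
    (hU : Aᵀ * A.map E.conj = 1) (t : Fin 3 → K) :
    IsAlt4 (A * E.sd t * Aᵀ) ∧ hodge (A * E.sd t * Aᵀ) = (A * E.sd t * Aᵀ).map E.conj := by
  refine ⟨congr_alt A _, ?_⟩
  have h := hodge_congr A (Sum.elim t (fun i => E.conj (t i)))
  rw [hdet, one_smul] at h
  have h' : Aᵀ * hodge (A * E.sd t * Aᵀ) * A = (E.sd t).map E.conj := by
    rw [← E.hodge_sd]
    exact h
  have hU' : A.map E.conj * Aᵀ = 1 := mul_eq_one_comm.1 hU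
  have hU'' : A * (A.map E.conj)ᵀ = 1 := by
    have := congrArg Matrix.transpose hU'
    rwa [Matrix.transpose_mul, Matrix.transpose_transpose, Matrix.transpose_one] at this
  calc hodge (A * E.sd t * Aᵀ)
      = (A.map E.conj * Aᵀ) * hodge (A * E.sd t * Aᵀ) * (A * (A.map E.conj)ᵀ) := by
        rw [hU', hU'', Matrix.one_mul, Matrix.mul_one]
    _ = A.map E.conj * (Aᵀ * hodge (A * E.sd t * Aᵀ) * A) * (A.map E.conj)ᵀ := by
        simp only [Matrix.mul_assoc]
    _ = A.map E.conj * (E.sd t).map E.conj * (A.map E.conj)ᵀ := by rw [h']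
    _ = (A * E.sd t * Aᵀ).map E.conj := by
        rw [Matrix.map_mul, Matrix.map_mul, Matrix.transpose_map]

/-- every alternating matrix is a `K`-combination of two self-dual ones -/
theorem QExt.exists_sd_decomp (u : Fin 3 ⊕ Fin 3 → K) :
    ∃ t s : Fin 3 → K, enc6 u = E.sd t + E.θ • E.sd s := by
  have h3 : (E.ι a - 2 * E.θ) ^ 2 = E.ι (a ^ 2 - 4 * b) := by
    have h := E.hθ
    simp only [map_sub, map_mul, map_pow, map_ofNat]
    linear_combination (4 : K) * h
  have h4 : E.ι a - 2 * E.θ ≠ 0 := by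
    intro h5
    rw [h5] at h3
    have h6 : E.ι (a ^ 2 - 4 * b) = 0 := by rw [← h3]; ring
    rw [map_eq_zero] at h6
    exact E.hdisc (by linear_combination (-1 : F) * h6)
  let s : Fin 3 → K := fun i => (E.conj (u (Sum.inr i)) - u (Sum.inl i)) / (E.ι a - 2 * E.θ)
  let t : Fin 3 → K := fun i => u (Sum.inl i) - E.θ * s i
  refine ⟨t, s, ?_⟩
  unfold QExt.sd
  rw [← map_smul, ← map_add]
  congr 1
  funext i
  rcases i with i | i
  · show u (Sum.inl i) = u (Sum.inl i) - E.θ * s i + E.θ * s i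
    ring
  · show u (Sum.inr i) = E.conj (u (Sum.inl i) - E.θ * s i) + E.θ * E.conj (s i)
    have hs : E.conj (s i) = (u (Sum.inr i) - E.conj (u (Sum.inl i))) / (E.ι a - 2 * E.θ) * (-1) := by
      show E.conj ((E.conj (u (Sum.inr i)) - u (Sum.inl i)) / (E.ι a - 2 * E.θ)) = _
      rw [map_div₀, map_sub, map_sub, map_mul, E.conj_conj', E.conj_ι', E.conj_θ', map_ofNat]
      have h5 : E.ι a - 2 * (E.ι a - E.θ) = -(E.ι a - 2 * E.θ) := by ring
      rw [h5]
      field_simp
    rw [map_sub, map_mul, E.conj_θ', hs]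
    obtain ⟨d, hd⟩ : ∃ d, d = E.ι a - 2 * E.θ := ⟨_, rfl⟩
    rw [← hd] at h4 ⊢
    have e : E.ι a = d + 2 * E.θ := by rw [hd]; ring
    rw [e]
    field_simp
    ring

end SD

end Cfsg.Agent.Helper16
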