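import Cfsg.Agent.Helper16.Omega6Minus

set_option autoImplicit false
open Cfsg

namespace Cfsg.Agent.Helper16

open Matrix

section Coord
variable {F K : Type*} [Field F] [Field K] {a b : F} {q : ℕ} (E : QExt F K a b q) (e₁ e₂ : F)

/-- the index type of the six-dimensional minus-type space -/
abbrev I6 : Type := (Fin 2 ⊕ Fin 2) ⊕ Fin 2

/-- auxiliary coordinate -/
def w1 (a b : F) (v : I6 → F) : F :=
  (2 * b * (v (Sum.inl (Sum.inr 0)) - v (Sum.inl (Sum.inl 0)) - a * v (Sum.inl (Sum.inl 1))) -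
    a * (v (Sum.inl (Sum.inr 1)) - b * v (Sum.inl (Sum.inl 1)))) / (4 * b - a ^ 2)

/-- auxiliary coordinate -/
def w2 (a b : F) (v : I6 → F) : F :=
  (2 * (v (Sum.inl (Sum.inr 1)) - b * v (Sum.inl (Sum.inl 1))) -
    a * (v (Sum.inl (Sum.inr 0)) - v (Sum.inl (Sum.inl 0)) - a * v (Sum.inl (Sum.inl 1)))) /
      (4 * b - a ^ 2)

theorem w_rel1 (hD : 4 * b - a ^ 2 ≠ 0) (v : I6 → F) :
    2 * w1 a b v + a * w2 a b v =
      v (Sum.inl (Sum.inr 0)) - v (Sum.inl (Sum.inl 0)) - a * v (Sum.inl (Sum.inl 1)) := by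
  unfold w1 w2
  obtain ⟨D, hDd⟩ : ∃ D, D = 4 * b - a ^ 2 := ⟨_, rfl⟩
  rw [← hDd] at hD ⊢
  field_simp
  rw [hDd]
  ring

theorem w_rel2 (hD : 4 * b - a ^ 2 ≠ 0) (v : I6 → F) :
    a * w1 a b v + 2 * b * w2 a b v =
      v (Sum.inl (Sum.inr 1)) - b * v (Sum.inl (Sum.inl 1)) := by
  unfold w1 w2
  obtain ⟨D, hDd⟩ : ∃ D, D = 4 * b - a ^ 2 := ⟨_, rfl⟩
  rw [← hDd] at hD ⊢
  field_simp
  rw [hDd]
  ring

theorem w1_add (u v : I6 → F) : w1 a b (u + v) = w1 a b u + w1 a b v := by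
  unfold w1
  simp only [Pi.add_apply]
  ring

theorem w2_add (u v : I6 → F) : w2 a b (u + v) = w2 a b u + w2 a b v := by
  unfold w2
  simp only [Pi.add_apply]
  ring

theorem w1_smul (c : F) (v : I6 → F) : w1 a b (c • v) = c * w1 a b v := by
  unfold w1
  simp only [Pi.smul_apply, smul_eq_mul]
  ring

theorem w2_smul (c : F) (v : I6 → F) : w2 a b (c • v) = c * w2 a b v := by
  unfold w2
  simp only [Pi.smul_apply, smul_eq_mul]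
  ring

/-- an element of norm `-1` (given its coordinates) -/
def QExt.eps : K := E.ι e₁ + E.ι e₂ * E.θ

theorem QExt.eps_norm (he : e₁ ^ 2 + a * e₁ * e₂ + b * e₂ ^ 2 = -1) :
    E.eps e₁ e₂ * E.conj (E.eps e₁ e₂) = -1 := by
  unfold QExt.eps
  rw [E.conj_coord, E.norm_eq, he, map_neg, map_one]

theorem QExt.eps_ne_zero (he : e₁ ^ 2 + a * e₁ * e₂ + b * e₂ ^ 2 = -1) : E.eps e₁ e₂ ≠ 0 := by
  intro h
  have h1 := E.eps_norm e₁ e₂ he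
  rw [h, zero_mul] at h1
  exact one_ne_zero (by linear_combination h1)

/-- the triple of elements of `K` of a vector -/
def QExt.toT (v : I6 → F) : Fin 3 → K :=
  ![E.ι (w1 a b v + v (Sum.inl (Sum.inl 0))) + E.ι (w2 a b v + v (Sum.inl (Sum.inl 1))) * E.θ,
    E.eps e₁ e₂ * (E.ι (w1 a b v) + E.ι (w2 a b v) * E.θ),
    E.ι (v (Sum.inr 0)) + E.ι (v (Sum.inr 1)) * E.θ]

/-- the vector of a triple -/
def QExt.fromT (t : Fin 3 → K) : I6 → F :=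
  Sum.elim (Sum.elim
    ![(E.co (t 0)).1 - (E.co ((E.eps e₁ e₂)⁻¹ * t 1)).1,
      (E.co (t 0)).2 - (E.co ((E.eps e₁ e₂)⁻¹ * t 1)).2]
    ![(E.co (t 0)).1 + a * (E.co (t 0)).2 + (E.co ((E.eps e₁ e₂)⁻¹ * t 1)).1,
      b * (E.co (t 0)).2 + a * (E.co ((E.eps e₁ e₂)⁻¹ * t 1)).1 +
        b * (E.co ((E.eps e₁ e₂)⁻¹ * t 1)).2])
    ![(E.co (t 2)).1, (E.co (t 2)).2]

theorem QExt.toT_zero (v : I6 → F) : E.toT e₁ e₂ v 0 =
    E.ι (w1 a b v + v (Sum.inl (Sum.inl 0))) + E.ι (w2 a b v + v (Sum.inl (Sum.inl 1))) * E.θ :=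
  rfl

theorem QExt.toT_one (v : I6 → F) : E.toT e₁ e₂ v 1 =
    E.eps e₁ e₂ * (E.ι (w1 a b v) + E.ι (w2 a b v) * E.θ) := rfl

theorem QExt.toT_two (v : I6 → F) : E.toT e₁ e₂ v 2 =
    E.ι (v (Sum.inr 0)) + E.ι (v (Sum.inr 1)) * E.θ := rfl

theorem QExt.fromT_toT (he : e₁ ^ 2 + a * e₁ * e₂ + b * e₂ ^ 2 = -1)
    (hD : 4 * b - a ^ 2 ≠ 0) (v : I6 → F) : E.fromT e₁ e₂ (E.toT e₁ e₂ v) = v := by
  have h0 : E.co (E.toT e₁ e₂ v 0) =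
      (w1 a b v + v (Sum.inl (Sum.inl 0)), w2 a b v + v (Sum.inl (Sum.inl 1))) :=
    E.co_ι_add _ _
  have h1 : E.co ((E.eps e₁ e₂)⁻¹ * E.toT e₁ e₂ v 1) = (w1 a b v, w2 a b v) := by
    rw [E.toT_one, inv_mul_cancel_left₀ (E.eps_ne_zero e₁ e₂ he)]
    exact E.co_ι_add _ _
  have h2 : E.co (E.toT e₁ e₂ v 2) = (v (Sum.inr 0), v (Sum.inr 1)) := E.co_ι_add _ _
  have hr1 := w_rel1 hD v
  have hr2 := w_rel2 hD v
  funext i
  rcases i with (i | i) | i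
  · fin_cases i
    · show (E.co (E.toT e₁ e₂ v 0)).1 - (E.co ((E.eps e₁ e₂)⁻¹ * E.toT e₁ e₂ v 1)).1 = _
      rw [h0, h1]
      show w1 a b v + v (Sum.inl (Sum.inl 0)) - w1 a b v = v (Sum.inl (Sum.inl 0))
      ring
    · show (E.co (E.toT e₁ e₂ v 0)).2 - (E.co ((E.eps e₁ e₂)⁻¹ * E.toT e₁ e₂ v 1)).2 = _
      rw [h0, h1]
      show w2 a b v + v (Sum.inl (Sum.inl 1)) - w2 a b v = v (Sum.inl (Sum.inl 1))
      ring
  · fin_cases i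
    · show (E.co (E.toT e₁ e₂ v 0)).1 + a * (E.co (E.toT e₁ e₂ v 0)).2 +
        (E.co ((E.eps e₁ e₂)⁻¹ * E.toT e₁ e₂ v 1)).1 = _
      rw [h0, h1]
      show w1 a b v + v (Sum.inl (Sum.inl 0)) + a * (w2 a b v + v (Sum.inl (Sum.inl 1))) +
        w1 a b v = v (Sum.inl (Sum.inr 0))
      linear_combination hr1
    · show b * (E.co (E.toT e₁ e₂ v 0)).2 + a * (E.co ((E.eps e₁ e₂)⁻¹ * E.toT e₁ e₂ v 1)).1 +
        b * (E.co ((E.eps e₁ e₂)⁻¹ * E.toT e₁ e₂ v 1)).2 = _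
      rw [h0, h1]
      show b * (w2 a b v + v (Sum.inl (Sum.inl 1))) + a * w1 a b v + b * w2 a b v =
        v (Sum.inl (Sum.inr 1))
      linear_combination hr2
  · fin_cases i
    · show (E.co (E.toT e₁ e₂ v 2)).1 = _
      rw [h2]
      rfl
    · show (E.co (E.toT e₁ e₂ v 2)).2 = _
      rw [h2]
      rfl

theorem QExt.w1_fromT (hD : 4 * b - a ^ 2 ≠ 0) (t : Fin 3 → K) :
    w1 a b (E.fromT e₁ e₂ t) = (E.co ((E.eps e₁ e₂)⁻¹ * t 1)).1 := by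
  unfold w1
  show (2 * b * (((E.co (t 0)).1 + a * (E.co (t 0)).2 + (E.co ((E.eps e₁ e₂)⁻¹ * t 1)).1) -
    ((E.co (t 0)).1 - (E.co ((E.eps e₁ e₂)⁻¹ * t 1)).1) -
    a * ((E.co (t 0)).2 - (E.co ((E.eps e₁ e₂)⁻¹ * t 1)).2)) -
    a * ((b * (E.co (t 0)).2 + a * (E.co ((E.eps e₁ e₂)⁻¹ * t 1)).1 +
        b * (E.co ((E.eps e₁ e₂)⁻¹ * t 1)).2) -
      b * ((E.co (t 0)).2 - (E.co ((E.eps e₁ e₂)⁻¹ * t 1)).2))) / (4 * b - a ^ 2) = _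
  obtain ⟨D, hDd⟩ : ∃ D, D = 4 * b - a ^ 2 := ⟨_, rfl⟩
  rw [← hDd] at hD ⊢
  rw [div_eq_iff hD, hDd]
  ring

theorem QExt.w2_fromT (hD : 4 * b - a ^ 2 ≠ 0) (t : Fin 3 → K) :
    w2 a b (E.fromT e₁ e₂ t) = (E.co ((E.eps e₁ e₂)⁻¹ * t 1)).2 := by
  unfold w2
  show (2 * ((b * (E.co (t 0)).2 + a * (E.co ((E.eps e₁ e₂)⁻¹ * t 1)).1 +
        b * (E.co ((E.eps e₁ e₂)⁻¹ * t 1)).2) -
      b * ((E.co (t 0)).2 - (E.co ((E.eps e₁ e₂)⁻¹ * t 1)).2)) -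
    a * (((E.co (t 0)).1 + a * (E.co (t 0)).2 + (E.co ((E.eps e₁ e₂)⁻¹ * t 1)).1) -
    ((E.co (t 0)).1 - (E.co ((E.eps e₁ e₂)⁻¹ * t 1)).1) -
    a * ((E.co (t 0)).2 - (E.co ((E.eps e₁ e₂)⁻¹ * t 1)).2))) / (4 * b - a ^ 2) = _
  obtain ⟨D, hDd⟩ : ∃ D, D = 4 * b - a ^ 2 := ⟨_, rfl⟩
  rw [← hDd] at hD ⊢
  rw [div_eq_iff hD, hDd]
  ring

theorem QExt.toT_fromT (he : e₁ ^ 2 + a * e₁ * e₂ + b * e₂ ^ 2 = -1)
    (hD : 4 * b - a ^ 2 ≠ 0) (t : Fin 3 → K) : E.toT e₁ e₂ (E.fromT e₁ e₂ t) = t := by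
  funext i
  fin_cases i
  · show E.toT e₁ e₂ (E.fromT e₁ e₂ t) 0 = t 0
    rw [E.toT_zero, E.w1_fromT e₁ e₂ hD, E.w2_fromT e₁ e₂ hD]
    show E.ι ((E.co ((E.eps e₁ e₂)⁻¹ * t 1)).1 +
        ((E.co (t 0)).1 - (E.co ((E.eps e₁ e₂)⁻¹ * t 1)).1)) +
      E.ι ((E.co ((E.eps e₁ e₂)⁻¹ * t 1)).2 +
        ((E.co (t 0)).2 - (E.co ((E.eps e₁ e₂)⁻¹ * t 1)).2)) * E.θ = t 0
    rw [add_sub_cancel, add_sub_cancel]
    exact (E.hco _).symm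
  · show E.toT e₁ e₂ (E.fromT e₁ e₂ t) 1 = t 1
    rw [E.toT_one, E.w1_fromT e₁ e₂ hD, E.w2_fromT e₁ e₂ hD, ← E.hco,
      mul_inv_cancel_left₀ (E.eps_ne_zero e₁ e₂ he)]
  · show E.toT e₁ e₂ (E.fromT e₁ e₂ t) 2 = t 2
    rw [E.toT_two]
    exact (E.hco _).symm

theorem QExt.toT_add (u v : I6 → F) :
    E.toT e₁ e₂ (u + v) = E.toT e₁ e₂ u + E.toT e₁ e₂ v := by
  funext i
  fin_cases i
  · show E.toT e₁ e₂ (u + v) 0 = E.toT e₁ e₂ u 0 + E.toT e₁ e₂ v 0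
    rw [E.toT_zero, E.toT_zero, E.toT_zero, w1_add, w2_add]
    simp only [Pi.add_apply, map_add]
    ring
  · show E.toT e₁ e₂ (u + v) 1 = E.toT e₁ e₂ u 1 + E.toT e₁ e₂ v 1
    rw [E.toT_one, E.toT_one, E.toT_one, w1_add, w2_add]
    simp only [map_add]
    ring
  · show E.toT e₁ e₂ (u + v) 2 = E.toT e₁ e₂ u 2 + E.toT e₁ e₂ v 2
    rw [E.toT_two, E.toT_two, E.toT_two]
    simp only [Pi.add_apply, map_add]
    ring

theorem QExt.toT_smul (c : F) (v : I6 → F) :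
    E.toT e₁ e₂ (c • v) = E.ι c • E.toT e₁ e₂ v := by
  funext i
  fin_cases i
  · show E.toT e₁ e₂ (c • v) 0 = E.ι c * E.toT e₁ e₂ v 0
    rw [E.toT_zero, E.toT_zero, w1_smul, w2_smul]
    simp only [Pi.smul_apply, smul_eq_mul, map_add, map_mul]
    ring
  · show E.toT e₁ e₂ (c • v) 1 = E.ι c * E.toT e₁ e₂ v 1
    rw [E.toT_one, E.toT_one, w1_smul, w2_smul]
    simp only [map_mul]
    ring
  · show E.toT e₁ e₂ (c • v) 2 = E.ι c * E.toT e₁ e₂ v 2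
    rw [E.toT_two, E.toT_two]
    simp only [Pi.smul_apply, smul_eq_mul, map_mul]
    ring

theorem QExt.fromT_add (he : e₁ ^ 2 + a * e₁ * e₂ + b * e₂ ^ 2 = -1)
    (hD : 4 * b - a ^ 2 ≠ 0) (s t : Fin 3 → K) :
    E.fromT e₁ e₂ (s + t) = E.fromT e₁ e₂ s + E.fromT e₁ e₂ t := by
  have h := E.toT_add e₁ e₂ (E.fromT e₁ e₂ s) (E.fromT e₁ e₂ t)
  rw [E.toT_fromT e₁ e₂ he hD, E.toT_fromT e₁ e₂ he hD] at h
  rw [← h, E.fromT_toT e₁ e₂ he hD]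

theorem QExt.fromT_smul (he : e₁ ^ 2 + a * e₁ * e₂ + b * e₂ ^ 2 = -1)
    (hD : 4 * b - a ^ 2 ≠ 0) (c : F) (t : Fin 3 → K) :
    E.fromT e₁ e₂ (E.ι c • t) = c • E.fromT e₁ e₂ t := by
  have h := E.toT_smul e₁ e₂ c (E.fromT e₁ e₂ t)
  rw [E.toT_fromT e₁ e₂ he hD] at h
  rw [← h, E.fromT_toT e₁ e₂ he hD]

theorem QExt.norm_toT (he : e₁ ^ 2 + a * e₁ * e₂ + b * e₂ ^ 2 = -1)
    (hD : 4 * b - a ^ 2 ≠ 0) (v : I6 → F) :
    ∑ i, E.toT e₁ e₂ v i * E.conj (E.toT e₁ e₂ v i) = E.ι (quadFormMinus 2 F a b v) := by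
  have hr1 := w_rel1 hD v
  have hr2 := w_rel2 hD v
  have key : ((w1 a b v + v (Sum.inl (Sum.inl 0))) ^ 2 +
      a * (w1 a b v + v (Sum.inl (Sum.inl 0))) * (w2 a b v + v (Sum.inl (Sum.inl 1))) +
      b * (w2 a b v + v (Sum.inl (Sum.inl 1))) ^ 2) -
      ((w1 a b v) ^ 2 + a * w1 a b v * w2 a b v + b * (w2 a b v) ^ 2) +
      (v (Sum.inr 0) ^ 2 + a * v (Sum.inr 0) * v (Sum.inr 1) + b * v (Sum.inr 1) ^ 2) =
      quadFormMinus 2 F a b v := by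
    unfold quadFormMinus
    rw [Fin.sum_univ_two]
    linear_combination v (Sum.inl (Sum.inl 0)) * hr1 + v (Sum.inl (Sum.inl 1)) * hr2
  have n0 := E.norm_eq (w1 a b v + v (Sum.inl (Sum.inl 0))) (w2 a b v + v (Sum.inl (Sum.inl 1)))
  have n1 := E.norm_eq (w1 a b v) (w2 a b v)
  have n2 := E.norm_eq (v (Sum.inr 0)) (v (Sum.inr 1))
  have hε := E.eps_norm e₁ e₂ he
  rw [Fin.sum_univ_three, E.toT_zero, E.toT_one, E.toT_two, map_mul, E.conj_coord, E.conj_coord,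
    E.conj_coord, ← key]
  simp only [map_add, map_sub, map_mul, map_pow] at n0 n1 n2 ⊢
  linear_combination n0 + (E.eps e₁ e₂ * E.conj (E.eps e₁ e₂)) * n1 +
    (E.ι (w1 a b v) ^ 2 + E.ι a * E.ι (w1 a b v) * E.ι (w2 a b v) +
      E.ι b * E.ι (w2 a b v) ^ 2) * hε + n2

end Coord

section Act
variable {F K : Type*} [Field F] [Field K] [Fintype K] {a b : F} {q : ℕ} (E : QExt F K a b q)
  (e₁ e₂ : F)

/-- unitarity in matrix form -/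
theorem QExt.unitary_of_hpres (hq : q ≠ 0) (A : Matrix (Fin 4) (Fin 4) K)
    (hA : Cfsg.Agent.Helper3.HPres 4 q A) : Aᵀ * A.map E.conj = 1 := by
  ext i j
  have h := hA (Pi.single i 1) (Pi.single j 1)
  rw [Cfsg.Agent.Helper3.herm_single hq, Matrix.mulVec_single_one, Matrix.mulVec_single_one,
    Cfsg.Agent.Helper3.herm_phi E.conj (fun x => rfl)] at h
  rw [Matrix.mul_apply, Matrix.one_apply, ← h]
  rfl

/-- the action on triples -/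
def QExt.actT (A : ↥(SU 4 K q)) (t : Fin 3 → K) : Fin 3 → K :=
  top3 (A.1.val * E.sd t * A.1.valᵀ)

theorem QExt.sd_actT (hq : q ≠ 0) (A : ↥(SU 4 K q)) (t : Fin 3 → K) :
    E.sd (E.actT A t) = A.1.val * E.sd t * A.1.valᵀ := by
  obtain ⟨h1, h2⟩ := E.cong_sd A.1.val A.1.2 (E.unitary_of_hpres hq _ A.2) t
  exact E.sd_top3 _ h1 h2

/-- the action of `SU₄` on the six-dimensional space -/
def QExt.act6m (he : e₁ ^ 2 + a * e₁ * e₂ + b * e₂ ^ 2 = -1) (hD : 4 * b - a ^ 2 ≠ 0)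
    (hq : q ≠ 0) : ↥(SU 4 K q) →* Module.End F (I6 → F) where
  toFun A :=
    { toFun := fun v => E.fromT e₁ e₂ (E.actT A (E.toT e₁ e₂ v))
      map_add' := fun u v => by
        rw [E.toT_add]
        unfold QExt.actT
        rw [E.sd_add, Matrix.mul_add, Matrix.add_mul, top3_add, E.fromT_add e₁ e₂ he hD]
      map_smul' := fun c v => by
        rw [E.toT_smul]
        unfold QExt.actT
        rw [E.sd_smul, Matrix.mul_smul, Matrix.smul_mul, top3_smul, E.fromT_smul e₁ e₂ he hD]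
        rfl }
  map_one' := by
    apply LinearMap.ext
    intro v
    show E.fromT e₁ e₂ (top3 ((1 : Matrix (Fin 4) (Fin 4) K) * E.sd (E.toT e₁ e₂ v) *
      (1 : Matrix (Fin 4) (Fin 4) K)ᵀ)) = v
    rw [Matrix.transpose_one, Matrix.one_mul, Matrix.mul_one, E.top3_sd, E.fromT_toT e₁ e₂ he hD]
  map_mul' A B := by
    apply LinearMap.ext
    intro v
    show E.fromT e₁ e₂ (E.actT (A * B) (E.toT e₁ e₂ v)) =
      E.fromT e₁ e₂ (E.actT A (E.toT e₁ e₂ (E.fromT e₁ e₂ (E.actT B (E.toT e₁ e₂ v)))))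
    rw [E.toT_fromT e₁ e₂ he hD]
    congr 1
    show top3 ((A.1.val * B.1.val) * E.sd (E.toT e₁ e₂ v) * (A.1.val * B.1.val)ᵀ) =
      top3 (A.1.val * E.sd (E.actT B (E.toT e₁ e₂ v)) * A.1.valᵀ)
    rw [E.sd_actT hq, Matrix.transpose_mul]
    simp only [Matrix.mul_assoc]

theorem QExt.act6m_apply (he : e₁ ^ 2 + a * e₁ * e₂ + b * e₂ ^ 2 = -1)
    (hD : 4 * b - a ^ 2 ≠ 0) (hq : q ≠ 0) (A : ↥(SU 4 K q)) (v : I6 → F) :
    E.act6m e₁ e₂ he hD hq A v = E.fromT e₁ e₂ (E.actT A (E.toT e₁ e₂ v)) := rfl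

/-- the model of the minus-type six-dimensional space -/
def QExt.model6m (he : e₁ ^ 2 + a * e₁ * e₂ + b * e₂ ^ 2 = -1) (hD : 4 * b - a ^ 2 ≠ 0)
    (hq : q ≠ 0) : ModelData (quadFormMinus 2 F a b) (I6 → F) ↥(SU 4 K q) where
  enc := LinearMap.id
  dec := LinearMap.id
  actM := E.act6m e₁ e₂ he hD hq
  N := quadFormMinus 2 F a b
  dec_enc := fun v => rfl
  stable := fun s v => rfl
  N_enc := fun v => rfl
  N_act := by
    intro A v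
    show quadFormMinus 2 F a b (E.fromT e₁ e₂ (E.actT A (E.toT e₁ e₂ v))) =
      quadFormMinus 2 F a b v
    apply E.ι_injective
    rw [← E.norm_toT e₁ e₂ he hD, ← E.norm_toT e₁ e₂ he hD, E.toT_fromT e₁ e₂ he hD, ← E.pf4_sd,
      ← E.pf4_sd, E.sd_actT hq]
    unfold QExt.sd
    rw [pf4_congr, A.1.2, one_mul]

/-- the homomorphism `SU₄(q) → O⁻₆(q)` -/
noncomputable def QExt.Phi6m (he : e₁ ^ 2 + a * e₁ * e₂ + b * e₂ ^ 2 = -1)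
    (hD : 4 * b - a ^ 2 ≠ 0) (hq : q ≠ 0) :
    ↥(SU 4 K q) →* ↥(isometryGroup F (quadFormMinus 2 F a b)) :=
  (E.model6m e₁ e₂ he hD hq).hom

theorem QExt.Phi6m_eq_iff (he : e₁ ^ 2 + a * e₁ * e₂ + b * e₂ ^ 2 = -1)
    (hD : 4 * b - a ^ 2 ≠ 0) (hq : q ≠ 0) (s t : ↥(SU 4 K q)) :
    E.Phi6m e₁ e₂ he hD hq s = E.Phi6m e₁ e₂ he hD hq t ↔
      ∀ u : Fin 3 → K, s.1.val * E.sd u * s.1.valᵀ = t.1.val * E.sd u * t.1.valᵀ := by
  show (E.model6m e₁ e₂ he hD hq).hom s = (E.model6m e₁ e₂ he hD hq).hom t ↔ _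
  rw [ModelData.hom_eq_iff]
  constructor
  · intro h u
    have h1 : E.fromT e₁ e₂ (E.actT s (E.toT e₁ e₂ (E.fromT e₁ e₂ u))) =
        E.fromT e₁ e₂ (E.actT t (E.toT e₁ e₂ (E.fromT e₁ e₂ u))) := h (E.fromT e₁ e₂ u)
    rw [E.toT_fromT e₁ e₂ he hD] at h1
    have h2 := congrArg (E.toT e₁ e₂) h1
    rw [E.toT_fromT e₁ e₂ he hD, E.toT_fromT e₁ e₂ he hD] at h2
    rw [← E.sd_actT hq, ← E.sd_actT hq, h2]
  · intro h v
    show E.fromT e₁ e₂ (E.actT s (E.toT e₁ e₂ v)) = E.fromT e₁ e₂ (E.actT t (E.toT e₁ e₂ v))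
    unfold QExt.actT
    rw [h]

/-- a matrix fixing all self-dual alternating matrices is `±1` -/
theorem QExt.pm_one_of_fix_sd (C : Matrix.SpecialLinearGroup (Fin 4) K)
    (h : ∀ t, C.val * E.sd t * C.valᵀ = E.sd t) : C.val = 1 ∨ C.val = -1 := by
  apply pm_one_of_fix_alt C
  intro X hX
  obtain ⟨t, s, hts⟩ := E.exists_sd_decomp (dec6 X)
  rw [enc6_dec6 X hX] at hts
  rw [hts, Matrix.mul_add, Matrix.add_mul, Matrix.mul_smul, Matrix.smul_mul, h t, h s]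

theorem QExt.Phi6m_pm (he : e₁ ^ 2 + a * e₁ * e₂ + b * e₂ ^ 2 = -1)
    (hD : 4 * b - a ^ 2 ≠ 0) (hq : q ≠ 0) (s t : ↥(SU 4 K q))
    (h : E.Phi6m e₁ e₂ he hD hq s = E.Phi6m e₁ e₂ he hD hq t) :
    s.1.val = t.1.val ∨ s.1.val = -t.1.val := by
  have h1 : E.Phi6m e₁ e₂ he hD hq (t⁻¹ * s) = E.Phi6m e₁ e₂ he hD hq 1 := by
    rw [map_mul, map_inv, h, inv_mul_cancel, map_one]
  rw [E.Phi6m_eq_iff] at h1
  have h2 := E.pm_one_of_fix_sd (t⁻¹ * s).1 (by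
    intro u
    have h3 := h1 u
    rw [h3]
    show (1 : Matrix (Fin 4) (Fin 4) K) * E.sd u * (1 : Matrix (Fin 4) (Fin 4) K)ᵀ = E.sd u
    rw [Matrix.transpose_one, Matrix.one_mul, Matrix.mul_one])
  have h3 : s.1.val = t.1.val * (t⁻¹ * s).1.val := by
    show s.1.val = (t * (t⁻¹ * s)).1.val
    rw [mul_inv_cancel_left]
  rcases h2 with h2 | h2
  · left
    rw [h3, h2, mul_one]
  · right
    rw [h3, h2, mul_neg, mul_one]

end Act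

end Cfsg.Agent.Helper16
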