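import Cfsg.Agent.Helper16.Omega4Plus
import Cfsg.Agent.S0248

set_option autoImplicit false
open Cfsg

namespace Cfsg.Agent.Helper16

open Matrix
open scoped commutatorElement

section AbstractPerfect

/-- in a perfect group, an element commuting with everything modulo the centre is central -/
theorem comm_mul_of_central {G : Type*} [Group G] (s x y : G)
    (hc : (s * y * s⁻¹ * y⁻¹) * x⁻¹ = x⁻¹ * (s * y * s⁻¹ * y⁻¹)) :
    s * (x * y) * s⁻¹ * (x * y)⁻¹ = s * x * s⁻¹ * x⁻¹ * (s * y * s⁻¹ * y⁻¹) := by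
  have e1 : s * (x * y) * s⁻¹ * (x * y)⁻¹ = s * x * s⁻¹ * ((s * y * s⁻¹ * y⁻¹) * x⁻¹) := by
    rw [_root_.mul_inv_rev]
    simp only [mul_assoc, inv_mul_cancel_left]
  rw [e1, hc]
  simp only [mul_assoc]

theorem central_of_comm_central {G : Type*} [Group G] (hperf : commutator G = ⊤) (s : G)
    (h : ∀ x, s * x * s⁻¹ * x⁻¹ ∈ Subgroup.center G) : s ∈ Subgroup.center G := by
  have hone : (⟨s * 1 * s⁻¹ * 1⁻¹, h 1⟩ : ↥(Subgroup.center G)) = 1 := by
    apply Subtype.ext
    show s * 1 * s⁻¹ * 1⁻¹ = 1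
    rw [mul_one, mul_inv_cancel, inv_one, mul_one]
  have hmul : ∀ x y, (⟨s * (x * y) * s⁻¹ * (x * y)⁻¹, h (x * y)⟩ : ↥(Subgroup.center G)) =
      ⟨s * x * s⁻¹ * x⁻¹, h x⟩ * ⟨s * y * s⁻¹ * y⁻¹, h y⟩ := by
    intro x y
    apply Subtype.ext
    exact comm_mul_of_central s x y ((Subgroup.mem_center_iff.1 (h y)) x⁻¹).symm
  let f : G →* ↥(Subgroup.center G) :=
    { toFun := fun x => ⟨s * x * s⁻¹ * x⁻¹, h x⟩
      map_one' := hone
      map_mul' := hmul }
  have hfc : ∀ a b, f a * f b = f b * f a := fun a b =>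
    Subtype.ext ((Subgroup.mem_center_iff.1 (f b).2) (f a).val)
  have hker : f.ker = ⊤ := by
    apply top_le_iff.1
    rw [← hperf, commutator_eq_closure, Subgroup.closure_le]
    rintro _ ⟨a, b, rfl⟩
    show f ⁅a, b⁆ = 1
    rw [commutatorElement_def, map_mul, map_mul, map_mul, map_inv, map_inv, hfc a b,
      mul_inv_cancel_right, mul_inv_cancel]
  rw [Subgroup.mem_center_iff]
  intro x
  have hx : f x = 1 := by
    have : x ∈ f.ker := by rw [hker]; exact Subgroup.mem_top x
    exact this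
  have hx' : s * x * s⁻¹ * x⁻¹ = 1 := congrArg Subtype.val hx
  have h3 : s * x * s⁻¹ = x := by
    have := mul_inv_eq_one.1 hx'
    exact this
  have : s * x = x * s := by
    calc s * x = s * x * s⁻¹ * s := by rw [inv_mul_cancel_right]
      _ = x * s := by rw [h3]
  exact this.symm

/-- the isomorphism criterion for a perfect source group -/
theorem iso_of_hom_perfect {S O : Type*} [Group S] [Group O] [Finite O]
    (Φ : S →* O) (hperf : commutator S = ⊤) (hker : Φ.ker ≤ Subgroup.center S)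
    (h2 : Nat.card (commutator O) ≤ Nat.card Φ.range) :
    Nonempty ((commutator O) ⧸ Subgroup.center (commutator O) ≃* S ⧸ Subgroup.center S) := by
  refine iso_of_hom_general Φ (QuotientGroup.mk' (Subgroup.center S))
    (QuotientGroup.mk'_surjective _) ?_ h2 ?_
  · intro s
    exact map_mem_commutator Φ s (by rw [hperf]; exact Subgroup.mem_top s)
  · intro s
    rw [QuotientGroup.mk'_apply, QuotientGroup.eq_one_iff]
    constructor
    · intro h
      apply central_of_comm_central hperf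
      intro x
      apply hker
      rw [MonoidHom.mem_ker]
      have e : s * x * s⁻¹ * x⁻¹ = (s * x) * (x * s)⁻¹ := by group
      rw [e, map_mul, map_inv, h x, mul_inv_cancel]
    · intro h t
      rw [Subgroup.mem_center_iff] at h
      rw [h t]

end AbstractPerfect

section O6
variable {F : Type*} [Field F]

/-- the Pfaffian of a four by four matrix -/
def pf4 (X : Matrix (Fin 4) (Fin 4) F) : F := X 0 1 * X 2 3 - X 0 2 * X 1 3 + X 0 3 * X 1 2

/-- alternating matrices -/
def IsAlt4 (X : Matrix (Fin 4) (Fin 4) F) : Prop := (∀ i j, X i j = -X j i) ∧ ∀ i, X i i = 0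

/-- encoding of vectors as alternating matrices -/
def enc6 : (Fin 3 ⊕ Fin 3 → F) →ₗ[F] Matrix (Fin 4) (Fin 4) F where
  toFun v := !![0, v (Sum.inl 0), v (Sum.inl 1), v (Sum.inl 2);
                -v (Sum.inl 0), 0, v (Sum.inr 2), -v (Sum.inr 1);
                -v (Sum.inl 1), -v (Sum.inr 2), 0, v (Sum.inr 0);
                -v (Sum.inl 2), v (Sum.inr 1), -v (Sum.inr 0), 0]
  map_add' u v := by
    ext i j
    fin_cases i <;> fin_cases j <;> simp <;> ring
  map_smul' c v := by
    ext i j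
    fin_cases i <;> fin_cases j <;> simp

/-- decoding -/
def dec6 : Matrix (Fin 4) (Fin 4) F →ₗ[F] (Fin 3 ⊕ Fin 3 → F) where
  toFun X := Sum.elim ![X 0 1, X 0 2, X 0 3] ![X 2 3, -X 1 3, X 1 2]
  map_add' X Y := by
    ext i
    rcases i with i | i <;> fin_cases i <;> simp
    ring
  map_smul' c X := by
    ext i
    rcases i with i | i <;> fin_cases i <;> simp

theorem dec6_enc6 (v : Fin 3 ⊕ Fin 3 → F) : dec6 (enc6 v) = v := by
  ext i
  rcases i with i | i <;> fin_cases i <;> simp [dec6, enc6]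

theorem enc6_dec6 (X : Matrix (Fin 4) (Fin 4) F) (hX : IsAlt4 X) : enc6 (dec6 X) = X := by
  obtain ⟨h1, h2⟩ := hX
  ext i j
  fin_cases i <;> fin_cases j <;>
    simp [enc6, dec6, h2, h1 1 0, h1 2 0, h1 3 0, h1 2 1, h1 3 1, h1 3 2]

theorem enc6_alt (v : Fin 3 ⊕ Fin 3 → F) : IsAlt4 (enc6 v) := by
  constructor
  · intro i j
    fin_cases i <;> fin_cases j <;> simp [enc6]
  · intro i
    fin_cases i <;> simp [enc6]

theorem det4 (A : Matrix (Fin 4) (Fin 4) F) : A.det =
    A 0 0 * (A 1 1 * (A 2 2 * A 3 3 - A 2 3 * A 3 2) - A 1 2 * (A 2 1 * A 3 3 - A 2 3 * A 3 1) +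
        A 1 3 * (A 2 1 * A 3 2 - A 2 2 * A 3 1))
    - A 0 1 * (A 1 0 * (A 2 2 * A 3 3 - A 2 3 * A 3 2) - A 1 2 * (A 2 0 * A 3 3 - A 2 3 * A 3 0) +
        A 1 3 * (A 2 0 * A 3 2 - A 2 2 * A 3 0))
    + A 0 2 * (A 1 0 * (A 2 1 * A 3 3 - A 2 3 * A 3 1) - A 1 1 * (A 2 0 * A 3 3 - A 2 3 * A 3 0) +
        A 1 3 * (A 2 0 * A 3 1 - A 2 1 * A 3 0))
    - A 0 3 * (A 1 0 * (A 2 1 * A 3 2 - A 2 2 * A 3 1) - A 1 1 * (A 2 0 * A 3 2 - A 2 2 * A 3 0) +
        A 1 2 * (A 2 0 * A 3 1 - A 2 1 * A 3 0)) := by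
  rw [Matrix.det_succ_row_zero]
  simp [Fin.sum_univ_four, Matrix.det_fin_three, Fin.succAbove]
  ring

set_option maxHeartbeats 1000000 in
theorem pf4_congr (A : Matrix (Fin 4) (Fin 4) F) (v : Fin 3 ⊕ Fin 3 → F) :
    pf4 (A * enc6 v * Aᵀ) = A.det * pf4 (enc6 v) := by
  rw [det4]
  simp only [pf4, Matrix.mul_apply, Fin.sum_univ_four, Matrix.transpose_apply]
  simp [enc6]
  ring

set_option maxHeartbeats 1000000 in
theorem congr_alt (A : Matrix (Fin 4) (Fin 4) F) (v : Fin 3 ⊕ Fin 3 → F) :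
    IsAlt4 (A * enc6 v * Aᵀ) := by
  constructor
  · intro i j
    simp only [Matrix.mul_apply, Fin.sum_univ_four, Matrix.transpose_apply]
    simp [enc6]
    ring
  · intro i
    simp only [Matrix.mul_apply, Fin.sum_univ_four, Matrix.transpose_apply]
    simp [enc6]
    ring

/-- the congruence action of `SL₄` on matrices -/
def act6 : Matrix.SpecialLinearGroup (Fin 4) F →* Module.End F (Matrix (Fin 4) (Fin 4) F) where
  toFun A :=
    { toFun := fun X => A.val * X * A.valᵀ
      map_add' := fun X Y => by rw [Matrix.mul_add, Matrix.add_mul]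
      map_smul' := fun c X => by
        rw [Matrix.mul_smul, Matrix.smul_mul]
        rfl }
  map_one' := by
    apply LinearMap.ext
    intro X
    show (1 : Matrix.SpecialLinearGroup (Fin 4) F).val * X *
      (1 : Matrix.SpecialLinearGroup (Fin 4) F).valᵀ = X
    simp
  map_mul' A B := by
    apply LinearMap.ext
    intro X
    show (A * B).val * X * (A * B).valᵀ = A.val * (B.val * X * B.valᵀ) * A.valᵀ
    rw [Matrix.SpecialLinearGroup.coe_mul, Matrix.transpose_mul]
    simp only [Matrix.mul_assoc]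

theorem act6_apply (A : Matrix.SpecialLinearGroup (Fin 4) F) (X : Matrix (Fin 4) (Fin 4) F) :
    act6 A X = A.val * X * A.valᵀ := rfl

theorem pf4_enc6 (v : Fin 3 ⊕ Fin 3 → F) : pf4 (enc6 v) = quadFormPlus 3 F v := by
  simp [pf4, enc6, quadFormPlus, Fin.sum_univ_three]

/-- the model of the six-dimensional plus-type space by alternating matrices -/
def model6 : ModelData (quadFormPlus 3 F) (Matrix (Fin 4) (Fin 4) F)
    (Matrix.SpecialLinearGroup (Fin 4) F) where
  enc := enc6
  dec := dec6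
  actM := act6
  N := pf4
  dec_enc := dec6_enc6
  stable := fun A v => enc6_dec6 _ (congr_alt A.val v)
  N_enc := pf4_enc6
  N_act := by
    intro A v
    rw [act6_apply, pf4_congr, A.2, one_mul]

/-- the homomorphism `SL₄ → O⁺₆` -/
noncomputable def Phi6 : Matrix.SpecialLinearGroup (Fin 4) F →*
    ↥(isometryGroup F (quadFormPlus 3 F)) := (model6 (F := F)).hom

theorem Phi6_eq_iff (s t : Matrix.SpecialLinearGroup (Fin 4) F) :
    Phi6 s = Phi6 t ↔ ∀ X : Matrix (Fin 4) (Fin 4) F, IsAlt4 X →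
      s.val * X * s.valᵀ = t.val * X * t.valᵀ := by
  show (model6 (F := F)).hom s = (model6 (F := F)).hom t ↔ _
  rw [ModelData.hom_eq_iff]
  constructor
  · intro h X hX
    have h1 := h (dec6 X)
    have h2 : act6 s (enc6 (dec6 X)) = act6 t (enc6 (dec6 X)) := h1
    rw [enc6_dec6 X hX] at h2
    exact h2
  · intro h v
    exact h (enc6 v) (enc6_alt v)

/-- the elementary alternating matrices -/
def altE (i j : Fin 4) : Matrix (Fin 4) (Fin 4) F := Matrix.single i j 1 - Matrix.single j i 1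

theorem altE_alt (i j : Fin 4) (hij : i ≠ j) : IsAlt4 (altE (F := F) i j) := by
  constructor
  · intro a b
    simp only [altE, Matrix.sub_apply, Matrix.single_apply]
    have e1 : (i = b ∧ j = a) ↔ (j = a ∧ i = b) := and_comm
    have e2 : (j = b ∧ i = a) ↔ (i = a ∧ j = b) := and_comm
    rw [if_congr e1 rfl rfl, if_congr e2 rfl rfl]
    ring
  · intro a
    simp only [altE, Matrix.sub_apply, Matrix.single_apply]
    have h1 : ¬ (i = a ∧ j = a) := fun h => hij (h.1.trans h.2.symm)
    have h2 : ¬ (j = a ∧ i = a) := fun h => hij (h.2.trans h.1.symm)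
    simp [h1, h2]

theorem exists_third (a i : Fin 4) : ∃ j : Fin 4, j ≠ a ∧ j ≠ i := by
  revert a i
  decide

/-- a matrix of determinant one fixing all alternating matrices under congruence is `±1` -/
theorem pm_one_of_fix_alt (C : Matrix.SpecialLinearGroup (Fin 4) F)
    (h : ∀ X : Matrix (Fin 4) (Fin 4) F, IsAlt4 X → C.val * X * C.valᵀ = X) :
    C.val = 1 ∨ C.val = -1 := by
  obtain ⟨D, hD⟩ : ∃ D : Matrix (Fin 4) (Fin 4) F, D = (C⁻¹).valᵀ := ⟨_, rfl⟩
  have hCD : ∀ X : Matrix (Fin 4) (Fin 4) F, IsAlt4 X → C.val * X = X * D := by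
    intro X hX
    have h1 := h X hX
    have h2 : C.val * X * C.valᵀ * D = X * D := by rw [h1]
    have h3 : C.valᵀ * D = 1 := by
      rw [hD, ← Matrix.transpose_mul, ← Matrix.SpecialLinearGroup.coe_mul, inv_mul_cancel,
        Matrix.SpecialLinearGroup.coe_one, Matrix.transpose_one]
    rw [Matrix.mul_assoc, h3, Matrix.mul_one] at h2
    exact h2
  have hoff : ∀ a i : Fin 4, a ≠ i → C.val a i = 0 := by
    intro a i hai
    obtain ⟨j, hja, hji⟩ := exists_third a i
    have h1 := congrFun (congrFun (hCD _ (altE_alt i j (Ne.symm hji))) a) j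
    unfold altE at h1
    rw [Matrix.mul_sub, Matrix.sub_mul, Matrix.sub_apply, Matrix.sub_apply,
      Matrix.mul_single_apply_same, Matrix.mul_single_apply_of_ne _ _ _ _ _ hji,
      Matrix.single_mul_apply_of_ne _ _ _ _ _ hai, Matrix.single_mul_apply_of_ne _ _ _ _ _
        (Ne.symm hja)] at h1
    simpa using h1
  have hdiag : ∀ i j : Fin 4, i ≠ j → C.val i i = D j j := by
    intro i j hij
    have h1 := congrFun (congrFun (hCD _ (altE_alt i j hij)) i) j
    unfold altE at h1
    rw [Matrix.mul_sub, Matrix.sub_mul, Matrix.sub_apply, Matrix.sub_apply,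
      Matrix.mul_single_apply_same, Matrix.mul_single_apply_of_ne _ _ _ _ _ (Ne.symm hij),
      Matrix.single_mul_apply_same, Matrix.single_mul_apply_of_ne _ _ _ _ _ hij] at h1
    simpa using h1
  have hall : ∀ i k : Fin 4, C.val i i = C.val k k := by
    intro i k
    by_cases hik : i = k
    · rw [hik]
    obtain ⟨j, hji, hjk⟩ := exists_third i k
    rw [hdiag i j (Ne.symm hji), hdiag k j (Ne.symm hjk)]
  obtain ⟨c, hc⟩ : ∃ c, c = C.val 0 0 := ⟨_, rfl⟩
  have hC : C.val = c • (1 : Matrix (Fin 4) (Fin 4) F) := by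
    ext a b
    rw [Matrix.smul_apply, Matrix.one_apply]
    by_cases hab : a = b
    · rw [hab, if_pos rfl, hc, hall b 0, smul_eq_mul, mul_one]
    · rw [if_neg hab, hoff a b hab, smul_zero]
  have hcc : c * c = 1 := by
    have h1 := congrFun (congrFun (h _ (altE_alt 0 1 (by decide))) 0) 1
    rw [hC, Matrix.smul_mul, Matrix.one_mul, Matrix.transpose_smul, Matrix.transpose_one,
      Matrix.mul_smul, Matrix.mul_one, smul_smul] at h1
    unfold altE at h1
    rw [Matrix.smul_apply, Matrix.sub_apply, Matrix.single_apply_same,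
      Matrix.single_apply_of_ne _ _ _ _ _ (by decide)] at h1
    simpa using h1
  have hc1 : (c - 1) * (c + 1) = 0 := by linear_combination hcc
  rcases mul_eq_zero.1 hc1 with h3 | h3
  · left
    have : c = 1 := by linear_combination h3
    rw [hC, this, one_smul]
  · right
    have : c = -1 := by linear_combination h3
    rw [hC, this, neg_smul, one_smul]

theorem Phi6_pm (s t : Matrix.SpecialLinearGroup (Fin 4) F) (h : Phi6 s = Phi6 t) :
    s.val = t.val ∨ s.val = -t.val := by
  have h1 : Phi6 (t⁻¹ * s) = Phi6 1 := by rw [map_mul, map_inv, h, inv_mul_cancel, map_one]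
  rw [Phi6_eq_iff] at h1
  have h2 := pm_one_of_fix_alt (t⁻¹ * s) (by
    intro X hX
    have := h1 X hX
    simpa using this)
  have h3 : s.val = t.val * (t⁻¹ * s).val := by
    rw [← Matrix.SpecialLinearGroup.coe_mul, mul_inv_cancel_left]
  rcases h2 with h2 | h2
  · left
    rw [h3, h2, mul_one]
  · right
    rw [h3, h2, mul_neg, mul_one]

/-- the matrix `-1` in `SL₄` -/
def negOne4 : Matrix.SpecialLinearGroup (Fin 4) F :=
  ⟨-1, by rw [Matrix.det_neg, Matrix.det_one, Fintype.card_fin]; ring⟩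

theorem Phi6_ker_le : (Phi6 (F := F)).ker ≤ Subgroup.center (Matrix.SpecialLinearGroup (Fin 4) F) := by
  intro g hg
  have h1 : Phi6 g = Phi6 1 := by rw [map_one]; exact hg
  rw [Subgroup.mem_center_iff]
  intro x
  apply Subtype.ext
  show x.val * g.val = g.val * x.val
  rcases Phi6_pm g 1 h1 with h3 | h3
  · rw [h3, Matrix.SpecialLinearGroup.coe_one, mul_one, one_mul]
  · rw [h3, Matrix.SpecialLinearGroup.coe_one, mul_neg, mul_one, neg_mul, one_mul]

end O6

section O6fin
variable {F : Type*} [Field F] [Fintype F]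

theorem pomega6plus_iso :
    Nonempty (POmega F (quadFormPlus 3 F) ≃* Matrix.ProjectiveSpecialLinearGroup (Fin 4) F) := by
  classical
  obtain ⟨q, hq⟩ : ∃ q, q = Fintype.card F := ⟨_, rfl⟩
  have hq2 : 2 ≤ q := by rw [hq]; exact Fintype.one_lt_card
  refine iso_of_hom_perfect (Phi6 (F := F)) (Cfsg.Agent.S0248.result 4 (by norm_num))
    Phi6_ker_le ?_
  have hO : Nat.card ↥(isometryGroup F (quadFormPlus 3 F)) =
      2 * q ^ 6 * (q ^ 3 - 1) * ((q ^ 2 - 1) * (q ^ 4 - 1)) := by
    have h := Cfsg.Agent.S0287.result hq.symm 3 (by norm_num)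
    simpa [Finset.prod_range_succ] using h
  have hΩ := Subgroup.card_mul_index (Omega F (quadFormPlus 3 F))
  rw [hO] at hΩ
  have hS : (q - 1) * Nat.card (Matrix.SpecialLinearGroup (Fin 4) F) =
      (q ^ 4 - 1) * (q ^ 4 - q) * (q ^ 4 - q ^ 2) * (q ^ 4 - q ^ 3) := by
    have h := Cfsg.Agent.S0242.result hq.symm 4 (by norm_num)
    simpa [Fin.prod_univ_four] using h
  have hki := Subgroup.card_mul_index (Phi6 (F := F)).ker
  rw [Subgroup.index_ker] at hki
  have hpow : ∀ a b : ℕ, q ^ (a + b) - q ^ a = q ^ a * (q ^ b - 1) := fun a b => by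
    rw [Nat.mul_sub, mul_one, ← pow_add]
  have e1 : q ^ 4 - q = q * (q ^ 3 - 1) := by
    have := hpow 1 3
    simpa using this
  have e2 : q ^ 4 - q ^ 2 = q ^ 2 * (q ^ 2 - 1) := hpow 2 2
  have e3 : q ^ 4 - q ^ 3 = q ^ 3 * (q - 1) := by
    have := hpow 3 1
    simpa using this
  rw [e1, e2, e3] at hS
  have hk : 0 < q - 1 := by omega
  obtain ⟨N, hN⟩ : ∃ N, N = Nat.card (Matrix.SpecialLinearGroup (Fin 4) F) := ⟨_, rfl⟩
  rw [← hN] at hS hki
  have hN' : N = q ^ 6 * (q ^ 3 - 1) * ((q ^ 2 - 1) * (q ^ 4 - 1)) := by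
    apply Nat.eq_of_mul_eq_mul_left hk
    rw [hS]
    ring
  have hΩ' : Nat.card ↥(Omega F (quadFormPlus 3 F)) * (Omega F (quadFormPlus 3 F)).index =
      2 * N := by
    rw [hΩ, hN']
    ring
  show Nat.card ↥(Omega F (quadFormPlus 3 F)) ≤ _
  by_cases h2 : (2 : F) = 0
  · haveI : CharP F 2 := CharTwo.of_one_ne_zero_of_two_eq_zero one_ne_zero h2
    have hidx : (Omega F (quadFormPlus 3 F)).index = 2 := by
      have h := Omega_index_char2 (qfPlus 3 F) qfPlus_nondegenerate
        (Or.inr (by simp)) (by simp)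
      rw [coe_qfPlus] at h
      exact h
    have hker : Nat.card (Phi6 (F := F)).ker = 1 := by
      apply card_eq_one_of_trivial
      intro g hg
      have h1 : Phi6 g = Phi6 1 := by rw [map_one]; exact hg
      have hneg : ∀ M : Matrix (Fin 4) (Fin 4) F, -M = M := by
        intro M
        rw [neg_eq_iff_add_eq_zero, ← two_smul F M, h2, zero_smul]
      rcases Phi6_pm g 1 h1 with h3 | h3
      · exact Subtype.ext h3
      · rw [hneg] at h3
        exact Subtype.ext h3
    rw [hidx] at hΩ'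
    rw [hker, one_mul] at hki
    omega
  · have hidx : (Omega F (quadFormPlus 3 F)).index = 4 := by
      have h := Omega_index_odd h2 (by simp) (qfPlus 3 F) qfPlus_nondegenerate
      rw [coe_qfPlus] at h
      exact h
    have hker : Nat.card (Phi6 (F := F)).ker ≤ 2 := by
      apply card_le_two_of_pair _ negOne4
      intro g hg
      have h1 : Phi6 g = Phi6 1 := by rw [map_one]; exact hg
      rcases Phi6_pm g 1 h1 with h3 | h3
      · left
        exact Subtype.ext h3
      · right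
        exact Subtype.ext h3
    rw [hidx] at hΩ'
    have h6 : Nat.card (Phi6 (F := F)).ker * Nat.card (Phi6 (F := F)).range ≤
        2 * Nat.card (Phi6 (F := F)).range := Nat.mul_le_mul_right _ hker
    omega

end O6fin

end Cfsg.Agent.Helper16
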