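import Cfsg.Agent.Helper16.SiegChar2
import Cfsg.Agent.Helper16.SpinorMore
import Cfsg.Agent.Helper16.Dickson

set_option autoImplicit false
open Cfsg

namespace Cfsg.Agent.Helper16

open QuadraticMap Module

theorem mem_SO_iff_gen {ι : Type} [Fintype ι] [DecidableEq ι] {F : Type*} [Field F] (Q : (ι → F) → F)
    (g : ↥(Cfsg.isometryGroup F Q)) :
    g ∈ Cfsg.specialIsometryGroup F Q ↔
      ((g : Matrix.GeneralLinearGroup ι F) : Matrix ι ι F).det = 1 := by
  constructor
  · intro hg
    have h1 : Matrix.GeneralLinearGroup.det (g : Matrix.GeneralLinearGroup ι F) = 1 := hg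
    have h3 := congrArg (fun u : Fˣ => (u : F)) h1
    simpa using h3
  · intro hg
    show Matrix.GeneralLinearGroup.det (g : Matrix.GeneralLinearGroup ι F) = 1
    apply Units.ext
    rw [Matrix.GeneralLinearGroup.val_det_apply, hg]
    rfl

theorem isSquare_mul_nonsquare_gen {F : Type*} [Field F] [Fintype F] (P c : F) (hP : P ≠ 0)
    (hc : ¬ IsSquare c) : IsSquare (P * c) ↔ ¬ IsSquare P := by
  classical
  have hc0 : c ≠ 0 := by
    rintro rfl
    exact hc IsSquare.zero
  rw [← quadraticChar_one_iff_isSquare (mul_ne_zero hP hc0), map_mul,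
    quadraticChar_neg_one_iff_not_isSquare.2 hc, ← quadraticChar_neg_one_iff_not_isSquare]
  constructor
  · intro h
    linarith
  · intro h
    rw [h]
    norm_num

/-- `Ω` has index 4 in `O` for odd `q` (general index type) -/
theorem Omega_index_odd {ι : Type} [Fintype ι] [DecidableEq ι] {F : Type*} [Field F] [Fintype F]
    (h2 : (2 : F) ≠ 0) (hcard : 2 ≤ Fintype.card ι) (Q : QuadraticForm F (ι → F))
    (hQ : (QuadraticMap.polarBilin Q).Nondegenerate) : (Cfsg.Omega F ⇑Q).index = 4 := by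
  classical
  have hΩSO : Cfsg.Omega F ⇑Q ≤ Cfsg.specialIsometryGroup F ⇑Q :=
    Abelianization.commutator_subset_ker _
  -- index of SO
  have hSO : (Cfsg.specialIsometryGroup F ⇑Q).index = 2 := by
    rw [Subgroup.index_eq_two_iff]
    obtain ⟨u, hu⟩ := exists_rep h2 Q hQ hcard 1 one_ne_zero
    have hu0 : Q u ≠ 0 := by rw [hu]; exact one_ne_zero
    refine ⟨reflElt Q u, ?_⟩
    intro b
    obtain ⟨vs, hvs, hb⟩ := exists_refl_list h2 Q hQ b
    have h1 : b ∈ Cfsg.specialIsometryGroup F ⇑Q ↔ Even vs.length := by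
      rw [mem_SO_iff_gen, hb, coe_prod_reflElt Q vs hvs, det_eq_one_iff_even h2 Q vs hvs]
    have hvs' : ∀ v ∈ vs ++ [u], Q v ≠ 0 := by
      intro v hv
      rcases List.mem_append.1 hv with h | h
      · exact hvs v h
      · rw [List.mem_singleton.1 h]
        exact hu0
    have h3 : b * reflElt Q u ∈ Cfsg.specialIsometryGroup F ⇑Q ↔ ¬ Even vs.length := by
      have hbu : b * reflElt Q u = ((vs ++ [u]).map (reflElt Q)).prod := by
        rw [List.map_append, List.prod_append, hb]
        simp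
      rw [mem_SO_iff_gen, hbu, coe_prod_reflElt Q _ hvs', det_eq_one_iff_even h2 Q _ hvs',
        List.length_append, List.length_singleton, Nat.even_add_one]
    rw [h1, h3]
    by_cases he : Even vs.length
    · right
      exact ⟨he, fun h => h he⟩
    · left
      exact ⟨he, he⟩
  -- relative index of Ω in SO
  have hrel : (Cfsg.Omega F ⇑Q).relIndex (Cfsg.specialIsometryGroup F ⇑Q) = 2 := by
    show ((Cfsg.Omega F ⇑Q).subgroupOf (Cfsg.specialIsometryGroup F ⇑Q)).index = 2
    rw [Subgroup.index_eq_two_iff]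
    obtain ⟨u, hu⟩ := exists_rep h2 Q hQ hcard 1 one_ne_zero
    have hu0 : Q u ≠ 0 := by rw [hu]; exact one_ne_zero
    obtain ⟨c, hc⟩ := FiniteField.exists_nonsquare (ringChar_ne_two_of_two_ne_zero h2)
    have hc0 : c ≠ 0 := by
      rintro rfl
      exact hc IsSquare.zero
    obtain ⟨w, hw⟩ := exists_rep h2 Q hQ hcard c hc0
    have hw0 : Q w ≠ 0 := by rw [hw]; exact hc0
    have hamem : reflElt Q u * reflElt Q w ∈ Cfsg.specialIsometryGroup F ⇑Q := by
      rw [mem_SO_iff_gen, Subgroup.coe_mul, Units.val_mul, reflElt_coe Q u hu0, reflElt_coe Q w hw0,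
        Matrix.det_mul, det_reflMatrix Q u hu0, det_reflMatrix Q w hw0]
      norm_num
    refine ⟨⟨reflElt Q u * reflElt Q w, hamem⟩, ?_⟩
    rintro ⟨b, hbSO⟩
    obtain ⟨vs, hvs, hb⟩ := exists_refl_list h2 Q hQ b
    have hev : Even vs.length := by
      rw [mem_SO_iff_gen, hb, coe_prod_reflElt Q vs hvs, det_eq_one_iff_even h2 Q vs hvs] at hbSO
      exact hbSO
    have hP0 : (vs.map (fun v => Q v)).prod ≠ 0 := by
      intro h0
      rw [List.prod_eq_zero_iff] at h0
      obtain ⟨v, hv, hv0⟩ := List.mem_map.1 h0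
      exact hvs v hv hv0
    have h1 : b ∈ Cfsg.Omega F ⇑Q ↔ IsSquare (vs.map (fun v => Q v)).prod := by
      rw [mem_Omega_iff h2 Q hQ b vs hvs (by rw [hb, coe_prod_reflElt Q vs hvs])]
      exact ⟨fun h => h.2, fun h => ⟨hev, h⟩⟩
    have hvs' : ∀ v ∈ vs ++ [u, w], Q v ≠ 0 := by
      intro v hv
      rcases List.mem_append.1 hv with h | h
      · exact hvs v h
      · rcases List.mem_cons.1 h with h | h
        · rw [h]
          exact hu0
        · rw [List.mem_singleton.1 h]
          exact hw0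
    have h3 : b * (reflElt Q u * reflElt Q w) ∈ Cfsg.Omega F ⇑Q ↔
        ¬ IsSquare (vs.map (fun v => Q v)).prod := by
      have hbu : b * (reflElt Q u * reflElt Q w) = ((vs ++ [u, w]).map (reflElt Q)).prod := by
        rw [List.map_append, List.prod_append, hb]
        simp
      rw [mem_Omega_iff h2 Q hQ _ (vs ++ [u, w]) hvs' (by rw [hbu, coe_prod_reflElt Q _ hvs']),
        ← isSquare_mul_nonsquare_gen _ c hP0 hc]
      have hprod : ((vs ++ [u, w]).map (fun v => Q v)).prod = (vs.map (fun v => Q v)).prod * c := by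
        rw [List.map_append, List.prod_append]
        simp [hu, hw]
      rw [hprod]
      constructor
      · intro h
        exact h.2
      · intro h
        refine ⟨?_, h⟩
        rw [List.length_append]
        exact hev.add ⟨1, rfl⟩
    show Xor' ((⟨b, hbSO⟩ * ⟨reflElt Q u * reflElt Q w, hamem⟩ : ↥(Cfsg.specialIsometryGroup F ⇑Q)) ∈
      (Cfsg.Omega F ⇑Q).subgroupOf (Cfsg.specialIsometryGroup F ⇑Q))
      ((⟨b, hbSO⟩ : ↥(Cfsg.specialIsometryGroup F ⇑Q)) ∈
      (Cfsg.Omega F ⇑Q).subgroupOf (Cfsg.specialIsometryGroup F ⇑Q))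
    rw [Subgroup.mem_subgroupOf, Subgroup.mem_subgroupOf]
    show Xor' (b * (reflElt Q u * reflElt Q w) ∈ Cfsg.Omega F ⇑Q) (b ∈ Cfsg.Omega F ⇑Q)
    rw [h1, h3]
    by_cases he : IsSquare (vs.map (fun v => Q v)).prod
    · right
      exact ⟨he, fun h => h he⟩
    · left
      exact ⟨he, he⟩
  rw [← Subgroup.relIndex_mul_index hΩSO, hrel, hSO]


section Center
variable {ι : Type} [Fintype ι] [DecidableEq ι] {F : Type*} [Field F] [Fintype F]

/-- an isometry fixing all singular points is a scalar -/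
theorem scalar_of_fix (hn : 5 ≤ Fintype.card ι) (Q : QuadraticForm F (ι → F))
    (hQ : (polarBilin Q).Nondegenerate) (g : ↥(isometryGroup F ⇑Q))
    (hfix : ∀ u, Q u = 0 → act ⇑Q g u ∈ Submodule.span F {u}) :
    ∃ lam : F, ∀ x, act ⇑Q g x = lam • x := by
  obtain ⟨e, he0, he⟩ := exists_singular Q hQ (by
    rw [Module.finrank_fintype_fun_eq_card]
    omega)
  obtain ⟨f, hf, hef⟩ := exists_hyp_partner Q hQ e he0 he
  obtain ⟨lam, hlam⟩ := Submodule.mem_span_singleton.1 (hfix e he)
  obtain ⟨mu, hmu⟩ := Submodule.mem_span_singleton.1 (hfix f hf)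
  have hlm : lam * mu = 1 := by
    have h1 := act_polar ⇑Q g e f
    rw [← hlam, ← hmu, polar_smul_left, polar_smul_right, hef] at h1
    simpa using h1
  have hlam0 : lam ≠ 0 := left_ne_zero_of_mul_eq_one hlm
  have hmu0 : mu ≠ 0 := right_ne_zero_of_mul_eq_one hlm
  have hfe : polar Q f e = 1 := by rw [polar_comm]; exact hef
  have key : ∀ h, polar Q e h = 0 → polar Q f h = 0 →
      act ⇑Q g h = lam • h ∧ Q h * (mu - lam) = 0 := by
    intro h heh hfh
    have hz : Q (e + (-Q h) • f + h) = 0 := by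
      rw [qf_add, qf_add, qf_smul, he, hf, polar_smul_right, hef, polar_add_left,
        polar_smul_left, heh, hfh]
      simp
    obtain ⟨nu, hnu⟩ := Submodule.mem_span_singleton.1 (hfix _ hz)
    rw [act_add, act_add, act_smul, ← hlam, ← hmu] at hnu
    have hgh : act ⇑Q g h = (nu - lam) • e + (Q h * (mu - nu)) • f + nu • h := by
      have e1 : act ⇑Q g h = nu • (e + (-Q h) • f + h) - lam • e - (-Q h) • mu • f := by
        rw [hnu]
        abel
      rw [e1]
      funext i
      simp only [Pi.add_apply, Pi.sub_apply, Pi.smul_apply, smul_eq_mul]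
      ring
    have h1 : polar Q (act ⇑Q g f) (act ⇑Q g h) = 0 := (act_polar ⇑Q g f h).trans hfh
    have h2 : polar Q (act ⇑Q g e) (act ⇑Q g h) = 0 := (act_polar ⇑Q g e h).trans heh
    rw [← hmu, hgh, polar_smul_left, polar_add_right, polar_add_right, polar_smul_right,
      polar_smul_right, polar_smul_right, hfe, qf_polar_self, hf, hfh] at h1
    rw [← hlam, hgh, polar_smul_left, polar_add_right, polar_add_right, polar_smul_right,
      polar_smul_right, polar_smul_right, hef, qf_polar_self, he, heh] at h2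
    simp only [smul_eq_mul, mul_zero, mul_one, add_zero, zero_add] at h1 h2
    have hnl : nu = lam := by
      rcases mul_eq_zero.1 h1 with h | h
      · exact absurd h hmu0
      · exact sub_eq_zero.1 h
    have hq : Q h * (mu - nu) = 0 := by
      rcases mul_eq_zero.1 h2 with h | h
      · exact absurd h hlam0
      · exact h
    rw [hnl] at hq hgh
    refine ⟨?_, hq⟩
    rw [hgh, hq, sub_self]
    simp
  obtain ⟨h₀, hh₀, heh₀, hfh₀⟩ := exists_nonsing_orth_two hn Q hQ e f
  have hml : mu = lam := by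
    rcases mul_eq_zero.1 (key h₀ heh₀ hfh₀).2 with h | h
    · exact absurd h hh₀
    · exact sub_eq_zero.1 h
  refine ⟨lam, ?_⟩
  · intro x
    obtain ⟨h, hh⟩ : ∃ h, h = x - polar Q f x • e - polar Q e x • f := ⟨_, rfl⟩
    have heh : polar Q e h = 0 := by
      rw [hh, polar_sub_right, polar_sub_right, polar_smul_right, polar_smul_right,
        qf_polar_self, he, hef]
      simp
    have hfh : polar Q f h = 0 := by
      rw [hh, polar_sub_right, polar_sub_right, polar_smul_right, polar_smul_right,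
        qf_polar_self, hf, hfe]
      simp
    have hx : x = polar Q f x • e + polar Q e x • f + h := by
      rw [hh]
      abel
    have k := (key h heh hfh).1
    calc act ⇑Q g x = act ⇑Q g (polar Q f x • e + polar Q e x • f + h) := by rw [← hx]
      _ = polar Q f x • lam • e + polar Q e x • lam • f + lam • h := by
          rw [act_add, act_add, act_smul, act_smul, k, ← hlam, ← hmu, hml]
      _ = lam • (polar Q f x • e + polar Q e x • f + h) := by
          rw [smul_add, smul_add, smul_comm lam, smul_comm lam]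
      _ = lam • x := by rw [← hx]

/-- an isometry commuting with the Siegel elements of a singular vector fixes its span -/
theorem fix_of_commute (hn : 5 ≤ Fintype.card ι) (Q : QuadraticForm F (ι → F))
    (hQ : (polarBilin Q).Nondegenerate) (g : ↥(isometryGroup F ⇑Q)) (u : ι → F) (hu0 : u ≠ 0)
    (hu : Q u = 0)
    (hc : ∀ w (huw : polar Q u w = 0), g * sieg Q u w hu huw = sieg Q u w hu huw * g) :
    act ⇑Q g u ∈ Submodule.span F {u} := by
  by_contra hnot
  have key : ∀ x, polar Q u x = 0 → polar Q (act ⇑Q g u) x = 0 →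
      ∀ w, polar Q u w = 0 → polar Q w x = 0 := by
    intro x hux hu'x w huw
    have h1 : g * sieg Q u w hu huw * g⁻¹ = sieg Q u w hu huw := by
      rw [hc w huw, mul_inv_cancel_right]
    rw [sieg_conj] at h1
    have h2 := congrArg (fun s => act ⇑Q s x) h1
    beta_reduce at h2
    rw [act_sieg, act_sieg, hu'x, hux] at h2
    simp only [zero_smul, mul_zero, sub_zero] at h2
    have h3 : polar Q (act ⇑Q g w) x • act ⇑Q g u = polar Q w x • u := add_left_cancel h2
    by_contra hne
    apply hnot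
    have hcoef : polar Q (act ⇑Q g w) x ≠ 0 := by
      intro h0
      rw [h0, zero_smul] at h3
      exact hu0 ((smul_eq_zero.1 h3.symm).resolve_left hne)
    rw [Submodule.mem_span_singleton]
    refine ⟨(polar Q (act ⇑Q g w) x)⁻¹ * polar Q w x, ?_⟩
    rw [mul_smul, ← h3, smul_smul, inv_mul_cancel₀ hcoef, one_smul]
  have hle : orth Q (Submodule.span F {u} ⊔ Submodule.span F {act ⇑Q g u}) ≤
      Submodule.span F {u} := by
    intro x hx
    rw [orth_sup, Submodule.mem_inf, mem_orth_span_singleton, mem_orth_span_singleton] at hx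
    rw [← orth_orth Q hQ (Submodule.span F {u}), mem_orth]
    intro w hw
    rw [mem_orth_span_singleton] at hw
    exact key x hx.1 hx.2 w hw
  have h1 := Submodule.finrank_mono hle
  have h2 := card_lt_orth_two hn Q hQ u (act ⇑Q g u)
  have h3 := finrank_span_one_le (F := F) u
  omega

/-- central elements of `Ω` are `±1` -/
theorem center_Omega_pm_one (hn : 5 ≤ Fintype.card ι) (Q : QuadraticForm F (ι → F))
    (hQ : (polarBilin Q).Nondegenerate) (z : ↥(Omega F ⇑Q))
    (hz : z ∈ Subgroup.center ↥(Omega F ⇑Q)) :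
    ((z.1 : GL ι F) : Matrix ι ι F) = 1 ∨ ((z.1 : GL ι F) : Matrix ι ι F) = -1 := by
  have hfix : ∀ u, Q u = 0 → act ⇑Q z.1 u ∈ Submodule.span F {u} := by
    intro u hu
    by_cases hu0 : u = 0
    · rw [hu0, act_zero]
      exact Submodule.zero_mem _
    · apply fix_of_commute hn Q hQ z.1 u hu0 hu
      intro w huw
      have hs := sieg_mem_Omega hn Q hQ u w hu huw
      have h1 := (Subgroup.mem_center_iff.1 hz) ⟨_, hs⟩
      have h := congrArg Subtype.val h1
      rw [Subgroup.coe_mul, Subgroup.coe_mul] at h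
      exact h.symm
  obtain ⟨lam, hlam⟩ := scalar_of_fix hn Q hQ z.1 hfix
  obtain ⟨x, hx⟩ := exists_nonsing Q hQ (by omega)
  have h1 := act_Q ⇑Q z.1 x
  rw [hlam, qf_smul] at h1
  have h2 : (lam - 1) * (lam + 1) = 0 := by
    have h3 : (lam * lam - 1) * Q x = 0 := by linear_combination h1
    rcases mul_eq_zero.1 h3 with h | h
    · linear_combination h
    · exact absurd h hx
  rcases mul_eq_zero.1 h2 with h | h
  · left
    apply mat_ext
    intro y
    have h4 := hlam y
    rw [sub_eq_zero.1 h, one_smul] at h4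
    rw [Matrix.one_mulVec]
    exact h4
  · right
    apply mat_ext
    intro y
    have h4 := hlam y
    rw [eq_neg_of_add_eq_zero_left h, neg_one_smul] at h4
    rw [Matrix.neg_mulVec, Matrix.one_mulVec]
    exact h4

theorem card_center_eq_one (hn : 5 ≤ Fintype.card ι) (Q : QuadraticForm F (ι → F))
    (hQ : (polarBilin Q).Nondegenerate)
    (hneg : ∀ g : ↥(isometryGroup F ⇑Q), g ∈ Omega F ⇑Q →
      ((g : GL ι F) : Matrix ι ι F) = -1 → ((g : GL ι F) : Matrix ι ι F) = 1) :
    Nat.card (Subgroup.center ↥(Omega F ⇑Q)) = 1 := by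
  have hbot : Subgroup.center ↥(Omega F ⇑Q) = ⊥ := by
    rw [eq_bot_iff]
    intro z hz
    rw [Subgroup.mem_bot]
    have h1 : ((z.1 : GL ι F) : Matrix ι ι F) = 1 := by
      rcases center_Omega_pm_one hn Q hQ z hz with h | h
      · exact h
      · exact hneg z.1 z.2 h
    apply Subtype.ext
    apply isom_ext
    rw [h1]
    rfl
  rw [hbot]
  exact Subgroup.card_bot

theorem card_center_eq_two (hn : 5 ≤ Fintype.card ι) (Q : QuadraticForm F (ι → F))
    (hQ : (polarBilin Q).Nondegenerate) (h2 : (2 : F) ≠ 0) (g₀ : ↥(isometryGroup F ⇑Q))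
    (hg₀ : g₀ ∈ Omega F ⇑Q) (hmat : ((g₀ : GL ι F) : Matrix ι ι F) = -1) :
    Nat.card (Subgroup.center ↥(Omega F ⇑Q)) = 2 := by
  have hne : (-1 : Matrix ι ι F) ≠ 1 := by
    intro h
    have hι : Nonempty ι := Fintype.card_pos_iff.1 (by omega)
    obtain ⟨i⟩ := hι
    have h1 := congrFun (congrFun h i) i
    rw [Matrix.neg_apply, Matrix.one_apply_eq] at h1
    exact h2 (by linear_combination (-1 : F) * h1)
  have hcen : (⟨g₀, hg₀⟩ : ↥(Omega F ⇑Q)) ∈ Subgroup.center ↥(Omega F ⇑Q) := by
    rw [Subgroup.mem_center_iff]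
    intro h
    apply Subtype.ext
    apply isom_ext
    rw [Subgroup.coe_mul, Subgroup.coe_mul, Subgroup.coe_mul, Subgroup.coe_mul, Units.val_mul,
      Units.val_mul, hmat]
    simp
  rw [Nat.card_eq_two_iff]
  refine ⟨1, ⟨⟨g₀, hg₀⟩, hcen⟩, ?_, ?_⟩
  · intro h
    have h1 : ((g₀ : GL ι F) : Matrix ι ι F) = 1 := by
      have h3 := congrArg (fun z : ↥(Subgroup.center ↥(Omega F ⇑Q)) =>
        (((z.1.1 : ↥(isometryGroup F ⇑Q)) : GL ι F) : Matrix ι ι F)) h
      simp only at h3
      rw [← h3]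
      rfl
    rw [hmat] at h1
    exact hne h1
  · rw [Set.eq_univ_iff_forall]
    intro z
    rw [Set.mem_insert_iff, Set.mem_singleton_iff]
    rcases center_Omega_pm_one hn Q hQ z.1 z.2 with h | h
    · left
      apply Subtype.ext
      apply Subtype.ext
      apply isom_ext
      rw [h]
      rfl
    · right
      apply Subtype.ext
      apply Subtype.ext
      apply isom_ext
      rw [h, hmat]

theorem card_POmega_mul (Q : (ι → F) → F) :
    Nat.card (POmega F Q) * Nat.card (Subgroup.center ↥(Omega F Q)) * (Omega F Q).index =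
      Nat.card ↥(isometryGroup F Q) := by
  rw [← Subgroup.card_eq_card_quotient_mul_card_subgroup, Subgroup.card_mul_index]

theorem Omega_le_SO (Q : (ι → F) → F) (g : ↥(isometryGroup F Q)) (hg : g ∈ Omega F Q) :
    ((g : GL ι F) : Matrix ι ι F).det = 1 := by
  have hΩSO : Omega F Q ≤ specialIsometryGroup F Q := Abelianization.commutator_subset_ker _
  exact (mem_SO_iff_gen Q g).1 (hΩSO hg)

end Center

section EvenDim
variable {ι : Type} [Fintype ι] [DecidableEq ι] {F : Type*} [Field F] [Fintype F]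

theorem gcd_four_of_odd (N : ℕ) (hN : N % 2 = 1) : Nat.gcd 4 N = 1 := by
  have h1 : Nat.Coprime 2 N := Nat.coprime_two_left.2 (Nat.odd_iff.2 hN)
  have h2 : Nat.Coprime (2 ^ 2) N := Nat.Coprime.pow_left 2 h1
  exact h2

theorem gcd_four_of_even (N : ℕ) (hN : N % 2 = 0) :
    (Nat.gcd 4 N = 4 ↔ N % 4 = 0) ∧ (Nat.gcd 4 N = 4 ∨ Nat.gcd 4 N = 2) := by
  by_cases h4 : N % 4 = 0
  · have hg : Nat.gcd 4 N = 4 := Nat.gcd_eq_left (Nat.dvd_of_mod_eq_zero h4)
    exact ⟨⟨fun _ => h4, fun _ => hg⟩, Or.inl hg⟩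
  · have hd := Nat.gcd_dvd_left 4 N
    have hd2 := Nat.gcd_dvd_right 4 N
    have h2d : 2 ∣ Nat.gcd 4 N := Nat.dvd_gcd (by norm_num) (Nat.dvd_of_mod_eq_zero hN)
    have hle := Nat.le_of_dvd (by norm_num) hd
    have hg : Nat.gcd 4 N = 2 := by
      generalize Nat.gcd 4 N = d at hd hd2 h2d hle
      interval_cases d <;> omega
    exact ⟨⟨fun h => by omega, fun h => absurd h h4⟩, Or.inr hg⟩

theorem card_parity (h2 : (2 : F) = 0) : Fintype.card F % 2 = 0 :=
  FiniteField.even_card_of_char_two (ringChar_two_of_two_eq_zero h2)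

theorem card_parity' (h2 : (2 : F) ≠ 0) : Fintype.card F % 2 = 1 :=
  FiniteField.odd_card_of_char_ne_two (ringChar_ne_two_of_two_ne_zero h2)

/-- order of `PΩ` in terms of `|O|`, given the criterion for `-1 ∈ Ω` -/
theorem card_POmega_of_crit (hn : 5 ≤ Fintype.card ι) (Q : QuadraticForm F (ι → F))
    (hQ : (polarBilin Q).Nondegenerate) (N : ℕ)
    (hgcd_even : (2 : F) = 0 → Nat.gcd 4 N = 1)
    (hcrit : (2 : F) ≠ 0 → ((∃ g : ↥(isometryGroup F ⇑Q), g ∈ Omega F ⇑Q ∧
      ((g : GL ι F) : Matrix ι ι F) = -1) ↔ Nat.gcd 4 N = 4) ∧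
      (Nat.gcd 4 N = 4 ∨ Nat.gcd 4 N = 2)) :
    Nat.gcd 4 N * Nat.card (POmega F ⇑Q) * 2 = Nat.card ↥(isometryGroup F ⇑Q) := by
  have hmul := card_POmega_mul (F := F) ⇑Q
  by_cases h2 : (2 : F) = 0
  · haveI : CharP F 2 := CharTwo.of_one_ne_zero_of_two_eq_zero one_ne_zero h2
    have hidx : (Omega F ⇑Q).index = 2 :=
      Omega_index_char2 Q hQ (Or.inr (by omega)) (by omega)
    have hZ : Nat.card (Subgroup.center ↥(Omega F ⇑Q)) = 1 := by
      apply card_center_eq_one hn Q hQ
      intro g _ hmat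
      rw [hmat, neg_eq_iff_add_eq_zero, ← two_smul F (1 : Matrix ι ι F), h2, zero_smul]
    rw [hgcd_even h2, ← hmul, hZ, hidx]
    ring
  · obtain ⟨hiff, hor⟩ := hcrit h2
    have hidx : (Omega F ⇑Q).index = 4 := Omega_index_odd h2 (by omega) Q hQ
    by_cases hex : ∃ g : ↥(isometryGroup F ⇑Q), g ∈ Omega F ⇑Q ∧
        ((g : GL ι F) : Matrix ι ι F) = -1
    · obtain ⟨g₀, hg₀, hmat⟩ := hex
      have hZ : Nat.card (Subgroup.center ↥(Omega F ⇑Q)) = 2 :=
        card_center_eq_two hn Q hQ h2 g₀ hg₀ hmat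
      rw [hiff.1 ⟨g₀, hg₀, hmat⟩, ← hmul, hZ, hidx]
      ring
    · have hZ : Nat.card (Subgroup.center ↥(Omega F ⇑Q)) = 1 := by
        apply card_center_eq_one hn Q hQ
        intro g hg hmat
        exact absurd ⟨g, hg, hmat⟩ hex
      have hg2 : Nat.gcd 4 N = 2 := by
        rcases hor with h | h
        · exact absurd (hiff.2 h) hex
        · exact h
      rw [hg2, ← hmul, hZ, hidx]
      ring

end EvenDim

end Cfsg.Agent.Helper16
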