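import Cfsg.Agent.Helper16.ParityIso
import Cfsg.Agent.Helper16.SiegelGen

set_option autoImplicit false
open Cfsg

namespace Cfsg.Agent.Helper16

open scoped commutatorElement

section PermIso
variable {ι : Type} [Fintype ι] [DecidableEq ι] {F : Type*} [Field F]

/-- the matrix of the coordinate permutation `v ↦ v ∘ σ` -/
def permMat (σ : Equiv.Perm ι) : Matrix ι ι F := σ.toPEquiv.toMatrix

theorem permMat_mulVec (σ : Equiv.Perm ι) (v : ι → F) :
    (permMat σ : Matrix ι ι F).mulVec v = v ∘ σ :=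
  PEquiv.toMatrix_toPEquiv_mulVec σ v

theorem permMat_mul (σ τ : Equiv.Perm ι) :
    (permMat σ : Matrix ι ι F) * permMat τ = permMat (τ * σ) := by
  apply mat_ext
  intro x
  rw [← Matrix.mulVec_mulVec, permMat_mulVec, permMat_mulVec, permMat_mulVec]
  rfl

theorem permMat_one : (permMat (1 : Equiv.Perm ι) : Matrix ι ι F) = 1 := by
  apply mat_ext
  intro x
  rw [permMat_mulVec, Matrix.one_mulVec]
  rfl

/-- a coordinate permutation preserving `Q`, as an element of the isometry group -/
noncomputable def permElt (Q : (ι → F) → F) (σ : Equiv.Perm ι) (hσ : ∀ v, Q (v ∘ σ) = Q v) :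
    ↥(isometryGroup F Q) :=
  ⟨⟨permMat σ, permMat σ⁻¹, by rw [permMat_mul, inv_mul_cancel, permMat_one],
    by rw [permMat_mul, mul_inv_cancel, permMat_one]⟩,
   (mem_isometryGroup_iff _ _).2 fun u => by
     show Q ((permMat σ : Matrix ι ι F).mulVec u) = Q u
     rw [permMat_mulVec]
     exact hσ u⟩

theorem permElt_coe (Q : (ι → F) → F) (σ : Equiv.Perm ι) (hσ : ∀ v, Q (v ∘ σ) = Q v) :
    ((permElt Q σ hσ : Matrix.GeneralLinearGroup ι F) : Matrix ι ι F) = permMat σ := rfl

theorem permElt_mulVec (Q : (ι → F) → F) (σ : Equiv.Perm ι) (hσ : ∀ v, Q (v ∘ σ) = Q v)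
    (v : ι → F) :
    ((permElt Q σ hσ : Matrix.GeneralLinearGroup ι F) : Matrix ι ι F).mulVec v = v ∘ σ :=
  permMat_mulVec σ v

end PermIso

section PlusPerm
variable {m : ℕ} {F : Type*} [Field F]

theorem plus_comp_swap (v : Fin m ⊕ Fin m → F) :
    quadFormPlus m F (v ∘ Equiv.sumComm (Fin m) (Fin m)) = quadFormPlus m F v := by
  unfold quadFormPlus
  apply Finset.sum_congr rfl
  intro i _
  simp [mul_comm]

/-- swap `x_i ↔ y_i` for the `i` with `b i = true` -/
def tauFun (b : Fin m → Bool) : Fin m ⊕ Fin m → Fin m ⊕ Fin m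
  | Sum.inl i => if b i then Sum.inr i else Sum.inl i
  | Sum.inr i => if b i then Sum.inl i else Sum.inr i

theorem tauFun_invol (b : Fin m → Bool) : Function.Involutive (tauFun b) := by
  intro x
  rcases x with i | i <;> by_cases hb : b i <;> simp [tauFun, hb]

def tauPerm (b : Fin m → Bool) : Equiv.Perm (Fin m ⊕ Fin m) := (tauFun_invol b).toPerm

theorem plus_comp_tau (b : Fin m → Bool) (v : Fin m ⊕ Fin m → F) :
    quadFormPlus m F (v ∘ tauPerm b) = quadFormPlus m F v := by
  unfold quadFormPlus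
  apply Finset.sum_congr rfl
  intro i _
  show v (tauFun b (Sum.inl i)) * v (tauFun b (Sum.inr i)) = _
  by_cases hb : b i <;> simp [tauFun, hb, mul_comm]

theorem plus_comp_sumCongr (ρ : Equiv.Perm (Fin m)) (v : Fin m ⊕ Fin m → F) :
    quadFormPlus m F (v ∘ Equiv.sumCongr ρ ρ) = quadFormPlus m F v := by
  unfold quadFormPlus
  show ∑ i, v (Sum.inl (ρ i)) * v (Sum.inr (ρ i)) = _
  exact Equiv.sum_comp ρ (fun i => v (Sum.inl i) * v (Sum.inr i))

/-- if the coordinates can be split in two halves swapped by an involution, the element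
swapping all `x_i ↔ y_i` is a commutator -/
theorem swapElt_mem_Omega (b : Fin m → Bool) (ρ : Equiv.Perm (Fin m)) (hρ : ∀ i, ρ (ρ i) = i)
    (hb : ∀ i, b (ρ i) = !b i) :
    permElt (quadFormPlus m F) (Equiv.sumComm (Fin m) (Fin m)) plus_comp_swap ∈
      Omega F (quadFormPlus m F) := by
  have hTT : permElt (quadFormPlus m F) (tauPerm b) (plus_comp_tau b) *
      permElt (quadFormPlus m F) (tauPerm b) (plus_comp_tau b) = 1 := by
    apply isom_ext
    show (permMat (tauPerm b) : Matrix _ _ F) * permMat (tauPerm b) = 1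
    rw [permMat_mul]
    have : tauPerm b * tauPerm b = 1 := by
      ext x
      exact tauFun_invol b x
    rw [this, permMat_one]
  have hPP : permElt (quadFormPlus m F) (Equiv.sumCongr ρ ρ) (plus_comp_sumCongr ρ) *
      permElt (quadFormPlus m F) (Equiv.sumCongr ρ ρ) (plus_comp_sumCongr ρ) = 1 := by
    apply isom_ext
    show (permMat (Equiv.sumCongr ρ ρ) : Matrix _ _ F) * permMat (Equiv.sumCongr ρ ρ) = 1
    rw [permMat_mul]
    have : (Equiv.sumCongr ρ ρ : Equiv.Perm (Fin m ⊕ Fin m)) * Equiv.sumCongr ρ ρ = 1 := by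
      ext x
      rcases x with i | i <;> simp [hρ]
    rw [this, permMat_one]
  have key : permElt (quadFormPlus m F) (Equiv.sumComm (Fin m) (Fin m)) plus_comp_swap =
      ⁅permElt (quadFormPlus m F) (tauPerm b) (plus_comp_tau b),
        permElt (quadFormPlus m F) (Equiv.sumCongr ρ ρ) (plus_comp_sumCongr ρ)⁆ := by
    rw [commutatorElement_def, inv_eq_of_mul_eq_one_left hTT, inv_eq_of_mul_eq_one_left hPP]
    apply isom_ext
    show (permMat (Equiv.sumComm (Fin m) (Fin m)) : Matrix _ _ F) =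
      permMat (tauPerm b) * permMat (Equiv.sumCongr ρ ρ) * permMat (tauPerm b) *
        permMat (Equiv.sumCongr ρ ρ)
    rw [permMat_mul, permMat_mul, permMat_mul]
    congr 1
    ext x
    show _ = (Equiv.sumCongr ρ ρ) (tauFun b ((Equiv.sumCongr ρ ρ) (tauFun b x)))
    rcases x with i | i <;> by_cases hbi : b i <;> simp [tauFun, hbi, hb, hρ]
  rw [key]
  exact Subgroup.commutator_mem_commutator (Subgroup.mem_top _) (Subgroup.mem_top _)

end PlusPerm

end Cfsg.Agent.Helper16
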