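import Mathlib
import Cfsg.Agent.Helper16.QuadHyp

set_option autoImplicit false

namespace Cfsg.Agent.Helper16

open QuadraticMap

section Chain

universe u v

variable {F : Type u} [Field F] {V : Type v} [AddCommGroup V] [Module F V]

/-- a chain `a 0 - a 1 - ... - a (r-1)` of norm-one vectors (the `A_r` diagram) -/
structure IsChain (Q : QuadraticForm F V) (a : ℕ → V) (r : ℕ) : Prop where
  q : ∀ i, i < r → Q (a i) = 1
  adj : ∀ i, i + 1 < r → polar Q (a i) (a (i + 1)) = 1
  far : ∀ i j, i + 2 ≤ j → j < r → polar Q (a i) (a j) = 0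

theorem IsChain.polar_eq {Q : QuadraticForm F V} {a : ℕ → V} {r : ℕ} (h : IsChain Q a r)
    (h2 : (2 : F) = 0) (i j : ℕ) (hi : i < r) (hj : j < r) :
    polar Q (a i) (a j) = if i = j then 0 else if i + 1 = j ∨ j + 1 = i then 1 else 0 := by
  by_cases hij : i = j
  · subst hij
    rw [if_pos rfl, qf_polar_self, h.q i hi, mul_one, h2]
  · rw [if_neg hij]
    by_cases h1 : i + 1 = j
    · subst h1
      rw [if_pos (Or.inl rfl), h.adj i hj]
    · by_cases h3 : j + 1 = i
      · subst h3
        rw [if_pos (Or.inr rfl), polar_comm, h.adj j hi]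
      · rw [if_neg (by tauto)]
        rcases Nat.lt_or_ge i j with h4 | h4
        · exact h.far i j (by omega) hj
        · rw [polar_comm]
          exact h.far j i (by omega) hi

/-- the span of the chain -/
def chainSpan (F : Type u) [Field F] {V : Type v} [AddCommGroup V] [Module F V] (a : ℕ → V)
    (r : ℕ) : Submodule F V :=
  Submodule.span F (a '' {i | i < r})

theorem mem_chainSpan (a : ℕ → V) {r i : ℕ} (hi : i < r) : a i ∈ chainSpan F a r :=
  Submodule.subset_span ⟨i, hi, rfl⟩

theorem polar_eq_zero_of_mem_chainSpan (Q : QuadraticForm F V) (a : ℕ → V) (r : ℕ) (x : V)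
    (hx : ∀ i, i < r → polar Q x (a i) = 0) {w : V} (hw : w ∈ chainSpan F a r) :
    polar Q x w = 0 := by
  refine Submodule.span_induction ?_ ?_ ?_ ?_ hw
  · rintro _ ⟨i, hi, rfl⟩
    exact hx i hi
  · exact qf_polar_zero_right Q x
  · intro y z _ _ hy hz
    rw [polar_add_right, hy, hz, add_zero]
  · intro c y _ hy
    rw [polar_smul_right, hy, smul_zero]

/-- the chain orthogonal to the first four members -/
def chainShift (a : ℕ → V) : ℕ → V := fun i => if i = 0 then a 4 + a 2 + a 0 else a (i + 4)

theorem chainShift_zero (a : ℕ → V) : chainShift a 0 = a 4 + a 2 + a 0 := rfl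

theorem chainShift_pos (a : ℕ → V) {i : ℕ} (hi : i ≠ 0) : chainShift a i = a (i + 4) := by
  unfold chainShift
  rw [if_neg hi]

theorem chainShift_isChain (h2 : (2 : F) = 0) (Q : QuadraticForm F V) (a : ℕ → V) (r : ℕ)
    (h : IsChain Q a (r + 4)) : IsChain Q (chainShift a) r := by
  refine ⟨?_, ?_, ?_⟩
  · intro i hi
    by_cases h0 : i = 0
    · subst h0
      rw [chainShift_zero, qf_add, qf_add, polar_add_left, h.q 4 (by omega), h.q 2 (by omega),
        h.q 0 (by omega), h.polar_eq h2 4 2 (by omega) (by omega),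
        h.polar_eq h2 4 0 (by omega) (by omega), h.polar_eq h2 2 0 (by omega) (by omega)]
      norm_num
      linear_combination h2
    · rw [chainShift_pos a h0]
      exact h.q _ (by omega)
  · intro i hi
    by_cases h0 : i = 0
    · subst h0
      rw [chainShift_zero, chainShift_pos a (by omega), polar_add_left, polar_add_left,
        h.polar_eq h2 4 _ (by omega) (by omega), h.polar_eq h2 2 _ (by omega) (by omega),
        h.polar_eq h2 0 _ (by omega) (by omega)]
      norm_num
    · rw [chainShift_pos a h0, chainShift_pos a (by omega)]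
      have := h.adj (i + 4) (by omega)
      rw [show i + 4 + 1 = i + 1 + 4 by ring] at this
      exact this
  · intro i j hij hj
    rw [chainShift_pos a (show j ≠ 0 by omega)]
    by_cases h0 : i = 0
    · subst h0
      rw [chainShift_zero, polar_add_left, polar_add_left,
        h.polar_eq h2 4 _ (by omega) (by omega), h.polar_eq h2 2 _ (by omega) (by omega),
        h.polar_eq h2 0 _ (by omega) (by omega),
        if_neg (by omega), if_neg (by omega), if_neg (by omega), if_neg (by omega),
        if_neg (by omega), if_neg (by omega)]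
      simp
    · rw [chainShift_pos a h0]
      exact h.far _ _ (by omega) (by omega)

theorem front_orth (h2 : (2 : F) = 0) (Q : QuadraticForm F V) (a : ℕ → V) (r : ℕ)
    (h : IsChain Q a (r + 4)) (c : ℕ) (hc : c < 4) (i : ℕ) (hi : i < r) :
    polar Q (a c) (chainShift a i) = 0 := by
  by_cases h0 : i = 0
  · subst h0
    rw [chainShift_zero, polar_add_right, polar_add_right,
      h.polar_eq h2 c 4 (by omega) (by omega), h.polar_eq h2 c 2 (by omega) (by omega),
      h.polar_eq h2 c 0 (by omega) (by omega)]
    interval_cases c <;> norm_num <;> linear_combination h2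
  · rw [chainShift_pos a h0]
    exact h.far _ _ (by omega) (by omega)

theorem chainSpan_shift_le (a : ℕ → V) (r : ℕ) :
    chainSpan F (chainShift a) r ≤ chainSpan F a (r + 4) := by
  apply Submodule.span_le.2
  rintro _ ⟨i, hi, rfl⟩
  have hi' : i < r := hi
  by_cases h0 : i = 0
  · subst h0
    rw [chainShift_zero]
    exact add_mem (add_mem (mem_chainSpan a (by omega)) (mem_chainSpan a (by omega)))
      (mem_chainSpan a (by omega))
  · rw [chainShift_pos a h0]
    exact mem_chainSpan a (by omega)

theorem hyp_cons_mem {k : ℕ} (S : Submodule F V) {e f : Fin k → V} (e₀ f₀ : V) (he : e₀ ∈ S)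
    (hf : f₀ ∈ S) (h : ∀ i, e i ∈ S ∧ f i ∈ S) (i : Fin (k + 1)) :
    (Fin.cons e₀ e : Fin (k + 1) → V) i ∈ S ∧ (Fin.cons f₀ f : Fin (k + 1) → V) i ∈ S := by
  refine Fin.cases ?_ (fun i' => ?_) i
  · simp only [Fin.cons_zero]
    exact ⟨he, hf⟩
  · simp only [Fin.cons_succ]
    exact h i'

/-- two orthogonal anisotropic planes over a field of characteristic two give two hyperbolic
pairs -/
theorem hyp_of_aniso_pair (h2 : (2 : F) = 0) (Q : QuadraticForm F V) {k : ℕ} {e f : Fin k → V}
    (h : IsHypFamily Q e f) (a b c d : V)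
    (ha : Q a = 1) (hb : Q b = 1) (hab : polar Q a b = 1) (hc : Q c = 1) (hd : Q d = 1)
    (hcd : polar Q c d = 1) (hac : polar Q a c = 0) (had : polar Q a d = 0)
    (hbc : polar Q b c = 0) (hbd : polar Q b d = 0)
    (hae : ∀ i, polar Q a (e i) = 0 ∧ polar Q a (f i) = 0)
    (hbe : ∀ i, polar Q b (e i) = 0 ∧ polar Q b (f i) = 0)
    (hce : ∀ i, polar Q c (e i) = 0 ∧ polar Q c (f i) = 0)
    (hde : ∀ i, polar Q d (e i) = 0 ∧ polar Q d (f i) = 0) :
    IsHypFamily Q (Fin.cons (a + c) (Fin.cons (b + c + d) e : Fin (k + 1) → V) : Fin (k + 2) → V)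
      (Fin.cons (a + d) (Fin.cons (a + b + c + d) f : Fin (k + 1) → V) : Fin (k + 2) → V) := by
  have haa : polar Q a a = 0 := by rw [qf_polar_self, ha, mul_one, h2]
  have hbb : polar Q b b = 0 := by rw [qf_polar_self, hb, mul_one, h2]
  have hcc : polar Q c c = 0 := by rw [qf_polar_self, hc, mul_one, h2]
  have hdd : polar Q d d = 0 := by rw [qf_polar_self, hd, mul_one, h2]
  have hba : polar Q b a = 1 := by rw [polar_comm, hab]
  have hdc : polar Q d c = 1 := by rw [polar_comm, hcd]
  have hca : polar Q c a = 0 := by rw [polar_comm, hac]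
  have hda : polar Q d a = 0 := by rw [polar_comm, had]
  have hcb : polar Q c b = 0 := by rw [polar_comm, hbc]
  have hdb : polar Q d b = 0 := by rw [polar_comm, hbd]
  have inner : IsHypFamily Q (Fin.cons (b + c + d) e : Fin (k + 1) → V)
      (Fin.cons (a + b + c + d) f : Fin (k + 1) → V) := by
    apply IsHypFamily.cons Q h
    · simp only [qf_add, polar_add_left, polar_add_right, ha, hb, hc, hd, hab, hcd, hac, had, hbc,
        hbd, haa, hbb, hcc, hdd, hba, hdc, hca, hda, hcb, hdb]
      linear_combination 2 * h2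
    · simp only [qf_add, polar_add_left, polar_add_right, ha, hb, hc, hd, hab, hcd, hac, had, hbc,
        hbd, haa, hbb, hcc, hdd, hba, hdc, hca, hda, hcb, hdb]
      linear_combination 3 * h2
    · simp only [qf_add, polar_add_left, polar_add_right, ha, hb, hc, hd, hab, hcd, hac, had, hbc,
        hbd, haa, hbb, hcc, hdd, hba, hdc, hca, hda, hcb, hdb]
      linear_combination h2
    · intro i
      simp only [polar_add_left, (hae i).1, (hae i).2, (hbe i).1, (hbe i).2, (hce i).1, (hce i).2,
        (hde i).1, (hde i).2, add_zero, and_self]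
  apply IsHypFamily.cons Q inner
  · simp only [qf_add, polar_add_left, polar_add_right, ha, hb, hc, hd, hab, hcd, hac, had, hbc,
      hbd, haa, hbb, hcc, hdd, hba, hdc, hca, hda, hcb, hdb]
    linear_combination h2
  · simp only [qf_add, polar_add_left, polar_add_right, ha, hb, hc, hd, hab, hcd, hac, had, hbc,
      hbd, haa, hbb, hcc, hdd, hba, hdc, hca, hda, hcb, hdb]
    linear_combination h2
  · simp only [qf_add, polar_add_left, polar_add_right, ha, hb, hc, hd, hab, hcd, hac, had, hbc,
      hbd, haa, hbb, hcc, hdd, hba, hdc, hca, hda, hcb, hdb]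
    ring
  · intro i
    refine Fin.cases ?_ (fun i' => ?_) i
    · simp only [Fin.cons_zero, qf_add, polar_add_left, polar_add_right, ha, hb, hc, hd, hab, hcd,
        hac, had, hbc, hbd, haa, hbb, hcc, hdd, hba, hdc, hca, hda, hcb, hdb]
      refine ⟨?_, ?_, ?_, ?_⟩ <;> linear_combination h2
    · simp only [Fin.cons_succ, polar_add_left, (hae i').1, (hae i').2, (hbe i').1, (hbe i').2,
        (hce i').1, (hce i').2, (hde i').1, (hde i').2, add_zero, and_self]

/-- the type of the quadratic space spanned by a chain of length `4N+3` in characteristic two: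
`N` even gives hyperbolic planes plus an anisotropic plane, `N` odd gives hyperbolic planes. -/
theorem chain_type (h2 : (2 : F) = 0) (Q : QuadraticForm F V) :
    ∀ (N : ℕ) (a : ℕ → V), IsChain Q a (4 * N + 3) →
      (Even N → ∃ (m : ℕ) (e f : Fin m → V) (c d : V), m = 2 * N ∧ IsHypFamily Q e f ∧
          Q c = 1 ∧ Q d = 1 ∧ polar Q c d = 1 ∧
          (∀ i, polar Q c (e i) = 0 ∧ polar Q c (f i) = 0 ∧ polar Q d (e i) = 0 ∧
            polar Q d (f i) = 0) ∧
          (∀ i, e i ∈ chainSpan F a (4 * N + 3) ∧ f i ∈ chainSpan F a (4 * N + 3)) ∧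
          c ∈ chainSpan F a (4 * N + 3) ∧ d ∈ chainSpan F a (4 * N + 3)) ∧
      (Odd N → ∃ (m : ℕ) (e f : Fin m → V), m = 2 * N + 1 ∧ IsHypFamily Q e f ∧
          ∀ i, e i ∈ chainSpan F a (4 * N + 3) ∧ f i ∈ chainSpan F a (4 * N + 3)) := by
  intro N
  induction N with
  | zero =>
    intro a h
    refine ⟨fun _ => ?_, fun hodd => ?_⟩
    · refine ⟨0, Fin.elim0, Fin.elim0, a 0, a 1, rfl, ⟨fun i => Fin.elim0 i, fun i => Fin.elim0 i,
        fun i => Fin.elim0 i⟩, h.q 0 (by omega), h.q 1 (by omega), h.adj 0 (by omega),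
        fun i => Fin.elim0 i, fun i => Fin.elim0 i, mem_chainSpan a (by omega),
        mem_chainSpan a (by omega)⟩
    · exact absurd hodd (by decide)
  | succ N ih =>
    intro a h
    have e4 : 4 * (N + 1) + 3 = 4 * N + 3 + 4 := by ring
    rw [e4] at h ⊢
    have h' := chainShift_isChain h2 Q a _ h
    have hle := chainSpan_shift_le (F := F) a (4 * N + 3)
    have hfo := front_orth h2 Q a _ h
    -- front vectors
    have hp1 : Q (a 0) = 1 := h.q 0 (by omega)
    have hp2 : Q (a 1) = 1 := h.q 1 (by omega)
    have hp12 : polar Q (a 0) (a 1) = 1 := h.adj 0 (by omega)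
    have hh1 : Q (a 0 + a 2) = 0 := by
      rw [qf_add, h.q 0 (by omega), h.q 2 (by omega), h.polar_eq h2 0 2 (by omega) (by omega)]
      norm_num
      linear_combination h2
    have hh2 : Q (a 0 + a 2 + a 3) = 0 := by
      rw [qf_add, hh1, polar_add_left, h.q 3 (by omega), h.polar_eq h2 0 3 (by omega) (by omega),
        h.polar_eq h2 2 3 (by omega) (by omega)]
      norm_num
      linear_combination h2
    have hh12 : polar Q (a 0 + a 2) (a 0 + a 2 + a 3) = 1 := by
      rw [polar_add_right, qf_polar_self, hh1, polar_add_left,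
        h.polar_eq h2 0 3 (by omega) (by omega), h.polar_eq h2 2 3 (by omega) (by omega)]
      norm_num
    have hp1h1 : polar Q (a 0) (a 0 + a 2) = 0 := by
      rw [polar_add_right, h.polar_eq h2 0 0 (by omega) (by omega),
        h.polar_eq h2 0 2 (by omega) (by omega)]
      norm_num
    have hp2h1 : polar Q (a 1) (a 0 + a 2) = 0 := by
      rw [polar_add_right, h.polar_eq h2 1 0 (by omega) (by omega),
        h.polar_eq h2 1 2 (by omega) (by omega)]
      norm_num
      linear_combination h2
    have hp1h2 : polar Q (a 0) (a 0 + a 2 + a 3) = 0 := by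
      rw [polar_add_right, hp1h1, h.polar_eq h2 0 3 (by omega) (by omega)]
      norm_num
    have hp2h2 : polar Q (a 1) (a 0 + a 2 + a 3) = 0 := by
      rw [polar_add_right, hp2h1, h.polar_eq h2 1 3 (by omega) (by omega)]
      norm_num
    -- orthogonality of the front vectors to the span of the shifted chain
    have orth : ∀ c, c < 4 → ∀ w, w ∈ chainSpan F (chainShift a) (4 * N + 3) →
        polar Q (a c) w = 0 := fun c hc w hw =>
      polar_eq_zero_of_mem_chainSpan Q _ _ _ (hfo c hc) hw
    have orth1 : ∀ w, w ∈ chainSpan F (chainShift a) (4 * N + 3) →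
        polar Q (a 0 + a 2) w = 0 := by
      intro w hw
      rw [polar_add_left, orth 0 (by omega) w hw, orth 2 (by omega) w hw, add_zero]
    have orth2 : ∀ w, w ∈ chainSpan F (chainShift a) (4 * N + 3) →
        polar Q (a 0 + a 2 + a 3) w = 0 := by
      intro w hw
      rw [polar_add_left, orth1 w hw, orth 3 (by omega) w hw, add_zero]
    have m0 : a 0 ∈ chainSpan F a (4 * N + 3 + 4) := mem_chainSpan a (by omega)
    have m1 : a 1 ∈ chainSpan F a (4 * N + 3 + 4) := mem_chainSpan a (by omega)
    have m2 : a 2 ∈ chainSpan F a (4 * N + 3 + 4) := mem_chainSpan a (by omega)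
    have m3 : a 3 ∈ chainSpan F a (4 * N + 3 + 4) := mem_chainSpan a (by omega)
    refine ⟨fun hev => ?_, fun hodd => ?_⟩
    · -- `N` odd: hyperbolic family from the shifted chain, plus one more pair and the plane
      have hN : Odd N := by
        rcases Nat.even_or_odd N with h0 | h0
        · exact absurd hev (by rw [Nat.even_add_one]; exact not_not.2 h0)
        · exact h0
      obtain ⟨m, e', f', rfl, hfam, hmem⟩ := (ih (chainShift a) h').2 hN
      refine ⟨2 * N + 1 + 1, Fin.cons (a 0 + a 2) e', Fin.cons (a 0 + a 2 + a 3) f', a 0, a 1,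
        by ring, ?_, hp1, hp2, hp12, ?_, ?_, m0, m1⟩
      · apply IsHypFamily.cons Q hfam _ _ hh1 hh2 hh12
        intro i
        exact ⟨orth1 _ (hmem i).1, orth1 _ (hmem i).2, orth2 _ (hmem i).1, orth2 _ (hmem i).2⟩
      · intro i
        refine Fin.cases ?_ (fun i' => ?_) i
        · simp only [Fin.cons_zero]
          exact ⟨hp1h1, hp1h2, hp2h1, hp2h2⟩
        · simp only [Fin.cons_succ]
          exact ⟨orth 0 (by omega) _ (hmem i').1, orth 0 (by omega) _ (hmem i').2,
            orth 1 (by omega) _ (hmem i').1, orth 1 (by omega) _ (hmem i').2⟩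
      · exact hyp_cons_mem _ _ _ (add_mem m0 m2) (add_mem (add_mem m0 m2) m3)
          (fun i => ⟨hle (hmem i).1, hle (hmem i).2⟩)
    · -- `N` even: two anisotropic planes merge into two hyperbolic pairs
      have hN : Even N := by
        rcases Nat.even_or_odd N with h0 | h0
        · exact h0
        · exact absurd hodd (by rw [Nat.odd_add_one]; exact not_not.2 h0)
      obtain ⟨m, e', f', c, d, rfl, hfam, hc, hd, hcd, horth', hmem, hcS, hdS⟩ :=
        (ih (chainShift a) h').1 hN
      have hfam2 := hyp_of_aniso_pair h2 Q hfam (a 0) (a 1) c d hp1 hp2 hp12 hc hd hcd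
        (orth 0 (by omega) c hcS) (orth 0 (by omega) d hdS) (orth 1 (by omega) c hcS)
        (orth 1 (by omega) d hdS)
        (fun i => ⟨orth 0 (by omega) _ (hmem i).1, orth 0 (by omega) _ (hmem i).2⟩)
        (fun i => ⟨orth 1 (by omega) _ (hmem i).1, orth 1 (by omega) _ (hmem i).2⟩)
        (fun i => ⟨(horth' i).1, (horth' i).2.1⟩)
        (fun i => ⟨(horth' i).2.2.1, (horth' i).2.2.2⟩)
      have mc : c ∈ chainSpan F a (4 * N + 3 + 4) := hle hcS
      have md : d ∈ chainSpan F a (4 * N + 3 + 4) := hle hdS
      have hmem2 := hyp_cons_mem (chainSpan F a (4 * N + 3 + 4)) (a 0 + c) (a 0 + d)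
        (add_mem m0 mc) (add_mem m0 md)
        (hyp_cons_mem (chainSpan F a (4 * N + 3 + 4)) (a 1 + c + d) (a 0 + a 1 + c + d)
          (add_mem (add_mem m1 mc) md) (add_mem (add_mem (add_mem m0 m1) mc) md)
          (fun i => ⟨hle (hmem i).1, hle (hmem i).2⟩))
      refine ⟨2 * N + 2 + 1,
        Fin.cons (a 0 + a 2) (Fin.cons (a 0 + c)
          (Fin.cons (a 1 + c + d) e' : Fin (2 * N + 1) → V) : Fin (2 * N + 2) → V),
        Fin.cons (a 0 + a 2 + a 3) (Fin.cons (a 0 + d)
          (Fin.cons (a 0 + a 1 + c + d) f' : Fin (2 * N + 1) → V) : Fin (2 * N + 2) → V),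
        by ring, ?_, ?_⟩
      · apply IsHypFamily.cons Q hfam2 _ _ hh1 hh2 hh12
        intro i
        have hi := hmem2 i
        have o1 : ∀ w, w ∈ chainSpan F (chainShift a) (4 * N + 3) →
            polar Q (a 0 + a 2) (a 0 + w) = 0 := by
          intro w hw
          rw [polar_add_right, polar_comm, hp1h1, orth1 w hw, add_zero]
        refine Fin.cases ?_ (fun i' => ?_) i
        · simp only [Fin.cons_zero]
          refine ⟨?_, ?_, ?_, ?_⟩
          · rw [polar_add_right, polar_comm, hp1h1, orth1 c hcS, add_zero]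
          · rw [polar_add_right, polar_comm, hp1h1, orth1 d hdS, add_zero]
          · rw [polar_add_right, polar_comm, hp1h2, orth2 c hcS, add_zero]
          · rw [polar_add_right, polar_comm, hp1h2, orth2 d hdS, add_zero]
        · refine Fin.cases ?_ (fun i'' => ?_) i'
          · simp only [Fin.cons_succ, Fin.cons_zero]
            refine ⟨?_, ?_, ?_, ?_⟩
            · rw [polar_add_right, polar_add_right, polar_comm, hp2h1, orth1 c hcS,
                orth1 d hdS, add_zero, add_zero]
            · rw [polar_add_right, polar_add_right, polar_add_right, polar_comm, hp1h1,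
                polar_comm Q _ (a 1), hp2h1, orth1 c hcS, orth1 d hdS]
              simp
            · rw [polar_add_right, polar_add_right, polar_comm, hp2h2, orth2 c hcS,
                orth2 d hdS, add_zero, add_zero]
            · rw [polar_add_right, polar_add_right, polar_add_right, polar_comm, hp1h2,
                polar_comm Q _ (a 1), hp2h2, orth2 c hcS, orth2 d hdS]
              simp
          · simp only [Fin.cons_succ]
            exact ⟨orth1 _ (hmem i'').1, orth1 _ (hmem i'').2, orth2 _ (hmem i'').1,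
              orth2 _ (hmem i'').2⟩
      · exact hyp_cons_mem _ _ _ (add_mem m0 m2) (add_mem (add_mem m0 m2) m3) hmem2

end Chain

end Cfsg.Agent.Helper16
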