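import Mathlib
import Cfsg.Agent.Helper16.PermQuad

set_option autoImplicit false

namespace Cfsg.Agent.Helper16

open QuadraticMap

section PermHom

/-- A model `ι' → F` of the heart `W / ⟨j⟩` of the permutation module of `S_n` (`W` the sum-zero
vectors, `j` the all-ones vector) gives a faithful matrix representation of `S_n` preserving any
permutation-invariant quadratic form that is constant on the cosets of `j` in `W`. -/
theorem exists_perm_hom {F : Type*} [Field F] {n : ℕ} (hn : 5 ≤ n) {ι' : Type} [Fintype ι']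
    [DecidableEq ι'] (T : (ι' → F) →ₗ[F] (Fin n → F)) (S : (Fin n → F) →ₗ[F] (ι' → F))
    (Q₀ : QuadraticForm F (Fin n → F))
    (hST : ∀ v, S (T v) = v) (hSj : S (fun _ => (1 : F)) = 0)
    (hW : ∀ v, ∑ i, T v i = 0)
    (hTS : ∀ x : Fin n → F, ∑ i, x i = 0 → ∃ c : F, T (S x) = x + c • (fun _ => (1 : F)))
    (hQj : ∀ (x : Fin n → F) (c : F), ∑ i, x i = 0 → Q₀ (x + c • (fun _ => (1 : F))) = Q₀ x)
    (hQσ : ∀ (σ : Equiv.Perm (Fin n)) (x : Fin n → F), Q₀ (fun i => x (σ i)) = Q₀ x) :
    ∃ ψ : Equiv.Perm (Fin n) →* Matrix ι' ι' F, Function.Injective ψ ∧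
      ∀ σ v, Q₀ (T ((ψ σ).mulVec v)) = Q₀ (T v) := by
  classical
  let j : Fin n → F := fun _ => 1
  let P : Equiv.Perm (Fin n) → ((Fin n → F) →ₗ[F] (Fin n → F)) := fun σ =>
    LinearMap.funLeft F F (σ.symm : Fin n → Fin n)
  have hP : ∀ σ x i, P σ x i = x (σ.symm i) := fun σ x i => rfl
  have hPsum : ∀ σ x, ∑ i, P σ x i = ∑ i, x i := by
    intro σ x
    simp only [hP]
    exact Equiv.sum_comp σ.symm x
  have hPj : ∀ σ, P σ j = j := fun σ => rfl
  let L : Equiv.Perm (Fin n) → ((ι' → F) →ₗ[F] (ι' → F)) := fun σ => S ∘ₗ P σ ∘ₗ T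
  have hL : ∀ σ v, L σ v = S (P σ (T v)) := fun _ _ => rfl
  have hTL : ∀ σ v, ∃ c : F, T (L σ v) = P σ (T v) + c • j := by
    intro σ v
    have h := hTS (P σ (T v)) (by rw [hPsum]; exact hW v)
    exact h
  have hLmul : ∀ σ τ, L (σ * τ) = L σ ∘ₗ L τ := by
    intro σ τ
    apply LinearMap.ext
    intro v
    show L (σ * τ) v = L σ (L τ v)
    rw [hL σ (L τ v)]
    obtain ⟨c, hc⟩ := hTL τ v
    rw [hc, map_add, map_smul, hPj, map_add, map_smul]
    have hSj' : S j = 0 := hSj
    rw [hSj', smul_zero, add_zero, hL]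
    congr 1
  have hL1 : L 1 = LinearMap.id := by
    apply LinearMap.ext
    intro v
    rw [hL]
    have h1 : P 1 (T v) = T v := rfl
    rw [h1, hST]
    rfl
  let ψ : Equiv.Perm (Fin n) →* Matrix ι' ι' F :=
    { toFun := fun σ => LinearMap.toMatrix' (L σ)
      map_one' := by rw [hL1, LinearMap.toMatrix'_id]
      map_mul' := by
        intro σ τ
        rw [hLmul, LinearMap.toMatrix'_comp] }
  have hψ : ∀ σ v, (ψ σ).mulVec v = L σ v := by
    intro σ v
    show (LinearMap.toMatrix' (L σ)).mulVec v = _
    rw [LinearMap.toMatrix'_mulVec]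
  refine ⟨ψ, ?_, ?_⟩
  · have key : ∀ σ, ψ σ = 1 → σ = 1 := by
      intro σ hσ
      by_contra hne
      obtain ⟨a, ha⟩ : ∃ a, σ a ≠ a := by
        by_contra hcon
        push Not at hcon
        exact hne (Equiv.ext hcon)
      obtain ⟨b, hba, hbs⟩ : ∃ b, b ≠ a ∧ σ b ≠ a := by
        have : ∃ b ∈ (Finset.univ : Finset (Fin n)), b ∉ ({a, σ.symm a} : Finset (Fin n)) := by
          apply Finset.exists_mem_notMem_of_card_lt_card
          calc ({a, σ.symm a} : Finset (Fin n)).card ≤ 2 := Finset.card_le_two
            _ < (Finset.univ : Finset (Fin n)).card := by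
              rw [Finset.card_univ, Fintype.card_fin]
              omega
        obtain ⟨b, -, hb⟩ := this
        simp only [Finset.mem_insert, Finset.mem_singleton, not_or] at hb
        refine ⟨b, hb.1, ?_⟩
        intro h
        exact hb.2 (by rw [← h]; simp)
      obtain ⟨i, hi⟩ : ∃ i, i ∉ ({a, b, σ a, σ b} : Finset (Fin n)) := by
        have : ∃ i ∈ (Finset.univ : Finset (Fin n)),
            i ∉ ({a, b, σ a, σ b} : Finset (Fin n)) := by
          apply Finset.exists_mem_notMem_of_card_lt_card
          calc ({a, b, σ a, σ b} : Finset (Fin n)).card ≤ 4 := Finset.card_le_four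
            _ < (Finset.univ : Finset (Fin n)).card := by
              rw [Finset.card_univ, Fintype.card_fin]
              omega
        obtain ⟨i, -, hi⟩ := this
        exact ⟨i, hi⟩
      simp only [Finset.mem_insert, Finset.mem_singleton, not_or] at hi
      let x : Fin n → F := Pi.single a 1 - Pi.single b 1
      have hx : ∑ i, x i = 0 := by
        show ∑ i, ((Pi.single a 1 : Fin n → F) i - (Pi.single b 1 : Fin n → F) i) = 0
        rw [Finset.sum_sub_distrib, Finset.sum_pi_single', Finset.sum_pi_single']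
        simp
      obtain ⟨c', hc'⟩ := hTS x hx
      have h1 : L σ (S x) = S x := by rw [← hψ, hσ, Matrix.one_mulVec]
      obtain ⟨c, hc⟩ := hTL σ (S x)
      rw [h1, hc', map_add, map_smul, hPj] at hc
      have e1 := congrFun hc i
      have e2 := congrFun hc a
      simp only [Pi.add_apply, Pi.smul_apply, hP, x, Pi.sub_apply, Pi.single_apply, j,
        smul_eq_mul, mul_one] at e1 e2
      have hσi : σ.symm i ≠ a := fun h => hi.2.2.1 ((Equiv.symm_apply_eq σ).1 h)
      have hσi' : σ.symm i ≠ b := fun h => hi.2.2.2 ((Equiv.symm_apply_eq σ).1 h)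
      have hσa : σ.symm a ≠ a := fun h => ha ((Equiv.symm_apply_eq σ).1 h).symm
      have hσa' : σ.symm a ≠ b := fun h => hbs ((Equiv.symm_apply_eq σ).1 h).symm
      rw [if_neg hi.1, if_neg hi.2.1, if_neg hσi, if_neg hσi'] at e1
      rw [if_pos trivial, if_neg (Ne.symm hba), if_neg hσa, if_neg hσa'] at e2
      have hc0 : c = 0 := by linear_combination -e1
      rw [hc0] at e2
      have : (1 : F) = 0 := by linear_combination e2
      exact one_ne_zero this
    intro σ τ hστ
    have h1 : ψ (τ⁻¹ * σ) = 1 := by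
      rw [map_mul, hστ, ← map_mul, inv_mul_cancel, map_one]
    have h2 := key _ h1
    rw [inv_mul_eq_one] at h2
    exact h2.symm
  · intro σ v
    rw [hψ]
    obtain ⟨c, hc⟩ := hTL σ v
    rw [hc, hQj _ _ (by rw [hPsum]; exact hW v)]
    exact hQσ σ.symm (T v)

end PermHom

section Model

variable (F : Type*) [Field F] (d : ℕ)

/-- `v ↦ (v, -Σ v, 0)` -/
def permT : (Fin d → F) →ₗ[F] (Fin (d + 2) → F) where
  toFun v := Fin.snoc (Fin.snoc v (-∑ i, v i) : Fin (d + 1) → F) 0
  map_add' := by
    intro v w
    funext i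
    refine Fin.lastCases ?_ (fun i => ?_) i
    · simp
    · refine Fin.lastCases ?_ (fun i => ?_) i
      · simp [Finset.sum_add_distrib]
        ring
      · simp
  map_smul' := by
    intro c v
    funext i
    refine Fin.lastCases ?_ (fun i => ?_) i
    · simp
    · refine Fin.lastCases ?_ (fun i => ?_) i
      · simp [Finset.mul_sum]
      · simp

/-- `x ↦ (x_i - x_last)_i` -/
def permS : (Fin (d + 2) → F) →ₗ[F] (Fin d → F) where
  toFun x := fun i => x i.castSucc.castSucc - x (Fin.last (d + 1))
  map_add' := by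
    intro v w
    funext i
    simp
    ring
  map_smul' := by
    intro c v
    funext i
    simp
    ring

theorem permT_last (v : Fin d → F) : permT F d v (Fin.last (d + 1)) = 0 := by
  simp [permT]

theorem permT_last' (v : Fin d → F) :
    permT F d v (Fin.last d).castSucc = -∑ i, v i := by
  simp [permT]

theorem permT_castSucc (v : Fin d → F) (i : Fin d) :
    permT F d v i.castSucc.castSucc = v i := by
  simp [permT]

theorem permS_apply (x : Fin (d + 2) → F) (i : Fin d) :
    permS F d x i = x i.castSucc.castSucc - x (Fin.last (d + 1)) := rfl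

theorem permS_permT (v : Fin d → F) : permS F d (permT F d v) = v := by
  funext i
  rw [permS_apply, permT_last, permT_castSucc, sub_zero]

theorem permS_one : permS F d (fun _ => (1 : F)) = 0 := by
  funext i
  rw [permS_apply]
  simp

theorem sum_permT (v : Fin d → F) : ∑ i, permT F d v i = 0 := by
  rw [Fin.sum_univ_castSucc, Fin.sum_univ_castSucc, permT_last, permT_last']
  simp only [permT_castSucc]
  ring

theorem permT_permS (hn : ((d + 2 : ℕ) : F) = 0) (x : Fin (d + 2) → F) (hx : ∑ i, x i = 0) :
    permT F d (permS F d x) = x + (-x (Fin.last (d + 1))) • (fun _ => (1 : F)) := by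
  rw [Fin.sum_univ_castSucc, Fin.sum_univ_castSucc] at hx
  push_cast at hn
  funext i
  refine Fin.lastCases ?_ (fun i => ?_) i
  · rw [permT_last]
    simp
  · refine Fin.lastCases ?_ (fun i => ?_) i
    · rw [permT_last']
      simp only [permS_apply, Finset.sum_sub_distrib, Finset.sum_const, Finset.card_univ,
        Fintype.card_fin, nsmul_eq_mul, Pi.add_apply, Pi.smul_apply, smul_eq_mul, mul_one]
      linear_combination -hx + x (Fin.last (d + 1)) * hn
    · rw [permT_castSucc, permS_apply]
      simp
      ring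

end Model

section E2

variable (F : Type*) [Field F] (n : ℕ)

/-- the second elementary symmetric function as a quadratic form -/
noncomputable def e2Form : QuadraticForm F (Fin n → F) :=
  ∑ i : Fin n, ∑ j : Fin n, if i < j then QuadraticMap.proj i j else 0

variable {F n}

theorem e2Form_apply (x : Fin n → F) :
    e2Form F n x = ∑ i, ∑ j, if i < j then x i * x j else 0 := by
  simp only [e2Form, QuadraticMap.sum_apply]
  refine Finset.sum_congr rfl fun i _ => Finset.sum_congr rfl fun j _ => ?_
  split_ifs <;> simp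

theorem e2Form_perm (σ : Equiv.Perm (Fin n)) (x : Fin n → F) :
    e2Form F n (fun i => x (σ i)) = e2Form F n x := by
  have key : ∀ (τ : Equiv.Perm (Fin n)),
      (∑ i, ∑ j, if τ i < τ j then x i * x j else 0) =
        ∑ i, ∑ j, if i < j then x i * x j else 0 := by
    intro τ
    have h1 : ∀ i j, (if τ i < τ j then x i * x j else 0) =
        (if i < j then (if τ i < τ j then x i * x j else 0) else 0) +
          (if j < i then (if τ i < τ j then x i * x j else 0) else 0) := by
      intro i j
      rcases lt_trichotomy i j with h | h | h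
      · rw [if_pos h, if_neg (not_lt.2 h.le), add_zero]
      · subst h
        simp
      · rw [if_neg (not_lt.2 h.le), if_pos h, zero_add]
    have h2 : (∑ i, ∑ j, if j < i then (if τ i < τ j then x i * x j else 0) else 0) =
        ∑ i, ∑ j, if i < j then (if τ j < τ i then x j * x i else 0) else 0 :=
      Finset.sum_comm
    rw [Finset.sum_congr rfl (fun i _ => Finset.sum_congr rfl (fun j _ => h1 i j))]
    simp only [Finset.sum_add_distrib]
    rw [h2, ← Finset.sum_add_distrib]
    refine Finset.sum_congr rfl fun i _ => ?_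
    rw [← Finset.sum_add_distrib]
    refine Finset.sum_congr rfl fun j _ => ?_
    by_cases h : i < j
    · have hne : τ i ≠ τ j := fun h' => h.ne (τ.injective h')
      rcases lt_or_gt_of_ne hne with h' | h'
      · simp only [if_pos h, if_pos h', if_neg (not_lt.2 h'.le), add_zero]
      · simp only [if_pos h, if_pos h', if_neg (not_lt.2 h'.le), zero_add, mul_comm]
    · simp only [if_neg h, add_zero]
  rw [e2Form_apply, e2Form_apply]
  have h3 : (∑ i, ∑ j, if i < j then x (σ i) * x (σ j) else 0) =
      ∑ i, ∑ j, if σ.symm i < σ.symm j then x i * x j else 0 := by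
    rw [← Equiv.sum_comp σ (fun i => ∑ j, if σ.symm i < σ.symm j then x i * x j else 0)]
    refine Finset.sum_congr rfl fun i _ => ?_
    rw [← Equiv.sum_comp σ (fun j => if σ.symm (σ i) < σ.symm j then x (σ i) * x j else 0)]
    simp
  rw [h3, key]

theorem e2Form_polar (x y : Fin n → F) :
    polar (e2Form F n) x y = (∑ i, x i) * (∑ i, y i) - ∑ i, x i * y i := by
  have h1 : (∑ i, x i) * (∑ i, y i) = ∑ i, ∑ j, x i * y j := Finset.sum_mul_sum _ _ _ _
  have h2 : ∀ i j, x i * y j = (if i < j then x i * y j else 0) +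
      (if j < i then x i * y j else 0) + (if i = j then x i * y j else 0) := by
    intro i j
    rcases lt_trichotomy i j with h | h | h
    · rw [if_pos h, if_neg (not_lt.2 h.le), if_neg h.ne, add_zero, add_zero]
    · subst h
      simp
    · rw [if_neg (not_lt.2 h.le), if_pos h, if_neg h.ne', zero_add, add_zero]
  have h3 : (∑ i, ∑ j, if j < i then x i * y j else 0) =
      ∑ i, ∑ j, if i < j then x j * y i else 0 := Finset.sum_comm
  have h4 : (∑ i, ∑ j, if i = j then x i * y j else 0) = ∑ i, x i * y i := by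
    refine Finset.sum_congr rfl fun i _ => ?_
    simp
  rw [h1, Finset.sum_congr rfl (fun i _ => Finset.sum_congr rfl (fun j _ => h2 i j))]
  simp only [Finset.sum_add_distrib]
  rw [h3, h4, add_sub_cancel_right, polar, e2Form_apply, e2Form_apply, e2Form_apply,
    ← Finset.sum_add_distrib, ← Finset.sum_sub_distrib, ← Finset.sum_sub_distrib]
  refine Finset.sum_congr rfl fun i _ => ?_
  rw [← Finset.sum_add_distrib, ← Finset.sum_sub_distrib, ← Finset.sum_sub_distrib]
  refine Finset.sum_congr rfl fun j _ => ?_
  split_ifs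
  · simp only [Pi.add_apply]
    ring
  · simp

theorem e2Form_single (p : Fin n) : e2Form F n (Pi.single p 1) = 0 := by
  rw [e2Form_apply]
  refine Finset.sum_eq_zero fun i _ => Finset.sum_eq_zero fun j _ => ?_
  split_ifs with h
  · by_cases hi : i = p
    · by_cases hj : j = p
      · subst hi
        subst hj
        exact absurd h (lt_irrefl _)
      · simp [hj]
    · simp [hi]
  · rfl

theorem sum_single_mul_single (p q : Fin n) :
    ∑ i, (Pi.single p (1 : F) : Fin n → F) i * (Pi.single q (1 : F) : Fin n → F) i =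
      if p = q then 1 else 0 := by
  rw [Finset.sum_eq_single p]
  · simp [Pi.single_apply]
  · intro b _ hb
    simp [Pi.single_apply, hb]
  · simp

theorem e2Form_one : e2Form F n (fun _ => (1 : F)) = ((n * (n - 1) / 2 : ℕ) : F) := by
  rw [e2Form_apply]
  simp only [mul_one]
  have h1 : ∀ i : Fin n, (∑ j : Fin n, if i < j then (1 : F) else 0) = ((n - 1 - (i : ℕ) : ℕ) : F) := by
    intro i
    rw [Finset.sum_boole]
    congr 1
    rw [← Fin.card_Ioi]
    congr 1
    ext j
    simp
  rw [Finset.sum_congr rfl (fun i _ => h1 i), ← Nat.cast_sum]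
  congr 1
  rw [Fin.sum_univ_eq_sum_range (fun i => n - 1 - i) n, Finset.sum_range_reflect (fun i => i) n]
  have := Finset.sum_range_id_mul_two n
  omega

/-- in characteristic dividing `n`, with `e₂(1,…,1) = 0`, the form is constant on the cosets of
the all-ones vector in the sum-zero hyperplane -/
theorem e2Form_shift (hn : ((n : ℕ) : F) = 0) (hj : e2Form F n (fun _ => (1 : F)) = 0)
    (x : Fin n → F) (c : F) (hx : ∑ i, x i = 0) :
    e2Form F n (x + c • (fun _ => (1 : F))) = e2Form F n x := by
  rw [qf_add, qf_smul, hj, polar_smul_right, e2Form_polar, hx]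
  simp [hx]

theorem e2Form_polar_shift (hn : ((n : ℕ) : F) = 0) (x y : Fin n → F) (hx : ∑ i, x i = 0)
    (hy : ∑ i, y i = 0) (c c' : F) :
    polar (e2Form F n) (x + c • (fun _ => (1 : F))) (y + c' • (fun _ => (1 : F))) =
      -∑ i, x i * y i := by
  rw [e2Form_polar]
  simp only [Pi.add_apply, Pi.smul_apply, smul_eq_mul, mul_one, Finset.sum_add_distrib, hx, hy,
    Finset.sum_const, Finset.card_univ, Fintype.card_fin, nsmul_eq_mul, hn, zero_mul, zero_add,
    mul_zero, add_mul, mul_add, ← Finset.sum_mul, ← Finset.mul_sum]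
  ring_nf

end E2

end Cfsg.Agent.Helper16
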