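import Mathlib
import Cfsg.Agent.Helper16.PermQuad2

set_option autoImplicit false

namespace Cfsg.Agent.Helper16

open QuadraticMap

section Pair

variable {F : Type*} [Field F] {n : ℕ}

theorem e2Form_pair (p q : Fin n) (hpq : p ≠ q) :
    e2Form F n (Pi.single p 1 + Pi.single q 1) = 1 := by
  rw [qf_add, e2Form_single, e2Form_single, e2Form_polar, Finset.sum_pi_single',
    Finset.sum_pi_single', sum_single_mul_single, if_neg hpq]
  simp

theorem dot_pair (p q r s : Fin n) :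
    ∑ t, ((Pi.single p (1 : F) + Pi.single q (1 : F) : Fin n → F) t) *
        ((Pi.single r (1 : F) + Pi.single s (1 : F) : Fin n → F) t) =
      (if p = r then 1 else 0) + (if p = s then 1 else 0) + (if q = r then 1 else 0) +
        (if q = s then 1 else 0) := by
  simp only [Pi.add_apply, add_mul, mul_add, Finset.sum_add_distrib, sum_single_mul_single]
  ring

theorem sum_pair (h2 : (2 : F) = 0) (p q : Fin n) :
    ∑ t, ((Pi.single p (1 : F) + Pi.single q (1 : F) : Fin n → F) t) = 0 := by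
  simp only [Pi.add_apply, Finset.sum_add_distrib, Finset.sum_pi_single']
  simp only [Finset.mem_univ, if_true]
  linear_combination h2

end Pair

/-- `S_{4k+4}` embeds in `O^+_{4k+2}(2)` for odd `k` and in `O^-_{4k+2}(2)` for even `k` -/
theorem perm_embed (k : ℕ) (hk : 1 ≤ k) :
    (Odd k → ∃ φ : Equiv.Perm (Fin (4 * k + 2 + 2)) →*
        ↥(Cfsg.isometryGroup (ZMod 2) (Cfsg.quadFormPlus (2 * k + 1) (ZMod 2))),
        Function.Injective φ) ∧
    (Even k → ∃ φ : Equiv.Perm (Fin (4 * k + 2 + 2)) →*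
        ↥(Cfsg.isometryGroup (ZMod 2) (Cfsg.quadFormMinus (2 * k) (ZMod 2) 1 1)),
        Function.Injective φ) := by
  have h2 : (2 : ZMod 2) = 0 := by decide
  have hn : ((4 * k + 2 + 2 : ℕ) : ZMod 2) = 0 := by
    push_cast
    linear_combination (2 * (k : ZMod 2) + 2) * h2
  have hj : e2Form (ZMod 2) (4 * k + 2 + 2) (fun _ => (1 : ZMod 2)) = 0 := by
    rw [e2Form_one]
    have e : (4 * k + 2 + 2) * (4 * k + 2 + 2 - 1) / 2 = 2 * ((k + 1) * (4 * k + 3)) := by
      have h3 : 4 * k + 2 + 2 - 1 = 4 * k + 3 := by omega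
      rw [h3]
      apply Nat.div_eq_of_eq_mul_left (by norm_num)
      ring
    rw [e]
    push_cast
    linear_combination ((k + 1) * (4 * k + 3) : ZMod 2) * h2
  obtain ⟨ψ, hψinj, hψQ⟩ := exists_perm_hom (n := 4 * k + 2 + 2) (by omega)
    (permT (ZMod 2) (4 * k + 2)) (permS (ZMod 2) (4 * k + 2)) (e2Form (ZMod 2) (4 * k + 2 + 2))
    (permS_permT (ZMod 2) (4 * k + 2)) (permS_one (ZMod 2) (4 * k + 2))
    (sum_permT (ZMod 2) (4 * k + 2))
    (fun x hx => ⟨_, permT_permS (ZMod 2) (4 * k + 2) hn x hx⟩)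
    (fun x c hx => e2Form_shift hn hj x c hx) e2Form_perm
  let Q : QuadraticForm (ZMod 2) (Fin (4 * k + 2) → ZMod 2) :=
    (e2Form (ZMod 2) (4 * k + 2 + 2)).comp (permT (ZMod 2) (4 * k + 2))
  have hQ : ∀ v, Q v = e2Form (ZMod 2) (4 * k + 2 + 2) (permT (ZMod 2) (4 * k + 2) v) :=
    fun v => rfl
  have hpolar : ∀ u v, polar Q u v = polar (e2Form (ZMod 2) (4 * k + 2 + 2))
      (permT (ZMod 2) (4 * k + 2) u) (permT (ZMod 2) (4 * k + 2) v) := by
    intro u v
    simp only [polar, hQ, map_add]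
  let x : ℕ → (Fin (4 * k + 2 + 2) → ZMod 2) := fun i =>
    if h : i + 1 < 4 * k + 2 + 2 then Pi.single ⟨i, by omega⟩ 1 + Pi.single ⟨i + 1, h⟩ 1 else 0
  have hx : ∀ i (h : i + 1 < 4 * k + 2 + 2),
      x i = Pi.single ⟨i, by omega⟩ 1 + Pi.single ⟨i + 1, h⟩ 1 := by
    intro i h
    simp only [x]
    rw [dif_pos h]
  have hxs : ∀ i, i + 1 < 4 * k + 2 + 2 → ∑ t, x i t = 0 := by
    intro i h
    rw [hx i h]
    exact sum_pair h2 _ _
  let a : ℕ → (Fin (4 * k + 2) → ZMod 2) := fun i => permS (ZMod 2) (4 * k + 2) (x i)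
  have hTa : ∀ i, i + 1 < 4 * k + 2 + 2 → permT (ZMod 2) (4 * k + 2) (a i) =
      x i + (-x i (Fin.last (4 * k + 2 + 1))) • (fun _ => (1 : ZMod 2)) := fun i h =>
    permT_permS (ZMod 2) (4 * k + 2) hn (x i) (hxs i h)
  have hchain : IsChain Q a (4 * k + 3) := by
    refine ⟨?_, ?_, ?_⟩
    · intro i hi
      have h : i + 1 < 4 * k + 2 + 2 := by omega
      rw [hQ, hTa i h, e2Form_shift hn hj _ _ (hxs i h), hx i h]
      apply e2Form_pair
      rw [Ne, Fin.mk.injEq]
      omega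
    · intro i hi
      have h : i + 1 < 4 * k + 2 + 2 := by omega
      have h' : i + 1 + 1 < 4 * k + 2 + 2 := by omega
      rw [hpolar, hTa i h, hTa (i + 1) h', e2Form_polar_shift hn _ _ (hxs i h) (hxs (i + 1) h'),
        hx i h, hx (i + 1) h', dot_pair, if_neg (by rw [Fin.mk.injEq]; omega),
        if_neg (by rw [Fin.mk.injEq]; omega), if_pos rfl, if_neg (by rw [Fin.mk.injEq]; omega)]
      decide
    · intro i j hij hj
      have h : i + 1 < 4 * k + 2 + 2 := by omega
      have h' : j + 1 < 4 * k + 2 + 2 := by omega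
      rw [hpolar, hTa i h, hTa j h', e2Form_polar_shift hn _ _ (hxs i h) (hxs j h'),
        hx i h, hx j h', dot_pair, if_neg (by rw [Fin.mk.injEq]; omega),
        if_neg (by rw [Fin.mk.injEq]; omega), if_neg (by rw [Fin.mk.injEq]; omega),
        if_neg (by rw [Fin.mk.injEq]; omega)]
      decide
  have hinv : ∀ g u, Q ((ψ g).mulVec u) = Q u := fun g u => hψQ g u
  have hfr : Module.finrank (ZMod 2) (Fin (4 * k + 2) → ZMod 2) = 4 * k + 2 :=
    Module.finrank_fin_fun (ZMod 2)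
  refine ⟨fun hodd => ?_, fun hev => ?_⟩
  · obtain ⟨m, e, f, rfl, hfam, -⟩ := (chain_type h2 Q k a hchain).2 hodd
    obtain ⟨T', hT'⟩ := exists_equiv_plus Q hfam (by rw [hfr]; ring) (by omega)
    exact exists_isom_hom ψ hψinj Q hinv _ T' hT'
  · obtain ⟨m, e, f, c, d, rfl, hfam, hc, hd, hcd, horth, -, -, -⟩ :=
      (chain_type h2 Q k a hchain).1 hev
    obtain ⟨T', hT'⟩ := exists_equiv_minus Q hfam ![c, d] 1 1 hc hcd hd (by decide)
      (by
        intro i j
        fin_cases j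
        · show polar Q (e i) c = 0 ∧ polar Q (f i) c = 0
          rw [polar_comm Q (e i), polar_comm Q (f i)]
          exact ⟨(horth i).1, (horth i).2.1⟩
        · show polar Q (e i) d = 0 ∧ polar Q (f i) d = 0
          rw [polar_comm Q (e i), polar_comm Q (f i)]
          exact ⟨(horth i).2.2.1, (horth i).2.2.2⟩)
      (by rw [hfr]; ring)
    exact exists_isom_hom ψ hψinj Q hinv _ T' hT'

end Cfsg.Agent.Helper16
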