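import Mathlib
import Cfsg.Agent.Helper16.PermQuad3
import Cfsg.Agent.Helper16.ModelHom
import Cfsg.Agent.Helper16.OmegaOrder
import Cfsg.Agent.S0288

set_option autoImplicit false

namespace Cfsg.Agent.Helper16

open QuadraticMap

section SqForm

variable (F : Type*) [Field F] (n : ℕ)

/-- the sum of squares as a quadratic form -/
noncomputable def sqForm : QuadraticForm F (Fin n → F) :=
  ∑ i : Fin n, QuadraticMap.proj i i

variable {F n}

theorem sqForm_apply (x : Fin n → F) : sqForm F n x = ∑ i, x i * x i := by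
  simp [sqForm, sum_apply]

theorem sqForm_perm (σ : Equiv.Perm (Fin n)) (x : Fin n → F) :
    sqForm F n (fun i => x (σ i)) = sqForm F n x := by
  rw [sqForm_apply, sqForm_apply]
  exact Equiv.sum_comp σ (fun i => x i * x i)

theorem sqForm_shift (hn : ((n : ℕ) : F) = 0) (x : Fin n → F) (c : F) (hx : ∑ i, x i = 0) :
    sqForm F n (x + c • (fun _ => (1 : F))) = sqForm F n x := by
  rw [sqForm_apply, sqForm_apply]
  have h1 : ∀ i, ((x + c • (fun _ => (1 : F)) : Fin n → F) i) *
      ((x + c • (fun _ => (1 : F)) : Fin n → F) i) = x i * x i + 2 * c * x i + c * c := by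
    intro i
    simp only [Pi.add_apply, Pi.smul_apply, smul_eq_mul, mul_one]
    ring
  rw [Finset.sum_congr rfl (fun i _ => h1 i), Finset.sum_add_distrib, Finset.sum_add_distrib,
    ← Finset.mul_sum, hx, Finset.sum_const, Finset.card_univ, Fintype.card_fin, nsmul_eq_mul, hn]
  ring

end SqForm

/-- a faithful action of `S_n` on a quadratic space `Q` with `|Ω(Q)| ≤ |A_n|` identifies `A_n`
with `PΩ(Q)` -/
theorem alt_iso_pomega {ι : Type} [Fintype ι] [DecidableEq ι] {F : Type*} [Field F] [Fintype F]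
    (Q : (ι → F) → F) {n : ℕ} (hn : 5 ≤ n)
    (φ : Equiv.Perm (Fin n) →* ↥(Cfsg.isometryGroup F Q)) (hφ : Function.Injective φ)
    (hcard : Nat.card ↥(Cfsg.Omega F Q) ≤ Nat.card ↥(alternatingGroup (Fin n))) :
    Nonempty (↥(alternatingGroup (Fin n)) ≃* Cfsg.POmega F Q) := by
  have h5 : 5 ≤ Nat.card (Fin n) := by
    rw [Nat.card_eq_fintype_card, Fintype.card_fin]
    exact hn
  have hperf := commutator_alternatingGroup_eq_top h5
  let φA : ↥(alternatingGroup (Fin n)) →* ↥(Cfsg.isometryGroup F Q) :=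
    φ.comp (alternatingGroup (Fin n)).subtype
  have hφA : Function.Injective φA := hφ.comp Subtype.val_injective
  have hmem : ∀ g, φA g ∈ Cfsg.Omega F Q := by
    intro g
    exact map_mem_commutator φA g (by rw [hperf]; trivial)
  let φΩ : ↥(alternatingGroup (Fin n)) →* ↥(Cfsg.Omega F Q) := φA.codRestrict _ hmem
  have hφΩ : Function.Injective φΩ := by
    intro g h hgh
    apply hφA
    exact congrArg Subtype.val hgh
  let θ : ↥(alternatingGroup (Fin n)) →* Cfsg.POmega F Q :=
    (QuotientGroup.mk' (Subgroup.center ↥(Cfsg.Omega F Q))).comp φΩ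
  have hθ : Function.Injective θ := by
    rw [injective_iff_map_eq_one]
    intro g hg
    have h1 : φΩ g ∈ Subgroup.center ↥(Cfsg.Omega F Q) := by
      have : (QuotientGroup.mk' (Subgroup.center ↥(Cfsg.Omega F Q))) (φΩ g) = 1 := hg
      rwa [QuotientGroup.mk'_apply, QuotientGroup.eq_one_iff] at this
    have h2 : g ∈ Subgroup.center ↥(alternatingGroup (Fin n)) := by
      rw [Subgroup.mem_center_iff]
      intro h
      apply hφΩ
      rw [map_mul, map_mul]
      exact Subgroup.mem_center_iff.1 h1 (φΩ h)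
    rw [alternatingGroup.center_eq_bot (by omega)] at h2
    exact Subgroup.mem_bot.1 h2
  haveI : Finite ↥(Cfsg.Omega F Q) := inferInstance
  have hc1 : Nat.card (Cfsg.POmega F Q) ≤ Nat.card ↥(Cfsg.Omega F Q) :=
    Nat.card_le_card_of_surjective _
      (QuotientGroup.mk'_surjective (Subgroup.center ↥(Cfsg.Omega F Q)))
  have hbij : Function.Bijective θ := hθ.bijective_of_nat_card_le (hc1.trans hcard)
  exact ⟨MulEquiv.ofBijective θ hbij⟩

/-- `S_6` acts faithfully on the elliptic quadratic space of dimension `4` over `F_3` -/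
theorem perm_six_embed : ∃ φ : Equiv.Perm (Fin 6) →*
    ↥(Cfsg.isometryGroup (ZMod 3) (Cfsg.quadFormMinus 1 (ZMod 3) 0 1)), Function.Injective φ := by
  have hn : ((4 + 2 : ℕ) : ZMod 3) = 0 := by decide
  obtain ⟨ψ, hψinj, hψQ⟩ := exists_perm_hom (n := 4 + 2) (by norm_num)
    (permT (ZMod 3) 4) (permS (ZMod 3) 4) (sqForm (ZMod 3) (4 + 2))
    (permS_permT (ZMod 3) 4) (permS_one (ZMod 3) 4) (sum_permT (ZMod 3) 4)
    (fun x hx => ⟨_, permT_permS (ZMod 3) 4 hn x hx⟩)
    (fun x c hx => sqForm_shift hn x c hx) sqForm_perm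
  let Q : QuadraticForm (ZMod 3) (Fin 4 → ZMod 3) :=
    (sqForm (ZMod 3) (4 + 2)).comp (permT (ZMod 3) 4)
  have hQ : ∀ v, Q v = ∑ i, v i * v i + (∑ i, v i) * (∑ i, v i) := by
    intro v
    show sqForm (ZMod 3) (4 + 2) (permT (ZMod 3) 4 v) = _
    rw [sqForm_apply, Fin.sum_univ_castSucc, Fin.sum_univ_castSucc, permT_last, permT_last']
    simp only [permT_castSucc]
    ring
  have hinv : ∀ g u, Q ((ψ g).mulVec u) = Q u := fun g u => hψQ g u
  have hfr : Module.finrank (ZMod 3) (Fin 4 → ZMod 3) = 4 := Module.finrank_fin_fun (ZMod 3)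
  have hfam : IsHypFamily Q (fun _ : Fin 1 => (![1, 1, 1, 0] : Fin 4 → ZMod 3))
      (fun _ : Fin 1 => (![1, 1, 0, 1] : Fin 4 → ZMod 3)) := by
    refine ⟨?_, ?_, ?_⟩
    · intro i
      simp only [hQ, Fin.sum_univ_four]
      decide
    · intro i j
      rw [if_pos (Subsingleton.elim i j)]
      simp only [polar, hQ, Fin.sum_univ_four, Pi.add_apply]
      decide
    · intro i j
      simp only [polar, hQ, Fin.sum_univ_four, Pi.add_apply]
      decide
  obtain ⟨T', hT'⟩ := exists_equiv_minus Q hfam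
    ![(![-1, 0, 1, 1] : Fin 4 → ZMod 3), (![0, -1, 1, 1] : Fin 4 → ZMod 3)] 0 1
    (by
      simp only [hQ, Fin.sum_univ_four]
      decide)
    (by
      simp only [polar, hQ, Fin.sum_univ_four, Pi.add_apply]
      decide)
    (by
      simp only [hQ, Fin.sum_univ_four]
      decide)
    (by decide)
    (by
      intro i j
      fin_cases j
      · simp only [polar, hQ, Fin.sum_univ_four, Pi.add_apply]
        decide
      · simp only [polar, hQ, Fin.sum_univ_four, Pi.add_apply]
        decide)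
    (by rw [hfr])
  exact exists_isom_hom ψ hψinj Q hinv _ T' hT'

/-- `A_6 ≅ PΩ⁻_4(3)` -/
theorem alt_six_iso_pomega : Nonempty (↥(alternatingGroup (Fin 6)) ≃*
    Cfsg.POmega (ZMod 3) (Cfsg.quadFormMinus 1 (ZMod 3) 0 1)) := by
  obtain ⟨φ, hφ⟩ := perm_six_embed
  apply alt_iso_pomega _ (by norm_num) φ hφ
  have hab : ∀ z₁ z₂ : ZMod 3, z₁ ^ 2 + 0 * z₁ * z₂ + 1 * z₂ ^ 2 = 0 → z₁ = 0 ∧ z₂ = 0 := by
    decide
  have hO : Nat.card ↥(Cfsg.isometryGroup (ZMod 3) (Cfsg.quadFormMinus 1 (ZMod 3) 0 1)) =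
      1440 := by
    have h := Cfsg.Agent.S0288.result (F := ZMod 3) (q := 3) (by simp [ZMod.card]) 2
      (by norm_num) 0 1 hab
    rw [h]
    simp [Finset.prod_range_succ]
  have h2 : (2 : ZMod 3) ≠ 0 := by decide
  have hidx : (Cfsg.Omega (ZMod 3) (Cfsg.quadFormMinus 1 (ZMod 3) 0 1)).index = 4 := by
    have h := Omega_index_odd h2 (by simp) (qfMinus 1 (ZMod 3) 0 1)
      (qfMinus_nondegenerate 0 1 (by decide))
    rw [coe_qfMinus] at h
    exact h
  have hΩ : Nat.card ↥(Cfsg.Omega (ZMod 3) (Cfsg.quadFormMinus 1 (ZMod 3) 0 1)) = 360 := by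
    have h := (Cfsg.Omega (ZMod 3) (Cfsg.quadFormMinus 1 (ZMod 3) 0 1)).card_mul_index
    rw [hidx, hO] at h
    omega
  have hA : Nat.card ↥(alternatingGroup (Fin 6)) = 360 := by
    have h := two_mul_card_alternatingGroup (α := Fin 6)
    rw [Nat.card_eq_fintype_card]
    rw [Fintype.card_perm, Fintype.card_fin] at h
    have h6 : Nat.factorial 6 = 720 := by decide
    omega
  rw [hΩ, hA]

end Cfsg.Agent.Helper16
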