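import Cfsg.Agent.Helper16.PlusDec5

set_option autoImplicit false
open Cfsg

namespace Cfsg.Agent.Helper16

open QuadraticMap Module

section PlusDec2
variable {ι : Type} [Fintype ι] [DecidableEq ι] {F : Type*} [Field F]

/-- the Siegel element attached to three hyperbolic planes does not permute the blocks -/
theorem sieg_not_stab (h2 : (2 : F) = 0) (Q : QuadraticForm F (ι → F)) {t : ℕ}
    (D : Fin t → Submodule F (ι → F))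
    (horth : ∀ i j, i ≠ j → ∀ u ∈ D i, ∀ v ∈ D j, polar Q u v = 0)
    (i₁ i₂ i₃ : Fin t) (h12 : i₁ ≠ i₂) (h13 : i₁ ≠ i₃) (h23 : i₂ ≠ i₃)
    (e₁ f₁ e₂ f₂ s₃ : ι → F) (he₁ : e₁ ∈ D i₁) (hf₁ : f₁ ∈ D i₁) (he₂ : e₂ ∈ D i₂)
    (hf₂ : f₂ ∈ D i₂) (hs₃ : s₃ ∈ D i₃) (hQe₁ : Q e₁ = 0) (hQf₁ : Q f₁ = 0)
    (hef₁ : polar Q e₁ f₁ = 1) (hQe₂ : Q e₂ = 0) (hQf₂ : Q f₂ = 0) (hef₂ : polar Q e₂ f₂ = 1)
    (hQs₃ : Q s₃ = 1)
    (hu : Q (e₁ + f₁ + (e₂ + f₂)) = 0) (hus : polar Q (e₁ + f₁ + (e₂ + f₂)) s₃ = 0) :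
    ((sieg Q (e₁ + f₁ + (e₂ + f₂)) s₃ hu hus : ↥(isometryGroup F ⇑Q)) : GL ι F) ∉
      Geo.decompositionStabilizer D := by
  rintro ⟨σ, hσ⟩
  have hfe₁ : polar Q f₁ e₁ = 1 := by rw [polar_comm]; exact hef₁
  have hfe₂ : polar Q f₂ e₂ = 1 := by rw [polar_comm]; exact hef₂
  have c1 : polar Q e₂ e₁ = 0 := horth _ _ (Ne.symm h12) _ he₂ _ he₁
  have c2 : polar Q f₂ e₁ = 0 := horth _ _ (Ne.symm h12) _ hf₂ _ he₁
  have c3 : polar Q e₂ f₁ = 0 := horth _ _ (Ne.symm h12) _ he₂ _ hf₁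
  have c4 : polar Q f₂ f₁ = 0 := horth _ _ (Ne.symm h12) _ hf₂ _ hf₁
  have c5 : polar Q e₁ e₂ = 0 := horth _ _ h12 _ he₁ _ he₂
  have c6 : polar Q f₁ e₂ = 0 := horth _ _ h12 _ hf₁ _ he₂
  have c7 : polar Q s₃ e₁ = 0 := horth _ _ (Ne.symm h13) _ hs₃ _ he₁
  have c8 : polar Q s₃ f₁ = 0 := horth _ _ (Ne.symm h13) _ hs₃ _ hf₁
  have c9 : polar Q s₃ e₂ = 0 := horth _ _ (Ne.symm h23) _ hs₃ _ he₂
  have pu1 : polar Q (e₁ + f₁ + (e₂ + f₂)) e₁ = 1 := by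
    simp only [polar_add_left, qf_polar_self, hQe₁, hfe₁, c1, c2]
    ring
  have pu2 : polar Q (e₁ + f₁ + (e₂ + f₂)) f₁ = 1 := by
    simp only [polar_add_left, qf_polar_self, hQf₁, hef₁, c3, c4]
    ring
  have pu3 : polar Q (e₁ + f₁ + (e₂ + f₂)) e₂ = 1 := by
    simp only [polar_add_left, qf_polar_self, hQe₂, hfe₂, c5, c6]
    ring
  have a1 : act ⇑Q (sieg Q (e₁ + f₁ + (e₂ + f₂)) s₃ hu hus) (e₁ + f₁) = e₁ + f₁ := by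
    rw [act_sieg, polar_add_right, polar_add_right, c7, c8, pu1, pu2]
    have : (1 : F) + 1 = 0 := by linear_combination h2
    rw [this]
    simp
  have a2 : act ⇑Q (sieg Q (e₁ + f₁ + (e₂ + f₂)) s₃ hu hus) e₁ =
      e₁ - s₃ - (e₁ + f₁ + (e₂ + f₂)) := by
    rw [act_sieg, c7, pu1, hQs₃]
    simp
  have hs1 : σ i₁ = i₁ := stab_perm_eq Q D horth _ σ hσ i₁ i₁ (e₁ + f₁)
    ((D i₁).add_mem he₁ hf₁) e₁ he₁ (by
      rw [a1, polar_add_left, qf_polar_self, hQe₁, hfe₁]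
      simp)
  have hs2 : σ i₁ = i₂ := stab_perm_eq Q D horth _ σ hσ i₁ i₂ e₁ he₁ e₂ he₂ (by
      rw [a2, polar_sub_left, polar_sub_left, c5, c9, pu3]
      simp)
  exact h12 (hs1.symm.trans hs2)

/-- hyperbolic plane decompositions over the field with two elements: the core argument -/
theorem plus_q2_k2_core [Fintype F] (hq : Fintype.card F = 2) (hι : 5 ≤ Fintype.card ι)
    (Q : QuadraticForm F (ι → F)) (hQ : (polarBilin Q).Nondegenerate) {t : ℕ}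
    (D : Fin t → Submodule F (ι → F))
    (horth : ∀ i j, i ≠ j → ∀ u ∈ D i, ∀ v ∈ D j, polar Q u v = 0)
    (i₁ i₂ i₃ : Fin t) (h12 : i₁ ≠ i₂) (h13 : i₁ ≠ i₃) (h23 : i₂ ≠ i₃)
    (e₁ f₁ e₂ f₂ e₃ f₃ : ι → F) (he₁ : e₁ ∈ D i₁) (hf₁ : f₁ ∈ D i₁) (he₂ : e₂ ∈ D i₂)
    (hf₂ : f₂ ∈ D i₂) (he₃ : e₃ ∈ D i₃) (hf₃ : f₃ ∈ D i₃)
    (hQe₁ : Q e₁ = 0) (hQf₁ : Q f₁ = 0) (hef₁ : polar Q e₁ f₁ = 1)
    (hQe₂ : Q e₂ = 0) (hQf₂ : Q f₂ = 0) (hef₂ : polar Q e₂ f₂ = 1)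
    (hQe₃ : Q e₃ = 0) (hQf₃ : Q f₃ = 0) (hef₃ : polar Q e₃ f₃ = 1)
    (hH₁ : ∀ v ∈ D i₁, Q v = 1 → v = e₁ + f₁) (hH₂ : ∀ v ∈ D i₂, Q v = 1 → v = e₂ + f₂)
    (hH₃ : ∀ v ∈ D i₃, Q v = 1 → v = e₃ + f₃) :
    ∃ K : Subgroup (GL ι F), Geo.decompositionStabilizer D ⊓ Geo.omegaGL ⇑Q < K ∧
      K < Geo.omegaGL ⇑Q := by
  have h2 : (2 : F) = 0 := by
    have := Nat.cast_card_eq_zero F
    rw [hq] at this
    exact_mod_cast this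
  have hQs₁ : Q (e₁ + f₁) = 1 := by
    rw [qf_add, hQe₁, hQf₁, hef₁]
    ring
  have hQs₂ : Q (e₂ + f₂) = 1 := by
    rw [qf_add, hQe₂, hQf₂, hef₂]
    ring
  have hQs₃ : Q (e₃ + f₃) = 1 := by
    rw [qf_add, hQe₃, hQf₃, hef₃]
    ring
  have hs₁ : e₁ + f₁ ∈ D i₁ := (D i₁).add_mem he₁ hf₁
  have hs₂ : e₂ + f₂ ∈ D i₂ := (D i₂).add_mem he₂ hf₂
  have hs₃ : e₃ + f₃ ∈ D i₃ := (D i₃).add_mem he₃ hf₃
  have hu : Q (e₁ + f₁ + (e₂ + f₂)) = 0 := by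
    rw [qf_add, hQs₁, hQs₂, horth _ _ h12 _ hs₁ _ hs₂]
    linear_combination h2
  have hus : polar Q (e₁ + f₁ + (e₂ + f₂)) (e₃ + f₃) = 0 := by
    rw [polar_add_left, horth _ _ h13 _ hs₁ _ hs₃, horth _ _ h23 _ hs₂ _ hs₃, add_zero]
  have key : ∀ (j : Fin t) (s : ι → F), s ∈ D j → (∀ v ∈ D j, Q v = 1 → v = s) →
      ∀ v ∈ normSet Q D 1, polar Q s v = 0 := by
    rintro j s hs hH v ⟨l, hvl, hQv⟩
    by_cases hlj : l = j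
    · subst hlj
      rw [hH v hvl hQv, qf_polar_self, h2, zero_mul]
    · exact horth _ _ (Ne.symm hlj) _ hs _ hvl
  have hfe₁ : polar Q f₁ e₁ = 1 := by rw [polar_comm]; exact hef₁
  have c1 : polar Q e₂ e₁ = 0 := horth _ _ (Ne.symm h12) _ he₂ _ he₁
  have c3 : polar Q e₂ f₁ = 0 := horth _ _ (Ne.symm h12) _ he₂ _ hf₁
  have c5 : polar Q e₁ f₂ = 0 := horth _ _ h12 _ he₁ _ hf₂
  have c6 : polar Q f₁ f₂ = 0 := horth _ _ h12 _ hf₁ _ hf₂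
  have a3 : act ⇑Q (sieg Q e₁ e₂ hQe₁ (horth _ _ h12 _ he₁ _ he₂)) (e₁ + f₁) =
      e₁ + f₁ - e₂ := by
    rw [act_sieg, polar_add_right, polar_add_right, c1, c3, qf_polar_self, hQe₁, hef₁, hQe₂]
    simp
  apply set_not_max Q D (normSet Q D 1) (fun h hh v hv => stab_maps_normSet Q D 1 h hh v hv)
    (sieg Q (e₁ + f₁ + (e₂ + f₂)) (e₃ + f₃) hu hus) (sieg_mem_Omega hι Q hQ _ _ hu hus) ?_
    (sieg_not_stab h2 Q D horth i₁ i₂ i₃ h12 h13 h23 e₁ f₁ e₂ f₂ (e₃ + f₃) he₁ hf₁ he₂ hf₂ hs₃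
      hQe₁ hQf₁ hef₁ hQe₂ hQf₂ hef₂ hQs₃ hu hus)
    (sieg Q e₁ e₂ hQe₁ (horth _ _ h12 _ he₁ _ he₂)) (sieg_mem_Omega hι Q hQ _ _ _ _) (e₁ + f₁)
    ⟨i₁, hs₁, hQs₁⟩ ?_
  · intro v hv
    have e1 : polar Q (e₃ + f₃) v = 0 := key i₃ _ hs₃ hH₃ v hv
    have e2 : polar Q (e₁ + f₁ + (e₂ + f₂)) v = 0 := by
      rw [polar_add_left, key i₁ _ hs₁ hH₁ v hv, key i₂ _ hs₂ hH₂ v hv, add_zero]
    rw [act_sieg, e1, e2]
    simpa using hv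
  · rintro ⟨j, hj, -⟩
    rw [a3] at hj
    have hj1 : j = i₁ := by
      by_contra hne
      have := horth _ _ hne _ hj e₁ he₁
      rw [polar_sub_left, polar_add_left, qf_polar_self, hQe₁, hfe₁, c1] at this
      simp at this
    have hj2 : j = i₂ := by
      by_contra hne
      have := horth _ _ hne _ hj f₂ hf₂
      rw [polar_sub_left, polar_add_left, c5, c6, hef₂] at this
      simp at this
    exact h12 (hj1.symm.trans hj2)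

/-- a hyperbolic pair in a hyperbolic plane over the field with two elements -/
theorem exists_hyp_pair2 [Fintype F] (hq : Fintype.card F = 2) (Q : QuadraticForm F (ι → F))
    (W : Submodule F (ι → F)) (hW : finrank F W = 2)
    (hnd : Geo.IsNondegenerateOn (polar ⇑Q) W) (hplus : Geo.IsPlusTypeOn ⇑Q W) :
    ∃ e f : ι → F, e ∈ W ∧ f ∈ W ∧ Q e = 0 ∧ Q f = 0 ∧ polar Q e f = 1 ∧
      ∀ v ∈ W, Q v = 1 → v = e + f := by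
  obtain ⟨e, f, hmem, ⟨h1, h2, h3⟩, hsp⟩ := exists_hyp_basis_sub Q W 1 le_rfl hW hnd hplus
  have hQe : Q (e 0) = 0 := (h1 0).1
  have hQf : Q (f 0) = 0 := (h1 0).2
  have hef : polar Q (e 0) (f 0) = 1 := by simpa using h2 0 0
  have hone : ∀ x : F, x ≠ 0 → x = 1 := by
    intro x hx
    have := FiniteField.pow_card_sub_one_eq_one x hx
    rw [hq] at this
    simpa using this
  refine ⟨e 0, f 0, (hmem 0).1, (hmem 0).2, hQe, hQf, hef, ?_⟩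
  intro v hv hQv
  obtain ⟨x, y, rfl⟩ := hsp v hv
  simp only [Fin.sum_univ_one] at hQv ⊢
  rw [qf_lin2, hQe, hQf, hef] at hQv
  have hxy : x 0 * y 0 = 1 := by linear_combination hQv
  have hx : x 0 = 1 := hone _ (by
    intro h
    rw [h] at hxy
    simp at hxy)
  have hy : y 0 = 1 := hone _ (by
    intro h
    rw [h] at hxy
    simp at hxy)
  rw [hx, hy, one_smul, one_smul]

/-- hyperbolic plane decompositions over the field with two elements -/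
theorem plus_q2_k2_not_max [Fintype F] (hq : Fintype.card F = 2) (Q : QuadraticForm F (ι → F))
    (hQ : (polarBilin Q).Nondegenerate) {t : ℕ} (hn : 13 ≤ Fintype.card ι)
    (D : Fin t → Submodule F (ι → F)) (hD : Geo.IsOrthogonalMDecomposition ⇑Q 2 D)
    (hp : ∀ i, Geo.IsPlusTypeOn ⇑Q (D i)) :
    ∃ K : Subgroup (GL ι F), Geo.decompositionStabilizer D ⊓ Geo.omegaGL ⇑Q < K ∧
      K < Geo.omegaGL ⇑Q := by
  have ht : 7 ≤ t := by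
    have := decomp_card_le ⇑Q D hD
    omega
  have horth : ∀ i j, i ≠ j → ∀ u ∈ D i, ∀ v ∈ D j, polar Q u v = 0 :=
    fun i j hij u hu v hv => hD.decomp.orthogonal i j hij u hu v hv
  have hfr : ∀ i, ∃ e f : ι → F, e ∈ D i ∧ f ∈ D i ∧ Q e = 0 ∧ Q f = 0 ∧ polar Q e f = 1 ∧
      ∀ v ∈ D i, Q v = 1 → v = e + f := fun i =>
    exists_hyp_pair2 hq Q (D i) (hD.decomp.decomp.finrank_eq i) (hD.decomp.nondegenerate i) (hp i)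
  obtain ⟨e₁, f₁, he₁, hf₁, hQe₁, hQf₁, hef₁, hH₁⟩ := hfr ⟨0, by omega⟩
  obtain ⟨e₂, f₂, he₂, hf₂, hQe₂, hQf₂, hef₂, hH₂⟩ := hfr ⟨1, by omega⟩
  obtain ⟨e₃, f₃, he₃, hf₃, hQe₃, hQf₃, hef₃, hH₃⟩ := hfr ⟨2, by omega⟩
  exact plus_q2_k2_core hq (by omega) Q hQ D horth ⟨0, by omega⟩ ⟨1, by omega⟩ ⟨2, by omega⟩
    (by simp [Fin.ext_iff]) (by simp [Fin.ext_iff]) (by simp [Fin.ext_iff])
    e₁ f₁ e₂ f₂ e₃ f₃ he₁ hf₁ he₂ hf₂ he₃ hf₃ hQe₁ hQf₁ hef₁ hQe₂ hQf₂ hef₂ hQe₃ hQf₃ hef₃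
    hH₁ hH₂ hH₃

end PlusDec2

end Cfsg.Agent.Helper16
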