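import Cfsg.Agent.Helper16.PlusDec4

set_option autoImplicit false
open Cfsg

namespace Cfsg.Agent.Helper16

open QuadraticMap Module

section PlusDec24
variable {ι : Type} [Fintype ι] [DecidableEq ι] {F : Type*} [Field F]

/-- decompositions into four-dimensional hyperbolic spaces over the field with two elements:
the core argument -/
theorem plus_q2_k4_core [Fintype F] (hq : Fintype.card F = 2) (hι : 5 ≤ Fintype.card ι)
    (Q : QuadraticForm F (ι → F)) (hQ : (polarBilin Q).Nondegenerate) {t : ℕ}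
    (D : Fin t → Submodule F (ι → F))
    (horth : ∀ i j, i ≠ j → ∀ u ∈ D i, ∀ v ∈ D j, polar Q u v = 0)
    (i₁ i₂ : Fin t) (h12 : i₁ ≠ i₂)
    (a₁ b₁ w₁ y₁ e₁ a₂ b₂ e₂ f₂ : ι → F)
    (ha₁ : a₁ ∈ D i₁) (hb₁ : b₁ ∈ D i₁) (hw₁ : w₁ ∈ D i₁) (hy₁ : y₁ ∈ D i₁) (he₁ : e₁ ∈ D i₁)
    (ha₂ : a₂ ∈ D i₂) (hb₂ : b₂ ∈ D i₂) (he₂ : e₂ ∈ D i₂) (hf₂ : f₂ ∈ D i₂)
    (hQa₁ : Q a₁ = 1) (hQb₁ : Q b₁ = 1) (hab₁ : polar Q a₁ b₁ = 1)
    (haw₁ : polar Q a₁ w₁ = 0) (hbw₁ : polar Q b₁ w₁ = 0) (hwy₁ : polar Q w₁ y₁ ≠ 0)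
    (hQe₁ : Q e₁ = 0) (hea₁ : polar Q e₁ a₁ = 1)
    (hQa₂ : Q a₂ = 1) (hQb₂ : Q b₂ = 1) (hab₂ : polar Q a₂ b₂ = 1)
    (hQe₂ : Q e₂ = 0) (hef₂ : polar Q e₂ f₂ = 1)
    (hH₁ : ∀ v ∈ D i₁, Q v = 1 →
      v = a₁ ∨ v = b₁ ∨ v = a₁ + b₁ ∨ (polar Q a₁ v = 0 ∧ polar Q b₁ v = 0))
    (hH₂ : ∀ v ∈ D i₂, Q v = 1 →
      v = a₂ ∨ v = b₂ ∨ v = a₂ + b₂ ∨ (polar Q a₂ v = 0 ∧ polar Q b₂ v = 0)) :
    ∃ K : Subgroup (GL ι F), Geo.decompositionStabilizer D ⊓ Geo.omegaGL ⇑Q < K ∧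
      K < Geo.omegaGL ⇑Q := by
  have h2 : (2 : F) = 0 := by
    have := Nat.cast_card_eq_zero F
    rw [hq] at this
    exact_mod_cast this
  have x12 : ∀ u ∈ D i₁, ∀ v ∈ D i₂, polar Q u v = 0 := horth _ _ h12
  have x21 : ∀ u ∈ D i₂, ∀ v ∈ D i₁, polar Q u v = 0 := horth _ _ (Ne.symm h12)
  have hba₁ : polar Q b₁ a₁ = 1 := by rw [polar_comm]; exact hab₁
  have hba₂ : polar Q b₂ a₂ = 1 := by rw [polar_comm]; exact hab₂
  have haa₁ : polar Q a₁ a₁ = 0 := by rw [qf_polar_self, h2, zero_mul]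
  have hbb₁ : polar Q b₁ b₁ = 0 := by rw [qf_polar_self, h2, zero_mul]
  have haa₂ : polar Q a₂ a₂ = 0 := by rw [qf_polar_self, h2, zero_mul]
  have hbb₂ : polar Q b₂ b₂ = 0 := by rw [qf_polar_self, h2, zero_mul]
  have hu : Q (a₁ + a₂) = 0 := by
    rw [qf_add, hQa₁, hQa₂, x12 _ ha₁ _ ha₂]
    linear_combination h2
  have hQv : Q (b₁ + b₂) = 0 := by
    rw [qf_add, hQb₁, hQb₂, x12 _ hb₁ _ hb₂]
    linear_combination h2
  have huv : polar Q (a₁ + a₂) (b₁ + b₂) = 0 := by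
    rw [polar_add_left, polar_add_right, polar_add_right, hab₁, hab₂, x12 _ ha₁ _ hb₂,
      x21 _ ha₂ _ hb₁]
    linear_combination h2
  have hact : ∀ x, act ⇑Q (sieg Q (a₁ + a₂) (b₁ + b₂) hu huv) x =
      x + (polar Q b₁ x + polar Q b₂ x) • (a₁ + a₂) -
        (polar Q a₁ x + polar Q a₂ x) • (b₁ + b₂) := by
    intro x
    rw [act_sieg, hQv, zero_mul, zero_smul, sub_zero, polar_add_left, polar_add_left]
  have hact1 : ∀ x ∈ D i₁, act ⇑Q (sieg Q (a₁ + a₂) (b₁ + b₂) hu huv) x =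
      x + polar Q b₁ x • (a₁ + a₂) - polar Q a₁ x • (b₁ + b₂) := by
    intro x hx
    rw [hact, x21 _ hb₂ _ hx, x21 _ ha₂ _ hx, add_zero, add_zero]
  have hact2 : ∀ x ∈ D i₂, act ⇑Q (sieg Q (a₁ + a₂) (b₁ + b₂) hu huv) x =
      x + polar Q b₂ x • (a₁ + a₂) - polar Q a₂ x • (b₁ + b₂) := by
    intro x hx
    rw [hact, x12 _ hb₁ _ hx, x12 _ ha₁ _ hx, zero_add, zero_add]
  have hQab₁ : Q (a₁ - b₁) = 1 := by
    rw [sub_eq_add_neg, qf_add, QuadraticMap.map_neg, hQa₁, hQb₁, polar_neg_right, hab₁]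
    ring
  have hQab₂ : Q (a₂ - b₂) = 1 := by
    rw [sub_eq_add_neg, qf_add, QuadraticMap.map_neg, hQa₂, hQb₂, polar_neg_right, hab₂]
    ring
  have a3 : act ⇑Q (sieg Q e₁ e₂ hQe₁ (x12 _ he₁ _ he₂)) a₁ = a₁ - e₂ := by
    rw [act_sieg, x21 _ he₂ _ ha₁, hea₁, hQe₂]
    simp
  apply set_not_max Q D (normSet Q D 1) (fun h hh v hv => stab_maps_normSet Q D 1 h hh v hv)
    (sieg Q (a₁ + a₂) (b₁ + b₂) hu huv) (sieg_mem_Omega hι Q hQ _ _ hu huv) ?_ ?_
    (sieg Q e₁ e₂ hQe₁ (x12 _ he₁ _ he₂)) (sieg_mem_Omega hι Q hQ _ _ _ _) a₁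
    ⟨i₁, ha₁, hQa₁⟩ ?_
  · rintro v ⟨l, hvl, hQv1⟩
    by_cases hl1 : l = i₁
    · subst hl1
      rw [hact1 v hvl]
      rcases hH₁ v hvl hQv1 with h | h | h | ⟨h, h'⟩
      · subst h
        rw [hba₁, haa₁]
        have : v + (1 : F) • (v + a₂) - (0 : F) • (b₁ + b₂) = a₂ + (2 : F) • v := by module
        rw [this, h2, zero_smul, add_zero]
        exact ⟨i₂, ha₂, hQa₂⟩
      · subst h
        rw [hbb₁, hab₁]
        have : v + (0 : F) • (a₁ + a₂) - (1 : F) • (v + b₂) = -b₂ := by module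
        rw [this]
        exact ⟨i₂, (D i₂).neg_mem hb₂, by rw [QuadraticMap.map_neg, hQb₂]⟩
      · subst h
        rw [polar_add_right, polar_add_right, hba₁, hbb₁, haa₁, hab₁]
        have : a₁ + b₁ + ((1 : F) + 0) • (a₁ + a₂) - ((0 : F) + 1) • (b₁ + b₂) =
            a₂ - b₂ + (2 : F) • a₁ := by module
        rw [this, h2, zero_smul, add_zero]
        exact ⟨i₂, (D i₂).sub_mem ha₂ hb₂, hQab₂⟩
      · rw [h, h', zero_smul, zero_smul, add_zero, sub_zero]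
        exact ⟨l, hvl, hQv1⟩
    · by_cases hl2 : l = i₂
      · subst hl2
        rw [hact2 v hvl]
        rcases hH₂ v hvl hQv1 with h | h | h | ⟨h, h'⟩
        · subst h
          rw [hba₂, haa₂]
          have : v + (1 : F) • (a₁ + v) - (0 : F) • (b₁ + b₂) = a₁ + (2 : F) • v := by module
          rw [this, h2, zero_smul, add_zero]
          exact ⟨i₁, ha₁, hQa₁⟩
        · subst h
          rw [hbb₂, hab₂]
          have : v + (0 : F) • (a₁ + a₂) - (1 : F) • (b₁ + v) = -b₁ := by module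
          rw [this]
          exact ⟨i₁, (D i₁).neg_mem hb₁, by rw [QuadraticMap.map_neg, hQb₁]⟩
        · subst h
          rw [polar_add_right, polar_add_right, hba₂, hbb₂, haa₂, hab₂]
          have : a₂ + b₂ + ((1 : F) + 0) • (a₁ + a₂) - ((0 : F) + 1) • (b₁ + b₂) =
              a₁ - b₁ + (2 : F) • a₂ := by module
          rw [this, h2, zero_smul, add_zero]
          exact ⟨i₁, (D i₁).sub_mem ha₁ hb₁, hQab₁⟩
        · rw [h, h', zero_smul, zero_smul, add_zero, sub_zero]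
          exact ⟨l, hvl, hQv1⟩
      · rw [hact, horth _ _ (Ne.symm hl1) _ hb₁ _ hvl, horth _ _ (Ne.symm hl2) _ hb₂ _ hvl,
          horth _ _ (Ne.symm hl1) _ ha₁ _ hvl, horth _ _ (Ne.symm hl2) _ ha₂ _ hvl]
        simp only [add_zero, zero_smul, sub_zero]
        exact ⟨l, hvl, hQv1⟩
  · rintro ⟨σ, hσ⟩
    have hs1 : σ i₁ = i₁ := stab_perm_eq Q D horth _ σ hσ i₁ i₁ w₁ hw₁ y₁ hy₁ (by
      rw [hact1 w₁ hw₁, hbw₁, haw₁, zero_smul, zero_smul, add_zero, sub_zero]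
      exact hwy₁)
    have hs2 : σ i₁ = i₂ := stab_perm_eq Q D horth _ σ hσ i₁ i₂ a₁ ha₁ b₂ hb₂ (by
      rw [hact1 a₁ ha₁, hba₁, haa₁, zero_smul, sub_zero, one_smul, polar_add_left, polar_add_left,
        x12 _ ha₁ _ hb₂, hab₂]
      simp)
    exact h12 (hs1.symm.trans hs2)
  · rintro ⟨j, hj, -⟩
    rw [a3] at hj
    have hj1 : j = i₁ := by
      by_contra hne
      have := horth _ _ hne _ hj b₁ hb₁
      rw [polar_sub_left, hab₁, x21 _ he₂ _ hb₁] at this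
      simp at this
    have hj2 : j = i₂ := by
      by_contra hne
      have := horth _ _ hne _ hj f₂ hf₂
      rw [polar_sub_left, x12 _ ha₁ _ hf₂, hef₂] at this
      simp at this
    exact h12 (hj1.symm.trans hj2)

/-- the two elliptic planes of a four-dimensional hyperbolic space over the field with two
elements -/
theorem exists_block_data24 [Fintype F] (hq : Fintype.card F = 2) (Q : QuadraticForm F (ι → F))
    (W : Submodule F (ι → F)) (hW : finrank F W = 4)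
    (hnd : Geo.IsNondegenerateOn (polar ⇑Q) W) (hplus : Geo.IsPlusTypeOn ⇑Q W) :
    ∃ a b w y e f : ι → F, a ∈ W ∧ b ∈ W ∧ w ∈ W ∧ y ∈ W ∧ e ∈ W ∧ f ∈ W ∧ Q a = 1 ∧ Q b = 1 ∧
      polar Q a b = 1 ∧ polar Q a w = 0 ∧ polar Q b w = 0 ∧ polar Q w y ≠ 0 ∧ Q e = 0 ∧
      polar Q e a = 1 ∧ polar Q e f = 1 ∧
      ∀ v ∈ W, Q v = 1 → v = a ∨ v = b ∨ v = a + b ∨ (polar Q a v = 0 ∧ polar Q b v = 0) := by
  obtain ⟨e, f, hmem, hfam, hsp⟩ := exists_hyp_basis_sub Q W 2 (by norm_num) hW hnd hplus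
  have hfam' := hfam
  obtain ⟨h1, h2', h3⟩ := hfam'
  have h2 : (2 : F) = 0 := by
    have := Nat.cast_card_eq_zero F
    rw [hq] at this
    exact_mod_cast this
  have hone : ∀ x : F, x ≠ 0 → x = 1 := by
    intro x hx
    have := FiniteField.pow_card_sub_one_eq_one x hx
    rw [hq] at this
    simpa using this
  have h01 : ∀ z : F, z = 0 ∨ z = 1 := by
    intro z
    by_cases hz : z = 0
    · exact Or.inl hz
    · exact Or.inr (hone z hz)
  have hQe0 : Q (e 0) = 0 := (h1 0).1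
  have hQe1 : Q (e 1) = 0 := (h1 1).1
  have hQf0 : Q (f 0) = 0 := (h1 0).2
  have hQf1 : Q (f 1) = 0 := (h1 1).2
  have pEE : ∀ i j, polar Q (e i) (e j) = 0 := fun i j => (h3 i j).1
  have pFF : ∀ i j, polar Q (f i) (f j) = 0 := fun i j => (h3 i j).2
  have p00 : polar Q (e 0) (f 0) = 1 := by simpa using h2' 0 0
  have p11 : polar Q (e 1) (f 1) = 1 := by simpa using h2' 1 1
  have p01 : polar Q (e 0) (f 1) = 0 := by simpa using h2' 0 1
  have p10 : polar Q (e 1) (f 0) = 0 := by simpa using h2' 1 0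
  have q00 : polar Q (f 0) (e 0) = 1 := by rw [polar_comm]; exact p00
  have q11 : polar Q (f 1) (e 1) = 1 := by rw [polar_comm]; exact p11
  have q01 : polar Q (f 0) (e 1) = 0 := by rw [polar_comm]; exact p10
  have q10 : polar Q (f 1) (e 0) = 0 := by rw [polar_comm]; exact p01
  have hd : ∀ z : ι → F, z + z = 0 := by
    intro z
    rw [← two_smul F z, h2, zero_smul]
  refine ⟨e 0 + f 0, e 0 + (e 1 + f 1), e 1 + f 1, e 1, e 0, f 0,
    W.add_mem (hmem 0).1 (hmem 0).2,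
    W.add_mem (hmem 0).1 (W.add_mem (hmem 1).1 (hmem 1).2), W.add_mem (hmem 1).1 (hmem 1).2,
    (hmem 1).1, (hmem 0).1, (hmem 0).2, ?_, ?_, ?_, ?_, ?_, ?_, hQe0, ?_, p00, ?_⟩
  · rw [qf_add, hQe0, hQf0, p00]
    ring
  · simp only [qf_add, polar_add_right, hQe0, hQe1, hQf1, p11, pEE, p01]
    ring
  · simp only [polar_add_left, polar_add_right, pEE, pFF, p00, p11, p01, p10, q00, q11, q01, q10]
    ring
  · simp only [polar_add_left, polar_add_right, pEE, pFF, p00, p11, p01, p10, q00, q11, q01, q10]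
    ring
  · simp only [polar_add_left, polar_add_right, pEE, pFF, p00, p11, p01, p10, q00, q11, q01, q10]
    linear_combination h2
  · simp only [polar_add_left, pEE, q11]
    simp
  · simp only [polar_add_right, pEE, p00]
    ring
  · intro v hv hQv
    obtain ⟨x, y, rfl⟩ := hsp v hv
    rw [qf_hyp_sum Q hfam, Fin.sum_univ_two] at hQv
    simp only [Fin.sum_univ_two]
    have hpa : polar Q (e 0 + f 0) (x 0 • e 0 + x 1 • e 1 + (y 0 • f 0 + y 1 • f 1)) =
        x 0 + y 0 := by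
      simp only [polar_add_left, polar_add_right, polar_smul_right, smul_eq_mul, pEE, pFF, p00,
        p11, p01, p10, q00, q11, q01, q10]
      ring
    have hpb : polar Q (e 0 + (e 1 + f 1)) (x 0 • e 0 + x 1 • e 1 + (y 0 • f 0 + y 1 • f 1)) =
        y 0 + y 1 + x 1 := by
      simp only [polar_add_left, polar_add_right, polar_smul_right, smul_eq_mul, pEE, pFF, p00,
        p11, p01, p10, q00, q11, q01, q10]
      ring
    rw [hpa, hpb]
    rcases h01 (x 0) with hx | hx <;> rcases h01 (y 0) with hy | hy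
    · rw [hx, hy] at hQv
      have h11 : x 1 * y 1 = 1 := by linear_combination hQv
      have hx1 : x 1 = 1 := hone _ (left_ne_zero_of_mul_eq_one h11)
      have hy1 : y 1 = 1 := hone _ (right_ne_zero_of_mul_eq_one h11)
      right
      right
      right
      rw [hx, hy, hx1, hy1]
      exact ⟨by ring, by linear_combination h2⟩
    · rw [hx, hy] at hQv
      have h11 : x 1 * y 1 = 1 := by linear_combination hQv
      have hx1 : x 1 = 1 := hone _ (left_ne_zero_of_mul_eq_one h11)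
      have hy1 : y 1 = 1 := hone _ (right_ne_zero_of_mul_eq_one h11)
      right
      right
      left
      rw [hx, hy, hx1, hy1]
      have : e 0 + f 0 + (e 0 + (e 1 + f 1)) =
          (0 : F) • e 0 + (1 : F) • e 1 + ((1 : F) • f 0 + (1 : F) • f 1) + (2 : F) • e 0 := by
        module
      rw [this, h2, zero_smul, add_zero]
    · rw [hx, hy] at hQv
      have h11 : x 1 * y 1 = 1 := by linear_combination hQv
      have hx1 : x 1 = 1 := hone _ (left_ne_zero_of_mul_eq_one h11)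
      have hy1 : y 1 = 1 := hone _ (right_ne_zero_of_mul_eq_one h11)
      right
      left
      rw [hx, hy, hx1, hy1]
      module
    · rw [hx, hy] at hQv
      have h11 : x 1 * y 1 = 0 := by linear_combination hQv
      rcases mul_eq_zero.1 h11 with hx1 | hy1
      · rcases h01 (y 1) with hy1 | hy1
        · left
          rw [hx, hy, hx1, hy1]
          module
        · right
          right
          right
          rw [hx, hy, hx1, hy1]
          exact ⟨by linear_combination h2, by linear_combination h2⟩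
      · rcases h01 (x 1) with hx1 | hx1
        · left
          rw [hx, hy, hx1, hy1]
          module
        · right
          right
          right
          rw [hx, hy, hx1, hy1]
          exact ⟨by linear_combination h2, by linear_combination h2⟩

/-- decompositions into four-dimensional hyperbolic spaces over the field with two elements -/
theorem plus_q2_k4_not_max [Fintype F] (hq : Fintype.card F = 2) (Q : QuadraticForm F (ι → F))
    (hQ : (polarBilin Q).Nondegenerate) {t : ℕ} (hn : 13 ≤ Fintype.card ι)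
    (D : Fin t → Submodule F (ι → F)) (hD : Geo.IsOrthogonalMDecomposition ⇑Q 4 D)
    (hp : ∀ i, Geo.IsPlusTypeOn ⇑Q (D i)) :
    ∃ K : Subgroup (GL ι F), Geo.decompositionStabilizer D ⊓ Geo.omegaGL ⇑Q < K ∧
      K < Geo.omegaGL ⇑Q := by
  have ht : 4 ≤ t := by
    have := decomp_card_le ⇑Q D hD
    omega
  have horth : ∀ i j, i ≠ j → ∀ u ∈ D i, ∀ v ∈ D j, polar Q u v = 0 :=
    fun i j hij u hu v hv => hD.decomp.orthogonal i j hij u hu v hv
  obtain ⟨a₁, b₁, w₁, y₁, e₁, f₁, ha₁, hb₁, hw₁, hy₁, he₁, hf₁, hQa₁, hQb₁, hab₁, haw₁, hbw₁,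
    hwy₁, hQe₁, hea₁, hef₁, hH₁⟩ := exists_block_data24 hq Q (D ⟨0, by omega⟩)
      (hD.decomp.decomp.finrank_eq _) (hD.decomp.nondegenerate _) (hp _)
  obtain ⟨a₂, b₂, w₂, y₂, e₂, f₂, ha₂, hb₂, hw₂, hy₂, he₂, hf₂, hQa₂, hQb₂, hab₂, haw₂, hbw₂,
    hwy₂, hQe₂, hea₂, hef₂, hH₂⟩ := exists_block_data24 hq Q (D ⟨1, by omega⟩)
      (hD.decomp.decomp.finrank_eq _) (hD.decomp.nondegenerate _) (hp _)
  exact plus_q2_k4_core hq (by omega) Q hQ D horth ⟨0, by omega⟩ ⟨1, by omega⟩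
    (by simp [Fin.ext_iff]) a₁ b₁ w₁ y₁ e₁ a₂ b₂ e₂ f₂ ha₁ hb₁ hw₁ hy₁ he₁ ha₂ hb₂ he₂ hf₂
    hQa₁ hQb₁ hab₁ haw₁ hbw₁ hwy₁ hQe₁ hea₁ hQa₂ hQb₂ hab₂ hQe₂ hef₂ hH₁ hH₂

end PlusDec24

end Cfsg.Agent.Helper16
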