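import Cfsg.Agent.Helper16.SiegelGen
import Cfsg.Agent.Helper16.ReflNorm

set_option autoImplicit false
open Cfsg

namespace Cfsg.Agent.Helper16

open QuadraticMap Module

section SiegelOmega
variable {ι : Type} [Fintype ι] [DecidableEq ι] {F : Type*} [Field F]

/-- the set of long root elements -/
def siegelSet (Q : QuadraticForm F (ι → F)) : Set ↥(isometryGroup F ⇑Q) :=
  {g | ∃ (u v : ι → F) (c : F), Q u = 0 ∧ Q v = 0 ∧ polar ⇑Q u v = 0 ∧
    ((g : GL ι F) : Matrix ι ι F) = Cfsg.siegelMatrix ⇑Q u v c}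

theorem siegelElt_mem (Q : QuadraticForm F (ι → F)) (u v : ι → F) (hu : Q u = 0) (hv : Q v = 0)
    (huv : polar ⇑Q u v = 0) (c : F) :
    siegelElt Q u v hu hv huv c ∈ Subgroup.closure (siegelSet Q) :=
  Subgroup.subset_closure ⟨u, v, c, hu, hv, huv, rfl⟩

theorem act_siegelElt (Q : QuadraticForm F (ι → F)) (u v : ι → F) (hu : Q u = 0) (hv : Q v = 0)
    (huv : polar ⇑Q u v = 0) (c : F) (x : ι → F) :
    act ⇑Q (siegelElt Q u v hu hv huv c) x =
      x + c • (polar ⇑Q u x • v - polar ⇑Q v x • u) := siegel_mulVec Q u v c x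

/-- `r_a r_(a+u)` is a product of two long root elements -/
theorem special_pair_eq (Q : QuadraticForm F (ι → F)) (u v₁ v₂ : ι → F)
    (ha : Q (v₁ + v₂) ≠ 0) (hu : Q u = 0) (hau : polar Q (v₁ + v₂) u = 0) (hv₁ : Q v₁ = 0)
    (hv₂ : Q v₂ = 0) (huv₁ : polar Q u v₁ = 0) (huv₂ : polar Q u v₂ = 0) :
    reflElt Q (v₁ + v₂) * reflElt Q (v₁ + v₂ + u) =
      siegelElt Q u v₁ hu hv₁ huv₁ (Q (v₁ + v₂))⁻¹ *
        siegelElt Q u v₂ hu hv₂ huv₂ (Q (v₁ + v₂))⁻¹ := by
  have hau' : Q (v₁ + v₂ + u) = Q (v₁ + v₂) := by rw [qf_add, hu, hau]; ring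
  have hγ : Q (v₁ + v₂) = polar Q v₁ v₂ := by rw [qf_add, hv₁, hv₂]; ring
  apply act_ext
  intro x
  rw [act_mul, act_mul, act_refl Q _ ha, act_refl Q _ (by rw [hau']; exact ha), act_siegelElt,
    act_siegelElt, qrefl_apply, qrefl_apply, hau']
  have e2 : polar Q (v₁ + v₂ + u) x = polar Q v₁ x + polar Q v₂ x + polar Q u x := by
    rw [polar_add_left, polar_add_left]
  have e5 : polar Q (v₁ + v₂) x = polar Q v₁ x + polar Q v₂ x := by rw [polar_add_left]
  have e1 : polar Q (v₁ + v₂) (x - ((Q (v₁ + v₂))⁻¹ * polar Q (v₁ + v₂ + u) x) • (v₁ + v₂ + u)) =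
      polar Q v₁ x + polar Q v₂ x -
        ((Q (v₁ + v₂))⁻¹ * polar Q (v₁ + v₂ + u) x) * (2 * Q (v₁ + v₂)) := by
    have e0 : polar Q (v₁ + v₂) (v₁ + v₂ + u) = 2 * Q (v₁ + v₂) := by
      rw [polar_add_right, qf_polar_self, hau, add_zero]
    rw [polar_sub_right, polar_smul_right, e0, smul_eq_mul, e5]
  have e3 : polar Q u (x + (Q (v₁ + v₂))⁻¹ • (polar Q u x • v₂ - polar Q v₂ x • u)) =
      polar Q u x := by
    rw [polar_add_right, polar_smul_right, polar_sub_right, polar_smul_right, polar_smul_right,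
      huv₂, qf_polar_self, hu]
    simp
  have e4 : polar Q v₁ (x + (Q (v₁ + v₂))⁻¹ • (polar Q u x • v₂ - polar Q v₂ x • u)) =
      polar Q v₁ x + (Q (v₁ + v₂))⁻¹ * (polar Q u x * polar Q v₁ v₂) := by
    rw [polar_add_right, polar_smul_right, polar_sub_right, polar_smul_right, polar_smul_right,
      polar_comm Q v₁ u, huv₁]
    simp
  rw [e1, e2, e3, e4]
  rw [hγ] at ha ⊢
  funext i
  simp only [Pi.add_apply, Pi.sub_apply, Pi.smul_apply, smul_eq_mul]
  field_simp
  ring

theorem exists_rep_orth_sing [Fintype F] (h2 : (2 : F) ≠ 0) (hn : 5 ≤ Fintype.card ι)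
    (Q : QuadraticForm F (ι → F)) (hQ : (polarBilin Q).Nondegenerate) (w u : ι → F)
    (hw : Q w ≠ 0) (hu : Q u = 0) (hu0 : u ≠ 0) (hperp : polar Q w u = 0) (d : F) (hd : d ≠ 0) :
    ∃ x, Q x = d ∧ polar Q w x = 0 ∧ polar Q u x = 0 := by
  obtain ⟨y₀, hy₀⟩ : ∃ y, polar Q u y ≠ 0 := by
    by_contra hcon
    push Not at hcon
    exact hu0 (hQ.1 u hcon)
  have hww : polar Q w w ≠ 0 := by
    rw [qf_polar_self]
    exact mul_ne_zero h2 hw
  have hwy : polar Q w (y₀ - (polar Q w y₀ / polar Q w w) • w) = 0 := by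
    rw [polar_sub_right, polar_smul_right, smul_eq_mul, div_mul_cancel₀ _ hww, sub_self]
  have huy : polar Q u (y₀ - (polar Q w y₀ / polar Q w w) • w) ≠ 0 := by
    rw [polar_sub_right, polar_smul_right, polar_comm Q u w, hperp, smul_zero, sub_zero]
    exact hy₀
  generalize y₀ - (polar Q w y₀ / polar Q w w) • w = y at hwy huy
  obtain ⟨x, hx, hxperp⟩ := exists_rep_orth_range h2 Q hQ ![w, u, y] (by omega) (by
    intro s hs hsperp
    obtain ⟨cf, rfl⟩ := (Submodule.mem_span_range_iff_exists_fun F).1 hs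
    rw [Fin.sum_univ_three] at hsperp ⊢
    simp only [Matrix.cons_val_zero, Matrix.cons_val_one, Matrix.cons_val_two,
      Matrix.head_cons, Matrix.tail_cons] at hsperp ⊢
    have hs0 := hsperp 0
    have hs1 := hsperp 1
    have hs2 := hsperp 2
    simp only [Matrix.cons_val_zero, Matrix.cons_val_one, Matrix.cons_val_two,
      Matrix.head_cons, Matrix.tail_cons] at hs0 hs1 hs2
    rw [polar_add_right, polar_add_right, polar_smul_right, polar_smul_right,
      polar_smul_right] at hs0 hs1 hs2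
    rw [hperp, hwy] at hs0
    rw [polar_comm Q u w, hperp, qf_polar_self, hu] at hs1
    rw [polar_comm Q y w, hwy, polar_comm Q y u] at hs2
    simp only [smul_eq_mul, mul_zero, add_zero, zero_add] at hs0 hs1 hs2
    have c0 : cf 0 = 0 := by
      rcases mul_eq_zero.1 hs0 with h | h
      · exact h
      · exact absurd h hww
    have c2 : cf 2 = 0 := by
      rcases mul_eq_zero.1 hs1 with h | h
      · exact h
      · exact absurd h huy
    rw [c2] at hs2
    simp only [zero_mul, add_zero, zero_add] at hs2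
    have c1 : cf 1 = 0 := by
      rcases mul_eq_zero.1 hs2 with h | h
      · exact h
      · exact absurd h huy
    rw [c0, c1, c2]
    simp) d hd
  exact ⟨x, hx, hxperp 0, hxperp 1⟩

theorem exists_sing_decomp [Fintype F] (h2 : (2 : F) ≠ 0) (hn : 5 ≤ Fintype.card ι)
    (Q : QuadraticForm F (ι → F)) (hQ : (polarBilin Q).Nondegenerate) (a u : ι → F)
    (ha : Q a ≠ 0) (hu : Q u = 0) (hu0 : u ≠ 0) (hau : polar Q a u = 0) :
    ∃ v₁ v₂, Q v₁ = 0 ∧ Q v₂ = 0 ∧ polar Q u v₁ = 0 ∧ polar Q u v₂ = 0 ∧ v₁ + v₂ = a := by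
  have h4 : (4 : F) ≠ 0 := by
    have : (4 : F) = 2 * 2 := by norm_num
    rw [this]
    exact mul_ne_zero h2 h2
  obtain ⟨w, hw, haw, huw⟩ := exists_rep_orth_sing h2 hn Q hQ a u ha hu hu0 hau (-(Q a) / 4)
    (div_ne_zero (neg_ne_zero.2 ha) h4)
  refine ⟨(2 : F)⁻¹ • a + w, (2 : F)⁻¹ • a - w, ?_, ?_, ?_, ?_, ?_⟩
  · rw [qf_add, qf_smul, polar_smul_left, haw, hw]
    field_simp
    ring
  · rw [sub_eq_add_neg, qf_add, qf_smul, QuadraticMap.map_neg, polar_smul_left, polar_neg_right,
      haw, hw]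
    field_simp
    ring
  · rw [polar_add_right, polar_smul_right, polar_comm Q u a, hau, huw]
    simp
  · rw [polar_sub_right, polar_smul_right, polar_comm Q u a, hau, huw]
    simp
  · funext i
    simp only [Pi.add_apply, Pi.sub_apply, Pi.smul_apply, smul_eq_mul]
    field_simp
    ring

theorem exists_mid [Fintype F] (h2 : (2 : F) ≠ 0) (hn : 4 ≤ Fintype.card ι)
    (Q : QuadraticForm F (ι → F)) (hQ : (polarBilin Q).Nondegenerate) (a b : ι → F)
    (ha : Q a ≠ 0) (hb : Q b = Q a) (h1 : Q (b - a) ≠ 0) (h1' : Q (b + a) ≠ 0) :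
    ∃ z, Q z = Q a ∧ Q (z - a) = 0 ∧ Q (b - z) = 0 := by
  have hm : 2 * Q a - polar Q a b ≠ 0 := by
    intro h
    apply h1
    rw [sub_eq_add_neg, qf_add, QuadraticMap.map_neg, hb, polar_neg_right, polar_comm Q b a]
    linear_combination h
  have hp : 2 * Q a + polar Q a b ≠ 0 := by
    intro h
    apply h1'
    rw [qf_add, hb, polar_comm Q b a]
    linear_combination h
  obtain ⟨w, hw, hwperp⟩ := exists_rep_orth_range h2 Q hQ ![a, b] (by omega) (by
    intro s hs hsperp
    obtain ⟨cf, rfl⟩ := (Submodule.mem_span_range_iff_exists_fun F).1 hs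
    rw [Fin.sum_univ_two] at hsperp ⊢
    have hs0 := hsperp 0
    have hs1 := hsperp 1
    simp only [Matrix.cons_val_zero, Matrix.cons_val_one, Matrix.head_cons] at hs0 hs1 ⊢
    rw [polar_add_right, polar_smul_right, polar_smul_right] at hs0 hs1
    rw [qf_polar_self] at hs0
    rw [polar_comm Q b a, qf_polar_self, hb] at hs1
    simp only [smul_eq_mul] at hs0 hs1
    have c0 : cf 0 = 0 := by
      have : cf 0 * ((2 * Q a - polar Q a b) * (2 * Q a + polar Q a b)) = 0 := by
        linear_combination (2 * Q a) * hs0 - polar Q a b * hs1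
      rcases mul_eq_zero.1 this with h | h
      · exact h
      · exact absurd h (mul_ne_zero hm hp)
    have c1 : cf 1 = 0 := by
      have : cf 1 * ((2 * Q a - polar Q a b) * (2 * Q a + polar Q a b)) = 0 := by
        linear_combination (2 * Q a) * hs1 - polar Q a b * hs0
      rcases mul_eq_zero.1 this with h | h
      · exact h
      · exact absurd h (mul_ne_zero hm hp)
    rw [c0, c1]
    simp) (Q a * (polar Q a b - 2 * Q a) / (2 * Q a + polar Q a b))
    (div_ne_zero (mul_ne_zero ha (by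
      intro h
      apply hm
      linear_combination -h)) hp)
  have hwa : polar Q a w = 0 := hwperp 0
  have hwb : polar Q b w = 0 := hwperp 1
  have hz : Q ((2 * Q a / (2 * Q a + polar Q a b)) • (a + b) + w) = Q a := by
    rw [qf_add, qf_smul, qf_add, hb, hw, polar_smul_left, polar_add_left, hwa, hwb]
    field_simp
    ring
  have hza : polar Q ((2 * Q a / (2 * Q a + polar Q a b)) • (a + b) + w) a = 2 * Q a := by
    rw [polar_add_left, polar_smul_left, polar_add_left, qf_polar_self, polar_comm Q b a,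
      polar_comm Q w a, hwa, smul_eq_mul]
    field_simp
    try ring
  have hzb : polar Q ((2 * Q a / (2 * Q a + polar Q a b)) • (a + b) + w) b = 2 * Q a := by
    rw [polar_add_left, polar_smul_left, polar_add_left, qf_polar_self, hb,
      polar_comm Q w b, hwb, smul_eq_mul]
    field_simp
    try ring
  refine ⟨(2 * Q a / (2 * Q a + polar Q a b)) • (a + b) + w, hz, ?_, ?_⟩
  · rw [sub_eq_add_neg, qf_add, QuadraticMap.map_neg, hz, polar_neg_right, hza]
    ring
  · rw [sub_eq_add_neg, qf_add, QuadraticMap.map_neg, hz, hb, polar_neg_right,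
      polar_comm Q b _, hzb]
    ring

theorem special_pair_mem [Fintype F] (h2 : (2 : F) ≠ 0) (hn : 5 ≤ Fintype.card ι)
    (Q : QuadraticForm F (ι → F)) (hQ : (polarBilin Q).Nondegenerate) (a u : ι → F)
    (ha : Q a ≠ 0) (hu : Q u = 0) (hau : polar Q a u = 0) :
    reflElt Q a * reflElt Q (a + u) ∈ Subgroup.closure (siegelSet Q) := by
  by_cases hu0 : u = 0
  · rw [hu0, add_zero, reflElt_mul_self]
    exact Subgroup.one_mem _
  · obtain ⟨v₁, v₂, hv₁, hv₂, huv₁, huv₂, hsum⟩ := exists_sing_decomp h2 hn Q hQ a u ha hu hu0 hau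
    subst hsum
    rw [special_pair_eq Q u v₁ v₂ ha hu hau hv₁ hv₂ huv₁ huv₂]
    exact Subgroup.mul_mem _ (siegelElt_mem _ _ _ _ _ _ _) (siegelElt_mem _ _ _ _ _ _ _)

theorem goodPair_mem_siegel [Fintype F] (h2 : (2 : F) ≠ 0) (hn : 5 ≤ Fintype.card ι)
    (Q : QuadraticForm F (ι → F)) (hQ : (polarBilin Q).Nondegenerate) (a b : ι → F)
    (ha : Q a ≠ 0) (hb : Q b = Q a) :
    reflElt Q a * reflElt Q b ∈ Subgroup.closure (siegelSet Q) := by
  have hb0 : Q b ≠ 0 := by rw [hb]; exact ha
  by_cases h1 : Q (b - a) = 0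
  · have e : reflElt Q b = reflElt Q (a + (b - a)) := by
      congr 1
      abel
    rw [e]
    apply special_pair_mem h2 hn Q hQ a (b - a) ha h1
    rw [sub_eq_add_neg, qf_add, QuadraticMap.map_neg, hb, polar_neg_right, polar_comm Q b a] at h1
    rw [polar_sub_right, qf_polar_self]
    linear_combination -h1
  · by_cases h1' : Q (b + a) = 0
    · have e : reflElt Q b = reflElt Q (a + (-b - a)) := by
        rw [← reflElt_neg Q b hb0]
        congr 1
        abel
      rw [e]
      apply special_pair_mem h2 hn Q hQ a (-b - a) ha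
      · have e2 : -b - a = -(b + a) := by abel
        rw [e2, QuadraticMap.map_neg, h1']
      · rw [qf_add, hb, polar_comm Q b a] at h1'
        rw [polar_sub_right, polar_neg_right, qf_polar_self]
        linear_combination -h1'
    · obtain ⟨z, hz, hza, hbz⟩ := exists_mid h2 (by omega) Q hQ a b ha hb h1 h1'
      have hz0 : Q z ≠ 0 := by rw [hz]; exact ha
      have e : reflElt Q a * reflElt Q b =
          (reflElt Q a * reflElt Q z) * (reflElt Q z * reflElt Q b) := by
        rw [mul_assoc, ← mul_assoc (reflElt Q z), reflElt_mul_self, one_mul]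
      rw [e]
      refine Subgroup.mul_mem _ ?_ ?_
      · have e' : reflElt Q z = reflElt Q (a + (z - a)) := by
          congr 1
          abel
        rw [e']
        apply special_pair_mem h2 hn Q hQ a (z - a) ha hza
        rw [sub_eq_add_neg, qf_add, QuadraticMap.map_neg, hz, polar_neg_right,
          polar_comm Q z a] at hza
        rw [polar_sub_right, qf_polar_self]
        linear_combination -hza
      · have e' : reflElt Q b = reflElt Q (z + (b - z)) := by
          congr 1
          abel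
        rw [e']
        apply special_pair_mem h2 hn Q hQ z (b - z) hz0 hbz
        rw [sub_eq_add_neg, qf_add, QuadraticMap.map_neg, hz, hb, polar_neg_right,
          polar_comm Q b z] at hbz
        rw [polar_sub_right, qf_polar_self, hz]
        linear_combination -hbz

/-- `Ω` is generated by the long root elements -/
theorem Omega_eq_siegel [Fintype F] (h2 : (2 : F) ≠ 0) (hn : 5 ≤ Fintype.card ι)
    (Q : QuadraticForm F (ι → F)) (hQ : (polarBilin Q).Nondegenerate) :
    Omega F ⇑Q = Subgroup.closure (siegelSet Q) := by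
  apply le_antisymm
  · refine le_trans (Omega_le_goodPairs h2 Q hQ) ?_
    rw [Subgroup.closure_le]
    rintro g ⟨a, b, ha, hb, rfl⟩
    exact goodPair_mem_siegel h2 hn Q hQ a b ha hb
  · rw [Subgroup.closure_le]
    rintro g ⟨u, v, c, hu, hv, huv, hg⟩
    exact (siegel_mem_commutatorSet h2 Q hQ u v hu hv huv c g hg).2

end SiegelOmega

end Cfsg.Agent.Helper16
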