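import Cfsg.Agent.Helper16.Sieg
import Cfsg.Agent.Helper16.SiegelOmega

set_option autoImplicit false
open Cfsg

namespace Cfsg.Agent.Helper16

open QuadraticMap Module
open scoped commutatorElement Pointwise

section SimpleGeom
variable {ι : Type} [Fintype ι] [DecidableEq ι] {F : Type*} [Field F]

theorem exists_polar_ne (Q : QuadraticForm F (ι → F)) (hQ : (polarBilin Q).Nondegenerate)
    (x : ι → F) (hx0 : x ≠ 0) : ∃ w, polar Q x w ≠ 0 := by
  by_contra hcon
  apply hx0
  apply hQ.1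
  intro y
  by_contra hne
  exact hcon ⟨y, hne⟩

/-- some vector is non-orthogonal to two given non-zero vectors -/
theorem exists_nonorth_both (Q : QuadraticForm F (ι → F)) (hQ : (polarBilin Q).Nondegenerate)
    (x y : ι → F) (hx0 : x ≠ 0) (hy0 : y ≠ 0) : ∃ z, polar Q z x ≠ 0 ∧ polar Q z y ≠ 0 := by
  by_contra hcon
  push Not at hcon
  have h : ∀ z ∈ (⊤ : Submodule F (ι → F)),
      z ∈ orth Q (Submodule.span F {x}) ∨ z ∈ orth Q (Submodule.span F {y}) := by
    intro z _
    by_cases hz : polar Q z x = 0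
    · left
      rw [mem_orth_span_singleton, polar_comm]
      exact hz
    · right
      rw [mem_orth_span_singleton, polar_comm]
      exact hcon z hz
  rcases le_or_le_of_union ⊤ _ _ h with h1 | h1
  · obtain ⟨w, hw⟩ := exists_polar_ne Q hQ x hx0
    exact hw ((mem_orth_span_singleton Q x w).1 (h1 Submodule.mem_top))
  · obtain ⟨w, hw⟩ := exists_polar_ne Q hQ y hy0
    exact hw ((mem_orth_span_singleton Q y w).1 (h1 Submodule.mem_top))

theorem finrank_span_one_le (u : ι → F) : finrank F (Submodule.span F {u}) ≤ 1 := by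
  classical
  exact (finrank_span_le_card ({u} : Set (ι → F))).trans (by simp)

theorem card_lt_orth_two (hn : 5 ≤ Fintype.card ι) (Q : QuadraticForm F (ι → F))
    (hQ : (polarBilin Q).Nondegenerate) (u w : ι → F) :
    Fintype.card ι < 2 * finrank F (orth Q (Submodule.span F {u} ⊔ Submodule.span F {w})) := by
  rw [finrank_orth Q hQ, Module.finrank_fintype_fun_eq_card]
  have h1 := Submodule.finrank_add_le_finrank_add_finrank (Submodule.span F {u})
    (Submodule.span F {w})
  have h2 := finrank_span_one_le (F := F) u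
  have h3 := finrank_span_one_le (F := F) w
  omega

/-- a non-singular vector orthogonal to two given vectors -/
theorem exists_nonsing_orth_two (hn : 5 ≤ Fintype.card ι) (Q : QuadraticForm F (ι → F))
    (hQ : (polarBilin Q).Nondegenerate) (u w : ι → F) :
    ∃ z, Q z ≠ 0 ∧ polar Q u z = 0 ∧ polar Q w z = 0 := by
  obtain ⟨z, hzU, hz⟩ := exists_nonsing_of_big Q hQ _ (card_lt_orth_two hn Q hQ u w)
  rw [orth_sup, Submodule.mem_inf, mem_orth_span_singleton, mem_orth_span_singleton] at hzU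
  exact ⟨z, hz, hzU.1, hzU.2⟩

/-- two singular points have a common non-orthogonal singular point -/
theorem exists_sing_nonorth (hn : 5 ≤ Fintype.card ι) (Q : QuadraticForm F (ι → F))
    (hQ : (polarBilin Q).Nondegenerate) (x y : ι → F) (hx0 : x ≠ 0) (hy0 : y ≠ 0)
    (hx : Q x = 0) (hy : Q y = 0) : ∃ z, Q z = 0 ∧ polar Q z x ≠ 0 ∧ polar Q z y ≠ 0 := by
  by_cases hxy : polar Q x y = 0
  · obtain ⟨z₀, hzx, hzy⟩ := exists_nonorth_both Q hQ x y hx0 hy0
    refine ⟨z₀ + (-(Q z₀ / polar Q z₀ x)) • x, ?_, ?_, ?_⟩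
    · rw [qf_add, qf_smul, hx, polar_smul_right, smul_eq_mul]
      field_simp
      ring
    · rw [polar_add_left, polar_smul_left, qf_polar_self, hx]
      simpa using hzx
    · rw [polar_add_left, polar_smul_left, hxy]
      simpa using hzy
  · obtain ⟨h, hh, hxh, hyh⟩ := exists_nonsing_orth_two hn Q hQ x y
    have hyx : polar Q y x = polar Q x y := polar_comm Q y x
    refine ⟨x + (-(Q h / polar Q x y)) • y + h, ?_, ?_, ?_⟩
    · rw [qf_add, qf_add, qf_smul, hx, hy, polar_smul_right, polar_add_left, polar_smul_left, hxh,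
        hyh, smul_eq_mul]
      field_simp
      ring
    · rw [polar_add_left, polar_add_left, polar_smul_left, qf_polar_self, hx, hyx,
        polar_comm Q h x, hxh, smul_eq_mul]
      field_simp
      simpa using hh
    · rw [polar_add_left, polar_add_left, polar_smul_left, qf_polar_self, hy,
        polar_comm Q h y, hyh]
      simpa using hxy

end SimpleGeom

section SimpleAct
variable {ι : Type} [Fintype ι] [DecidableEq ι] {F : Type*} [Field F]

/-- singular points -/
def SingPt (Q : QuadraticForm F (ι → F)) : Type _ :=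
  {P : Submodule F (ι → F) // ∃ u, u ≠ 0 ∧ Q u = 0 ∧ P = Submodule.span F {u}}

/-- the singular point spanned by a singular vector -/
def mkPt (Q : QuadraticForm F (ι → F)) (u : ι → F) (hu0 : u ≠ 0) (hu : Q u = 0) : SingPt Q :=
  ⟨Submodule.span F {u}, u, hu0, hu, rfl⟩

theorem exists_mkPt (Q : QuadraticForm F (ι → F)) (P : SingPt Q) :
    ∃ u hu0 hu, P = mkPt Q u hu0 hu := by
  obtain ⟨u, hu0, hu, hP⟩ := P.2
  exact ⟨u, hu0, hu, Subtype.ext hP⟩

theorem mkPt_eq_of_smul (Q : QuadraticForm F (ι → F)) (u v : ι → F) (hu0 : u ≠ 0) (hu : Q u = 0)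
    (hv0 : v ≠ 0) (hv : Q v = 0) (c : F) (h : u = c • v) :
    mkPt Q u hu0 hu = mkPt Q v hv0 hv := by
  apply Subtype.ext
  show Submodule.span F {u} = Submodule.span F {v}
  have hc : c ≠ 0 := by
    rintro rfl
    rw [zero_smul] at h
    exact hu0 h
  rw [h]
  exact Submodule.span_singleton_smul_eq (IsUnit.mk0 c hc) v

theorem mem_of_mkPt_eq (Q : QuadraticForm F (ι → F)) (u v : ι → F) (hu0 : u ≠ 0) (hu : Q u = 0)
    (hv0 : v ≠ 0) (hv : Q v = 0) (h : mkPt Q u hu0 hu = mkPt Q v hv0 hv) :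
    ∃ c : F, u = c • v := by
  have h1 : Submodule.span F {u} = Submodule.span F {v} := congrArg Subtype.val h
  have h2 : u ∈ Submodule.span F {v} := h1 ▸ Submodule.mem_span_singleton_self u
  obtain ⟨c, hc⟩ := Submodule.mem_span_singleton.1 h2
  exact ⟨c, hc.symm⟩

theorem mapG_span (g : GL ι F) (u : ι → F) :
    mapG g (Submodule.span F {u}) = Submodule.span F {(g : Matrix ι ι F).mulVec u} := by
  unfold mapG
  rw [Submodule.map_span, Set.image_singleton]
  rfl

theorem act_zero (Q : (ι → F) → F) (g : ↥(isometryGroup F Q)) : act Q g 0 = 0 :=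
  Matrix.mulVec_zero _

theorem act_sub (Q : (ι → F) → F) (g : ↥(isometryGroup F Q)) (x y : ι → F) :
    act Q g (x - y) = act Q g x - act Q g y := Matrix.mulVec_sub _ _ _

theorem act_ne_zero (Q : (ι → F) → F) (g : ↥(isometryGroup F Q)) (u : ι → F)
    (hu : u ≠ 0) : act Q g u ≠ 0 := by
  intro h
  apply hu
  have h1 := congrArg (act Q g⁻¹) h
  rw [← act_mul, inv_mul_cancel, act_one, act_zero] at h1
  exact h1

theorem act_inv_act (Q : (ι → F) → F) (g : ↥(isometryGroup F Q)) (u : ι → F) :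
    act Q g⁻¹ (act Q g u) = u := by
  rw [← act_mul, inv_mul_cancel, act_one]

theorem act_act_inv (Q : (ι → F) → F) (g : ↥(isometryGroup F Q)) (u : ι → F) :
    act Q g (act Q g⁻¹ u) = u := by
  rw [← act_mul, mul_inv_cancel, act_one]

noncomputable instance singPtAction (Q : QuadraticForm F (ι → F)) :
    MulAction ↥(Omega F ⇑Q) (SingPt Q) where
  smul g P := ⟨mapG ((g : ↥(isometryGroup F ⇑Q)) : GL ι F) P.1, by
    obtain ⟨u, hu0, hu, hP⟩ := P.2
    exact ⟨act ⇑Q g.1 u, act_ne_zero ⇑Q g.1 u hu0, (act_Q ⇑Q g.1 u).trans hu, by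
      rw [hP, mapG_span]
      rfl⟩⟩
  one_smul P := Subtype.ext (mapG_one P.1)
  mul_smul g h P := Subtype.ext (mapG_mul _ _ P.1)

theorem smul_val (Q : QuadraticForm F (ι → F)) (g : ↥(Omega F ⇑Q)) (P : SingPt Q) :
    (g • P).1 = mapG ((g : ↥(isometryGroup F ⇑Q)) : GL ι F) P.1 := rfl

theorem smul_mkPt (Q : QuadraticForm F (ι → F)) (g : ↥(Omega F ⇑Q)) (u : ι → F) (hu0 : u ≠ 0)
    (hu : Q u = 0) :
    g • mkPt Q u hu0 hu = mkPt Q (act ⇑Q g.1 u) (act_ne_zero ⇑Q g.1 u hu0)
      ((act_Q ⇑Q g.1 u).trans hu) := by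
  apply Subtype.ext
  rw [smul_val]
  show mapG _ (Submodule.span F {u}) = Submodule.span F {act ⇑Q g.1 u}
  rw [mapG_span]
  rfl

/-- `Ω` is transitive on singular points -/
theorem exists_move [Fintype F] (hn : 5 ≤ Fintype.card ι) (Q : QuadraticForm F (ι → F))
    (hQ : (polarBilin Q).Nondegenerate) (x y : ι → F) (hx0 : x ≠ 0) (hy0 : y ≠ 0)
    (hx : Q x = 0) (hy : Q y = 0) :
    ∃ g : ↥(isometryGroup F ⇑Q), g ∈ Omega F ⇑Q ∧ ∃ c : F, act ⇑Q g x = c • y := by
  obtain ⟨z, hz, hzx, hzy⟩ := exists_sing_nonorth hn Q hQ x y hx0 hy0 hx hy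
  have hr : Q ((polar Q z x)⁻¹ • x) = 0 := by rw [qf_smul, hx, mul_zero]
  have hr' : Q ((polar Q z y)⁻¹ • y) = 0 := by rw [qf_smul, hy, mul_zero]
  have hzr : polar Q z ((polar Q z x)⁻¹ • x) = 1 := by
    rw [polar_smul_right, smul_eq_mul, inv_mul_cancel₀ hzx]
  have hzr' : polar Q z ((polar Q z y)⁻¹ • y) = 1 := by
    rw [polar_smul_right, smul_eq_mul, inv_mul_cancel₀ hzy]
  have hmv := sieg_move Q z _ _ hz hr hr' hzr hzr'
  refine ⟨_, sieg_mem_Omega hn Q hQ z ((polar Q z x)⁻¹ • x - (polar Q z y)⁻¹ • y) hz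
    (by rw [polar_sub_right, hzr, hzr', sub_self]), polar Q z x * (polar Q z y)⁻¹, ?_⟩
  rw [act_smul] at hmv
  have h1 := congrArg (fun v => polar Q z x • v) hmv
  simp only [smul_smul, mul_inv_cancel₀ hzx, one_smul] at h1
  rw [h1]

/-- the stabiliser of a singular point is transitive on the points opposite to it -/
theorem exists_stab_move [Fintype F] (hn : 5 ≤ Fintype.card ι) (Q : QuadraticForm F (ι → F))
    (hQ : (polarBilin Q).Nondegenerate) (x y z : ι → F) (hx : Q x = 0) (hy : Q y = 0)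
    (hz : Q z = 0) (hxy : polar Q x y ≠ 0) (hxz : polar Q x z ≠ 0) :
    ∃ g : ↥(isometryGroup F ⇑Q), g ∈ Omega F ⇑Q ∧ act ⇑Q g x = x ∧
      ∃ c : F, act ⇑Q g y = c • z := by
  have hr : Q ((polar Q x y)⁻¹ • y) = 0 := by rw [qf_smul, hy, mul_zero]
  have hr' : Q ((polar Q x z)⁻¹ • z) = 0 := by rw [qf_smul, hz, mul_zero]
  have hzr : polar Q x ((polar Q x y)⁻¹ • y) = 1 := by
    rw [polar_smul_right, smul_eq_mul, inv_mul_cancel₀ hxy]
  have hzr' : polar Q x ((polar Q x z)⁻¹ • z) = 1 := by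
    rw [polar_smul_right, smul_eq_mul, inv_mul_cancel₀ hxz]
  have hmv := sieg_move Q x _ _ hx hr hr' hzr hzr'
  refine ⟨_, sieg_mem_Omega hn Q hQ x ((polar Q x y)⁻¹ • y - (polar Q x z)⁻¹ • z) hx
    (by rw [polar_sub_right, hzr, hzr', sub_self]),
    sieg_fix Q x _ hx _, polar Q x y * (polar Q x z)⁻¹, ?_⟩
  rw [act_smul] at hmv
  have h1 := congrArg (fun v => polar Q x y • v) hmv
  simp only [smul_smul, mul_inv_cancel₀ hxy, one_smul] at h1
  rw [h1]

end SimpleAct

section SimplePrim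
variable {ι : Type} [Fintype ι] [DecidableEq ι] {F : Type*} [Field F] [Fintype F]

theorem block_K1 (hn : 5 ≤ Fintype.card ι) (Q : QuadraticForm F (ι → F))
    (hQ : (polarBilin Q).Nondegenerate) (B : Set (SingPt Q))
    (hB : MulAction.IsBlock ↥(Omega F ⇑Q) B) (x y z : ι → F) (hx0 : x ≠ 0) (hy0 : y ≠ 0)
    (hz0 : z ≠ 0) (hx : Q x = 0) (hy : Q y = 0) (hz : Q z = 0) (hxy : polar Q x y ≠ 0)
    (hxz : polar Q x z ≠ 0) (hxB : mkPt Q x hx0 hx ∈ B) (hyB : mkPt Q y hy0 hy ∈ B) :
    mkPt Q z hz0 hz ∈ B := by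
  obtain ⟨g, hg, hgx, c, hgy⟩ := exists_stab_move hn Q hQ x y z hx hy hz hxy hxz
  have h1 : (⟨g, hg⟩ : ↥(Omega F ⇑Q)) • mkPt Q x hx0 hx = mkPt Q x hx0 hx := by
    rw [smul_mkPt]
    exact mkPt_eq_of_smul Q _ _ _ _ hx0 hx 1 (by rw [one_smul]; exact hgx)
  have h2 : (⟨g, hg⟩ : ↥(Omega F ⇑Q)) • B = B :=
    hB.smul_eq_of_mem hxB (by rw [h1]; exact hxB)
  have h3 : (⟨g, hg⟩ : ↥(Omega F ⇑Q)) • mkPt Q y hy0 hy ∈ (⟨g, hg⟩ : ↥(Omega F ⇑Q)) • B :=
    Set.smul_mem_smul_set hyB
  rw [h2, smul_mkPt] at h3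
  have h4 : mkPt Q (act ⇑Q g y) (act_ne_zero ⇑Q g y hy0) ((act_Q ⇑Q g y).trans hy) =
      mkPt Q z hz0 hz := mkPt_eq_of_smul Q _ _ _ _ hz0 hz c hgy
  rw [← h4]
  exact h3

theorem block_core (hn : 5 ≤ Fintype.card ι) (Q : QuadraticForm F (ι → F))
    (hQ : (polarBilin Q).Nondegenerate) (B : Set (SingPt Q))
    (hB : MulAction.IsBlock ↥(Omega F ⇑Q) B) (x y : ι → F) (hx0 : x ≠ 0) (hy0 : y ≠ 0)
    (hx : Q x = 0) (hy : Q y = 0) (hxy : polar Q x y ≠ 0)
    (hxB : mkPt Q x hx0 hx ∈ B) (hyB : mkPt Q y hy0 hy ∈ B) : B = Set.univ := by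
  apply Set.eq_univ_of_forall
  intro S
  obtain ⟨s, hs0, hs, rfl⟩ := exists_mkPt Q S
  obtain ⟨z, hz, hzx, hzs⟩ := exists_sing_nonorth hn Q hQ x s hx0 hs0 hx hs
  have hz0 : z ≠ 0 := by
    rintro rfl
    exact hzx (by simp [polar])
  have hzB : mkPt Q z hz0 hz ∈ B :=
    block_K1 hn Q hQ B hB x y z hx0 hy0 hz0 hx hy hz hxy (by rw [polar_comm]; exact hzx) hxB hyB
  exact block_K1 hn Q hQ B hB z x s hz0 hx0 hs0 hz hx hs hzx hzs hzB hxB

theorem singPt_pretransitive (hn : 5 ≤ Fintype.card ι) (Q : QuadraticForm F (ι → F))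
    (hQ : (polarBilin Q).Nondegenerate) :
    MulAction.IsPretransitive ↥(Omega F ⇑Q) (SingPt Q) := by
  constructor
  intro P R
  obtain ⟨x, hx0, hx, rfl⟩ := exists_mkPt Q P
  obtain ⟨y, hy0, hy, rfl⟩ := exists_mkPt Q R
  obtain ⟨g, hg, c, hgx⟩ := exists_move hn Q hQ x y hx0 hy0 hx hy
  refine ⟨⟨g, hg⟩, ?_⟩
  rw [smul_mkPt]
  exact mkPt_eq_of_smul Q _ _ _ _ hy0 hy c hgx

theorem singPt_preprimitive (hn : 5 ≤ Fintype.card ι) (Q : QuadraticForm F (ι → F))
    (hQ : (polarBilin Q).Nondegenerate) :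
    MulAction.IsPreprimitive ↥(Omega F ⇑Q) (SingPt Q) := by
  haveI := singPt_pretransitive hn Q hQ
  constructor
  intro B hB
  by_cases hsub : B.Subsingleton
  · exact Or.inl hsub
  · right
    rw [Set.not_subsingleton_iff] at hsub
    obtain ⟨P, hP, R, hR, hPR⟩ := hsub
    obtain ⟨x, hx0, hx, rfl⟩ := exists_mkPt Q P
    obtain ⟨u, hu0, hu, rfl⟩ := exists_mkPt Q R
    by_cases hxu : polar Q x u = 0
    · -- collinear case
      obtain ⟨y₀, huy, hyx⟩ : ∃ y₀, polar Q u y₀ = 0 ∧ polar Q y₀ x ≠ 0 := by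
        by_contra hcon
        push Not at hcon
        have hle : orth Q (Submodule.span F {u}) ≤ orth Q (Submodule.span F {x}) := by
          intro y hy
          rw [mem_orth_span_singleton] at hy ⊢
          rw [polar_comm]
          exact hcon y hy
        have hle2 : orth Q (orth Q (Submodule.span F {x})) ≤
            orth Q (orth Q (Submodule.span F {u})) :=
          LinearMap.BilinForm.orthogonal_le (B := polarBilin Q) hle
        rw [orth_orth Q hQ, orth_orth Q hQ] at hle2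
        have hxm : x ∈ Submodule.span F {u} := hle2 (Submodule.mem_span_singleton_self x)
        obtain ⟨c, hc⟩ := Submodule.mem_span_singleton.1 hxm
        exact hPR (mkPt_eq_of_smul Q x u hx0 hx hu0 hu c hc.symm)
      have hs : Q (y₀ + (-(Q y₀ / polar Q y₀ x)) • x) = 0 := by
        rw [qf_add, qf_smul, hx, polar_smul_right, smul_eq_mul]
        field_simp
        ring
      have hsu : polar Q (y₀ + (-(Q y₀ / polar Q y₀ x)) • x) u = 0 := by
        rw [polar_add_left, polar_smul_left, hxu, polar_comm Q y₀ u, huy]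
        simp
      have hsx : polar Q (y₀ + (-(Q y₀ / polar Q y₀ x)) • x) x = polar Q y₀ x := by
        rw [polar_add_left, polar_smul_left, qf_polar_self, hx]
        simp
      generalize y₀ + (-(Q y₀ / polar Q y₀ x)) • x = s at hs hsu hsx
      obtain ⟨w, hw, hsw, huw⟩ := exists_nonsing_orth_two hn Q hQ s u
      have hg := sieg_mem_Omega hn Q hQ s w hs hsw
      have hgu : act ⇑Q (sieg Q s w hs hsw) u = u := by
        rw [act_sieg, polar_comm Q w u, huw, hsu]
        simp
      have h1 : (⟨_, hg⟩ : ↥(Omega F ⇑Q)) • mkPt Q u hu0 hu = mkPt Q u hu0 hu := by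
        rw [smul_mkPt]
        exact mkPt_eq_of_smul Q _ _ _ _ hu0 hu 1 (by rw [one_smul]; exact hgu)
      have h2 : (⟨_, hg⟩ : ↥(Omega F ⇑Q)) • B = B :=
        hB.smul_eq_of_mem hR (by rw [h1]; exact hR)
      have h3 : (⟨_, hg⟩ : ↥(Omega F ⇑Q)) • mkPt Q x hx0 hx ∈ (⟨_, hg⟩ : ↥(Omega F ⇑Q)) • B :=
        Set.smul_mem_smul_set hP
      rw [h2, smul_mkPt] at h3
      refine block_core hn Q hQ B hB x _ hx0 _ hx _ ?_ hP h3
      show polar Q x (act ⇑Q (sieg Q s w hs hsw) x) ≠ 0
      rw [act_sieg, polar_sub_right, polar_sub_right, polar_add_right, polar_smul_right,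
        polar_smul_right, polar_smul_right, qf_polar_self, hx, polar_comm Q x s,
        polar_comm Q x w, hsx]
      simp only [smul_eq_mul]
      intro h0
      have : Q w * polar Q y₀ x * polar Q y₀ x = 0 := by linear_combination -h0
      exact mul_ne_zero (mul_ne_zero hw hyx) hyx this
    · exact block_core hn Q hQ B hB x u hx0 hu0 hx hu hxu hP hR

end SimplePrim

section SimpleIwasawa
variable {ι : Type} [Fintype ι] [DecidableEq ι] {F : Type*} [Field F]

/-- lifting generation to subgroups of a subgroup -/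
theorem closure_lift {G : Type*} [Group G] (H : Subgroup G) (S : Set G)
    (hgen : H = Subgroup.closure S) (K : Subgroup ↥H)
    (hK : ∀ g (hg : g ∈ H), g ∈ S → (⟨g, hg⟩ : ↥H) ∈ K) : K = ⊤ := by
  rw [eq_top_iff]
  intro x _
  have hle : Subgroup.closure S ≤ K.map H.subtype := by
    rw [Subgroup.closure_le]
    intro g hg
    have hgH : g ∈ H := by rw [hgen]; exact Subgroup.subset_closure hg
    exact ⟨⟨g, hgH⟩, hK g hgH hg, rfl⟩
  have hx : (x : G) ∈ Subgroup.closure S := by rw [← hgen]; exact x.2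
  obtain ⟨k, hk, hkx⟩ := hle hx
  have : k = x := Subtype.ext hkx
  rw [← this]
  exact hk

theorem sieg_congr2 (Q : QuadraticForm F (ι → F)) (u u' w w' : ι → F) (hu : Q u = 0)
    (huw : polar Q u w = 0) (hu' : Q u' = 0) (huw' : polar Q u' w' = 0) (h1 : u = u')
    (h2 : w = w') : sieg Q u w hu huw = sieg Q u' w' hu' huw' := by
  subst h1
  subst h2
  rfl

/-- long root elements as Siegel elements -/
theorem siegelSet_eq_sieg (Q : QuadraticForm F (ι → F)) (g : ↥(isometryGroup F ⇑Q))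
    (hg : g ∈ siegelSet Q) :
    ∃ (u v : ι → F) (c : F) (_ : Q u = 0) (hv : Q v = 0) (huv : polar Q v (c • u) = 0),
      polar Q u v = 0 ∧ g = sieg Q v (c • u) hv huv := by
  obtain ⟨u, v, c, hu, hv, huv, hmat⟩ := hg
  have hvu : polar Q v (c • u) = 0 := by
    rw [polar_smul_right, polar_comm Q v u, huv, smul_zero]
  refine ⟨u, v, c, hu, hv, hvu, huv, ?_⟩
  apply act_ext
  intro x
  have h1 : act ⇑Q g x = (Cfsg.siegelMatrix ⇑Q u v c).mulVec x := by
    unfold act
    rw [hmat]
  rw [h1, siegel_mulVec, act_sieg, polar_smul_left, qf_smul, hu]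
  funext i
  simp only [Pi.add_apply, Pi.sub_apply, Pi.smul_apply, smul_eq_mul]
  ring

/-- generators of the root subgroup of a singular point -/
def rootSet (Q : QuadraticForm F (ι → F)) (P : SingPt Q) : Set ↥(Omega F ⇑Q) :=
  {x | ∃ (u w : ι → F) (hu : Q u = 0) (huw : polar Q u w = 0), u ∈ P.1 ∧
    (x : ↥(isometryGroup F ⇑Q)) = sieg Q u w hu huw}

theorem rootSet_mkPt (Q : QuadraticForm F (ι → F)) (v : ι → F) (hv0 : v ≠ 0) (hv : Q v = 0)
    (x : ↥(Omega F ⇑Q)) (hx : x ∈ rootSet Q (mkPt Q v hv0 hv)) :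
    ∃ (w : ι → F) (hvw : polar Q v w = 0), (x : ↥(isometryGroup F ⇑Q)) = sieg Q v w hv hvw := by
  obtain ⟨u, w, hu, huw, hmem, hx⟩ := hx
  obtain ⟨a, rfl⟩ := Submodule.mem_span_singleton.1 hmem
  by_cases ha : a = 0
  · subst ha
    refine ⟨0, qf_polar_zero_right Q v, ?_⟩
    rw [hx, sieg_zero]
    have e := sieg_zero_left Q w
    rw [← e]
    exact sieg_congr2 Q _ _ _ _ _ _ _ _ (zero_smul F v) rfl
  · have hvw : polar Q v w = 0 := by
      rw [polar_smul_left, smul_eq_mul] at huw
      exact (mul_eq_zero.1 huw).resolve_left ha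
    exact ⟨a • w, by rw [polar_smul_right, hvw, smul_zero], hx.trans (sieg_smul Q v w a hv hvw)⟩

theorem rootSub_comm (Q : QuadraticForm F (ι → F)) (P : SingPt Q) :
    IsMulCommutative (Subgroup.closure (rootSet Q P)) := by
  obtain ⟨v, hv0, hv, rfl⟩ := exists_mkPt Q P
  apply Subgroup.isMulCommutative_closure
  intro x hx y hy
  obtain ⟨w, hvw, hx'⟩ := rootSet_mkPt Q v hv0 hv x hx
  obtain ⟨w', hvw', hy'⟩ := rootSet_mkPt Q v hv0 hv y hy
  apply Subtype.ext
  rw [Subgroup.coe_mul, Subgroup.coe_mul, hx', hy']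
  exact sieg_comm Q v w w' hv hvw hvw'

theorem rootSub_conj_le (Q : QuadraticForm F (ι → F)) (g : ↥(Omega F ⇑Q)) (P : SingPt Q) :
    MulAut.conj g • Subgroup.closure (rootSet Q P) ≤ Subgroup.closure (rootSet Q (g • P)) := by
  rw [Subgroup.pointwise_smul_subset_iff, Subgroup.closure_le]
  intro x hx
  obtain ⟨u, w, hu, huw, hmem, hx'⟩ := hx
  rw [SetLike.mem_coe, Subgroup.mem_inv_pointwise_smul_iff, MulAut.smul_def, MulAut.conj_apply]
  apply Subgroup.subset_closure
  refine ⟨act ⇑Q g.1 u, act ⇑Q g.1 w, (act_Q ⇑Q g.1 u).trans hu,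
    (act_polar ⇑Q g.1 u w).trans huw, ?_, ?_⟩
  · rw [smul_val, mem_mapG]
    exact ⟨u, hmem, rfl⟩
  · show ((g * x * g⁻¹ : ↥(Omega F ⇑Q)) : ↥(isometryGroup F ⇑Q)) = _
    rw [Subgroup.coe_mul, Subgroup.coe_mul, Subgroup.coe_inv, hx', sieg_conj]

theorem rootSub_conj (Q : QuadraticForm F (ι → F)) (g : ↥(Omega F ⇑Q)) (P : SingPt Q) :
    Subgroup.closure (rootSet Q (g • P)) = MulAut.conj g • Subgroup.closure (rootSet Q P) := by
  apply le_antisymm
  · have h := rootSub_conj_le Q g⁻¹ (g • P)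
    rw [inv_smul_smul] at h
    rw [Subgroup.subset_pointwise_smul_iff, ← map_inv]
    exact h
  · exact rootSub_conj_le Q g P

theorem rootSub_gen (Q : QuadraticForm F (ι → F))
    (hgen : Omega F ⇑Q = Subgroup.closure (siegelSet Q)) :
    (⨆ P : SingPt Q, Subgroup.closure (rootSet Q P)) = ⊤ := by
  apply closure_lift (Omega F ⇑Q) (siegelSet Q) hgen
  intro g hg hgS
  obtain ⟨u, v, c, hu, hv, hvu, -, rfl⟩ := siegelSet_eq_sieg Q g hgS
  by_cases hv0 : v = 0
  · subst hv0
    have : (⟨sieg Q 0 (c • u) hv hvu, hg⟩ : ↥(Omega F ⇑Q)) = 1 :=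
      Subtype.ext (sieg_zero_left Q (c • u))
    rw [this]
    exact Subgroup.one_mem _
  · exact Subgroup.mem_iSup_of_mem (mkPt Q v hv0 hv) (Subgroup.subset_closure
      ⟨v, c • u, hv, hvu, Submodule.mem_span_singleton_self v, rfl⟩)

/-- the Iwasawa structure of `Ω` on the singular points -/
noncomputable def iwasawa (Q : QuadraticForm F (ι → F))
    (hgen : Omega F ⇑Q = Subgroup.closure (siegelSet Q)) :
    MulAction.IwasawaStructure ↥(Omega F ⇑Q) (SingPt Q) where
  T P := Subgroup.closure (rootSet Q P)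
  is_comm P := rootSub_comm Q P
  is_conj g P := rootSub_conj Q g P
  is_generator := rootSub_gen Q hgen

/-- long root elements are commutators of Siegel elements -/
theorem sieg_commutator (Q : QuadraticForm F (ι → F)) (u v y w : ι → F) (hu : Q u = 0)
    (hv : Q v = 0) (huv : polar Q u v = 0) (huy : polar Q u y = 0) (hvy : polar Q v y = 0)
    (huw : polar Q u w = 0) (hvw : polar Q v w = 0) :
    ⁅sieg Q u y hu huy, sieg Q v w hv hvw⁆ = sieg Q v (polar Q y w • u) hv
      (by rw [polar_smul_right, polar_comm Q v u, huv, smul_zero]) := by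
  have hvcu : polar Q v (polar Q y w • u) = 0 := by
    rw [polar_smul_right, polar_comm Q v u, huv, smul_zero]
  have hv1 : polar Q v (w + polar Q y w • u) = 0 := by
    rw [polar_add_right, hvw, hvcu, add_zero]
  have e1 : act ⇑Q (sieg Q u y hu huy) v = v := by
    rw [act_sieg, polar_comm Q y v, hvy, huv]
    simp
  have e2 : act ⇑Q (sieg Q u y hu huy) w = w + polar Q y w • u := by
    rw [act_sieg, huw]
    simp
  have hA : sieg Q u y hu huy * sieg Q v w hv hvw * (sieg Q u y hu huy)⁻¹ =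
      sieg Q v (w + polar Q y w • u) hv hv1 := by
    rw [sieg_conj]
    exact sieg_congr2 Q _ _ _ _ _ _ _ _ e1 e2
  rw [commutatorElement_def, hA, sieg_inv, sieg_mul]
  exact sieg_congr2 Q _ _ _ _ _ _ _ _ rfl (by abel)

/-- `Ω` is perfect -/
theorem Omega_perfect [Fintype F] (hn : 5 ≤ Fintype.card ι) (Q : QuadraticForm F (ι → F))
    (hQ : (polarBilin Q).Nondegenerate)
    (hgen : Omega F ⇑Q = Subgroup.closure (siegelSet Q)) :
    commutator ↥(Omega F ⇑Q) = ⊤ := by
  apply closure_lift (Omega F ⇑Q) (siegelSet Q) hgen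
  intro g hg hgS
  obtain ⟨u, v, c, hu, hv, hvu, huv, rfl⟩ := siegelSet_eq_sieg Q g hgS
  obtain ⟨y, w', huy, hvy, huw', hvw', hyw'⟩ : ∃ y w', polar Q u y = 0 ∧ polar Q v y = 0 ∧
      polar Q u w' = 0 ∧ polar Q v w' = 0 ∧ polar Q y w' ≠ 0 := by
    by_contra hcon
    push Not at hcon
    have hle : orth Q (Submodule.span F {u} ⊔ Submodule.span F {v}) ≤
        orth Q (orth Q (Submodule.span F {u} ⊔ Submodule.span F {v})) := by
      intro w' hw'
      rw [mem_orth]
      intro y hy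
      rw [orth_sup, Submodule.mem_inf, mem_orth_span_singleton, mem_orth_span_singleton]
        at hy hw'
      exact hcon y w' hy.1 hy.2 hw'.1 hw'.2
    rw [orth_orth Q hQ] at hle
    have h1 := Submodule.finrank_mono hle
    have h2 := card_lt_orth_two hn Q hQ u v
    have h3 := Submodule.finrank_add_le_finrank_add_finrank (Submodule.span F {u})
      (Submodule.span F {v})
    have h4 := finrank_span_one_le (F := F) u
    have h5 := finrank_span_one_le (F := F) v
    omega
  have huw : polar Q u ((c / polar Q y w') • w') = 0 := by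
    rw [polar_smul_right, huw', smul_zero]
  have hvw : polar Q v ((c / polar Q y w') • w') = 0 := by
    rw [polar_smul_right, hvw', smul_zero]
  have hyw : polar Q y ((c / polar Q y w') • w') = c := by
    rw [polar_smul_right, smul_eq_mul]
    field_simp
  have hcomm := sieg_commutator Q u v y _ hu hv huv huy hvy huw hvw
  have hA := sieg_mem_Omega hn Q hQ u y hu huy
  have hC := sieg_mem_Omega hn Q hQ v _ hv hvw
  have e : (⟨sieg Q v (c • u) hv hvu, hg⟩ : ↥(Omega F ⇑Q)) =
      ⁅(⟨sieg Q u y hu huy, hA⟩ : ↥(Omega F ⇑Q)),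
        ⟨sieg Q v ((c / polar Q y w') • w') hv hvw, hC⟩⁆ := by
    apply Subtype.ext
    rw [commutatorElement_def, Subgroup.coe_mul, Subgroup.coe_mul, Subgroup.coe_mul,
      Subgroup.coe_inv, Subgroup.coe_inv, ← commutatorElement_def, hcomm]
    have e3 : sieg Q v (c • u) hv hvu =
        sieg Q v (polar Q y ((c / polar Q y w') • w') • u) hv (by rw [hyw]; exact hvu) :=
      sieg_congr2 Q _ _ _ _ _ _ _ _ rfl (by rw [hyw])
    exact e3
  rw [e]
  exact Subgroup.commutator_mem_commutator (Subgroup.mem_top _) (Subgroup.mem_top _)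

end SimpleIwasawa

section SimpleMain
variable {ι : Type} [Fintype ι] [DecidableEq ι] {F : Type*} [Field F] [Fintype F]

/-- an isometry fixing all singular points is central -/
theorem central_of_fix (hn : 5 ≤ Fintype.card ι) (Q : QuadraticForm F (ι → F))
    (hQ : (polarBilin Q).Nondegenerate) (g : ↥(isometryGroup F ⇑Q))
    (hfix : ∀ u, Q u = 0 → act ⇑Q g u ∈ Submodule.span F {u}) (h : ↥(isometryGroup F ⇑Q)) :
    g * h = h * g := by
  obtain ⟨e, he0, he⟩ := exists_singular Q hQ (by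
    rw [Module.finrank_fintype_fun_eq_card]
    omega)
  obtain ⟨f, hf, hef⟩ := exists_hyp_partner Q hQ e he0 he
  obtain ⟨lam, hlam⟩ := Submodule.mem_span_singleton.1 (hfix e he)
  obtain ⟨mu, hmu⟩ := Submodule.mem_span_singleton.1 (hfix f hf)
  have hlm : lam * mu = 1 := by
    have h1 := act_polar ⇑Q g e f
    rw [← hlam, ← hmu, polar_smul_left, polar_smul_right, hef] at h1
    simpa using h1
  have hlam0 : lam ≠ 0 := left_ne_zero_of_mul_eq_one hlm
  have hmu0 : mu ≠ 0 := right_ne_zero_of_mul_eq_one hlm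
  have hfe : polar Q f e = 1 := by rw [polar_comm]; exact hef
  have key : ∀ h, polar Q e h = 0 → polar Q f h = 0 →
      act ⇑Q g h = lam • h ∧ Q h * (mu - lam) = 0 := by
    intro h heh hfh
    have hz : Q (e + (-Q h) • f + h) = 0 := by
      rw [qf_add, qf_add, qf_smul, he, hf, polar_smul_right, hef, polar_add_left,
        polar_smul_left, heh, hfh]
      simp
    obtain ⟨nu, hnu⟩ := Submodule.mem_span_singleton.1 (hfix _ hz)
    rw [act_add, act_add, act_smul, ← hlam, ← hmu] at hnu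
    have hgh : act ⇑Q g h = (nu - lam) • e + (Q h * (mu - nu)) • f + nu • h := by
      have e1 : act ⇑Q g h = nu • (e + (-Q h) • f + h) - lam • e - (-Q h) • mu • f := by
        rw [hnu]
        abel
      rw [e1]
      funext i
      simp only [Pi.add_apply, Pi.sub_apply, Pi.smul_apply, smul_eq_mul]
      ring
    have h1 : polar Q (act ⇑Q g f) (act ⇑Q g h) = 0 := (act_polar ⇑Q g f h).trans hfh
    have h2 : polar Q (act ⇑Q g e) (act ⇑Q g h) = 0 := (act_polar ⇑Q g e h).trans heh
    rw [← hmu, hgh, polar_smul_left, polar_add_right, polar_add_right, polar_smul_right,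
      polar_smul_right, polar_smul_right, hfe, qf_polar_self, hf, hfh] at h1
    rw [← hlam, hgh, polar_smul_left, polar_add_right, polar_add_right, polar_smul_right,
      polar_smul_right, polar_smul_right, hef, qf_polar_self, he, heh] at h2
    simp only [smul_eq_mul, mul_zero, mul_one, add_zero, zero_add] at h1 h2
    have hnl : nu = lam := by
      rcases mul_eq_zero.1 h1 with h | h
      · exact absurd h hmu0
      · exact sub_eq_zero.1 h
    have hq : Q h * (mu - nu) = 0 := by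
      rcases mul_eq_zero.1 h2 with h | h
      · exact absurd h hlam0
      · exact h
    rw [hnl] at hq hgh
    refine ⟨?_, hq⟩
    rw [hgh, hq, sub_self]
    simp
  obtain ⟨h₀, hh₀, heh₀, hfh₀⟩ := exists_nonsing_orth_two hn Q hQ e f
  have hml : mu = lam := by
    rcases mul_eq_zero.1 (key h₀ heh₀ hfh₀).2 with h | h
    · exact absurd h hh₀
    · exact sub_eq_zero.1 h
  have hscal : ∀ x, act ⇑Q g x = lam • x := by
    intro x
    obtain ⟨h, hh⟩ : ∃ h, h = x - polar Q f x • e - polar Q e x • f := ⟨_, rfl⟩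
    have heh : polar Q e h = 0 := by
      rw [hh, polar_sub_right, polar_sub_right, polar_smul_right, polar_smul_right,
        qf_polar_self, he, hef]
      simp
    have hfh : polar Q f h = 0 := by
      rw [hh, polar_sub_right, polar_sub_right, polar_smul_right, polar_smul_right,
        qf_polar_self, hf, hfe]
      simp
    have hx : x = polar Q f x • e + polar Q e x • f + h := by
      rw [hh]
      abel
    have k := (key h heh hfh).1
    calc act ⇑Q g x = act ⇑Q g (polar Q f x • e + polar Q e x • f + h) := by rw [← hx]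
      _ = polar Q f x • lam • e + polar Q e x • lam • f + lam • h := by
          rw [act_add, act_add, act_smul, act_smul, k, ← hlam, ← hmu, hml]
      _ = lam • (polar Q f x • e + polar Q e x • f + h) := by
          rw [smul_add, smul_add, smul_comm lam, smul_comm lam]
      _ = lam • x := by rw [← hx]
  apply act_ext
  intro x
  rw [act_mul, act_mul, hscal, hscal, act_smul]

/-- simplicity of `PΩ` from generation by long root elements -/
theorem POmega_simple (hn : 5 ≤ Fintype.card ι) (Q : QuadraticForm F (ι → F))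
    (hQ : (polarBilin Q).Nondegenerate)
    (hgen : Omega F ⇑Q = Subgroup.closure (siegelSet Q)) :
    IsSimpleGroup (POmega F ⇑Q) := by
  haveI := singPt_preprimitive hn Q hQ
  have hperf := Omega_perfect hn Q hQ hgen
  have key : ∀ N : Subgroup ↥(Omega F ⇑Q), N.Normal →
      N ≤ Subgroup.center ↥(Omega F ⇑Q) ∨ N = ⊤ := by
    intro N hN
    by_cases hfix : MulAction.fixedPoints N (SingPt Q) = Set.univ
    · left
      intro n hnN
      rw [Subgroup.mem_center_iff]
      intro h
      apply Subtype.ext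
      rw [Subgroup.coe_mul, Subgroup.coe_mul]
      refine (central_of_fix hn Q hQ n.1 ?_ h.1).symm
      intro u hu
      by_cases hu0 : u = 0
      · rw [hu0, act_zero]
        exact Submodule.zero_mem _
      · have hP : mkPt Q u hu0 hu ∈ MulAction.fixedPoints N (SingPt Q) := by
          rw [hfix]
          exact Set.mem_univ _
        have h1 : (⟨n, hnN⟩ : ↥N) • mkPt Q u hu0 hu = mkPt Q u hu0 hu := hP ⟨n, hnN⟩
        have h2 : n • mkPt Q u hu0 hu = mkPt Q u hu0 hu := h1
        rw [smul_mkPt] at h2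
        obtain ⟨c, hc⟩ := mem_of_mkPt_eq Q _ _ _ _ hu0 hu h2
        rw [hc]
        exact Submodule.smul_mem _ _ (Submodule.mem_span_singleton_self u)
    · right
      exact top_le_iff.1 (hperf ▸ (iwasawa Q hgen).commutator_le N hfix)
  have hnt : Subgroup.center ↥(Omega F ⇑Q) ≠ ⊤ := by
    intro htop
    have hbot : commutator ↥(Omega F ⇑Q) = ⊥ := (commutator_eq_bot_iff_center_eq_top _).2 htop
    rw [hperf] at hbot
    obtain ⟨e, he0, he⟩ := exists_singular Q hQ (by
      rw [Module.finrank_fintype_fun_eq_card]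
      omega)
    obtain ⟨f, hf, hef⟩ := exists_hyp_partner Q hQ e he0 he
    have hf0 : f ≠ 0 := by
      rintro rfl
      rw [qf_polar_zero_right] at hef
      exact zero_ne_one hef
    obtain ⟨g, hg⟩ := MulAction.exists_smul_eq ↥(Omega F ⇑Q) (mkPt Q f hf0 hf) (mkPt Q e he0 he)
    have hg1 : g = 1 := by
      have hmem : g ∈ (⊤ : Subgroup ↥(Omega F ⇑Q)) := Subgroup.mem_top g
      rw [hbot] at hmem
      exact Subgroup.mem_bot.1 hmem
    rw [hg1, one_smul] at hg
    obtain ⟨c, hc⟩ := mem_of_mkPt_eq Q _ _ _ _ he0 he hg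
    rw [hc, polar_smul_right, qf_polar_self, he] at hef
    simp at hef
  haveI : Nontrivial (POmega F ⇑Q) := QuotientGroup.nontrivial_iff.2 hnt
  constructor
  intro N hN
  have hN' : (N.comap (QuotientGroup.mk' (Subgroup.center ↥(Omega F ⇑Q)))).Normal :=
    hN.comap _
  rcases key _ hN' with h | h
  · left
    rw [eq_bot_iff]
    intro x hx
    obtain ⟨y, rfl⟩ := QuotientGroup.mk'_surjective (Subgroup.center ↥(Omega F ⇑Q)) x
    have hy : y ∈ N.comap (QuotientGroup.mk' (Subgroup.center ↥(Omega F ⇑Q))) := hx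
    exact Subgroup.mem_bot.2 ((QuotientGroup.eq_one_iff y).2 (h hy))
  · right
    rw [eq_top_iff]
    intro x _
    obtain ⟨y, rfl⟩ := QuotientGroup.mk'_surjective (Subgroup.center ↥(Omega F ⇑Q)) x
    have hy : y ∈ N.comap (QuotientGroup.mk' (Subgroup.center ↥(Omega F ⇑Q))) := by
      rw [h]
      exact Subgroup.mem_top y
    exact hy

end SimpleMain

end Cfsg.Agent.Helper16
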