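import Cfsg.Agent.Helper16.PlusDec2
import Cfsg.Agent.Helper16.Simple

set_option autoImplicit false
open Cfsg

namespace Cfsg.Agent.Helper16

open QuadraticMap Module

section PlusDec4
variable {ι : Type} [Fintype ι] [DecidableEq ι] {F : Type*} [Field F]

/-- a Siegel element preserves the dual lattice of a set of vectors with idempotent polar
values -/
theorem sieg_pres_dual (h2 : (2 : F) = 0) (Q : QuadraticForm F (ι → F)) (N : Set (ι → F))
    (u s : ι → F) (hu : Q u = 0) (hus : polar Q u s = 0) (hQs : Q s = 1)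
    (huN : ∀ n ∈ N, polar Q u n * polar Q u n = polar Q u n)
    (hsN : ∀ n ∈ N, polar Q s n * polar Q s n = polar Q s n)
    (v : ι → F) (hv : ∀ n ∈ N, polar Q v n * polar Q v n = polar Q v n)
    (hvu : polar Q u v * polar Q u v = polar Q u v)
    (hvs : polar Q s v * polar Q s v = polar Q s v) (n : ι → F) (hn : n ∈ N) :
    polar Q (act ⇑Q (sieg Q u s hu hus) v) n * polar Q (act ⇑Q (sieg Q u s hu hus) v) n =
      polar Q (act ⇑Q (sieg Q u s hu hus) v) n := by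
  have Padd : ∀ a b : F, a * a = a → b * b = b → (a + b) * (a + b) = a + b := by
    intro a b ha hb
    linear_combination ha + hb + (a * b) * h2
  have Psub : ∀ a b : F, a * a = a → b * b = b → (a - b) * (a - b) = a - b := by
    intro a b ha hb
    linear_combination ha + hb + (b - a * b) * h2
  have Pmul : ∀ a b : F, a * a = a → b * b = b → (a * b) * (a * b) = a * b := by
    intro a b ha hb
    linear_combination (b * b) * ha + a * hb
  rw [act_sieg, polar_sub_left, polar_sub_left, polar_add_left, polar_smul_left,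
    polar_smul_left, polar_smul_left, hQs, one_mul]
  simp only [smul_eq_mul]
  exact Psub _ _ (Psub _ _ (Padd _ _ (hv n hn) (Pmul _ _ hvs (huN n hn)))
    (Pmul _ _ hvu (hsN n hn))) (Pmul _ _ hvu (huN n hn))

/-- hyperbolic plane decompositions over the field with four elements: the core argument -/
theorem plus_q4_k2_core [Fintype F] (hq : Fintype.card F = 4) (hι : 5 ≤ Fintype.card ι)
    (Q : QuadraticForm F (ι → F)) (hQ : (polarBilin Q).Nondegenerate) {t : ℕ}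
    (D : Fin t → Submodule F (ι → F))
    (horth : ∀ i j, i ≠ j → ∀ u ∈ D i, ∀ v ∈ D j, polar Q u v = 0)
    (hP : ∀ i, ∀ u ∈ D i, ∀ u' ∈ D i, Q u = 1 → Q u' = 1 →
      polar Q u u' * polar Q u u' = polar Q u u')
    (i₁ i₂ i₃ : Fin t) (h12 : i₁ ≠ i₂) (h13 : i₁ ≠ i₃) (h23 : i₂ ≠ i₃)
    (e₁ f₁ e₂ f₂ e₃ f₃ : ι → F) (he₁ : e₁ ∈ D i₁) (hf₁ : f₁ ∈ D i₁) (he₂ : e₂ ∈ D i₂)
    (hf₂ : f₂ ∈ D i₂) (he₃ : e₃ ∈ D i₃) (hf₃ : f₃ ∈ D i₃)
    (hQe₁ : Q e₁ = 0) (hQf₁ : Q f₁ = 0) (hef₁ : polar Q e₁ f₁ = 1)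
    (hQe₂ : Q e₂ = 0) (hQf₂ : Q f₂ = 0) (hef₂ : polar Q e₂ f₂ = 1)
    (hQe₃ : Q e₃ = 0) (hQf₃ : Q f₃ = 0) (hef₃ : polar Q e₃ f₃ = 1) :
    ∃ K : Subgroup (GL ι F), Geo.decompositionStabilizer D ⊓ Geo.omegaGL ⇑Q < K ∧
      K < Geo.omegaGL ⇑Q := by
  have h2 : (2 : F) = 0 := by
    have h4 := Nat.cast_card_eq_zero F
    rw [hq] at h4
    have h4' : (2 : F) * 2 = 0 := by
      have : ((4 : ℕ) : F) = 2 * 2 := by norm_num
      rw [← this]
      exact h4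
    exact mul_self_eq_zero.1 h4'
  obtain ⟨ω, hω0, hω1⟩ : ∃ ω : F, ω ≠ 0 ∧ ω ≠ 1 := by
    classical
    by_contra hcon
    push Not at hcon
    have hsub : (Finset.univ : Finset F) ⊆ {0, 1} := by
      intro x _
      by_cases hx : x = 0
      · simp [hx]
      · simp [hcon x hx]
    have h1 := Finset.card_le_card hsub
    rw [Finset.card_univ, hq] at h1
    have h3 : ({0, 1} : Finset F).card ≤ 2 := Finset.card_le_two
    omega
  have hQs₁ : Q (e₁ + f₁) = 1 := by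
    rw [qf_add, hQe₁, hQf₁, hef₁]
    ring
  have hQs₂ : Q (e₂ + f₂) = 1 := by
    rw [qf_add, hQe₂, hQf₂, hef₂]
    ring
  have hQs₃ : Q (e₃ + f₃) = 1 := by
    rw [qf_add, hQe₃, hQf₃, hef₃]
    ring
  have hs₁ : e₁ + f₁ ∈ D i₁ := (D i₁).add_mem he₁ hf₁
  have hs₂ : e₂ + f₂ ∈ D i₂ := (D i₂).add_mem he₂ hf₂
  have hs₃ : e₃ + f₃ ∈ D i₃ := (D i₃).add_mem he₃ hf₃
  have hN₁ : e₁ + f₁ ∈ normSet Q D 1 := ⟨i₁, hs₁, hQs₁⟩
  have hN₂ : e₂ + f₂ ∈ normSet Q D 1 := ⟨i₂, hs₂, hQs₂⟩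
  have hN₃ : e₃ + f₃ ∈ normSet Q D 1 := ⟨i₃, hs₃, hQs₃⟩
  have hu : Q (e₁ + f₁ + (e₂ + f₂)) = 0 := by
    rw [qf_add, hQs₁, hQs₂, horth _ _ h12 _ hs₁ _ hs₂]
    linear_combination h2
  have hus : polar Q (e₁ + f₁ + (e₂ + f₂)) (e₃ + f₃) = 0 := by
    rw [polar_add_left, horth _ _ h13 _ hs₁ _ hs₃, horth _ _ h23 _ hs₂ _ hs₃, add_zero]
  have Padd : ∀ a b : F, a * a = a → b * b = b → (a + b) * (a + b) = a + b := by
    intro a b ha hb
    linear_combination ha + hb + (a * b) * h2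
  have hNN : ∀ u ∈ normSet Q D 1, ∀ u' ∈ normSet Q D 1,
      polar Q u u' * polar Q u u' = polar Q u u' := by
    rintro u ⟨l, hul, hQu⟩ u' ⟨l', hul', hQu'⟩
    by_cases h : l = l'
    · subst h
      exact hP l u hul u' hul' hQu hQu'
    · rw [horth _ _ h _ hul _ hul', mul_zero]
  have c1 : polar Q e₂ e₁ = 0 := horth _ _ (Ne.symm h12) _ he₂ _ he₁
  have c3 : polar Q e₂ f₁ = 0 := horth _ _ (Ne.symm h12) _ he₂ _ hf₁
  have hg' : polar Q e₁ (ω • e₂) = 0 := by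
    rw [polar_smul_right, horth _ _ h12 _ he₁ _ he₂, smul_zero]
  have a3 : act ⇑Q (sieg Q e₁ (ω • e₂) hQe₁ hg') (e₁ + f₁) = e₁ + f₁ - ω • e₂ := by
    rw [act_sieg]
    simp only [polar_smul_left, polar_add_right, qf_polar_self, qf_smul, hQe₁, hQe₂, hef₁, c1,
      c3, smul_eq_mul]
    simp
  have val : polar Q (e₁ + f₁ - ω • e₂) (e₂ + f₂) = -ω := by
    rw [polar_sub_left, horth _ _ h12 _ hs₁ _ hs₂, polar_smul_left, polar_add_right,
      qf_polar_self, hQe₂, hef₂]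
    simp
  apply set_not_max Q D
    {v | ∀ n ∈ normSet Q D 1, polar Q v n * polar Q v n = polar Q v n} ?_
    (sieg Q (e₁ + f₁ + (e₂ + f₂)) (e₃ + f₃) hu hus) (sieg_mem_Omega hι Q hQ _ _ hu hus) ?_
    (sieg_not_stab h2 Q D horth i₁ i₂ i₃ h12 h13 h23 e₁ f₁ e₂ f₂ (e₃ + f₃) he₁ hf₁ he₂ hf₂ hs₃
      hQe₁ hQf₁ hef₁ hQe₂ hQf₂ hef₂ hQs₃ hu hus)
    (sieg Q e₁ (ω • e₂) hQe₁ hg') (sieg_mem_Omega hι Q hQ _ _ _ _) (e₁ + f₁)
    (fun n hn => hNN _ hN₁ n hn) ?_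
  · intro h hh v hv n hn
    have hinv : ((h⁻¹ : ↥(isometryGroup F ⇑Q)) : GL ι F) ∈ Geo.decompositionStabilizer D := by
      rw [Subgroup.coe_inv]
      exact Subgroup.inv_mem _ hh
    have hn' := stab_maps_normSet Q D 1 h⁻¹ hinv n hn
    have e : polar Q (act ⇑Q h v) n = polar Q v (act ⇑Q h⁻¹ n) := by
      rw [← act_polar ⇑Q h v (act ⇑Q h⁻¹ n), act_act_inv]
    rw [e]
    exact hv _ hn'
  · intro v hv n hn
    apply sieg_pres_dual h2 Q (normSet Q D 1) _ _ hu hus hQs₃ _ _ v hv _ _ n hn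
    · intro m hm
      rw [polar_add_left]
      exact Padd _ _ (hNN _ hN₁ m hm) (hNN _ hN₂ m hm)
    · intro m hm
      exact hNN _ hN₃ m hm
    · rw [polar_add_left, polar_comm Q _ v, polar_comm Q _ v]
      exact Padd _ _ (hv _ hN₁) (hv _ hN₂)
    · rw [polar_comm Q _ v]
      exact hv _ hN₃
  · intro hmem
    have := hmem (e₂ + f₂) hN₂
    rw [a3, val] at this
    have h0 : ω * (ω + 1) = 0 := by linear_combination this
    rcases mul_eq_zero.1 h0 with h | h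
    · exact hω0 h
    · exact hω1 (by linear_combination h - h2)

/-- a hyperbolic pair in a hyperbolic plane over the field with four elements; the polar form
has idempotent values on vectors of norm one -/
theorem exists_hyp_pair4 [Fintype F] (hq : Fintype.card F = 4) (Q : QuadraticForm F (ι → F))
    (W : Submodule F (ι → F)) (hW : finrank F W = 2)
    (hnd : Geo.IsNondegenerateOn (polar ⇑Q) W) (hplus : Geo.IsPlusTypeOn ⇑Q W) :
    ∃ e f : ι → F, e ∈ W ∧ f ∈ W ∧ Q e = 0 ∧ Q f = 0 ∧ polar Q e f = 1 ∧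
      ∀ u ∈ W, ∀ u' ∈ W, Q u = 1 → Q u' = 1 → polar Q u u' * polar Q u u' = polar Q u u' := by
  obtain ⟨e, f, hmem, ⟨h1, h2', h3⟩, hsp⟩ := exists_hyp_basis_sub Q W 1 le_rfl hW hnd hplus
  have hQe : Q (e 0) = 0 := (h1 0).1
  have hQf : Q (f 0) = 0 := (h1 0).2
  have hef : polar Q (e 0) (f 0) = 1 := by simpa using h2' 0 0
  have hfe : polar Q (f 0) (e 0) = 1 := by rw [polar_comm]; exact hef
  have h2 : (2 : F) = 0 := by
    have h4 := Nat.cast_card_eq_zero F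
    rw [hq] at h4
    have h4' : (2 : F) * 2 = 0 := by
      have : ((4 : ℕ) : F) = 2 * 2 := by norm_num
      rw [← this]
      exact h4
    exact mul_self_eq_zero.1 h4'
  refine ⟨e 0, f 0, (hmem 0).1, (hmem 0).2, hQe, hQf, hef, ?_⟩
  intro u hu u' hu' hQu hQu'
  obtain ⟨x, y, rfl⟩ := hsp u hu
  obtain ⟨x', y', rfl⟩ := hsp u' hu'
  simp only [Fin.sum_univ_one] at hQu hQu' ⊢
  rw [qf_lin2, hQe, hQf, hef] at hQu hQu'
  have hxy : x 0 * y 0 = 1 := by linear_combination hQu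
  have hxy' : x' 0 * y' 0 = 1 := by linear_combination hQu'
  have hval : polar Q (x 0 • e 0 + y 0 • f 0) (x' 0 • e 0 + y' 0 • f 0) =
      x 0 * y' 0 + y 0 * x' 0 := by
    simp only [polar_add_left, polar_add_right, polar_smul_left, polar_smul_right, qf_polar_self,
      hQe, hQf, hef, hfe, smul_eq_mul]
    ring
  rw [hval]
  have hzw : (x 0 * y' 0) * (y 0 * x' 0) = 1 := by
    linear_combination (x' 0 * y' 0) * hxy + hxy'
  have hz0 : x 0 * y' 0 ≠ 0 := by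
    intro h
    rw [h, zero_mul] at hzw
    exact zero_ne_one hzw
  have hw0 : y 0 * x' 0 ≠ 0 := by
    intro h
    rw [h, mul_zero] at hzw
    exact zero_ne_one hzw
  have hz3 : (x 0 * y' 0) ^ 3 = 1 := by
    have := FiniteField.pow_card_sub_one_eq_one _ hz0
    rw [hq] at this
    exact this
  have hw3 : (y 0 * x' 0) ^ 3 = 1 := by
    have := FiniteField.pow_card_sub_one_eq_one _ hw0
    rw [hq] at this
    exact this
  generalize x 0 * y' 0 = z at hzw hz3 ⊢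
  generalize y 0 * x' 0 = w at hzw hw3 ⊢
  have hz2 : z * z = w := by linear_combination (-(z * z)) * hzw + w * hz3
  have hw2 : w * w = z := by linear_combination (-(w * w)) * hzw + z * hw3
  linear_combination hz2 + hw2 + (z * w) * h2

/-- hyperbolic plane decompositions over the field with four elements -/
theorem plus_q4_k2_not_max [Fintype F] (hq : Fintype.card F = 4) (Q : QuadraticForm F (ι → F))
    (hQ : (polarBilin Q).Nondegenerate) {t : ℕ} (hn : 13 ≤ Fintype.card ι)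
    (D : Fin t → Submodule F (ι → F)) (hD : Geo.IsOrthogonalMDecomposition ⇑Q 2 D)
    (hp : ∀ i, Geo.IsPlusTypeOn ⇑Q (D i)) :
    ∃ K : Subgroup (GL ι F), Geo.decompositionStabilizer D ⊓ Geo.omegaGL ⇑Q < K ∧
      K < Geo.omegaGL ⇑Q := by
  have ht : 7 ≤ t := by
    have := decomp_card_le ⇑Q D hD
    omega
  have horth : ∀ i j, i ≠ j → ∀ u ∈ D i, ∀ v ∈ D j, polar Q u v = 0 :=
    fun i j hij u hu v hv => hD.decomp.orthogonal i j hij u hu v hv
  have hfr : ∀ i, ∃ e f : ι → F, e ∈ D i ∧ f ∈ D i ∧ Q e = 0 ∧ Q f = 0 ∧ polar Q e f = 1 ∧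
      ∀ u ∈ D i, ∀ u' ∈ D i, Q u = 1 → Q u' = 1 →
        polar Q u u' * polar Q u u' = polar Q u u' := fun i =>
    exists_hyp_pair4 hq Q (D i) (hD.decomp.decomp.finrank_eq i) (hD.decomp.nondegenerate i) (hp i)
  have hP : ∀ i, ∀ u ∈ D i, ∀ u' ∈ D i, Q u = 1 → Q u' = 1 →
      polar Q u u' * polar Q u u' = polar Q u u' := by
    intro i
    obtain ⟨_, _, _, _, _, _, _, h⟩ := hfr i
    exact h
  obtain ⟨e₁, f₁, he₁, hf₁, hQe₁, hQf₁, hef₁, -⟩ := hfr ⟨0, by omega⟩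
  obtain ⟨e₂, f₂, he₂, hf₂, hQe₂, hQf₂, hef₂, -⟩ := hfr ⟨1, by omega⟩
  obtain ⟨e₃, f₃, he₃, hf₃, hQe₃, hQf₃, hef₃, -⟩ := hfr ⟨2, by omega⟩
  exact plus_q4_k2_core hq (by omega) Q hQ D horth hP ⟨0, by omega⟩ ⟨1, by omega⟩ ⟨2, by omega⟩
    (by simp [Fin.ext_iff]) (by simp [Fin.ext_iff]) (by simp [Fin.ext_iff])
    e₁ f₁ e₂ f₂ e₃ f₃ he₁ hf₁ he₂ hf₂ he₃ hf₃ hQe₁ hQf₁ hef₁ hQe₂ hQf₂ hef₂ hQe₃ hQf₃ hef₃

end PlusDec4

end Cfsg.Agent.Helper16
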