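import Cfsg.Agent.Helper16.PlusDecA

set_option autoImplicit false
open Cfsg

namespace Cfsg.Agent.Helper16

open QuadraticMap Module

section PlusDec5
variable {ι : Type} [Fintype ι] [DecidableEq ι] {F : Type*} [Field F]

/-- the number of blocks times their dimension is the dimension of the space -/
theorem decomp_card_le {t k : ℕ} (Q : (ι → F) → F) (D : Fin t → Submodule F (ι → F))
    (hD : Geo.IsOrthogonalMDecomposition Q k D) : Fintype.card ι ≤ t * k := by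
  have h1 := finrank_biSup_le D k (fun i => (hD.decomp.decomp.finrank_eq i).le) Finset.univ
  have h2 : (⨆ i ∈ (Finset.univ : Finset (Fin t)), D i) = ⊤ := by
    rw [← hD.decomp.decomp.iSup_eq_top]
    simp
  rw [h2, finrank_top, Module.finrank_fintype_fun_eq_card, Finset.card_univ,
    Fintype.card_fin] at h1
  exact h1

/-- the stabiliser in `Ω` of an orthogonal decomposition whose blocks carry distinguished frame
vectors is not maximal, in characteristic different from two and three -/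
theorem frame_not_max' [Fintype F] (h2 : (2 : F) ≠ 0) (h3 : (3 : F) ≠ 0)
    (Q : QuadraticForm F (ι → F))
    (hQ : (polarBilin Q).Nondegenerate) {t : ℕ} (D : Fin t → Submodule F (ι → F))
    (horth : ∀ i j, i ≠ j → ∀ u ∈ D i, ∀ v ∈ D j, polar Q u v = 0) (c : F) (hc : c ≠ 0)
    (i₀ i₁ i₂ i₃ : Fin t) (h01 : i₀ ≠ i₁) (h02 : i₀ ≠ i₂) (h03 : i₀ ≠ i₃) (h12 : i₁ ≠ i₂)
    (h13 : i₁ ≠ i₃) (h23 : i₂ ≠ i₃) (a₀ a₁ a₂ a₃ : ι → F)
    (ha₀ : a₀ ∈ D i₀) (ha₁ : a₁ ∈ D i₁) (ha₂ : a₂ ∈ D i₂) (ha₃ : a₃ ∈ D i₃)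
    (hQ₀ : Q a₀ = c) (hQ₁ : Q a₁ = c) (hQ₂ : Q a₂ = c) (hQ₃ : Q a₃ = c)
    (hH₀ : ∀ v ∈ D i₀, Q v = c → v = a₀ ∨ v = -a₀ ∨ polar Q a₀ v = 0)
    (hH₁ : ∀ v ∈ D i₁, Q v = c → v = a₁ ∨ v = -a₁ ∨ polar Q a₁ v = 0)
    (hH₂ : ∀ v ∈ D i₂, Q v = c → v = a₂ ∨ v = -a₂ ∨ polar Q a₂ v = 0)
    (hH₃ : ∀ v ∈ D i₃, Q v = c → v = a₃ ∨ v = -a₃ ∨ polar Q a₃ v = 0)
    (w : ι → F) (hw : w ∈ D i₀) (hwa : polar Q a₀ w = 0) (hQw : Q w ≠ 0) :
    ∃ K : Subgroup (GL ι F), Geo.decompositionStabilizer D ⊓ Geo.omegaGL ⇑Q < K ∧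
      K < Geo.omegaGL ⇑Q := by
  have h2c : (2 : F) * c ≠ 0 := mul_ne_zero h2 hc
  have h3c : (3 : F) * c ≠ 0 := mul_ne_zero h3 hc
  have hI : (3 * c) * (3 * c)⁻¹ = 1 := mul_inv_cancel₀ h3c
  have p01 : polar Q a₀ a₁ = 0 := horth _ _ h01 _ ha₀ _ ha₁
  have p02 : polar Q a₀ a₂ = 0 := horth _ _ h02 _ ha₀ _ ha₂
  have p03 : polar Q a₀ a₃ = 0 := horth _ _ h03 _ ha₀ _ ha₃
  have p12 : polar Q a₁ a₂ = 0 := horth _ _ h12 _ ha₁ _ ha₂
  have p13 : polar Q a₁ a₃ = 0 := horth _ _ h13 _ ha₁ _ ha₃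
  have p23 : polar Q a₂ a₃ = 0 := horth _ _ h23 _ ha₂ _ ha₃
  have pw1 : polar Q a₁ w = 0 := horth _ _ (Ne.symm h01) _ ha₁ _ hw
  have pw2 : polar Q a₂ w = 0 := horth _ _ (Ne.symm h02) _ ha₂ _ hw
  have pw3 : polar Q a₃ w = 0 := horth _ _ (Ne.symm h03) _ ha₃ _ hw
  have hQ01 : Q (a₀ - a₁) = 2 * c := by
    rw [sub_eq_add_neg, qf_add, QuadraticMap.map_neg, hQ₀, hQ₁, polar_neg_right, p01]
    ring
  have hQ23 : Q (a₂ - a₃) = 2 * c := by
    rw [sub_eq_add_neg, qf_add, QuadraticMap.map_neg, hQ₂, hQ₃, polar_neg_right, p23]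
    ring
  have hne01 : Q (a₀ - a₁) ≠ 0 := by rw [hQ01]; exact h2c
  have hne23 : Q (a₂ - a₃) ≠ 0 := by rw [hQ23]; exact h2c
  have hQz : Q (a₀ + a₁ + a₂) = 3 * c := by
    rw [qf_add, qf_add, polar_add_left, hQ₀, hQ₁, hQ₂, p01, p02, p12]
    ring
  have hQy : Q (a₁ + a₂ + a₃) = 3 * c := by
    rw [qf_add, qf_add, polar_add_left, hQ₁, hQ₂, hQ₃, p12, p13, p23]
    ring
  have hz0 : Q (a₀ + a₁ + a₂) ≠ 0 := by rw [hQz]; exact h3c
  have hy0 : Q (a₁ + a₂ + a₃) ≠ 0 := by rw [hQy]; exact h3c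
  apply set_not_max Q D (normSet Q D c) (fun h hh v hv => stab_maps_normSet Q D c h hh v hv)
    (reflElt Q (a₀ - a₁) * reflElt Q (a₂ - a₃))
    (refl_pair_mem_Omega Q hQ _ _ hne01 (by rw [hQ23, hQ01])) ?_ ?_
    (reflElt Q (a₀ + a₁ + a₂) * reflElt Q (a₁ + a₂ + a₃))
    (refl_pair_mem_Omega Q hQ _ _ hz0 (by rw [hQy, hQz])) a₀ ⟨i₀, ha₀, hQ₀⟩ ?_
  · intro v hv
    rw [act_mul, act_refl Q (a₂ - a₃) hne23, act_refl Q (a₀ - a₁) hne01]
    exact swap_refl_maps h2 Q D horth c hc i₀ i₁ h01 a₀ a₁ ha₀ ha₁ hQ₀ hQ₁ hH₀ hH₁ _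
      (swap_refl_maps h2 Q D horth c hc i₂ i₃ h23 a₂ a₃ ha₂ ha₃ hQ₂ hQ₃ hH₂ hH₃ v hv)
  · rintro ⟨σ, hσ⟩
    have hga : act ⇑Q (reflElt Q (a₀ - a₁) * reflElt Q (a₂ - a₃)) a₀ = a₁ := by
      rw [act_mul, act_refl Q (a₂ - a₃) hne23, qrefl_of_orth Q _ _ (by
        rw [polar_sub_left, polar_comm Q a₂ a₀, polar_comm Q a₃ a₀, p02, p03, sub_zero]),
        act_refl Q (a₀ - a₁) hne01, qrefl_apply, hQ01, polar_sub_left, qf_polar_self, hQ₀,
        polar_comm Q a₁ a₀, p01]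
      have : (2 * c)⁻¹ * (2 * c - 0) = 1 := by
        rw [sub_zero, inv_mul_cancel₀ h2c]
      rw [this, one_smul]
      abel
    have hgw : act ⇑Q (reflElt Q (a₀ - a₁) * reflElt Q (a₂ - a₃)) w = w := by
      rw [act_mul, act_refl Q (a₂ - a₃) hne23, qrefl_of_orth Q _ _ (by
        rw [polar_sub_left, pw2, pw3, sub_zero]),
        act_refl Q (a₀ - a₁) hne01, qrefl_of_orth Q _ _ (by
        rw [polar_sub_left, hwa, pw1, sub_zero])]
    have hs1 : σ i₀ = i₁ := stab_perm_eq Q D horth _ σ hσ i₀ i₁ a₀ ha₀ a₁ ha₁ (by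
      rw [hga, qf_polar_self, hQ₁]
      exact h2c)
    have hs0 : σ i₀ = i₀ := stab_perm_eq Q D horth _ σ hσ i₀ i₀ w hw w hw (by
      rw [hgw, qf_polar_self]
      exact mul_ne_zero h2 hQw)
    exact h01 (hs0.symm.trans hs1)
  · rintro ⟨j, hj, -⟩
    have hga : act ⇑Q (reflElt Q (a₀ + a₁ + a₂) * reflElt Q (a₁ + a₂ + a₃)) a₀ =
        a₀ - ((3 * c)⁻¹ * (2 * c)) • (a₀ + a₁ + a₂) := by
      have hp : polar Q (a₀ + a₁ + a₂) a₀ = 2 * c := by
        rw [polar_add_left, polar_add_left, qf_polar_self, hQ₀, polar_comm Q a₁ a₀,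
          polar_comm Q a₂ a₀, p01, p02]
        ring
      rw [act_mul, act_refl Q _ hy0, qrefl_of_orth Q _ _ (by
        rw [polar_add_left, polar_add_left, polar_comm Q a₁ a₀, polar_comm Q a₂ a₀,
          polar_comm Q a₃ a₀, p01, p02, p03]
        simp), act_refl Q _ hz0, qrefl_apply, hQz, hp]
    rw [hga] at hj
    have hj0 : j = i₀ := by
      by_contra hne
      have := horth _ _ hne _ hj a₀ ha₀
      rw [polar_sub_left, polar_smul_left, polar_add_left, polar_add_left, qf_polar_self, hQ₀,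
        polar_comm Q a₁ a₀, polar_comm Q a₂ a₀, p01, p02, smul_eq_mul] at this
      have e : (2 : F) * c * c = 0 := by
        linear_combination (3 * c) * this + (4 * c * c) * hI
      exact mul_ne_zero h2c hc e
    have hj1 : j = i₁ := by
      by_contra hne
      have := horth _ _ hne _ hj a₁ ha₁
      rw [polar_sub_left, polar_smul_left, polar_add_left, polar_add_left, qf_polar_self, hQ₁,
        polar_comm Q a₂ a₁, p01, p12, smul_eq_mul] at this
      have e : (2 : F) * 2 * c * c = 0 := by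
        linear_combination (-(3 * c)) * this - (4 * c * c) * hI
      exact mul_ne_zero (mul_ne_zero (mul_ne_zero h2 h2) hc) hc e
    exact h01 (hj0.symm.trans hj1)

/-- a distinguished frame vector in a hyperbolic plane over the field with five elements -/
theorem exists_frame_vec5 [Fintype F] (hq : Fintype.card F = 5) (Q : QuadraticForm F (ι → F))
    (W : Submodule F (ι → F)) (hW : finrank F W = 2)
    (hnd : Geo.IsNondegenerateOn (polar ⇑Q) W) (hplus : Geo.IsPlusTypeOn ⇑Q W) :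
    ∃ a w : ι → F, a ∈ W ∧ w ∈ W ∧ Q a = 1 ∧ polar Q a w = 0 ∧ Q w ≠ 0 ∧
      ∀ v ∈ W, Q v = 1 → v = a ∨ v = -a ∨ polar Q a v = 0 := by
  obtain ⟨e, f, hmem, ⟨h1, h2, h3⟩, hsp⟩ := exists_hyp_basis_sub Q W 1 le_rfl hW hnd hplus
  have hQe : Q (e 0) = 0 := (h1 0).1
  have hQf : Q (f 0) = 0 := (h1 0).2
  have hef : polar Q (e 0) (f 0) = 1 := by simpa using h2 0 0
  have hfe : polar Q (f 0) (e 0) = 1 := by rw [polar_comm]; exact hef
  refine ⟨e 0 + f 0, e 0 - f 0, W.add_mem (hmem 0).1 (hmem 0).2,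
    W.sub_mem (hmem 0).1 (hmem 0).2, ?_, ?_, ?_, ?_⟩
  · rw [qf_add, hQe, hQf, hef]
    ring
  · simp only [polar_add_left, polar_sub_right, qf_polar_self, hQe, hQf, hef, hfe]
    ring
  · rw [sub_eq_add_neg, qf_add, QuadraticMap.map_neg, hQe, hQf, polar_neg_right, hef]
    simp
  · intro v hv hQv
    obtain ⟨x, y, rfl⟩ := hsp v hv
    simp only [Fin.sum_univ_one] at hQv ⊢
    rw [qf_lin2, hQe, hQf, hef] at hQv
    have hxy : x 0 * y 0 = 1 := by linear_combination hQv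
    generalize x 0 = a at hxy ⊢
    generalize y 0 = b at hxy ⊢
    have ha0 : a ≠ 0 := by
      rintro rfl
      simp at hxy
    have ha4 : a ^ 4 = 1 := by
      have := FiniteField.pow_card_sub_one_eq_one a ha0
      rw [hq] at this
      exact this
    have hfac : (a - 1) * ((a + 1) * (a * a + 1)) = 0 := by linear_combination ha4
    rcases mul_eq_zero.1 hfac with h | h
    · have ha1 : a = 1 := by linear_combination h
      have hb1 : b = 1 := by
        rw [ha1] at hxy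
        linear_combination hxy
      left
      rw [ha1, hb1, one_smul, one_smul]
    · rcases mul_eq_zero.1 h with h | h
      · have ha1 : a = -1 := by linear_combination h
        have hb1 : b = -1 := by
          rw [ha1] at hxy
          linear_combination -hxy
        right
        left
        rw [ha1, hb1]
        module
      · right
        right
        have hb : b = -a := by
          have : a * (b + a) = 0 := by linear_combination hxy + h
          rcases mul_eq_zero.1 this with h' | h'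
          · exact absurd h' ha0
          · linear_combination h'
        simp only [polar_add_left, polar_add_right, polar_smul_right, qf_polar_self, hQe, hQf,
          hef, hfe, hb, smul_eq_mul]
        ring

/-- hyperbolic plane decompositions over the field with five elements -/
theorem plus_q5_not_max [Fintype F] (hq : Fintype.card F = 5) (Q : QuadraticForm F (ι → F))
    (hQ : (polarBilin Q).Nondegenerate) {t : ℕ} (hn : 13 ≤ Fintype.card ι)
    (D : Fin t → Submodule F (ι → F)) (hD : Geo.IsOrthogonalMDecomposition ⇑Q 2 D)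
    (hp : ∀ i, Geo.IsPlusTypeOn ⇑Q (D i)) :
    ∃ K : Subgroup (GL ι F), Geo.decompositionStabilizer D ⊓ Geo.omegaGL ⇑Q < K ∧
      K < Geo.omegaGL ⇑Q := by
  have h5 : (5 : F) = 0 := by
    have := Nat.cast_card_eq_zero F
    rw [hq] at this
    exact_mod_cast this
  have h2 : (2 : F) ≠ 0 := by
    intro h
    exact one_ne_zero (by linear_combination h5 - 2 * h : (1 : F) = 0)
  have h3 : (3 : F) ≠ 0 := by
    intro h
    exact one_ne_zero (by linear_combination 2 * h - h5 : (1 : F) = 0)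
  have ht : 7 ≤ t := by
    have := decomp_card_le ⇑Q D hD
    omega
  have horth : ∀ i j, i ≠ j → ∀ u ∈ D i, ∀ v ∈ D j, polar Q u v = 0 :=
    fun i j hij u hu v hv => hD.decomp.orthogonal i j hij u hu v hv
  have hfr : ∀ i, ∃ a w : ι → F, a ∈ D i ∧ w ∈ D i ∧ Q a = 1 ∧ polar Q a w = 0 ∧ Q w ≠ 0 ∧
      ∀ v ∈ D i, Q v = 1 → v = a ∨ v = -a ∨ polar Q a v = 0 := fun i =>
    exists_frame_vec5 hq Q (D i) (hD.decomp.decomp.finrank_eq i) (hD.decomp.nondegenerate i) (hp i)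
  obtain ⟨a₀, w, ha₀, hw, hQ₀, hwa, hQw, hH₀⟩ := hfr ⟨0, by omega⟩
  obtain ⟨a₁, -, ha₁, -, hQ₁, -, -, hH₁⟩ := hfr ⟨1, by omega⟩
  obtain ⟨a₂, -, ha₂, -, hQ₂, -, -, hH₂⟩ := hfr ⟨2, by omega⟩
  obtain ⟨a₃, -, ha₃, -, hQ₃, -, -, hH₃⟩ := hfr ⟨3, by omega⟩
  exact frame_not_max' h2 h3 Q hQ D horth 1 one_ne_zero ⟨0, by omega⟩ ⟨1, by omega⟩
    ⟨2, by omega⟩ ⟨3, by omega⟩ (by simp [Fin.ext_iff]) (by simp [Fin.ext_iff])
    (by simp [Fin.ext_iff]) (by simp [Fin.ext_iff]) (by simp [Fin.ext_iff])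
    (by simp [Fin.ext_iff]) a₀ a₁ a₂ a₃ ha₀ ha₁ ha₂ ha₃ hQ₀ hQ₁ hQ₂ hQ₃ hH₀ hH₁ hH₂ hH₃
    w hw hwa hQw

end PlusDec5

end Cfsg.Agent.Helper16
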