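import Cfsg.Agent.Helper16.NotMax2

set_option autoImplicit false
open Cfsg

namespace Cfsg.Agent.Helper16

open QuadraticMap Module
open scoped commutatorElement

section Sieg
variable {ι : Type} [Fintype ι] [DecidableEq ι] {F : Type*} [Field F]

/-- the Siegel map `x ↦ x + B(w,x) u - B(u,x) w - Q(w) B(u,x) u` -/
noncomputable def siegLin (Q : QuadraticForm F (ι → F)) (u w : ι → F) :
    (ι → F) →ₗ[F] (ι → F) :=
  LinearMap.id + LinearMap.smulRight (polarBilin Q w) u - LinearMap.smulRight (polarBilin Q u) w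
    - Q w • LinearMap.smulRight (polarBilin Q u) u

theorem siegLin_apply (Q : QuadraticForm F (ι → F)) (u w x : ι → F) :
    siegLin Q u w x = x + polar Q w x • u - polar Q u x • w - (Q w * polar Q u x) • u := by
  simp [siegLin, mul_smul]

theorem siegLin_zero (Q : QuadraticForm F (ι → F)) (u x : ι → F) : siegLin Q u 0 x = x := by
  rw [siegLin_apply]
  simp [polar]

theorem siegLin_comp (Q : QuadraticForm F (ι → F)) (u w w' : ι → F) (hu : Q u = 0)
    (huw : polar Q u w = 0) (huw' : polar Q u w' = 0) (x : ι → F) :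
    siegLin Q u w (siegLin Q u w' x) = siegLin Q u (w + w') x := by
  have huu : polar Q u u = 0 := by rw [qf_polar_self, hu, mul_zero]
  have hwu : polar Q w u = 0 := by rw [polar_comm]; exact huw
  have h1 : polar Q u (siegLin Q u w' x) = polar Q u x := by
    rw [siegLin_apply, polar_sub_right, polar_sub_right, polar_add_right, polar_smul_right,
      polar_smul_right, polar_smul_right, huu, huw']
    simp
  have h2 : polar Q w (siegLin Q u w' x) = polar Q w x - polar Q u x * polar Q w w' := by
    rw [siegLin_apply, polar_sub_right, polar_sub_right, polar_add_right, polar_smul_right,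
      polar_smul_right, polar_smul_right, hwu]
    simp
  rw [siegLin_apply Q u w, h1, h2, siegLin_apply, siegLin_apply, polar_add_left, qf_add]
  funext i
  simp only [Pi.add_apply, Pi.sub_apply, Pi.smul_apply, smul_eq_mul]
  ring

theorem siegLin_isom (Q : QuadraticForm F (ι → F)) (u w : ι → F) (hu : Q u = 0)
    (huw : polar Q u w = 0) (x : ι → F) : Q (siegLin Q u w x) = Q x := by
  have e : siegLin Q u w x =
      x + ((polar Q w x - Q w * polar Q u x) • u + (-polar Q u x) • w) := by
    rw [siegLin_apply]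
    funext i
    simp only [Pi.add_apply, Pi.sub_apply, Pi.smul_apply, smul_eq_mul]
    ring
  rw [e, qf_add, qf_lin2, hu, huw, polar_add_right, polar_smul_right, polar_smul_right,
    polar_comm Q x u, polar_comm Q x w]
  simp only [smul_eq_mul]
  ring

noncomputable def siegEquiv (Q : QuadraticForm F (ι → F)) (u w : ι → F) (hu : Q u = 0)
    (huw : polar Q u w = 0) : (ι → F) ≃ₗ[F] (ι → F) :=
  LinearEquiv.ofLinear (siegLin Q u w) (siegLin Q u (-w))
    (LinearMap.ext fun x => by
      rw [LinearMap.comp_apply, siegLin_comp Q u w (-w) hu huw (by rw [polar_neg_right, huw, neg_zero]),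
        add_neg_cancel, siegLin_zero]
      rfl)
    (LinearMap.ext fun x => by
      rw [LinearMap.comp_apply, siegLin_comp Q u (-w) w hu (by rw [polar_neg_right, huw, neg_zero]) huw,
        neg_add_cancel, siegLin_zero]
      rfl)

theorem exists_sieg (Q : QuadraticForm F (ι → F)) (u w : ι → F) (hu : Q u = 0)
    (huw : polar Q u w = 0) :
    ∃ h : ↥(isometryGroup F ⇑Q), ∀ x, act ⇑Q h x = siegLin Q u w x :=
  exists_isom_of_linearEquiv ⇑Q (siegEquiv Q u w hu huw) (fun v => siegLin_isom Q u w hu huw v)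

/-- the general Siegel transformation as an element of the isometry group -/
noncomputable def sieg (Q : QuadraticForm F (ι → F)) (u w : ι → F) (hu : Q u = 0)
    (huw : polar Q u w = 0) : ↥(isometryGroup F ⇑Q) :=
  Classical.choose (exists_sieg Q u w hu huw)

theorem act_sieg (Q : QuadraticForm F (ι → F)) (u w : ι → F) (hu : Q u = 0)
    (huw : polar Q u w = 0) (x : ι → F) :
    act ⇑Q (sieg Q u w hu huw) x =
      x + polar Q w x • u - polar Q u x • w - (Q w * polar Q u x) • u := by
  rw [sieg, Classical.choose_spec (exists_sieg Q u w hu huw) x, siegLin_apply]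

theorem act_sieg' (Q : QuadraticForm F (ι → F)) (u w : ι → F) (hu : Q u = 0)
    (huw : polar Q u w = 0) (x : ι → F) :
    act ⇑Q (sieg Q u w hu huw) x = siegLin Q u w x := by
  rw [sieg, Classical.choose_spec (exists_sieg Q u w hu huw) x]

theorem sieg_congr (Q : QuadraticForm F (ι → F)) (u w w' : ι → F) (hu : Q u = 0)
    (huw : polar Q u w = 0) (h : w = w') :
    sieg Q u w hu huw = sieg Q u w' hu (h ▸ huw) := by
  subst h
  rfl

theorem sieg_mul (Q : QuadraticForm F (ι → F)) (u w w' : ι → F) (hu : Q u = 0)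
    (huw : polar Q u w = 0) (huw' : polar Q u w' = 0) :
    sieg Q u w hu huw * sieg Q u w' hu huw' =
      sieg Q u (w + w') hu (by rw [polar_add_right, huw, huw', add_zero]) := by
  apply act_ext
  intro x
  rw [act_mul, act_sieg', act_sieg', act_sieg', siegLin_comp Q u w w' hu huw huw']

theorem sieg_zero (Q : QuadraticForm F (ι → F)) (u : ι → F) (hu : Q u = 0) :
    sieg Q u 0 hu (qf_polar_zero_right Q u) = 1 := by
  apply act_ext
  intro x
  rw [act_sieg', siegLin_zero, act_one]

theorem sieg_inv (Q : QuadraticForm F (ι → F)) (u w : ι → F) (hu : Q u = 0)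
    (huw : polar Q u w = 0) :
    (sieg Q u w hu huw)⁻¹ = sieg Q u (-w) hu (by rw [polar_neg_right, huw, neg_zero]) := by
  apply inv_eq_of_mul_eq_one_right
  rw [sieg_mul]
  apply act_ext
  intro x
  rw [act_sieg', add_neg_cancel, siegLin_zero, act_one]

theorem sieg_comm (Q : QuadraticForm F (ι → F)) (u w w' : ι → F) (hu : Q u = 0)
    (huw : polar Q u w = 0) (huw' : polar Q u w' = 0) :
    sieg Q u w hu huw * sieg Q u w' hu huw' = sieg Q u w' hu huw' * sieg Q u w hu huw := by
  apply act_ext
  intro x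
  rw [act_mul, act_mul, act_sieg', act_sieg', act_sieg', act_sieg',
    siegLin_comp Q u w w' hu huw huw', siegLin_comp Q u w' w hu huw' huw, add_comm]

/-- the Siegel element of a zero vector is trivial -/
theorem sieg_zero_left (Q : QuadraticForm F (ι → F)) (w : ι → F) :
    sieg Q 0 w (QuadraticMap.map_zero Q) (by simp [polar]) = 1 := by
  apply act_ext
  intro x
  rw [act_sieg, act_one]
  simp

theorem sieg_conj (Q : QuadraticForm F (ι → F)) (h : ↥(isometryGroup F ⇑Q)) (u w : ι → F)
    (hu : Q u = 0) (huw : polar Q u w = 0) :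
    h * sieg Q u w hu huw * h⁻¹ = sieg Q (act ⇑Q h u) (act ⇑Q h w)
      ((act_Q ⇑Q h u).trans hu) ((act_polar ⇑Q h u w).trans huw) := by
  apply act_ext
  intro x
  have hx : act ⇑Q h (act ⇑Q h⁻¹ x) = x := by rw [← act_mul, mul_inv_cancel, act_one]
  have p1 : polar Q (act ⇑Q h w) x = polar Q w (act ⇑Q h⁻¹ x) := by
    conv_lhs => rw [← hx]
    exact act_polar ⇑Q h w (act ⇑Q h⁻¹ x)
  have p2 : polar Q (act ⇑Q h u) x = polar Q u (act ⇑Q h⁻¹ x) := by
    conv_lhs => rw [← hx]
    exact act_polar ⇑Q h u (act ⇑Q h⁻¹ x)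
  have p3 : Q (act ⇑Q h w) = Q w := act_Q ⇑Q h w
  rw [act_mul, act_mul, act_sieg, act_sieg, p1, p2, p3]
  have e : act ⇑Q h (act ⇑Q h⁻¹ x + polar Q w (act ⇑Q h⁻¹ x) • u -
      polar Q u (act ⇑Q h⁻¹ x) • w - (Q w * polar Q u (act ⇑Q h⁻¹ x)) • u) =
      act ⇑Q h (act ⇑Q h⁻¹ x) + polar Q w (act ⇑Q h⁻¹ x) • act ⇑Q h u -
      polar Q u (act ⇑Q h⁻¹ x) • act ⇑Q h w -
      (Q w * polar Q u (act ⇑Q h⁻¹ x)) • act ⇑Q h u := by
    unfold act
    rw [Matrix.mulVec_sub, Matrix.mulVec_sub, Matrix.mulVec_add, Matrix.mulVec_smul,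
      Matrix.mulVec_smul, Matrix.mulVec_smul]
  rw [e, hx]

theorem sieg_fix (Q : QuadraticForm F (ι → F)) (u w : ι → F) (hu : Q u = 0)
    (huw : polar Q u w = 0) : act ⇑Q (sieg Q u w hu huw) u = u := by
  rw [act_sieg, qf_polar_self, hu, polar_comm Q w u, huw]
  simp

/-- rescaling the singular vector -/
theorem sieg_smul (Q : QuadraticForm F (ι → F)) (u w : ι → F) (c : F) (hu : Q u = 0)
    (huw : polar Q u w = 0) :
    sieg Q (c • u) w (by rw [qf_smul, hu, mul_zero]) (by rw [polar_smul_left, huw, smul_zero]) =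
      sieg Q u (c • w) hu (by rw [polar_smul_right, huw, smul_zero]) := by
  apply act_ext
  intro x
  rw [act_sieg, act_sieg, polar_smul_left, polar_smul_left, qf_smul]
  funext i
  simp only [Pi.add_apply, Pi.sub_apply, Pi.smul_apply, smul_eq_mul]
  ring

/-- Siegel elements of non-singular vectors are products of two reflections -/
theorem sieg_eq_pair (Q : QuadraticForm F (ι → F)) (u w : ι → F) (hu : Q u = 0)
    (huw : polar Q u w = 0) (hw : Q w ≠ 0) :
    sieg Q u w hu huw = reflElt Q ((-(Q w)⁻¹) • w) * reflElt Q ((-(Q w)⁻¹) • w + u) := by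
  have hQa : Q ((-(Q w)⁻¹) • w) = (Q w)⁻¹ := by
    rw [qf_smul]
    field_simp
  have ha0 : Q ((-(Q w)⁻¹) • w) ≠ 0 := by rw [hQa]; exact inv_ne_zero hw
  have hau : polar Q ((-(Q w)⁻¹) • w) u = 0 := by
    rw [polar_smul_left, polar_comm Q w u, huw, smul_zero]
  apply act_ext
  intro x
  rw [act_sieg, pair_sing_act Q _ u ha0 hu hau x, hQa, inv_inv, polar_add_left, polar_smul_left]
  funext i
  simp only [Pi.add_apply, Pi.sub_apply, Pi.smul_apply, smul_eq_mul]
  field_simp
  ring

theorem sieg_mem_Omega [Fintype F] (hn : 5 ≤ Fintype.card ι) (Q : QuadraticForm F (ι → F))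
    (hQ : (polarBilin Q).Nondegenerate) (u w : ι → F) (hu : Q u = 0) (huw : polar Q u w = 0) :
    sieg Q u w hu huw ∈ Omega F ⇑Q := by
  have key : ∀ w' (huw' : polar Q u w' = 0), Q w' ≠ 0 → sieg Q u w' hu huw' ∈ Omega F ⇑Q := by
    intro w' huw' hw'
    rw [sieg_eq_pair Q u w' hu huw' hw']
    apply refl_pair_mem_Omega Q hQ
    · rw [qf_smul]
      exact mul_ne_zero (mul_ne_zero (neg_ne_zero.2 (inv_ne_zero hw'))
        (neg_ne_zero.2 (inv_ne_zero hw'))) hw'
    · rw [qf_add, hu, polar_smul_left, polar_comm Q w' u, huw']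
      simp
  by_cases hw : Q w = 0
  · -- split `w` into two non-singular vectors
    obtain ⟨z, hzU, hz⟩ := exists_nonsing_of_big Q hQ
      (orth Q (Submodule.span F {u} ⊔ Submodule.span F {w})) (by
        rw [finrank_orth Q hQ, Module.finrank_fintype_fun_eq_card]
        have h1 := Submodule.finrank_add_le_finrank_add_finrank (Submodule.span F {u})
          (Submodule.span F {w})
        have h2 : finrank F (Submodule.span F {u}) ≤ 1 := by
          classical
          exact (finrank_span_le_card ({u} : Set (ι → F))).trans (by simp)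
        have h3 : finrank F (Submodule.span F {w}) ≤ 1 := by
          classical
          exact (finrank_span_le_card ({w} : Set (ι → F))).trans (by simp)
        omega)
    rw [orth_sup, Submodule.mem_inf, mem_orth_span_singleton, mem_orth_span_singleton] at hzU
    obtain ⟨huz, hwz⟩ := hzU
    have hwz' : Q (w - z) ≠ 0 := by
      rw [sub_eq_add_neg, qf_add, QuadraticMap.map_neg, hw, polar_neg_right, hwz]
      simpa using hz
    have e : sieg Q u w hu huw = sieg Q u (w - z) hu (by rw [polar_sub_right, huw, huz, sub_zero]) *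
        sieg Q u z hu huz := by
      rw [sieg_mul]
      exact sieg_congr Q u _ _ hu huw (by abel)
    rw [e]
    exact Subgroup.mul_mem _ (key _ _ hwz') (key _ _ hz)
  · exact key w huw hw

/-- Siegel elements move opposite points transitively -/
theorem sieg_move (Q : QuadraticForm F (ι → F)) (u r r' : ι → F) (hu : Q u = 0) (hr : Q r = 0)
    (hr' : Q r' = 0) (hur : polar Q u r = 1) (hur' : polar Q u r' = 1) :
    act ⇑Q (sieg Q u (r - r') hu (by rw [polar_sub_right, hur, hur', sub_self])) r = r' := by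
  rw [act_sieg, hur, polar_sub_left, qf_polar_self, hr]
  have hQ : Q (r - r') = -polar Q r r' := by
    rw [sub_eq_add_neg, qf_add, QuadraticMap.map_neg, hr, hr', polar_neg_right]
    ring
  rw [hQ, polar_comm Q r' r]
  funext i
  simp only [Pi.add_apply, Pi.sub_apply, Pi.smul_apply, smul_eq_mul]
  ring

end Sieg

end Cfsg.Agent.Helper16
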