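import Cfsg.Agent.Helper16.Frame
import Cfsg.Agent.Helper16.Sieg
import Cfsg.Agent.Helper16.QuadHyp

set_option autoImplicit false
open Cfsg

namespace Cfsg.Agent.Helper16

open QuadraticMap Module

section PlusDecA
variable {ι : Type} [Fintype ι] [DecidableEq ι] {F : Type*} [Field F]

/-- over a finite field a matrix mapping a set of vectors into itself stabilises it -/
theorem mem_stabilizing_fin [Fintype F] (x : GL ι F) (S : Set (ι → F))
    (hx : ∀ v ∈ S, (x : Matrix ι ι F).mulVec v ∈ S) : x ∈ stabilizing (glToMat ι F) S := by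
  rw [mem_stabilizing]
  intro v
  refine ⟨hx v, fun hv => ?_⟩
  let φ : ↥S → ↥S := fun w => ⟨(x : Matrix ι ι F).mulVec (w : ι → F), hx _ w.2⟩
  have hinj : Function.Injective φ := by
    intro a b hab
    apply Subtype.ext
    exact mulVecLin_injective x (congrArg Subtype.val hab)
  have hsurj : Function.Surjective φ := Finite.surjective_of_injective hinj
  obtain ⟨w, hw⟩ := hsurj ⟨_, hv⟩
  have h1 : (x : Matrix ι ι F).mulVec (w : ι → F) = (x : Matrix ι ι F).mulVec v :=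
    congrArg Subtype.val hw
  have h2 : (w : ι → F) = v := mulVecLin_injective x h1
  rw [← h2]
  exact w.2

/-- an isometry permuting the blocks maps each block into its image block -/
theorem act_mem_of_decStab (Q : QuadraticForm F (ι → F)) {t : ℕ} (D : Fin t → Submodule F (ι → F))
    (h : ↥(isometryGroup F ⇑Q)) (σ : Equiv.Perm (Fin t))
    (hσ : ∀ i, (D i).map (Matrix.toLin' ((h : GL ι F) : Matrix ι ι F)) = D (σ i))
    (i : Fin t) (v : ι → F) (hv : v ∈ D i) : act ⇑Q h v ∈ D (σ i) := by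
  rw [← hσ i, map_toLin'_eq_mapG]
  exact (mem_mapG _ _ _).2 ⟨v, hv, rfl⟩

/-- the image block is detected by a non-orthogonal vector -/
theorem stab_perm_eq (Q : QuadraticForm F (ι → F)) {t : ℕ} (D : Fin t → Submodule F (ι → F))
    (horth : ∀ i j, i ≠ j → ∀ u ∈ D i, ∀ v ∈ D j, polar Q u v = 0)
    (h : ↥(isometryGroup F ⇑Q)) (σ : Equiv.Perm (Fin t))
    (hσ : ∀ i, (D i).map (Matrix.toLin' ((h : GL ι F) : Matrix ι ι F)) = D (σ i))
    (i j : Fin t) (w : ι → F) (hw : w ∈ D i) (y : ι → F) (hy : y ∈ D j)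
    (hwy : polar Q (act ⇑Q h w) y ≠ 0) : σ i = j := by
  by_contra hne
  exact hwy (horth _ _ hne _ (act_mem_of_decStab Q D h σ hσ i w hw) _ hy)

/-- isometries permuting the blocks preserve the norm sets -/
theorem stab_maps_normSet (Q : QuadraticForm F (ι → F)) {t : ℕ}
    (D : Fin t → Submodule F (ι → F)) (c : F) (h : ↥(isometryGroup F ⇑Q))
    (hh : (h : GL ι F) ∈ Geo.decompositionStabilizer D) (v : ι → F)
    (hv : v ∈ normSet Q D c) : act ⇑Q h v ∈ normSet Q D c := by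
  obtain ⟨σ, hσ⟩ := hh
  obtain ⟨i, hvi, hQv⟩ := hv
  exact ⟨σ i, act_mem_of_decStab Q D h σ hσ i v hvi, (act_Q ⇑Q h v).trans hQv⟩

/-- the general pattern: a set of vectors invariant under the decomposition stabiliser, an
element of `Ω` preserving it but not the decomposition, and an element of `Ω` not preserving
it -/
theorem set_not_max [Fintype F] (Q : QuadraticForm F (ι → F)) {t : ℕ}
    (D : Fin t → Submodule F (ι → F)) (S : Set (ι → F))
    (hS : ∀ h : ↥(isometryGroup F ⇑Q), (h : GL ι F) ∈ Geo.decompositionStabilizer D →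
      ∀ v ∈ S, act ⇑Q h v ∈ S)
    (g : ↥(isometryGroup F ⇑Q)) (hgΩ : g ∈ Omega F ⇑Q) (hg1 : ∀ v ∈ S, act ⇑Q g v ∈ S)
    (hg2 : (g : GL ι F) ∉ Geo.decompositionStabilizer D)
    (g' : ↥(isometryGroup F ⇑Q)) (hgΩ' : g' ∈ Omega F ⇑Q) (v₀ : ι → F) (hv₀ : v₀ ∈ S)
    (hg' : act ⇑Q g' v₀ ∉ S) :
    ∃ K : Subgroup (GL ι F), Geo.decompositionStabilizer D ⊓ Geo.omegaGL ⇑Q < K ∧
      K < Geo.omegaGL ⇑Q := by
  refine ⟨stabilizing (glToMat ι F) S ⊓ Geo.omegaGL ⇑Q, ?_, ?_⟩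
  · rw [SetLike.lt_iff_le_and_exists]
    constructor
    · rintro x ⟨hxD, hxΩ⟩
      obtain ⟨x', hx', rfl⟩ := exists_of_mem_omegaGL ⇑Q x hxΩ
      exact ⟨mem_stabilizing_fin _ S (hS x' hxD), hxΩ⟩
    · exact ⟨(g : GL ι F), ⟨mem_stabilizing_fin _ S hg1, mem_omegaGL _ _ hgΩ⟩, fun h => hg2 h.1⟩
  · rw [SetLike.lt_iff_le_and_exists]
    refine ⟨inf_le_right, (g' : GL ι F), mem_omegaGL _ _ hgΩ', ?_⟩
    rintro ⟨hmem, -⟩
    exact hg' (((mem_stabilizing _ _).1 hmem v₀).1 hv₀)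

/-- a plus-type block has a hyperbolic basis -/
theorem exists_hyp_basis_sub (Q : QuadraticForm F (ι → F)) (W : Submodule F (ι → F)) (k : ℕ)
    (hk : 1 ≤ k) (hW : finrank F W = 2 * k) (hnd : Geo.IsNondegenerateOn (polar ⇑Q) W)
    (hplus : Geo.IsPlusTypeOn ⇑Q W) :
    ∃ e f : Fin k → (ι → F), (∀ j, e j ∈ W ∧ f j ∈ W) ∧ IsHypFamily Q e f ∧
      ∀ v ∈ W, ∃ x y : Fin k → F, v = ∑ j, x j • e j + ∑ j, y j • f j := by
  obtain ⟨U, hUW, hU, hUd⟩ := hplus
  have hnd' : (polarBilin (Q.comp W.subtype)).Nondegenerate := by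
    apply ((polarBilin_isSymm _).isRefl.nondegenerate_iff_separatingLeft).2
    intro x hx
    by_contra hx0
    have hx0' : (x : ι → F) ≠ 0 := fun h => hx0 (Subtype.ext h)
    obtain ⟨-, ⟨y, hy, hxy⟩⟩ := hnd (x : ι → F) x.2 hx0'
    apply hxy
    have := hx ⟨y, hy⟩
    exact this
  have hU' : ∀ u ∈ U.comap W.subtype, (Q.comp W.subtype) u = 0 := fun u hu => hU _ hu
  have hfr : finrank F ↥(U.comap W.subtype) = finrank F ↥U :=
    LinearEquiv.finrank_eq (Submodule.comapSubtypeEquivOfLe hUW)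
  obtain ⟨e, f, hef⟩ := exists_hyp_of_totally_singular k ↥W (Q.comp W.subtype) hnd' hW
    (U.comap W.subtype) hU' (by omega)
  have hne : Nonempty (Fin k ⊕ Fin k) := ⟨Sum.inl ⟨0, hk⟩⟩
  have hli := linearIndependent_hyp (Q.comp W.subtype) hef
  have hcard : Fintype.card (Fin k ⊕ Fin k) = finrank F ↥W := by
    rw [hW]
    simp
    omega
  let b := basisOfLinearIndependentOfCardEqFinrank hli hcard
  have hb : ⇑b = Sum.elim e f := coe_basisOfLinearIndependentOfCardEqFinrank _ _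
  refine ⟨fun j => (e j : ι → F), fun j => (f j : ι → F), fun j => ⟨(e j).2, (f j).2⟩, hef, ?_⟩
  intro v hv
  refine ⟨fun j => b.repr ⟨v, hv⟩ (Sum.inl j), fun j => b.repr ⟨v, hv⟩ (Sum.inr j), ?_⟩
  have h1 := b.sum_repr ⟨v, hv⟩
  rw [Fintype.sum_sum_type, hb] at h1
  have h2 := congrArg Subtype.val h1
  simp only [Sum.elim_inl, Sum.elim_inr] at h2
  refine h2.symm.trans ?_
  simp

end PlusDecA

end Cfsg.Agent.Helper16
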