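import Cfsg.Agent.Helper16.OmegaOrder

set_option autoImplicit false
open Cfsg

namespace Cfsg.Agent.Helper16

open QuadraticMap Module

section PointMaxGen
variable {ι : Type} [Fintype ι] [DecidableEq ι] {F : Type*} [Field F]

theorem exists_orth_not_orth (Q : QuadraticForm F (ι → F)) (hQ : (polarBilin Q).Nondegenerate)
    (a b : ι → F) (hb : b ∉ Submodule.span F {a}) : ∃ h, polar Q a h = 0 ∧ polar Q b h ≠ 0 := by
  by_contra hcon
  push Not at hcon
  have hle : orth Q (Submodule.span F {a}) ≤ orth Q (Submodule.span F {b}) := by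
    intro y hy
    rw [mem_orth_span_singleton] at hy ⊢
    exact hcon y hy
  have hle2 : orth Q (orth Q (Submodule.span F {b})) ≤
      orth Q (orth Q (Submodule.span F {a})) :=
    LinearMap.BilinForm.orthogonal_le (B := polarBilin Q) hle
  rw [orth_orth Q hQ, orth_orth Q hQ] at hle2
  exact hb (hle2 (Submodule.mem_span_singleton_self b))

theorem exists_orth_not_orth_two (Q : QuadraticForm F (ι → F))
    (hQ : (polarBilin Q).Nondegenerate) (a b b' : ι → F) (hb : b ∉ Submodule.span F {a})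
    (hb' : b' ∉ Submodule.span F {a}) :
    ∃ h, polar Q a h = 0 ∧ polar Q b h ≠ 0 ∧ polar Q b' h ≠ 0 := by
  by_contra hcon
  push Not at hcon
  have h : ∀ z ∈ orth Q (Submodule.span F {a}),
      z ∈ orth Q (Submodule.span F {b}) ∨ z ∈ orth Q (Submodule.span F {b'}) := by
    intro z hz
    rw [mem_orth_span_singleton] at hz
    by_cases h1 : polar Q b z = 0
    · left
      rw [mem_orth_span_singleton]
      exact h1
    · right
      rw [mem_orth_span_singleton]
      exact hcon z hz h1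
  rcases le_or_le_of_union _ _ _ h with h1 | h1
  · obtain ⟨y, hy1, hy2⟩ := exists_orth_not_orth Q hQ a b hb
    exact hy2 ((mem_orth_span_singleton Q b y).1 (h1 ((mem_orth_span_singleton Q a y).2 hy1)))
  · obtain ⟨y, hy1, hy2⟩ := exists_orth_not_orth Q hQ a b' hb'
    exact hy2 ((mem_orth_span_singleton Q b' y).1 (h1 ((mem_orth_span_singleton Q a y).2 hy1)))

end PointMaxGen

section PointMax
variable {ι : Type} [Fintype ι] [DecidableEq ι] {F : Type*} [Field F] [Fintype F] [CharP F 2]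

/-- a vector of prescribed norm orthogonal to finitely many vectors (characteristic two) -/
theorem exists_norm_orth_fin {k : ℕ} (hk : 2 * k < Fintype.card ι) (Q : QuadraticForm F (ι → F))
    (hQ : (polarBilin Q).Nondegenerate) (u : Fin k → ι → F) (d : F) :
    ∃ p, Q p = d ∧ ∀ i, polar Q (u i) p = 0 := by
  by_cases hd : d = 0
  · exact ⟨0, by rw [hd]; exact QuadraticMap.map_zero Q, fun i => qf_polar_zero_right Q _⟩
  obtain ⟨p₀, hp₀U, hp₀⟩ := exists_nonsing_of_big Q hQ
      (orth Q (Submodule.span F (Set.range u))) (by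
    rw [finrank_orth Q hQ, Module.finrank_fintype_fun_eq_card]
    have h1 := finrank_range_le_card (R := F) u
    rw [Fintype.card_fin] at h1
    have h2 : finrank F (Submodule.span F (Set.range u)) ≤ k := h1
    omega)
  obtain ⟨t, ht⟩ := FiniteField.isSquare_of_char_two (ringChar.eq F 2) (d / Q p₀)
  refine ⟨t • p₀, ?_, ?_⟩
  · rw [qf_smul, ← ht]
    field_simp
  · intro i
    rw [polar_smul_right, (mem_orth Q _ p₀).1 hp₀U (u i)
      (Submodule.subset_span (Set.mem_range_self i)), smul_zero]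

theorem not_mem_span_of_norm (Q : QuadraticForm F (ι → F)) (a b : ι → F) (ha : Q a ≠ 0)
    (hb : Q b = Q a) (hne : b ≠ a) : b ∉ Submodule.span F {a} := by
  have h2 : (2 : F) = 0 := CharTwo.two_eq_zero
  intro hmem
  obtain ⟨t, rfl⟩ := Submodule.mem_span_singleton.1 hmem
  rw [qf_smul] at hb
  have ht : t * t = 1 := by
    have h3 : (t * t - 1) * Q a = 0 := by linear_combination hb
    rcases mul_eq_zero.1 h3 with h | h
    · exact sub_eq_zero.1 h
    · exact absurd h ha
  have ht1 : t = 1 := by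
    have h3 : (t - 1) * (t - 1) = 0 := by linear_combination ht + (1 - t) * h2
    exact sub_eq_zero.1 (mul_self_eq_zero.1 h3)
  apply hne
  rw [ht1, one_smul]

/-- one step: a product of two reflections fixing `v` and moving `w` to `w'` -/
theorem stab_move_step (hn : 5 ≤ Fintype.card ι) (Q : QuadraticForm F (ι → F))
    (hQ : (polarBilin Q).Nondegenerate) (v w w' : ι → F) (hw : Q w' = Q w)
    (hvw : polar Q v w' = polar Q v w) (hww' : polar Q w w' ≠ 0) :
    ∃ s : ↥(isometryGroup F ⇑Q), s ∈ Omega F ⇑Q ∧ act ⇑Q s v = v ∧ act ⇑Q s w = w' := by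
  have h2 : (2 : F) = 0 := CharTwo.two_eq_zero
  have ha : Q (w - w') = polar Q w w' := by
    rw [sub_eq_add_neg, qf_add, QuadraticMap.map_neg, hw, polar_neg_right]
    linear_combination (Q w - polar Q w w') * h2
  have ha0 : Q (w - w') ≠ 0 := by rw [ha]; exact hww'
  have hpol : polar Q (w - w') w = Q (w - w') := by
    rw [polar_sub_left, qf_polar_self, sub_eq_add_neg w w', qf_add, QuadraticMap.map_neg, hw,
      polar_neg_right, polar_comm Q w' w]
    ring
  obtain ⟨b, hb, hvb, hwb⟩ := exists_nonsing_orth_two hn Q hQ v w'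
  refine ⟨reflElt Q b * reflElt Q (w - w'), pair_mem_Omega Q hQ _ _ hb ha0, ?_, ?_⟩
  · rw [act_mul, act_refl Q _ ha0, qrefl_of_orth Q (w - w') v (by
      rw [polar_sub_left, polar_comm Q w v, polar_comm Q w' v, hvw, sub_self]),
      act_refl Q _ hb, qrefl_of_orth Q b v (by rw [polar_comm]; exact hvb)]
  · rw [act_mul, act_refl Q _ ha0, qrefl_apply, hpol, inv_mul_cancel₀ ha0, one_smul,
      sub_sub_cancel, act_refl Q _ hb, qrefl_of_orth Q b w' (by rw [polar_comm]; exact hwb)]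

/-- the stabiliser of a non-singular vector is transitive on the vectors of the same norm with a
given inner product with it -/
theorem stab_move (hn : 9 ≤ Fintype.card ι) (Q : QuadraticForm F (ι → F))
    (hQ : (polarBilin Q).Nondegenerate) (v w w' : ι → F) (hv : Q v ≠ 0) (hw : Q w = Q v)
    (hw' : Q w' = Q v) (hvw' : polar Q v w' = polar Q v w) (hwv : w ≠ v) (hwv' : w' ≠ v) :
    ∃ s : ↥(isometryGroup F ⇑Q), s ∈ Omega F ⇑Q ∧ act ⇑Q s v = v ∧ act ⇑Q s w = w' := by
  have h2 : (2 : F) = 0 := CharTwo.two_eq_zero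
  by_cases h0 : polar Q w w' ≠ 0
  · exact stab_move_step (by omega) Q hQ v w w' (hw'.trans hw.symm) hvw' h0
  · push Not at h0
    obtain ⟨z₀, hvz, hwz, hw'z⟩ := exists_orth_not_orth_two Q hQ v w w'
      (not_mem_span_of_norm Q v w hv hw hwv) (not_mem_span_of_norm Q v w' hv hw' hwv')
    obtain ⟨p, hp, hpo⟩ := exists_norm_orth_fin (k := 4) (by omega) Q hQ ![v, w, w', z₀]
      (polar Q w z₀ - Q z₀)
    have hpv : polar Q v p = 0 := hpo 0
    have hpw : polar Q w p = 0 := hpo 1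
    have hpw' : polar Q w' p = 0 := hpo 2
    have hpz : polar Q z₀ p = 0 := hpo 3
    have e1 : Q (w + (z₀ + p)) = Q w := by
      rw [qf_add, qf_add, polar_add_right, hp, hpz, hpw]
      linear_combination polar Q w z₀ * h2
    have e2 : polar Q v (w + (z₀ + p)) = polar Q v w := by
      rw [polar_add_right, polar_add_right, hvz, hpv]
      ring
    have e3 : polar Q w (w + (z₀ + p)) ≠ 0 := by
      rw [polar_add_right, polar_add_right, qf_polar_self, hpw, h2]
      simpa using hwz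
    have e4 : polar Q (w + (z₀ + p)) w' ≠ 0 := by
      rw [polar_add_left, polar_add_left, h0, polar_comm Q z₀ w', polar_comm Q p w', hpw']
      simpa using hw'z
    obtain ⟨s₁, hs₁, hs₁v, hs₁w⟩ := stab_move_step (by omega) Q hQ v w (w + (z₀ + p)) e1 e2 e3
    obtain ⟨s₂, hs₂, hs₂v, hs₂w⟩ := stab_move_step (by omega) Q hQ v (w + (z₀ + p)) w'
      (hw'.trans (hw.symm.trans e1.symm)) (hvw'.trans e2.symm) e4
    exact ⟨s₂ * s₁, Subgroup.mul_mem _ hs₂ hs₁, by rw [act_mul, hs₁v, hs₂v],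
      by rw [act_mul, hs₁w, hs₂w]⟩

/-- a common neighbour for the relation `polar = c` on vectors of a given non-zero norm -/
theorem exists_mid_c (hn : 9 ≤ Fintype.card ι) (Q : QuadraticForm F (ι → F))
    (hQ : (polarBilin Q).Nondegenerate) (v x : ι → F) (hv : Q v ≠ 0) (hx : Q x = Q v)
    (hne : x ≠ v) (c : F) : ∃ z, Q z = Q v ∧ polar Q v z = c ∧ polar Q z x = c := by
  have h2 : (2 : F) = 0 := CharTwo.two_eq_zero
  have hx0 : Q x ≠ 0 := by rw [hx]; exact hv
  obtain ⟨y₁, hxy₁, hvy₁⟩ := exists_orth_not_orth Q hQ x v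
    (not_mem_span_of_norm Q x v hx0 hx.symm (Ne.symm hne))
  obtain ⟨y₂, hvy₂, hxy₂⟩ := exists_orth_not_orth Q hQ v x (not_mem_span_of_norm Q v x hv hx hne)
  obtain ⟨z₀, hz₀⟩ : ∃ z₀, z₀ = (c / polar Q v y₁) • y₁ + (c / polar Q x y₂) • y₂ := ⟨_, rfl⟩
  have hvz : polar Q v z₀ = c := by
    rw [hz₀, polar_add_right, polar_smul_right, polar_smul_right, hvy₂, smul_eq_mul, smul_eq_mul,
      mul_zero, add_zero, div_mul_cancel₀ c hvy₁]
  have hxz : polar Q x z₀ = c := by
    rw [hz₀, polar_add_right, polar_smul_right, polar_smul_right, hxy₁, smul_eq_mul, smul_eq_mul,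
      mul_zero, zero_add, div_mul_cancel₀ c hxy₂]
  obtain ⟨p, hp, hpo⟩ := exists_norm_orth_fin (k := 3) (by omega) Q hQ ![v, x, z₀] (Q v - Q z₀)
  have hpv : polar Q v p = 0 := hpo 0
  have hpx : polar Q x p = 0 := hpo 1
  have hpz : polar Q z₀ p = 0 := hpo 2
  refine ⟨z₀ + p, ?_, ?_, ?_⟩
  · rw [qf_add, hp, hpz]
    ring
  · rw [polar_add_right, hvz, hpv, add_zero]
  · rw [polar_comm, polar_add_right, hxz, hpx, add_zero]

/-- in characteristic two the stabiliser in `Ω` of a non-singular point is maximal -/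
theorem nonsing_point_max (hn : 9 ≤ Fintype.card ι) (Q : QuadraticForm F (ι → F))
    (hQ : (polarBilin Q).Nondegenerate) (v : ι → F) (hv : Q v ≠ 0) :
    Geo.IsMaximalIn (Geo.omegaGL ⇑Q)
      (Geo.subspaceStabilizer (Submodule.span F {v}) ⊓ Geo.omegaGL ⇑Q) := by
  have h2 : (2 : F) = 0 := CharTwo.two_eq_zero
  constructor
  · -- proper
    refine lt_of_le_of_ne inf_le_right ?_
    intro heq
    obtain ⟨y₀, hy₀⟩ := exists_polar_ne Q hQ v (by
      rintro rfl
      exact hv (QuadraticMap.map_zero Q))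
    obtain ⟨p, hp, hpo⟩ := exists_norm_orth_fin (k := 2) (by omega) Q hQ ![v, y₀] (1 - Q y₀)
    have hpv : polar Q v p = 0 := hpo 0
    have hpy : polar Q y₀ p = 0 := hpo 1
    have hy : Q (y₀ + p) = 1 := by
      rw [qf_add, hp, hpy]
      ring
    have hy0 : Q (y₀ + p) ≠ 0 := by rw [hy]; exact one_ne_zero
    have hvy : polar Q (y₀ + p) v ≠ 0 := by
      rw [polar_comm, polar_add_right, hpv, add_zero]
      exact hy₀
    obtain ⟨b, hb, hvb, -⟩ := exists_nonsing_orth_two (by omega) Q hQ v v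
    have hg := pair_mem_Omega Q hQ (y₀ + p) b hy0 hb
    have hmem : ((reflElt Q (y₀ + p) * reflElt Q b : ↥(isometryGroup F ⇑Q)) : GL ι F) ∈
        Geo.subspaceStabilizer (Submodule.span F {v}) ⊓ Geo.omegaGL ⇑Q := by
      rw [heq]
      exact mem_omegaGL ⇑Q _ hg
    have h1 := ((mem_subspaceStabilizer _ _).1 hmem.1 v).1 (Submodule.mem_span_singleton_self v)
    have h3 : act ⇑Q (reflElt Q (y₀ + p) * reflElt Q b) v ∈ Submodule.span F {v} := h1
    rw [act_mul, act_refl Q _ hb, qrefl_of_orth Q b v (by rw [polar_comm]; exact hvb),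
      act_refl Q _ hy0, qrefl_apply, hy, inv_one, one_mul] at h3
    have h4 : polar Q (y₀ + p) v • (y₀ + p) ∈ Submodule.span F {v} := by
      have h5 := Submodule.sub_mem _ (Submodule.mem_span_singleton_self v) h3
      rw [sub_sub_cancel] at h5
      exact h5
    have h6 : y₀ + p ∈ Submodule.span F {v} := by
      have h7 := Submodule.smul_mem _ (polar Q (y₀ + p) v)⁻¹ h4
      rw [smul_smul, inv_mul_cancel₀ hvy, one_smul] at h7
      exact h7
    obtain ⟨t, ht⟩ := Submodule.mem_span_singleton.1 h6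
    apply hvy
    rw [← ht, polar_smul_left, qf_polar_self, h2]
    simp
  · intro M hHM hMK
    by_cases hMH : M ≤ Geo.subspaceStabilizer (Submodule.span F {v}) ⊓ Geo.omegaGL ⇑Q
    · exact Or.inl (le_antisymm hMH hHM)
    right
    obtain ⟨k, hkM, hkH⟩ := SetLike.not_le_iff_exists.1 hMH
    obtain ⟨g₀, hg₀Ω, rfl⟩ := exists_of_mem_omegaGL ⇑Q k (hMK hkM)
    have hw0 : act ⇑Q g₀ v ≠ v := by
      intro hfix
      exact hkH ⟨mem_stab_span_of_fix _ v hfix, hMK hkM⟩
    obtain ⟨w, hwdef⟩ : ∃ w, w = act ⇑Q g₀ v := ⟨_, rfl⟩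
    rw [← hwdef] at hw0
    have hwQ : Q w = Q v := by rw [hwdef]; exact act_Q ⇑Q g₀ v
    have claimA : ∀ (h : ↥(isometryGroup F ⇑Q)), h ∈ Omega F ⇑Q → (h : GL ι F) ∈ M →
        ∀ y', Q y' = Q v → polar Q (act ⇑Q h v) y' = polar Q v w →
        ∃ h' : ↥(isometryGroup F ⇑Q), h' ∈ Omega F ⇑Q ∧ (h' : GL ι F) ∈ M ∧
          act ⇑Q h' v = y' := by
      intro h hhΩ hhM y' hy' hpol
      by_cases hyy : y' = act ⇑Q h v
      · exact ⟨h, hhΩ, hhM, hyy.symm⟩
      have hw'Q : Q (act ⇑Q h⁻¹ y') = Q v := (act_Q ⇑Q h⁻¹ y').trans hy'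
      have hw'p : polar Q v (act ⇑Q h⁻¹ y') = polar Q v w := by
        have h1 := act_polar ⇑Q h v (act ⇑Q h⁻¹ y')
        rw [act_act_inv] at h1
        rw [← h1]
        exact hpol
      have hw'v : act ⇑Q h⁻¹ y' ≠ v := by
        intro h1
        apply hyy
        rw [← h1, act_act_inv]
      obtain ⟨s, hsΩ, hsv, hsw⟩ := stab_move hn Q hQ v w (act ⇑Q h⁻¹ y') hv hwQ hw'Q hw'p hw0
        hw'v
      refine ⟨h * s * g₀, Subgroup.mul_mem _ (Subgroup.mul_mem _ hhΩ hsΩ) hg₀Ω, ?_, ?_⟩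
      · rw [Subgroup.coe_mul, Subgroup.coe_mul]
        exact M.mul_mem (M.mul_mem hhM (hHM ⟨mem_stab_span_of_fix _ v hsv,
          mem_omegaGL ⇑Q s hsΩ⟩)) hkM
      · rw [act_mul, act_mul, ← hwdef, hsw, act_act_inv]
    have claimB : ∀ x, Q x = Q v → ∃ h' : ↥(isometryGroup F ⇑Q), h' ∈ Omega F ⇑Q ∧
        (h' : GL ι F) ∈ M ∧ act ⇑Q h' v = x := by
      intro x hx
      by_cases hxv : x = v
      · exact ⟨1, Subgroup.one_mem _, by rw [Subgroup.coe_one]; exact M.one_mem,
          by rw [act_one, hxv]⟩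
      obtain ⟨z, hz1, hz2, hz3⟩ := exists_mid_c hn Q hQ v x hv hx hxv (polar Q v w)
      obtain ⟨h₁, hh₁Ω, hh₁M, hh₁v⟩ := claimA 1 (Subgroup.one_mem _)
        (by rw [Subgroup.coe_one]; exact M.one_mem) z hz1 (by rw [act_one]; exact hz2)
      exact claimA h₁ hh₁Ω hh₁M x hx (by rw [hh₁v]; exact hz3)
    apply le_antisymm hMK
    intro k' hk'
    obtain ⟨g, hgΩ, rfl⟩ := exists_of_mem_omegaGL ⇑Q k' hk'
    obtain ⟨h, hhΩ, hhM, hhv⟩ := claimB (act ⇑Q g v) (act_Q ⇑Q g v)
    have hfix : act ⇑Q (h⁻¹ * g) v = v := by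
      rw [act_mul, ← hhv, act_inv_act]
    have hmem : ((h⁻¹ * g : ↥(isometryGroup F ⇑Q)) : GL ι F) ∈ M :=
      hHM ⟨mem_stab_span_of_fix _ v hfix,
        mem_omegaGL ⇑Q _ (Subgroup.mul_mem _ (Subgroup.inv_mem _ hhΩ) hgΩ)⟩
    have e : (g : GL ι F) = (h : GL ι F) * ((h⁻¹ * g : ↥(isometryGroup F ⇑Q)) : GL ι F) := by
      rw [← Subgroup.coe_mul, mul_inv_cancel_left]
    rw [e]
    exact M.mul_mem hhM hmem

end PointMax

end Cfsg.Agent.Helper16
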