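import Cfsg.Agent.Helper16.JordG

set_option autoImplicit false
open Cfsg
open scoped MatrixGroups

namespace Cfsg.Agent.Helper16.QExt

open Module Submodule Cfsg.Agent.Helper16.Jord

section A
variable {F : Type*} [Field F] {n : ℕ}

theorem coe_conj (P x : Matrix.SpecialLinearGroup (Fin n) F) :
    ((Matrix.SpecialLinearGroup.toGL (P⁻¹ * x * P) : GL (Fin n) F) : Matrix (Fin n) (Fin n) F)
      = (P : Matrix (Fin n) (Fin n) F)⁻¹ * (x : Matrix (Fin n) (Fin n) F)
        * (P : Matrix (Fin n) (Fin n) F) := by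
  have h1 : ((Matrix.SpecialLinearGroup.toGL (P⁻¹ * x * P) : GL (Fin n) F) :
      Matrix (Fin n) (Fin n) F)
      = ((P⁻¹ * x * P : Matrix.SpecialLinearGroup (Fin n) F) : Matrix (Fin n) (Fin n) F) := rfl
  rw [h1, Matrix.SpecialLinearGroup.coe_mul, Matrix.SpecialLinearGroup.coe_mul,
    Matrix.SpecialLinearGroup.coe_inv]
  congr 2
  rw [Matrix.inv_def, P.det_coe, Ring.inverse_one, one_smul]

theorem vmv (u v w : Fin n → F) :
    Matrix.mulVec (Matrix.vecMulVec u v) w = (v ⬝ᵥ w) • u := by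
  rw [Matrix.vecMulVec_mulVec, op_smul_eq_smul]

/-- structure of a field subalgebra of degree 2: `K = F + F θ` with `θ² = t θ + d` and the
quadratic `X² - t X - d` without roots. -/
theorem k_struct (hn : 1 ≤ n) (K : Subalgebra F (Matrix (Fin n) (Fin n) F))
    (hK : Cfsg.Geo.IsFieldSubalgebra 2 K) :
    ∃ θ ∈ K, ∃ t d : F, θ * θ = t • θ + d • (1 : Matrix (Fin n) (Fin n) F) ∧
      (∀ l : F, l * l ≠ t * l + d) ∧ (∀ a : F, θ ≠ a • (1 : Matrix (Fin n) (Fin n) F)) ∧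
      (∀ k, k ∈ K ↔ ∃ a b : F, k = a • (1 : Matrix (Fin n) (Fin n) F) + b • θ) := by
  classical
  haveI : Nonempty (Fin n) := ⟨⟨0, hn⟩⟩
  have hone : (1 : Matrix (Fin n) (Fin n) F) ≠ 0 := one_ne_zero
  obtain ⟨θ, hθK, hθ⟩ : ∃ θ ∈ K, ∀ a : F, θ ≠ a • (1 : Matrix (Fin n) (Fin n) F) := by
    by_contra hcon
    push Not at hcon
    have h1 : K = ⊥ := by
      rw [eq_bot_iff]
      intro x hx
      obtain ⟨a, ha⟩ := hcon x hx
      rw [Algebra.mem_bot]
      exact ⟨a, by rw [ha, Algebra.algebraMap_eq_smul_one]⟩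
    have h2 := hK.finrank_eq
    rw [h1, Subalgebra.finrank_bot] at h2
    omega
  have hli : LinearIndependent F ![(1 : Matrix (Fin n) (Fin n) F), θ] := by
    rw [LinearIndependent.pair_iff]
    intro a b hab
    by_cases hb : b = 0
    · subst hb
      rw [zero_smul, add_zero] at hab
      exact ⟨(smul_eq_zero.mp hab).resolve_right hone, rfl⟩
    · exfalso
      apply hθ (-a / b)
      have h3 : b • θ = -(a • (1 : Matrix (Fin n) (Fin n) F)) := eq_neg_of_add_eq_zero_right hab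
      calc θ = b⁻¹ • (b • θ) := by rw [smul_smul, inv_mul_cancel₀ hb, one_smul]
        _ = (-a / b) • (1 : Matrix (Fin n) (Fin n) F) := by
          rw [h3, smul_neg, smul_smul, ← neg_smul]
          congr 1
          field_simp
  have hspan : span F (Set.range ![(1 : Matrix (Fin n) (Fin n) F), θ])
      = Subalgebra.toSubmodule K := by
    apply Submodule.eq_of_le_of_finrank_eq
    · rw [Submodule.span_le]
      rintro _ ⟨i, rfl⟩
      fin_cases i
      · exact K.one_mem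
      · exact hθK
    · rw [finrank_span_eq_card hli, Fintype.card_fin]
      exact hK.finrank_eq.symm
  have hmem : ∀ k, k ∈ K ↔ ∃ a b : F, k = a • (1 : Matrix (Fin n) (Fin n) F) + b • θ := by
    intro k
    rw [← Subalgebra.mem_toSubmodule, ← hspan, Submodule.mem_span_range_iff_exists_fun]
    constructor
    · rintro ⟨c, hc⟩
      refine ⟨c 0, c 1, ?_⟩
      rw [← hc, Fin.sum_univ_two]
      rfl
    · rintro ⟨a, b, rfl⟩
      refine ⟨![a, b], ?_⟩
      rw [Fin.sum_univ_two]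
      rfl
  obtain ⟨d, t, hθθ⟩ := (hmem (θ * θ)).mp (K.mul_mem hθK hθK)
  refine ⟨θ, hθK, t, d, by rw [hθθ, add_comm], ?_, hθ, hmem⟩
  intro l hl
  have hd : d = l * l - t * l := by linear_combination -hl
  have h1 : θ - l • (1 : Matrix (Fin n) (Fin n) F) ∈ K :=
    K.sub_mem hθK (K.smul_mem K.one_mem l)
  obtain ⟨y, hyK, hy⟩ := hK.inv _ h1 (sub_ne_zero.mpr (hθ l))
  have hy' : y * (θ - l • (1 : Matrix (Fin n) (Fin n) F)) = 1 := by
    rw [← hK.comm _ h1 _ hyK]
    exact hy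
  have h2 : (θ - l • (1 : Matrix (Fin n) (Fin n) F))
      * (θ - (t - l) • (1 : Matrix (Fin n) (Fin n) F)) = 0 := by
    rw [Matrix.sub_mul, Matrix.mul_sub, Matrix.mul_sub, smul_one_mul, smul_one_mul,
      mul_smul_one, hθθ, hd]
    module
  apply hθ (t - l)
  have h3 : θ - (t - l) • (1 : Matrix (Fin n) (Fin n) F) = 0 := by
    calc θ - (t - l) • (1 : Matrix (Fin n) (Fin n) F)
        = y * ((θ - l • (1 : Matrix (Fin n) (Fin n) F))
          * (θ - (t - l) • (1 : Matrix (Fin n) (Fin n) F))) := by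
          rw [← Matrix.mul_assoc, hy', Matrix.one_mul]
      _ = 0 := by rw [h2, Matrix.mul_zero]
  exact sub_eq_zero.mp h3

/-- an invertible matrix sending `θ` to `θ` or to its conjugate `t - θ` normalizes `K` -/
theorem mem_normalizer (K : Subalgebra F (Matrix (Fin n) (Fin n) F))
    (θ : Matrix (Fin n) (Fin n) F) (t : F)
    (hmem : ∀ k, k ∈ K ↔ ∃ a b : F, k = a • (1 : Matrix (Fin n) (Fin n) F) + b • θ)
    (g : GL (Fin n) F)
    (h : (g : Matrix (Fin n) (Fin n) F) * θ = θ * (g : Matrix (Fin n) (Fin n) F) ∨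
      (g : Matrix (Fin n) (Fin n) F) * θ
        = (t • (1 : Matrix (Fin n) (Fin n) F) - θ) * (g : Matrix (Fin n) (Fin n) F)) :
    g ∈ Cfsg.Geo.subalgebraNormalizer K := by
  have hθK : θ ∈ K := (hmem θ).mpr ⟨0, 1, by rw [zero_smul, zero_add, one_smul]⟩
  have hθ'K : t • (1 : Matrix (Fin n) (Fin n) F) - θ ∈ K :=
    K.sub_mem (K.smul_mem K.one_mem t) hθK
  have hGG : (g : Matrix (Fin n) (Fin n) F) * ((g⁻¹ : GL (Fin n) F) : Matrix (Fin n) (Fin n) F)
      = 1 := by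
    rw [← Units.val_mul, mul_inv_cancel, Units.val_one]
  have hGG' : ((g⁻¹ : GL (Fin n) F) : Matrix (Fin n) (Fin n) F) * (g : Matrix (Fin n) (Fin n) F)
      = 1 := by
    rw [← Units.val_mul, inv_mul_cancel, Units.val_one]
  obtain ⟨θ₁, hθ₁K, h1⟩ : ∃ θ₁ ∈ K, (g : Matrix (Fin n) (Fin n) F) * θ
      * ((g⁻¹ : GL (Fin n) F) : Matrix (Fin n) (Fin n) F) = θ₁ := by
    rcases h with h | h
    · exact ⟨θ, hθK, by rw [h, Matrix.mul_assoc, hGG, Matrix.mul_one]⟩
    · exact ⟨_, hθ'K, by rw [h, Matrix.mul_assoc, hGG, Matrix.mul_one]⟩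
  obtain ⟨θ₂, hθ₂K, h2⟩ : ∃ θ₂ ∈ K, ((g⁻¹ : GL (Fin n) F) : Matrix (Fin n) (Fin n) F) * θ
      * (g : Matrix (Fin n) (Fin n) F) = θ₂ := by
    rcases h with h | h
    · refine ⟨θ, hθK, ?_⟩
      rw [Matrix.mul_assoc, ← h, ← Matrix.mul_assoc, hGG', Matrix.one_mul]
    · refine ⟨_, hθ'K, ?_⟩
      have h3 : ((g⁻¹ : GL (Fin n) F) : Matrix (Fin n) (Fin n) F)
          * (t • (1 : Matrix (Fin n) (Fin n) F) - θ) * (g : Matrix (Fin n) (Fin n) F) = θ := by
        rw [Matrix.mul_assoc, ← h, ← Matrix.mul_assoc, hGG', Matrix.one_mul]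
      rw [Matrix.mul_sub, Matrix.sub_mul, Matrix.mul_smul, Matrix.mul_one, Matrix.smul_mul,
        hGG'] at h3
      have h4 := sub_eq_iff_eq_add.mp h3
      rw [h4, add_sub_cancel_left]
  intro k
  show k ∈ K ↔ (g : Matrix (Fin n) (Fin n) F) * k
    * ((g⁻¹ : GL (Fin n) F) : Matrix (Fin n) (Fin n) F) ∈ K
  constructor
  · intro hk
    obtain ⟨a, b, rfl⟩ := (hmem k).mp hk
    have e : (g : Matrix (Fin n) (Fin n) F) * (a • (1 : Matrix (Fin n) (Fin n) F) + b • θ)
        * ((g⁻¹ : GL (Fin n) F) : Matrix (Fin n) (Fin n) F)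
        = a • (1 : Matrix (Fin n) (Fin n) F) + b • θ₁ := by
      rw [Matrix.mul_add, Matrix.add_mul, Matrix.mul_smul, Matrix.mul_one, Matrix.smul_mul, hGG,
        Matrix.mul_smul, Matrix.smul_mul, h1]
    rw [e]
    exact K.add_mem (K.smul_mem K.one_mem a) (K.smul_mem hθ₁K b)
  · intro hk
    obtain ⟨a, b, hab⟩ := (hmem _).mp hk
    have e : k = a • (1 : Matrix (Fin n) (Fin n) F) + b • θ₂ := by
      have e1 : k = ((g⁻¹ : GL (Fin n) F) : Matrix (Fin n) (Fin n) F)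
          * ((g : Matrix (Fin n) (Fin n) F) * k
            * ((g⁻¹ : GL (Fin n) F) : Matrix (Fin n) (Fin n) F))
          * (g : Matrix (Fin n) (Fin n) F) := by
        rw [Matrix.mul_assoc, Matrix.mul_assoc, hGG', Matrix.mul_one, ← Matrix.mul_assoc, hGG',
          Matrix.one_mul]
      rw [e1, hab, Matrix.mul_add, Matrix.add_mul, Matrix.mul_smul, Matrix.mul_one,
        Matrix.smul_mul, hGG', Matrix.mul_smul, Matrix.smul_mul, h2]
    rw [e]
    exact K.add_mem (K.smul_mem K.one_mem a) (K.smul_mem hθ₂K b)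

/-- no scalar multiple of `1 + (rank one)` normalizes `K` when `n ≥ 3` -/
theorem rank_one_not_mem (hn : 3 ≤ n) (K : Subalgebra F (Matrix (Fin n) (Fin n) F))
    (hK : Cfsg.Geo.IsFieldSubalgebra 2 K) (g : GL (Fin n) F)
    (hg : g ∈ Cfsg.Geo.subalgebraNormalizer K) (c : F) (hc : c ≠ 0) (a b : Fin n → F)
    (ha : a ≠ 0) (hb : b ≠ 0)
    (hgm : (g : Matrix (Fin n) (Fin n) F) = c • (1 + Matrix.vecMulVec a b)) : False := by
  classical
  obtain ⟨θ, hθK, t, d, -, -, hθ, -⟩ := k_struct (by omega) K hK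
  have hGG' : ((g⁻¹ : GL (Fin n) F) : Matrix (Fin n) (Fin n) F) * (g : Matrix (Fin n) (Fin n) F)
      = 1 := by
    rw [← Units.val_mul, inv_mul_cancel, Units.val_one]
  obtain ⟨θ', hθ'def⟩ : ∃ θ', θ' = (g : Matrix (Fin n) (Fin n) F) * θ
      * ((g⁻¹ : GL (Fin n) F) : Matrix (Fin n) (Fin n) F) := ⟨_, rfl⟩
  have hθ'K : θ' ∈ K := by
    rw [hθ'def]
    exact (hg θ).mp hθK
  have h1 : (g : Matrix (Fin n) (Fin n) F) * θ = θ' * (g : Matrix (Fin n) (Fin n) F) := by
    rw [hθ'def, Matrix.mul_assoc, hGG', Matrix.mul_one]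
  rw [hgm, Matrix.smul_mul, Matrix.mul_smul] at h1
  have h2 : (1 + Matrix.vecMulVec a b) * θ = θ' * (1 + Matrix.vecMulVec a b) := by
    have h3 := congrArg (fun M => c⁻¹ • M) h1
    simp only [smul_smul, inv_mul_cancel₀ hc, one_smul] at h3
    exact h3
  rw [Matrix.add_mul, Matrix.mul_add, Matrix.one_mul, Matrix.mul_one, Matrix.vecMulVec_mul,
    Matrix.mul_vecMulVec] at h2
  -- h2 : θ + vecMulVec a (b ᵥ* θ) = θ' + vecMulVec (θ' *ᵥ a) b
  have key : ∀ w : Fin n → F, Matrix.mulVec (θ - θ') w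
      = (b ⬝ᵥ w) • Matrix.mulVec θ' a - ((Matrix.vecMul b θ) ⬝ᵥ w) • a := by
    intro w
    have h3 : θ - θ' = Matrix.vecMulVec (Matrix.mulVec θ' a) b
        - Matrix.vecMulVec a (Matrix.vecMul b θ) := by
      rw [sub_eq_sub_iff_add_eq_add, add_comm (Matrix.vecMulVec (Matrix.mulVec θ' a) b)]
      exact h2
    rw [h3, Matrix.sub_mulVec, vmv, vmv]
  have hinv : ∀ k ∈ K, k ≠ 0 → ∀ w : Fin n → F, Matrix.mulVec k w = 0 → w = 0 := by
    intro k hk hk0 w hw
    obtain ⟨y, hyK, hy⟩ := hK.inv k hk hk0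
    have hy' : y * k = 1 := by
      rw [← hK.comm k hk y hyK]
      exact hy
    have h3 : w = Matrix.mulVec y (Matrix.mulVec k w) := by
      rw [Matrix.mulVec_mulVec, hy', Matrix.one_mulVec]
    rw [h3, hw, Matrix.mulVec_zero]
  by_cases hθ' : θ' = θ
  · -- `a` is an eigenvector of `θ`
    obtain ⟨i₀, hi₀⟩ : ∃ i, b i ≠ 0 := by
      by_contra hcon
      push Not at hcon
      exact hb (funext hcon)
    have h3 := key (Pi.single i₀ (b i₀)⁻¹)
    rw [hθ', sub_self, Matrix.zero_mulVec, dotProduct_single, mul_inv_cancel₀ hi₀, one_smul]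
      at h3
    have h4 : Matrix.mulVec (θ - ((Matrix.vecMul b θ) ⬝ᵥ (Pi.single i₀ (b i₀)⁻¹))
        • (1 : Matrix (Fin n) (Fin n) F)) a = 0 := by
      rw [Matrix.sub_mulVec, Matrix.smul_mulVec, Matrix.one_mulVec]
      exact h3.symm
    exact ha (hinv _ (K.sub_mem hθK (K.smul_mem K.one_mem _)) (sub_ne_zero.mpr (hθ _)) a h4)
  · -- a vector killed by both functionals
    have hker : LinearMap.ker (Matrix.toLin' (Matrix.of ![b, Matrix.vecMul b θ])) ≠ ⊥ := by
      apply LinearMap.ker_ne_bot_of_finrank_lt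
      rw [Module.finrank_fintype_fun_eq_card, Module.finrank_fintype_fun_eq_card,
        Fintype.card_fin, Fintype.card_fin]
      omega
    obtain ⟨w, hwker, hw0⟩ := (Submodule.ne_bot_iff _).mp hker
    rw [LinearMap.mem_ker, Matrix.toLin'_apply] at hwker
    have h5 : b ⬝ᵥ w = 0 := congrFun hwker 0
    have h6 : (Matrix.vecMul b θ) ⬝ᵥ w = 0 := congrFun hwker 1
    have h7 := key w
    rw [h5, h6, zero_smul, zero_smul, sub_zero] at h7
    exact hw0 (hinv _ (K.sub_mem hθK hθ'K) (sub_ne_zero.mpr (Ne.symm hθ')) w h7)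

/-- an element of `SL_n` of the form `c (1 + rank one)` has no conjugate normalizing `K` -/
theorem not_conj_of_rank_one (hn : 3 ≤ n) (K : Subalgebra F (Matrix (Fin n) (Fin n) F))
    (hK : Cfsg.Geo.IsFieldSubalgebra 2 K) (x : Matrix.SpecialLinearGroup (Fin n) F)
    (c : F) (hc : c ≠ 0) (a b : Fin n → F) (ha : a ≠ 0) (hb : b ≠ 0)
    (hx : (x : Matrix (Fin n) (Fin n) F) = c • (1 + Matrix.vecMulVec a b))
    (P : Matrix.SpecialLinearGroup (Fin n) F) :
    P⁻¹ * x * P ∉ ((Cfsg.Geo.subalgebraNormalizer K).comap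
      (Matrix.SpecialLinearGroup.toGL :
        Matrix.SpecialLinearGroup (Fin n) F →* GL (Fin n) F)) := by
  intro h
  rw [Subgroup.mem_comap] at h
  have hPu : IsUnit (P : Matrix (Fin n) (Fin n) F).det := by
    rw [P.det_coe]
    exact isUnit_one
  have hPP : (P : Matrix (Fin n) (Fin n) F) * (P : Matrix (Fin n) (Fin n) F)⁻¹ = 1 :=
    Matrix.mul_nonsing_inv _ hPu
  have hPP' : (P : Matrix (Fin n) (Fin n) F)⁻¹ * (P : Matrix (Fin n) (Fin n) F) = 1 :=
    Matrix.nonsing_inv_mul _ hPu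
  refine rank_one_not_mem hn K hK _ h c hc
    (Matrix.mulVec (P : Matrix (Fin n) (Fin n) F)⁻¹ a)
    (Matrix.vecMul b (P : Matrix (Fin n) (Fin n) F)) ?_ ?_ ?_
  · intro h0
    apply ha
    have h1 : a = Matrix.mulVec (P : Matrix (Fin n) (Fin n) F)
        (Matrix.mulVec (P : Matrix (Fin n) (Fin n) F)⁻¹ a) := by
      rw [Matrix.mulVec_mulVec, hPP, Matrix.one_mulVec]
    rw [h1, h0, Matrix.mulVec_zero]
  · intro h0
    apply hb
    have h1 : b = Matrix.vecMul (Matrix.vecMul b (P : Matrix (Fin n) (Fin n) F))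
        (P : Matrix (Fin n) (Fin n) F)⁻¹ := by
      rw [Matrix.vecMul_vecMul, hPP, Matrix.vecMul_one]
    rw [h1, h0, Matrix.zero_vecMul]
  · rw [coe_conj, hx, Matrix.mul_smul, Matrix.smul_mul, Matrix.mul_add, Matrix.add_mul,
      Matrix.mul_one, hPP', Matrix.mul_vecMulVec, Matrix.vecMulVec_mul]

end A

end Cfsg.Agent.Helper16.QExt
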