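import Cfsg.Agent.Helper16.QExtA

set_option autoImplicit false
open Cfsg
open scoped MatrixGroups

namespace Cfsg.Agent.Helper16.QExt

open Module Submodule Cfsg.Agent.Helper16.Jord

section B
variable {F : Type*} [Field F] {V : Type*} [AddCommGroup V] [Module F V]

/-- the key independence lemma for an endomorphism with irreducible quadratic relation -/
theorem key_indep (T : V →ₗ[F] V) (t d : F) (hT : ∀ v, T (T v) = t • T v + d • v)
    (hirr : ∀ l : F, l * l ≠ t * l + d) (W : Submodule F V) (hW : ∀ w ∈ W, T w ∈ W)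
    (w : V) (hw : w ∉ W) (a b : F) (hab : a • w + b • T w ∈ W) : a = 0 ∧ b = 0 := by
  have h1 : (a * a + a * b * t - b * b * d) • w ∈ W := by
    have h2 : (a + b * t) • (a • w + b • T w) - b • T (a • w + b • T w) ∈ W :=
      W.sub_mem (W.smul_mem _ hab) (W.smul_mem _ (hW _ hab))
    have e : (a + b * t) • (a • w + b • T w) - b • T (a • w + b • T w)
        = (a * a + a * b * t - b * b * d) • w := by
      rw [map_add, map_smul, map_smul, hT]
      module
    rw [e] at h2
    exact h2
  have h2 : a * a + a * b * t - b * b * d = 0 := by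
    by_contra hne
    apply hw
    have h3 := W.smul_mem (a * a + a * b * t - b * b * d)⁻¹ h1
    rw [smul_smul, inv_mul_cancel₀ hne, one_smul] at h3
    exact h3
  by_cases hb : b = 0
  · subst hb
    have ha : a * a = 0 := by linear_combination h2
    exact ⟨mul_self_eq_zero.mp ha, rfl⟩
  · exfalso
    apply hirr (-a / b)
    field_simp
    linear_combination h2

theorem pair_li (T : V →ₗ[F] V) (t d : F) (hT : ∀ v, T (T v) = t • T v + d • v)
    (hirr : ∀ l : F, l * l ≠ t * l + d) (W : Submodule F V) (hW : ∀ w ∈ W, T w ∈ W)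
    (w : V) (hw : w ∉ W) :
    LinearIndependent F ![w, T w] ∧ Disjoint W (span F {w, T w}) := by
  constructor
  · rw [LinearIndependent.pair_iff]
    intro a b hab
    exact key_indep T t d hT hirr W hW w hw a b (by rw [hab]; exact W.zero_mem)
  · rw [Submodule.disjoint_def]
    intro x hxW hx
    rw [Submodule.mem_span_pair] at hx
    obtain ⟨a, b, rfl⟩ := hx
    obtain ⟨rfl, rfl⟩ := key_indep T t d hT hirr W hW w hw a b hxW
    rw [zero_smul, zero_smul, add_zero]

theorem pair_stable (T : V →ₗ[F] V) (t d : F) (hT : ∀ v, T (T v) = t • T v + d • v)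
    (W : Submodule F V) (hW : ∀ w ∈ W, T w ∈ W) (w : V) :
    ∀ x ∈ W ⊔ span F {w, T w}, T x ∈ W ⊔ span F {w, T w} := by
  intro x hx
  obtain ⟨y, hy, z, hz, rfl⟩ := Submodule.mem_sup.mp hx
  rw [map_add]
  apply Submodule.add_mem
  · exact Submodule.mem_sup_left (hW y hy)
  · apply Submodule.mem_sup_right
    rw [Submodule.mem_span_pair] at hz ⊢
    obtain ⟨a, b, rfl⟩ := hz
    refine ⟨b * d, a + b * t, ?_⟩
    rw [map_add, map_smul, map_smul, hT]
    module

theorem li_unit_sum {w w' : V} (h : LinearIndependent F ![w, w']) :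
    LinearIndependent F (Sum.elim (fun _ : Unit => w) (fun _ : Unit => w')) := by
  have e : (Sum.elim (fun _ : Unit => w) (fun _ : Unit => w'))
      = ![w, w'] ∘ (Sum.elim (fun _ : Unit => (0 : Fin 2)) (fun _ : Unit => (1 : Fin 2))) := by
    funext i
    rcases i with i | i <;> rfl
  rw [e]
  apply h.comp
  intro i j hij
  rcases i with i | i <;> rcases j with j | j <;> simp at hij ⊢

theorem range_unit_sum (w w' : V) :
    Set.range (Sum.elim (fun _ : Unit => w) (fun _ : Unit => w')) = {w, w'} := by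
  rw [Set.Sum.elim_range, Set.range_const, Set.range_const, Set.singleton_union]

/-- chain families relative to a stable subspace -/
theorem chain [FiniteDimensional F V] (T : V →ₗ[F] V) (t d : F)
    (hT : ∀ v, T (T v) = t • T v + d • v) (hirr : ∀ l : F, l * l ≠ t * l + d) :
    ∀ (j : ℕ) (W : Submodule F V), (∀ w ∈ W, T w ∈ W) → finrank F W + 2 * j = finrank F V →
      ∃ (ι : Type) (_ : Fintype ι) (u : ι → V), Fintype.card ι = j ∧
        LinearIndependent F (Sum.elim u (fun i => T (u i))) ∧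
        Disjoint W (span F (Set.range (Sum.elim u (fun i => T (u i))))) := by
  intro j
  induction j with
  | zero =>
    intro W hW hfin
    refine ⟨Empty, inferInstance, Empty.elim, Fintype.card_empty, ?_, ?_⟩
    · exact linearIndependent_empty_type
    · have h0 : Set.range (Sum.elim (Empty.elim : Empty → V) (fun i => T (Empty.elim i))) = ∅ := by
        rw [Set.range_eq_empty_iff]
        infer_instance
      rw [h0, Submodule.span_empty]
      exact disjoint_bot_right
  | succ j ih =>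
    intro W hW hfin
    have hWtop : W ≠ ⊤ := by
      rintro rfl
      rw [finrank_top] at hfin
      omega
    obtain ⟨w, hw⟩ : ∃ w, w ∉ W := by
      by_contra hcon
      push Not at hcon
      exact hWtop (eq_top_iff.mpr (fun x _ => hcon x))
    obtain ⟨hli2, hdis2⟩ := pair_li T t d hT hirr W hW w hw
    have hW' := pair_stable T t d hT W hW w
    have hfin' : finrank F ↥(W ⊔ span F {w, T w}) + 2 * j = finrank F V := by
      have h1 := Submodule.finrank_sup_add_finrank_inf_eq W (span F {w, T w})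
      have h2 : finrank F ↥(span F {w, T w}) = 2 := by
        have h3 := finrank_span_eq_card hli2
        rw [Matrix.range_cons_cons_empty, Fintype.card_fin] at h3
        exact h3
      rw [disjoint_iff.mp hdis2, finrank_bot, add_zero, h2] at h1
      omega
    obtain ⟨ι, inst, u, hcard, hli, hdis⟩ := ih _ hW' hfin'
    have hA : LinearIndependent F (Sum.elim (Sum.elim u (fun i => T (u i)))
        (Sum.elim (fun _ : Unit => w) (fun _ : Unit => T w))) := by
      apply hli.sum_type (li_unit_sum hli2)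
      rw [range_unit_sum]
      exact hdis.symm.mono_right le_sup_right
    have e : Sum.elim (Sum.elim u (fun _ : Unit => w))
        (fun i => T (Sum.elim u (fun _ : Unit => w) i))
        = (Sum.elim (Sum.elim u (fun i => T (u i)))
          (Sum.elim (fun _ : Unit => w) (fun _ : Unit => T w)))
          ∘ (Equiv.sumSumSumComm ι Unit ι Unit) := by
      funext x
      rcases x with (i | i) | (i | i) <;> rfl
    refine ⟨ι ⊕ Unit, inferInstance, Sum.elim u (fun _ => w), ?_, ?_, ?_⟩
    · rw [Fintype.card_sum, Fintype.card_unit, hcard]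
    · rw [e]
      exact hA.comp _ (Equiv.injective _)
    · rw [e, (Equiv.surjective _).range_comp, Set.Sum.elim_range, Submodule.span_union,
        range_unit_sum, sup_comm]
      exact hdis2.disjoint_sup_right_of_disjoint_sup_left hdis

theorem chain_fin [FiniteDimensional F V] (T : V →ₗ[F] V) (t d : F)
    (hT : ∀ v, T (T v) = t • T v + d • v) (hirr : ∀ l : F, l * l ≠ t * l + d)
    (j : ℕ) (W : Submodule F V) (hW : ∀ w ∈ W, T w ∈ W)
    (hfin : finrank F W + 2 * j = finrank F V) :
    ∃ u : Fin j → V, LinearIndependent F (Sum.elim u (fun i => T (u i))) ∧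
      Disjoint W (span F (Set.range (Sum.elim u (fun i => T (u i))))) := by
  obtain ⟨ι, inst, u, hcard, hli, hdis⟩ := chain T t d hT hirr j W hW hfin
  obtain ⟨e₀⟩ : Nonempty (Fin j ≃ ι) := ⟨(Fintype.equivFinOfCardEq hcard).symm⟩
  have e : Sum.elim (u ∘ e₀) (fun i => T ((u ∘ e₀) i))
      = (Sum.elim u (fun i => T (u i))) ∘ (Equiv.sumCongr e₀ e₀) := by
    funext x
    rcases x with x | x <;> rfl
  refine ⟨u ∘ e₀, ?_, ?_⟩
  · rw [e]
    exact hli.comp _ (Equiv.injective _)
  · rw [e, (Equiv.surjective _).range_comp]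
    exact hdis

/-- index type of the normal form -/
abbrev QI (h : ℕ) : Type := Fin 2 ⊕ (Fin h ⊕ Fin h)

/-- the normal form matrix -/
def Cm (t d : F) (h : ℕ) : Matrix (QI h) (QI h) F :=
  Matrix.fromBlocks !![0, d; 1, t] 0 0 (Matrix.fromBlocks 0 (d • 1) 1 (t • 1))

theorem exists_nf_basis [FiniteDimensional F V] (T : V →ₗ[F] V) (t d : F)
    (hT : ∀ v, T (T v) = t • T v + d • v) (hirr : ∀ l : F, l * l ≠ t * l + d)
    (h : ℕ) (hdim : finrank F V = 2 + (h + h)) :
    ∃ b : Basis (QI h) F V, T (b (Sum.inl 0)) = b (Sum.inl 1) ∧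
      T (b (Sum.inl 1)) = d • b (Sum.inl 0) + t • b (Sum.inl 1) ∧
      (∀ i, T (b (Sum.inr (Sum.inl i))) = b (Sum.inr (Sum.inr i))) ∧
      (∀ i, T (b (Sum.inr (Sum.inr i)))
        = d • b (Sum.inr (Sum.inl i)) + t • b (Sum.inr (Sum.inr i))) := by
  classical
  obtain ⟨v₀, hv₀⟩ : ∃ v₀ : V, v₀ ≠ 0 := by
    have hpos : 0 < finrank F V := by omega
    exact (Module.finrank_pos_iff_exists_ne_zero (R := F) (M := V)).mp hpos
  have hbot : ∀ w ∈ (⊥ : Submodule F V), T w ∈ (⊥ : Submodule F V) := by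
    intro w hw
    rw [Submodule.mem_bot] at hw ⊢
    rw [hw, map_zero]
  obtain ⟨hli2, -⟩ := pair_li T t d hT hirr ⊥ hbot v₀ (by rw [Submodule.mem_bot]; exact hv₀)
  have hW₀ := pair_stable T t d hT ⊥ hbot v₀
  rw [bot_sup_eq] at hW₀
  have hr2 : Set.range ![v₀, T v₀] = {v₀, T v₀} := Matrix.range_cons_cons_empty _ _ _
  have hf2 : finrank F ↥(span F {v₀, T v₀}) = 2 := by
    have h3 := finrank_span_eq_card hli2
    rw [hr2, Fintype.card_fin] at h3
    exact h3
  obtain ⟨u, hli, hdis⟩ := chain_fin T t d hT hirr h (span F {v₀, T v₀}) hW₀ (by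
    rw [hf2, hdim]
    omega)
  have hG : LinearIndependent F (Sum.elim ![v₀, T v₀] (Sum.elim u (fun i => T (u i)))) := by
    apply hli2.sum_type hli
    rw [hr2]
    exact hdis
  have hcard : Fintype.card (QI h) = finrank F V := by
    rw [hdim]
    simp only [QI, Fintype.card_sum, Fintype.card_fin]
  refine ⟨basisOfLinearIndependentOfCardEqFinrank hG hcard, ?_, ?_, ?_, ?_⟩
  · rw [coe_basisOfLinearIndependentOfCardEqFinrank]
    rfl
  · rw [coe_basisOfLinearIndependentOfCardEqFinrank]
    show T (T v₀) = d • v₀ + t • T v₀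
    rw [hT, add_comm]
  · intro i
    rw [coe_basisOfLinearIndependentOfCardEqFinrank]
    rfl
  · intro i
    rw [coe_basisOfLinearIndependentOfCardEqFinrank]
    show T (T (u i)) = d • u i + t • T (u i)
    rw [hT, add_comm]

theorem toMatrix_nf {h : ℕ} (b : Basis (QI h) F V) (T : V →ₗ[F] V) (t d : F)
    (h0 : T (b (Sum.inl 0)) = b (Sum.inl 1))
    (h1 : T (b (Sum.inl 1)) = d • b (Sum.inl 0) + t • b (Sum.inl 1))
    (h2 : ∀ i, T (b (Sum.inr (Sum.inl i))) = b (Sum.inr (Sum.inr i)))
    (h3 : ∀ i, T (b (Sum.inr (Sum.inr i)))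
        = d • b (Sum.inr (Sum.inl i)) + t • b (Sum.inr (Sum.inr i))) :
    LinearMap.toMatrix b b T = Cm t d h := by
  classical
  ext l k
  rw [LinearMap.toMatrix_apply]
  rcases k with k | k | k
  · fin_cases k
    · show b.repr (T (b (Sum.inl 0))) l = _
      rw [h0, Basis.repr_self, Finsupp.single_apply]
      rcases l with l | l | l
      · fin_cases l <;> simp [Cm]
      · simp [Cm]
      · simp [Cm]
    · show b.repr (T (b (Sum.inl 1))) l = _
      rw [h1, map_add, map_smul, map_smul, Basis.repr_self, Basis.repr_self, Finsupp.add_apply,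
        Finsupp.smul_apply, Finsupp.smul_apply, Finsupp.single_apply, Finsupp.single_apply]
      rcases l with l | l | l
      · fin_cases l <;> simp [Cm]
      · simp [Cm]
      · simp [Cm]
  · rw [h2, Basis.repr_self, Finsupp.single_apply]
    rcases l with l | l | l
    · simp [Cm]
    · simp [Cm]
    · by_cases hlk : l = k
      · subst hlk
        simp [Cm]
      · have hkl : k ≠ l := fun h => hlk h.symm
        simp [Cm, hlk, hkl]
  · rw [h3, map_add, map_smul, map_smul, Basis.repr_self, Basis.repr_self, Finsupp.add_apply,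
      Finsupp.smul_apply, Finsupp.smul_apply, Finsupp.single_apply, Finsupp.single_apply]
    rcases l with l | l | l
    · simp [Cm]
    · by_cases hlk : l = k
      · subst hlk
        simp [Cm]
      · have hkl : k ≠ l := fun h => hlk h.symm
        simp [Cm, hlk, hkl]
    · by_cases hlk : l = k
      · subst hlk
        simp [Cm]
      · have hkl : k ≠ l := fun h => hlk h.symm
        simp [Cm, hlk, hkl]

theorem exists_nf {n : ℕ} (h : ℕ) (hn : n = 2 + (h + h)) (t d : F)
    (hirr : ∀ l : F, l * l ≠ t * l + d) (θ : Matrix (Fin n) (Fin n) F)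
    (hθ : θ * θ = t • θ + d • (1 : Matrix (Fin n) (Fin n) F)) (ε : QI h ≃ Fin n) :
    ∃ B Bi : Matrix (Fin n) (Fin n) F, B * Bi = 1 ∧ Bi * B = 1 ∧
      Bi * θ * B = (Cm t d h).submatrix ε.symm ε.symm := by
  classical
  have hT : ∀ v, Matrix.toLin' θ (Matrix.toLin' θ v) = t • Matrix.toLin' θ v + d • v := by
    intro v
    rw [Matrix.toLin'_apply, Matrix.toLin'_apply, Matrix.mulVec_mulVec, hθ, Matrix.add_mulVec,
      Matrix.smul_mulVec, Matrix.smul_mulVec, Matrix.one_mulVec]
  obtain ⟨b, h0, h1, h2, h3⟩ := exists_nf_basis (Matrix.toLin' θ) t d hT hirr h (by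
    rw [Module.finrank_fin_fun, hn])
  have hM := toMatrix_nf b _ t d h0 h1 h2 h3
  refine ⟨(Pi.basisFun F (Fin n)).toMatrix (b.reindex ε),
    (b.reindex ε).toMatrix (Pi.basisFun F (Fin n)), Basis.toMatrix_mul_toMatrix_flip _ _,
    Basis.toMatrix_mul_toMatrix_flip _ _, ?_⟩
  have h4 := basis_toMatrix_mul_linearMap_toMatrix_mul_basis_toMatrix (b.reindex ε)
    (Pi.basisFun F (Fin n)) (b.reindex ε) (Pi.basisFun F (Fin n)) (Matrix.toLin' θ)
  have hmid : LinearMap.toMatrix (Pi.basisFun F (Fin n)) (Pi.basisFun F (Fin n))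
      (Matrix.toLin' θ) = θ := by
    rw [LinearMap.toMatrix_eq_toMatrix', LinearMap.toMatrix'_toLin']
  rw [hmid] at h4
  rw [h4, ← hM]
  ext i k
  rw [Matrix.submatrix_apply, LinearMap.toMatrix_apply, LinearMap.toMatrix_apply,
    Basis.reindex_apply, Basis.repr_reindex_apply]

end B

section C
variable {F : Type*} [Field F] [Fintype F]

theorem sq_sum (hodd : Odd (Fintype.card F)) (a b r : F) (ha : a ≠ 0) (hb : b ≠ 0) :
    ∃ x y : F, a * x ^ 2 + b * y ^ 2 = r := by
  classical
  have hf : (Polynomial.C a * Polynomial.X ^ 2 : Polynomial F).degree = 2 := by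
    rw [Polynomial.degree_C_mul_X_pow 2 ha]
    rfl
  have hg : (Polynomial.C b * Polynomial.X ^ 2 - Polynomial.C r : Polynomial F).degree = 2 := by
    have hb2 : (Polynomial.C b * Polynomial.X ^ 2 : Polynomial F).degree = 2 := by
      rw [Polynomial.degree_C_mul_X_pow 2 hb]
      rfl
    rw [Polynomial.degree_sub_eq_left_of_degree_lt, hb2]
    rw [hb2]
    exact lt_of_le_of_lt Polynomial.degree_C_le (by norm_num)
  obtain ⟨x, y, hxy⟩ := FiniteField.exists_root_sum_quadratic hf hg (Nat.odd_iff.mp hodd)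
  refine ⟨x, y, ?_⟩
  simp only [Polynomial.eval_mul, Polynomial.eval_C, Polynomial.eval_pow, Polynomial.eval_X,
    Polynomial.eval_sub] at hxy
  linear_combination hxy

/-- the norm form of the quadratic extension represents everything -/
theorem norm_surj (t d : F) (hirr : ∀ l : F, l * l ≠ t * l + d) (δ : F) :
    ∃ α β : F, α * (α + β * t) - β * d * β = δ := by
  by_cases hch : ringChar F = 2
  · obtain ⟨a, ha⟩ := FiniteField.isSquare_of_char_two hch δ
    exact ⟨a, 0, by rw [ha]; ring⟩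
  · have hodd := FiniteField.odd_card_of_char_ne_two hch
    have h2 : (2 : F) ≠ 0 := Ring.two_ne_zero hch
    have hΔ : -(t * t + 4 * d) ≠ 0 := by
      intro h0
      apply hirr (t / 2)
      field_simp
      linear_combination h0
    obtain ⟨x, y, hxy⟩ := sq_sum (Nat.odd_iff.mpr hodd) 1 (-(t * t + 4 * d)) (4 * δ) one_ne_zero hΔ
    refine ⟨(x - y * t) / 2, y, ?_⟩
    field_simp
    linear_combination hxy

theorem conj_lemma {n : ℕ} (h : ℕ) (hn : n = 2 + (h + h)) (t d : F)
    (hirr : ∀ l : F, l * l ≠ t * l + d) (θ θ' : Matrix (Fin n) (Fin n) F)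
    (hθ : θ * θ = t • θ + d • (1 : Matrix (Fin n) (Fin n) F))
    (hθ' : θ' * θ' = t • θ' + d • (1 : Matrix (Fin n) (Fin n) F)) :
    ∃ g : Matrix (Fin n) (Fin n) F, g.det = 1 ∧ g * θ = θ' * g := by
  classical
  have hcard : Fintype.card (QI h) = Fintype.card (Fin n) := by
    rw [Fintype.card_fin, hn]
    simp only [QI, Fintype.card_sum, Fintype.card_fin]
  obtain ⟨ε⟩ : Nonempty (QI h ≃ Fin n) := ⟨Fintype.equivOfCardEq hcard⟩
  obtain ⟨B, Bi, hBBi, hBiB, hB⟩ := exists_nf h hn t d hirr θ hθ ε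
  obtain ⟨B', Bi', hBBi', hBiB', hB'⟩ := exists_nf h hn t d hirr θ' hθ' ε
  have hdB : B.det * Bi.det = 1 := by rw [← Matrix.det_mul, hBBi, Matrix.det_one]
  have hdB' : B'.det * Bi'.det = 1 := by rw [← Matrix.det_mul, hBBi', Matrix.det_one]
  have hBi0 : Bi.det ≠ 0 := by
    intro h0
    rw [h0, mul_zero] at hdB
    exact zero_ne_one hdB
  have hB'0 : B'.det ≠ 0 := by
    intro h0
    rw [h0, zero_mul] at hdB'
    exact zero_ne_one hdB'
  obtain ⟨α, β, hαβ⟩ := norm_surj t d hirr (Bi.det⁻¹ * B'.det⁻¹)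
  obtain ⟨E, hE⟩ : ∃ E : Matrix (QI h) (QI h) F,
      E = Matrix.fromBlocks !![α, β * d; β, α + β * t] 0 0 1 := ⟨_, rfl⟩
  have hEdet : E.det = Bi.det⁻¹ * B'.det⁻¹ := by
    rw [hE, Matrix.det_fromBlocks_zero₂₁, Matrix.det_one, mul_one, Matrix.det_fin_two_of, ← hαβ]
  have hEC : E * Cm t d h = Cm t d h * E := by
    rw [hE, Cm, Matrix.fromBlocks_multiply, Matrix.fromBlocks_multiply]
    congr 1
    · rw [Matrix.zero_mul, add_zero, add_zero]
      ext i j
      fin_cases i <;> fin_cases j <;> simp [Matrix.mul_apply, Fin.sum_univ_two] <;> ring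
    · simp
    · simp
    · simp
  obtain ⟨En, hEn⟩ : ∃ En : Matrix (Fin n) (Fin n) F, En = E.submatrix ε.symm ε.symm :=
    ⟨_, rfl⟩
  have hEndet : En.det = Bi.det⁻¹ * B'.det⁻¹ := by
    rw [hEn, Matrix.det_submatrix_equiv_self, hEdet]
  have hEnC : En * (Cm t d h).submatrix ε.symm ε.symm
      = (Cm t d h).submatrix ε.symm ε.symm * En := by
    rw [hEn, Matrix.submatrix_mul_equiv, Matrix.submatrix_mul_equiv, hEC]
  have e1 : Bi * θ = (Cm t d h).submatrix ε.symm ε.symm * Bi := by
    calc Bi * θ = Bi * θ * (B * Bi) := by rw [hBBi, Matrix.mul_one]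
      _ = (Bi * θ * B) * Bi := by simp only [Matrix.mul_assoc]
      _ = (Cm t d h).submatrix ε.symm ε.symm * Bi := by rw [hB]
  have e2 : B' * (Cm t d h).submatrix ε.symm ε.symm = θ' * B' := by
    calc B' * (Cm t d h).submatrix ε.symm ε.symm = B' * (Bi' * θ' * B') := by rw [hB']
      _ = (B' * Bi') * θ' * B' := by simp only [Matrix.mul_assoc]
      _ = θ' * B' := by rw [hBBi', Matrix.one_mul]
  refine ⟨B' * En * Bi, ?_, ?_⟩
  · rw [Matrix.det_mul, Matrix.det_mul, hEndet]
    field_simp
  · calc B' * En * Bi * θ = B' * En * (Bi * θ) := by simp only [Matrix.mul_assoc]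
      _ = B' * (En * (Cm t d h).submatrix ε.symm ε.symm) * Bi := by
        rw [e1]
        simp only [Matrix.mul_assoc]
      _ = (B' * (Cm t d h).submatrix ε.symm ε.symm) * En * Bi := by
        rw [hEnC]
        simp only [Matrix.mul_assoc]
      _ = θ' * (B' * En * Bi) := by
        rw [e2]
        simp only [Matrix.mul_assoc]

/-- a conjugate of `θ` that commutes with `x` up to the field automorphism gives a conjugate of
`x` normalizing `K` -/
theorem pos_conj {n : ℕ} (h : ℕ) (hn : n = 2 + (h + h))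
    (K : Subalgebra F (Matrix (Fin n) (Fin n) F)) (θ : Matrix (Fin n) (Fin n) F) (t d : F)
    (hθ : θ * θ = t • θ + d • (1 : Matrix (Fin n) (Fin n) F))
    (hirr : ∀ l : F, l * l ≠ t * l + d)
    (hmem : ∀ k, k ∈ K ↔ ∃ a b : F, k = a • (1 : Matrix (Fin n) (Fin n) F) + b • θ)
    (x : Matrix.SpecialLinearGroup (Fin n) F) (θ' : Matrix (Fin n) (Fin n) F)
    (hθ' : θ' * θ' = t • θ' + d • (1 : Matrix (Fin n) (Fin n) F))
    (hx : (x : Matrix (Fin n) (Fin n) F) * θ' = θ' * (x : Matrix (Fin n) (Fin n) F) ∨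
      (x : Matrix (Fin n) (Fin n) F) * θ'
        = (t • (1 : Matrix (Fin n) (Fin n) F) - θ') * (x : Matrix (Fin n) (Fin n) F)) :
    ∃ P : Matrix.SpecialLinearGroup (Fin n) F, P⁻¹ * x * P ∈
      ((Cfsg.Geo.subalgebraNormalizer K).comap (Matrix.SpecialLinearGroup.toGL :
        Matrix.SpecialLinearGroup (Fin n) F →* GL (Fin n) F)) := by
  obtain ⟨g, hgdet, hg⟩ := conj_lemma h hn t d hirr θ θ' hθ hθ'
  obtain ⟨P, hP⟩ : ∃ P : Matrix.SpecialLinearGroup (Fin n) F,
      (P : Matrix (Fin n) (Fin n) F) = g := ⟨⟨g, hgdet⟩, rfl⟩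
  refine ⟨P, ?_⟩
  rw [Subgroup.mem_comap]
  apply mem_normalizer K θ t hmem
  rw [coe_conj, hP]
  have hgu : IsUnit g.det := by
    rw [hgdet]
    exact isUnit_one
  have hgg : g * g⁻¹ = 1 := Matrix.mul_nonsing_inv _ hgu
  have hgg' : g⁻¹ * g = 1 := Matrix.nonsing_inv_mul _ hgu
  have e1 : θ * g⁻¹ = g⁻¹ * θ' := by
    calc θ * g⁻¹ = g⁻¹ * (g * θ) * g⁻¹ := by rw [← Matrix.mul_assoc, hgg', Matrix.one_mul]
      _ = g⁻¹ * θ' := by rw [hg, Matrix.mul_assoc, Matrix.mul_assoc, hgg, Matrix.mul_one]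
  rcases hx with hx | hx
  · left
    calc g⁻¹ * (x : Matrix (Fin n) (Fin n) F) * g * θ
        = g⁻¹ * ((x : Matrix (Fin n) (Fin n) F) * θ') * g := by
          rw [Matrix.mul_assoc, hg]
          simp only [Matrix.mul_assoc]
      _ = (g⁻¹ * θ') * (x : Matrix (Fin n) (Fin n) F) * g := by
          rw [hx]
          simp only [Matrix.mul_assoc]
      _ = θ * (g⁻¹ * (x : Matrix (Fin n) (Fin n) F) * g) := by
          rw [← e1]
          simp only [Matrix.mul_assoc]
  · right
    calc g⁻¹ * (x : Matrix (Fin n) (Fin n) F) * g * θ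
        = g⁻¹ * ((x : Matrix (Fin n) (Fin n) F) * θ') * g := by
          rw [Matrix.mul_assoc, hg]
          simp only [Matrix.mul_assoc]
      _ = (t • g⁻¹ - g⁻¹ * θ') * (x : Matrix (Fin n) (Fin n) F) * g := by
          rw [hx, Matrix.sub_mul, Matrix.sub_mul, Matrix.sub_mul, Matrix.mul_sub, Matrix.sub_mul,
            Matrix.smul_mul, Matrix.one_mul, Matrix.smul_mul, Matrix.mul_smul, Matrix.smul_mul]
          simp only [Matrix.mul_assoc]
      _ = (t • (1 : Matrix (Fin n) (Fin n) F) - θ) * (g⁻¹ * (x : Matrix (Fin n) (Fin n) F) * g) := by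
          rw [← e1, Matrix.sub_mul, Matrix.sub_mul, Matrix.sub_mul, Matrix.smul_mul,
            Matrix.smul_mul, Matrix.smul_mul, Matrix.one_mul]
          simp only [Matrix.mul_assoc]

end C

end Cfsg.Agent.Helper16.QExt
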