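import Cfsg.Agent.Helper16.QExtB

set_option autoImplicit false
open Cfsg
open scoped MatrixGroups

namespace Cfsg.Agent.Helper16.QExt

open Module Submodule Cfsg.Agent.Helper16.Jord

section D
variable {F : Type*} [Field F] {n : ℕ}

/-- transfer from linear maps to matrices -/
theorem lift_T (S : Matrix (Fin n) (Fin n) F) (t d : F) (T : (Fin n → F) →ₗ[F] (Fin n → F))
    (hT : ∀ v, T (T v) = t • T v + d • v)
    (h : (∀ v, Matrix.mulVec S (T v) = T (Matrix.mulVec S v)) ∨
      (∀ v, Matrix.mulVec S (T v) = t • Matrix.mulVec S v - T (Matrix.mulVec S v))) :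
    ∃ θ' : Matrix (Fin n) (Fin n) F, θ' * θ' = t • θ' + d • (1 : Matrix (Fin n) (Fin n) F) ∧
      (S * θ' = θ' * S ∨ S * θ' = (t • (1 : Matrix (Fin n) (Fin n) F) - θ') * S) := by
  classical
  have hTv : ∀ v, Matrix.mulVec (LinearMap.toMatrix' T) v = T v := fun v =>
    LinearMap.toMatrix'_mulVec T v
  have hext : ∀ A B : Matrix (Fin n) (Fin n) F,
      (∀ v, Matrix.mulVec A v = Matrix.mulVec B v) → A = B := by
    intro A B hAB
    apply Matrix.toLin'.injective
    apply LinearMap.ext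
    intro v
    rw [Matrix.toLin'_apply, Matrix.toLin'_apply]
    exact hAB v
  refine ⟨LinearMap.toMatrix' T, ?_, ?_⟩
  · apply hext
    intro v
    rw [← Matrix.mulVec_mulVec, hTv, hTv, Matrix.add_mulVec, Matrix.smul_mulVec,
      Matrix.smul_mulVec, Matrix.one_mulVec, hTv, hT]
  · rcases h with h | h
    · left
      apply hext
      intro v
      rw [← Matrix.mulVec_mulVec, ← Matrix.mulVec_mulVec, hTv, hTv, h]
    · right
      apply hext
      intro v
      rw [← Matrix.mulVec_mulVec, ← Matrix.mulVec_mulVec, hTv, Matrix.sub_mulVec,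
        Matrix.smul_mulVec, Matrix.one_mulVec, hTv, h]

/-- the case of a non-square `z`: `θ'` is a polynomial in `x` -/
theorem theta_nonsq [Fintype F] (hch : ringChar F ≠ 2) (t d : F)
    (hirr : ∀ l : F, l * l ≠ t * l + d) (x : Matrix (Fin n) (Fin n) F) (z : F)
    (hz : ¬ IsSquare z) (hx : x * x = z • (1 : Matrix (Fin n) (Fin n) F)) :
    ∃ θ' : Matrix (Fin n) (Fin n) F, θ' * θ' = t • θ' + d • (1 : Matrix (Fin n) (Fin n) F) ∧
      x * θ' = θ' * x := by
  have h2 : (2 : F) ≠ 0 := Ring.two_ne_zero hch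
  obtain ⟨p, rfl⟩ : ∃ p, t = 2 * p := ⟨t / 2, by field_simp⟩
  have hz0 : z ≠ 0 := by
    rintro rfl
    exact hz IsSquare.zero
  have hΔ : ¬ IsSquare (p * p + d) := by
    rintro ⟨c, hc⟩
    apply hirr (p + c)
    linear_combination -hc
  have hΔ0 : p * p + d ≠ 0 := by
    intro h0
    rw [h0] at hΔ
    exact hΔ IsSquare.zero
  have hsq : IsSquare ((p * p + d) / z) := by
    rw [FiniteField.isSquare_iff hch (div_ne_zero hΔ0 hz0), div_pow]
    have h1 : (p * p + d) ^ (Fintype.card F / 2) = -1 := by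
      rcases FiniteField.pow_dichotomy hch hΔ0 with h | h
      · exact absurd ((FiniteField.isSquare_iff hch hΔ0).mpr h) hΔ
      · exact h
    have h2' : z ^ (Fintype.card F / 2) = -1 := by
      rcases FiniteField.pow_dichotomy hch hz0 with h | h
      · exact absurd ((FiniteField.isSquare_iff hch hz0).mpr h) hz
      · exact h
    rw [h1, h2']
    norm_num
  obtain ⟨c, hc⟩ := hsq
  have hc' : c * c * z = p * p + d := by
    rw [← hc]
    field_simp
  refine ⟨p • (1 : Matrix (Fin n) (Fin n) F) + c • x, ?_, ?_⟩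
  · have e1 : (p • (1 : Matrix (Fin n) (Fin n) F) + c • x)
        * (p • (1 : Matrix (Fin n) (Fin n) F) + c • x)
        = (p * p + c * c * z) • (1 : Matrix (Fin n) (Fin n) F) + (2 * p * c) • x := by
      simp only [Matrix.add_mul, Matrix.mul_add, Matrix.smul_mul, Matrix.mul_smul, Matrix.one_mul,
        Matrix.mul_one, hx, smul_smul]
      module
    rw [e1, hc']
    module
  · rw [Matrix.mul_add, Matrix.add_mul, Matrix.mul_smul, Matrix.mul_smul, Matrix.smul_mul,
      Matrix.smul_mul, Matrix.mul_one, Matrix.one_mul]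

variable {V : Type*} [AddCommGroup V] [Module F V]

theorem T_of_pairs {κ : Type*} [Fintype κ] [DecidableEq κ]
    (B : Basis (κ ⊕ κ) F V) (s : V →ₗ[F] V) (c : κ → F)
    (hs1 : ∀ i, s (B (Sum.inl i)) = c i • B (Sum.inl i))
    (hs2 : ∀ i, s (B (Sum.inr i)) = c i • B (Sum.inr i)) (t d : F) :
    ∃ T : V →ₗ[F] V, (∀ v, T (T v) = t • T v + d • v) ∧ (∀ v, s (T v) = T (s v)) := by
  obtain ⟨T, hT⟩ : ∃ T : V →ₗ[F] V, T = B.constr F (Sum.elim (fun i => B (Sum.inr i))
      (fun i => d • B (Sum.inl i) + t • B (Sum.inr i))) := ⟨_, rfl⟩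
  have hT1 : ∀ i, T (B (Sum.inl i)) = B (Sum.inr i) := fun i => by
    rw [hT, Basis.constr_basis]
    rfl
  have hT2 : ∀ i, T (B (Sum.inr i)) = d • B (Sum.inl i) + t • B (Sum.inr i) := fun i => by
    rw [hT, Basis.constr_basis]
    rfl
  refine ⟨T, ?_, ?_⟩
  · intro v
    have h3 : T ∘ₗ T = t • T + d • LinearMap.id := by
      apply B.ext
      intro k
      rcases k with i | i
      · show T (T (B (Sum.inl i))) = t • T (B (Sum.inl i)) + d • B (Sum.inl i)
        rw [hT1, hT2, add_comm]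
      · show T (T (B (Sum.inr i))) = t • T (B (Sum.inr i)) + d • B (Sum.inr i)
        rw [hT2, map_add, map_smul, map_smul, hT1, hT2]
        module
    exact LinearMap.congr_fun h3 v
  · intro v
    have h3 : s ∘ₗ T = T ∘ₗ s := by
      apply B.ext
      intro k
      rcases k with i | i
      · show s (T (B (Sum.inl i))) = T (s (B (Sum.inl i)))
        rw [hT1, hs1, hs2, map_smul, hT1]
      · show s (T (B (Sum.inr i))) = T (s (B (Sum.inr i)))
        rw [hT2, hs2, map_add, map_smul, map_smul, hs1, hs2, map_smul, hT2]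
        module
    exact LinearMap.congr_fun h3 v

theorem T_of_eig (s : V →ₗ[F] V) (a' b' : ℕ) (u : Fin (a' + a') → V) (v : Fin (b' + b') → V)
    (hli : LinearIndependent F (Sum.elim u v)) (hsp : span F (Set.range (Sum.elim u v)) = ⊤)
    (hu : ∀ i, s (u i) = u i) (hv : ∀ j, s (v j) = - v j) (t d : F) :
    ∃ T : V →ₗ[F] V, (∀ v, T (T v) = t • T v + d • v) ∧ (∀ v, s (T v) = T (s v)) := by
  classical
  obtain ⟨e, he⟩ : ∃ e : Fin (a' + a') ⊕ Fin (b' + b') ≃ (Fin a' ⊕ Fin b') ⊕ (Fin a' ⊕ Fin b'),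
      e = (Equiv.sumCongr finSumFinEquiv.symm finSumFinEquiv.symm).trans
        (Equiv.sumSumSumComm _ _ _ _) := ⟨_, rfl⟩
  have hB0 : ∀ k, (Basis.mk hli hsp.ge) k = Sum.elim u v k := fun k => by
    rw [Basis.mk_apply]
  generalize Basis.mk hli hsp.ge = B0 at hB0
  apply T_of_pairs (B0.reindex e) s (Sum.elim (fun _ => (1 : F)) (fun _ => (-1 : F)))
  · intro i
    rw [Basis.reindex_apply, hB0]
    rcases i with i | i
    · have h1 : e.symm (Sum.inl (Sum.inl i)) = Sum.inl (finSumFinEquiv (Sum.inl i)) := by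
        rw [he]
        rfl
      rw [h1]
      simp only [Sum.elim_inl]
      rw [hu, one_smul]
    · have h1 : e.symm (Sum.inl (Sum.inr i)) = Sum.inr (finSumFinEquiv (Sum.inl i)) := by
        rw [he]
        rfl
      rw [h1]
      simp only [Sum.elim_inr]
      rw [hv, neg_smul, one_smul]
  · intro i
    rw [Basis.reindex_apply, hB0]
    rcases i with i | i
    · have h1 : e.symm (Sum.inr (Sum.inl i)) = Sum.inl (finSumFinEquiv (Sum.inr i)) := by
        rw [he]
        rfl
      rw [h1]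
      simp only [Sum.elim_inl]
      rw [hu, one_smul]
    · have h1 : e.symm (Sum.inr (Sum.inr i)) = Sum.inr (finSumFinEquiv (Sum.inr i)) := by
        rw [he]
        rfl
      rw [h1]
      simp only [Sum.elim_inr]
      rw [hv, neg_smul, one_smul]

theorem det_of_eig {a b : ℕ} (B0 : Basis (Fin a ⊕ Fin b) F V) (s : V →ₗ[F] V)
    (hu : ∀ i, s (B0 (Sum.inl i)) = B0 (Sum.inl i))
    (hv : ∀ j, s (B0 (Sum.inr j)) = - B0 (Sum.inr j)) :
    LinearMap.det s = (-1) ^ b := by
  classical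
  have h1 : LinearMap.toMatrix B0 B0 s
      = Matrix.diagonal (Sum.elim (fun _ => (1 : F)) (fun _ => (-1 : F))) := by
    ext i j
    rw [LinearMap.toMatrix_apply, Matrix.diagonal_apply]
    rcases j with j | j
    · rw [hu, Basis.repr_self, Finsupp.single_apply]
      by_cases hij : Sum.inl j = i
      · subst hij
        simp
      · rw [if_neg hij, if_neg (fun h => hij h.symm)]
    · rw [hv, map_neg, Basis.repr_self, Finsupp.neg_apply, Finsupp.single_apply]
      by_cases hij : Sum.inr j = i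
      · subst hij
        simp
      · rw [if_neg hij, if_neg (fun h => hij h.symm), neg_zero]
  rw [← LinearMap.det_toMatrix B0, h1, Matrix.det_diagonal, Fintype.prod_sum_type]
  simp

theorem T_two_odd (B0 : Basis (Fin 1 ⊕ Fin 1) F V) (s : V →ₗ[F] V)
    (hu : s (B0 (Sum.inl 0)) = B0 (Sum.inl 0)) (hv : s (B0 (Sum.inr 0)) = - B0 (Sum.inr 0))
    (h2 : (2 : F) ≠ 0) (t d : F) :
    ∃ T : V →ₗ[F] V, (∀ v, T (T v) = t • T v + d • v) ∧
      (∀ v, s (T v) = t • s v - T (s v)) := by
  obtain ⟨p, rfl⟩ : ∃ p, t = 2 * p := ⟨t / 2, by field_simp⟩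
  obtain ⟨T, hT⟩ : ∃ T : V →ₗ[F] V, T = B0.constr F
      (Sum.elim (fun _ => p • B0 (Sum.inl 0) + (p * p + d) • B0 (Sum.inr 0))
        (fun _ => B0 (Sum.inl 0) + p • B0 (Sum.inr 0))) := ⟨_, rfl⟩
  have hT1 : T (B0 (Sum.inl 0)) = p • B0 (Sum.inl 0) + (p * p + d) • B0 (Sum.inr 0) := by
    rw [hT, Basis.constr_basis]
    rfl
  have hT2 : T (B0 (Sum.inr 0)) = B0 (Sum.inl 0) + p • B0 (Sum.inr 0) := by
    rw [hT, Basis.constr_basis]
    rfl
  have hk : ∀ k : Fin 1, k = 0 := fun k => Subsingleton.elim _ _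
  refine ⟨T, ?_, ?_⟩
  · intro v
    have h3 : T ∘ₗ T = (2 * p) • T + d • LinearMap.id := by
      apply B0.ext
      intro k
      rcases k with k | k
      · rw [hk k]
        show T (T (B0 (Sum.inl 0))) = (2 * p) • T (B0 (Sum.inl 0)) + d • B0 (Sum.inl 0)
        rw [hT1, map_add, map_smul, map_smul, hT1, hT2]
        module
      · rw [hk k]
        show T (T (B0 (Sum.inr 0))) = (2 * p) • T (B0 (Sum.inr 0)) + d • B0 (Sum.inr 0)
        rw [hT2, map_add, map_smul, hT1, hT2]
        module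
    exact LinearMap.congr_fun h3 v
  · intro v
    have h3 : s ∘ₗ T = (2 * p) • s - T ∘ₗ s := by
      apply B0.ext
      intro k
      rcases k with k | k
      · rw [hk k]
        show s (T (B0 (Sum.inl 0))) = (2 * p) • s (B0 (Sum.inl 0)) - T (s (B0 (Sum.inl 0)))
        rw [hT1, map_add, map_smul, map_smul, hu, hv, hT1]
        module
      · rw [hk k]
        show s (T (B0 (Sum.inr 0))) = (2 * p) • s (B0 (Sum.inr 0)) - T (s (B0 (Sum.inr 0)))
        rw [hT2, map_add, map_smul, hu, hv, map_neg, hT2]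
        module
    exact LinearMap.congr_fun h3 v

theorem T_two_even (Bb : Basis (Fin 2) F V) (s : V →ₗ[F] V)
    (he : s (Bb 0) = Bb 0) (hw : s (Bb 1) = Bb 1 + Bb 0) (h2 : (2 : F) = 0) (t d : F)
    (ht : t ≠ 0) :
    ∃ T : V →ₗ[F] V, (∀ v, T (T v) = t • T v + d • v) ∧
      (∀ v, s (T v) = t • s v - T (s v)) := by
  obtain ⟨r, rfl⟩ : ∃ r, d = r * t := ⟨d / t, by field_simp⟩
  have h2V : ∀ y : V, y + y = 0 := fun y => by rw [← two_smul F, h2, zero_smul]
  obtain ⟨T, hT⟩ : ∃ T : V →ₗ[F] V,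
      T = Bb.constr F ![t • Bb 1, r • Bb 0 + t • Bb 1] := ⟨_, rfl⟩
  have hT1 : T (Bb 0) = t • Bb 1 := by
    rw [hT, Basis.constr_basis]
    rfl
  have hT2 : T (Bb 1) = r • Bb 0 + t • Bb 1 := by
    rw [hT, Basis.constr_basis]
    rfl
  refine ⟨T, ?_, ?_⟩
  · intro v
    have h3 : T ∘ₗ T = t • T + (r * t) • LinearMap.id := by
      apply Bb.ext
      intro k
      fin_cases k
      · show T (T (Bb 0)) = t • T (Bb 0) + (r * t) • Bb 0
        rw [hT1, map_smul, hT2]
        module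
      · show T (T (Bb 1)) = t • T (Bb 1) + (r * t) • Bb 1
        rw [hT2, map_add, map_smul, map_smul, hT1, hT2]
        module
    exact LinearMap.congr_fun h3 v
  · intro v
    have h3 : s ∘ₗ T = t • s - T ∘ₗ s := by
      apply Bb.ext
      intro k
      fin_cases k
      · show s (T (Bb 0)) = t • s (Bb 0) - T (s (Bb 0))
        rw [hT1, map_smul, hw, he, hT1]
        linear_combination (norm := module) (t : F) • h2V (Bb 1)
      · show s (T (Bb 1)) = t • s (Bb 1) - T (s (Bb 1))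
        rw [hT2, map_add, map_smul, map_smul, he, hw, map_add, hT1, hT2]
        linear_combination (norm := module) (r : F) • h2V (Bb 0) + (t : F) • h2V (Bb 1)
    exact LinearMap.congr_fun h3 v

end D

section E
variable {F : Type*} [Field F] [Fintype F]

theorem exists_zeta (hch : ringChar F ≠ 2) (n : ℕ) (hn : n ≠ 0)
    (hv : padicValNat 2 n < padicValNat 2 (Fintype.card F - 1)) : ∃ ζ : F, ζ ^ n = -1 := by
  obtain ⟨v, m', hm', hv1, hvm, hhalf, hpv⟩ := card_decomp (F := F) hch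
  obtain ⟨μ, n', hn', hnn⟩ := Nat.exists_eq_two_pow_mul_odd hn
  have hpn : padicValNat 2 n = μ := by
    rw [hnn]
    exact pv_two μ n' hn'
  rw [hpn, hpv] at hv
  obtain ⟨w, hw⟩ := FiniteField.exists_nonsquare (F := F) hch
  have hw0 : w ≠ 0 := by
    rintro rfl
    exact hw IsSquare.zero
  have hwE : w ^ (Fintype.card F / 2) = -1 := by
    rcases FiniteField.pow_dichotomy hch hw0 with h | h
    · exact absurd ((FiniteField.isSquare_iff hch hw0).mpr h) hw
    · exact h
  refine ⟨w ^ (2 ^ (v - 1 - μ) * m'), ?_⟩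
  rw [← pow_mul, hnn]
  have e : 2 ^ (v - 1 - μ) * m' * (2 ^ μ * n') = Fintype.card F / 2 * n' := by
    rw [hhalf]
    have e2 : 2 ^ (v - 1) = 2 ^ (v - 1 - μ) * 2 ^ μ := by
      rw [← pow_add]
      congr 1
      omega
    rw [e2]
    ring
  rw [e, pow_mul, hwE, hn'.neg_one_pow]

theorem no_zeta (hch : ringChar F ≠ 2) (n : ℕ) (hn : n ≠ 0)
    (hv : padicValNat 2 (Fintype.card F - 1) ≤ padicValNat 2 n) (ζ : F) (hζ : ζ ^ n = -1) :
    False := by
  obtain ⟨v, m', hm', hv1, hvm, hhalf, hpv⟩ := card_decomp (F := F) hch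
  obtain ⟨μ, n', hn', hnn⟩ := Nat.exists_eq_two_pow_mul_odd hn
  have hpn : padicValNat 2 n = μ := by
    rw [hnn]
    exact pv_two μ n' hn'
  rw [hpn, hpv] at hv
  have hζ0 : ζ ≠ 0 := by
    rintro rfl
    rw [zero_pow hn] at hζ
    have h3 : (1 : F) = 0 := by linear_combination hζ
    exact one_ne_zero h3
  have h1 : ζ ^ (Fintype.card F - 1) = 1 := FiniteField.pow_card_sub_one_eq_one ζ hζ0
  have h2 : (ζ ^ n) ^ m' = 1 := by
    rw [← pow_mul, hnn]
    have e : 2 ^ μ * n' * m' = (Fintype.card F - 1) * (2 ^ (μ - v) * n') := by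
      rw [hvm]
      have e2 : 2 ^ μ = 2 ^ v * 2 ^ (μ - v) := by
        rw [← pow_add]
        congr 1
        omega
      rw [e2]
      ring
    rw [e, pow_mul, h1, one_pow]
  rw [hζ, hm'.neg_one_pow] at h2
  have h3 : (2 : F) = 0 := by linear_combination (-1 : F) * h2
  exact Ring.two_ne_zero hch h3

end E

end Cfsg.Agent.Helper16.QExt
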