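import Cfsg.Agent.Helper16.QExtC

set_option autoImplicit false
open Cfsg
open scoped MatrixGroups

namespace Cfsg.Agent.Helper16.QExt

open Module Submodule Cfsg.Agent.Helper16.Jord

section G
variable {F : Type*} [Field F] {n : ℕ}

theorem rank_one_elt (c : F) (a b : Fin n → F) (hκ : 2 + b ⬝ᵥ a = 0)
    (hdet : c ^ n * (1 + b ⬝ᵥ a) = 1) :
    ∃ x : Matrix.SpecialLinearGroup (Fin n) F,
      (x : Matrix (Fin n) (Fin n) F) = c • (1 + Matrix.vecMulVec a b) ∧
      ((x ^ 2 : Matrix.SpecialLinearGroup (Fin n) F) : Matrix (Fin n) (Fin n) F)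
        = (c * c) • (1 : Matrix (Fin n) (Fin n) F) := by
  classical
  have hd : (c • (1 + Matrix.vecMulVec a b) : Matrix (Fin n) (Fin n) F).det = 1 := by
    rw [Matrix.det_smul, Fintype.card_fin, Matrix.vecMulVec_eq Unit,
      Matrix.det_one_add_replicateCol_mul_replicateRow, hdet]
  obtain ⟨x, hx⟩ : ∃ x : Matrix.SpecialLinearGroup (Fin n) F,
      (x : Matrix (Fin n) (Fin n) F) = c • (1 + Matrix.vecMulVec a b) := ⟨⟨_, hd⟩, rfl⟩
  refine ⟨x, hx, ?_⟩
  rw [Matrix.SpecialLinearGroup.coe_pow, hx, pow_two]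
  have e : (1 + Matrix.vecMulVec a b) * (1 + Matrix.vecMulVec a b)
      = (1 : Matrix (Fin n) (Fin n) F) := by
    rw [Matrix.add_mul, Matrix.mul_add, Matrix.mul_add, Matrix.one_mul, Matrix.one_mul,
      Matrix.mul_one, Matrix.vecMulVec_mul_vecMulVec]
    have e2 : Matrix.vecMulVec a ((b ⬝ᵥ a) • b) = (b ⬝ᵥ a) • Matrix.vecMulVec a b := by
      ext i j
      rw [Matrix.vecMulVec_apply, Matrix.smul_apply, Matrix.vecMulVec_apply, Pi.smul_apply,
        smul_eq_mul, smul_eq_mul]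
      ring
    rw [e2]
    have e3 : b ⬝ᵥ a = -2 := by linear_combination hκ
    rw [e3]
    module
  rw [Matrix.smul_mul, Matrix.mul_smul, e, smul_smul]

theorem neg_elt [Fintype F] (hn : 4 ≤ n)
    (hR : Odd (Fintype.card F) → padicValNat 2 n < padicValNat 2 (Fintype.card F - 1)) :
    ∃ (x : Matrix.SpecialLinearGroup (Fin n) F) (c : F) (a b : Fin n → F),
      c ≠ 0 ∧ a ≠ 0 ∧ b ≠ 0 ∧
      (x : Matrix (Fin n) (Fin n) F) = c • (1 + Matrix.vecMulVec a b) ∧
      (∃ z : F, ((x ^ 2 : Matrix.SpecialLinearGroup (Fin n) F) : Matrix (Fin n) (Fin n) F)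
        = z • (1 : Matrix (Fin n) (Fin n) F)) ∧
      (∀ z : F, (x : Matrix (Fin n) (Fin n) F) ≠ z • (1 : Matrix (Fin n) (Fin n) F)) := by
  classical
  obtain ⟨i₀, i₁, h01⟩ : ∃ i₀ i₁ : Fin n, i₀ ≠ i₁ :=
    ⟨⟨0, by omega⟩, ⟨1, by omega⟩, by simp [Fin.ext_iff]⟩
  have hsingle : ∀ (i : Fin n) (r : F), r ≠ 0 → (Pi.single i r : Fin n → F) ≠ 0 := by
    intro i r hr h0
    have h1 := congrFun h0 i
    rw [Pi.single_eq_same, Pi.zero_apply] at h1
    exact hr h1
  rcases Nat.even_or_odd (Fintype.card F) with hqe | hqo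
  · have hch2 : ringChar F = 2 := by
      rw [FiniteField.even_card_iff_char_two]
      exact Nat.even_iff.mp hqe
    have h2F : (2 : F) = 0 := by
      haveI : CharP F 2 := ringChar.of_eq hch2
      exact_mod_cast CharP.cast_eq_zero F 2
    have hba : (Pi.single i₁ (1 : F) : Fin n → F) ⬝ᵥ (Pi.single i₀ (1 : F)) = 0 := by
      rw [single_dotProduct, Pi.single_eq_of_ne h01.symm, mul_zero]
    obtain ⟨x, hx, hx2⟩ := rank_one_elt (1 : F) (Pi.single i₀ 1) (Pi.single i₁ 1)
      (by rw [hba, add_zero, h2F]) (by rw [hba, one_pow, add_zero, mul_one])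
    refine ⟨x, 1, Pi.single i₀ 1, Pi.single i₁ 1, one_ne_zero, hsingle _ _ one_ne_zero,
      hsingle _ _ one_ne_zero, hx, ⟨_, hx2⟩, ?_⟩
    intro z hz
    rw [hx] at hz
    have h1 := congrFun (congrFun hz i₀) i₁
    rw [Matrix.smul_apply, Matrix.add_apply, Matrix.one_apply_ne h01, Matrix.vecMulVec_apply,
      Pi.single_eq_same, Pi.single_eq_same, Matrix.smul_apply, Matrix.one_apply_ne h01] at h1
    simp at h1
  · have hch : ringChar F ≠ 2 := by
      intro h
      rw [FiniteField.even_card_iff_char_two] at h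
      rw [Nat.odd_iff] at hqo
      omega
    have h2F : (2 : F) ≠ 0 := Ring.two_ne_zero hch
    obtain ⟨ζ, hζ⟩ := exists_zeta hch n (by omega) (hR hqo)
    have hζ0 : ζ ≠ 0 := by
      rintro rfl
      rw [zero_pow (by omega)] at hζ
      have h3 : (1 : F) = 0 := by linear_combination hζ
      exact one_ne_zero h3
    have hba : (Pi.single i₀ (-2 : F) : Fin n → F) ⬝ᵥ (Pi.single i₀ (1 : F)) = -2 := by
      rw [single_dotProduct, Pi.single_eq_same, mul_one]
    obtain ⟨x, hx, hx2⟩ := rank_one_elt ζ (Pi.single i₀ 1) (Pi.single i₀ (-2))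
      (by rw [hba]; ring) (by rw [hba, hζ]; ring)
    refine ⟨x, ζ, Pi.single i₀ 1, Pi.single i₀ (-2), hζ0, hsingle _ _ one_ne_zero,
      hsingle _ _ (neg_ne_zero.mpr h2F), hx, ⟨_, hx2⟩, ?_⟩
    intro z hz
    rw [hx] at hz
    have h1 := congrFun (congrFun hz i₀) i₀
    have h2 := congrFun (congrFun hz i₁) i₁
    rw [Matrix.smul_apply, Matrix.add_apply, Matrix.one_apply_eq, Matrix.vecMulVec_apply,
      Pi.single_eq_same, Pi.single_eq_same, Matrix.smul_apply, Matrix.one_apply_eq] at h1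
    rw [Matrix.smul_apply, Matrix.add_apply, Matrix.one_apply_eq, Matrix.vecMulVec_apply,
      Pi.single_eq_of_ne h01.symm, Matrix.smul_apply, Matrix.one_apply_eq] at h2
    simp only [smul_eq_mul] at h1 h2
    apply hζ0
    have h3 : 2 * ζ = 0 := by linear_combination h2 - h1
    exact (mul_eq_zero.mp h3).resolve_left h2F

theorem smul_transfer (ζ : F) (xm S θ' : Matrix (Fin n) (Fin n) F) (t : F) (hxS : xm = ζ • S)
    (h : S * θ' = θ' * S ∨ S * θ' = (t • (1 : Matrix (Fin n) (Fin n) F) - θ') * S) :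
    xm * θ' = θ' * xm ∨ xm * θ' = (t • (1 : Matrix (Fin n) (Fin n) F) - θ') * xm := by
  subst hxS
  rcases h with h | h
  · left
    rw [Matrix.smul_mul, h, Matrix.mul_smul]
  · right
    rw [Matrix.smul_mul, h, Matrix.mul_smul]

/-- even `q`, `n = 2` -/
theorem pos_even [Fintype F] (hch2 : ringChar F = 2) (t d : F)
    (hirr : ∀ l : F, l * l ≠ t * l + d) (xm : Matrix (Fin 2) (Fin 2) F) (z : F)
    (hx2 : xm * xm = z • (1 : Matrix (Fin 2) (Fin 2) F)) (hdet : xm.det = 1)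
    (hns : ∀ z : F, xm ≠ z • (1 : Matrix (Fin 2) (Fin 2) F)) :
    ∃ θ' : Matrix (Fin 2) (Fin 2) F, θ' * θ' = t • θ' + d • (1 : Matrix (Fin 2) (Fin 2) F) ∧
      (xm * θ' = θ' * xm ∨ xm * θ' = (t • (1 : Matrix (Fin 2) (Fin 2) F) - θ') * xm) := by
  classical
  have h2F : (2 : F) = 0 := by
    haveI : CharP F 2 := ringChar.of_eq hch2
    exact_mod_cast CharP.cast_eq_zero F 2
  have ht : t ≠ 0 := by
    rintro rfl
    obtain ⟨l, hl⟩ := FiniteField.isSquare_of_char_two hch2 d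
    exact hirr l (by rw [zero_mul, zero_add, hl])
  have hz0 : z ≠ 0 := by
    rintro rfl
    have h1 := congrArg Matrix.det hx2
    rw [Matrix.det_mul, hdet, zero_smul, Matrix.det_zero] at h1
    norm_num at h1
  obtain ⟨ζ, hζ⟩ := FiniteField.isSquare_of_char_two hch2 z
  have hζ0 : ζ ≠ 0 := by
    rintro rfl
    rw [mul_zero] at hζ
    exact hz0 hζ
  obtain ⟨S, hS⟩ : ∃ S : Matrix (Fin 2) (Fin 2) F, S = ζ⁻¹ • xm := ⟨_, rfl⟩
  have hxS : xm = ζ • S := by rw [hS, smul_smul, mul_inv_cancel₀ hζ0, one_smul]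
  have hSS : S * S = 1 := by
    rw [hS]
    simp only [Matrix.smul_mul, Matrix.mul_smul, smul_smul]
    rw [hx2, smul_smul, hζ]
    have h1 : ζ⁻¹ * ζ⁻¹ * (ζ * ζ) = 1 := by
      field_simp
    rw [h1, one_smul]
  have hN2 : (S - 1) * (S - 1) = 0 := by
    have e : ∀ A : Matrix (Fin 2) (Fin 2) F,
        (A - 1) * (A - 1) = A * A - 1 - (A + A) + (1 + 1) := by
      intro A
      noncomm_ring
    have hadd : ∀ M : Matrix (Fin 2) (Fin 2) F, M + M = 0 := by
      intro M
      ext i j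
      simp only [Matrix.add_apply, Matrix.zero_apply]
      linear_combination (M i j) * h2F
    rw [e, hSS, hadd, hadd]
    simp
  have hN0 : S - 1 ≠ 0 := by
    intro h0
    apply hns ζ
    rw [hxS, sub_eq_zero.mp h0]
  obtain ⟨w, hw⟩ : ∃ w : Fin 2 → F, Matrix.mulVec (S - 1) w ≠ 0 := by
    by_contra hcon
    push Not at hcon
    apply hN0
    apply Matrix.toLin'.injective
    apply LinearMap.ext
    intro v
    rw [Matrix.toLin'_apply, hcon v, map_zero, LinearMap.zero_apply]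
  obtain ⟨e, he⟩ : ∃ e : Fin 2 → F, e = Matrix.mulVec (S - 1) w := ⟨_, rfl⟩
  rw [← he] at hw
  have hNe : Matrix.mulVec (S - 1) e = 0 := by
    rw [he, Matrix.mulVec_mulVec, hN2, Matrix.zero_mulVec]
  have hSe : Matrix.mulVec S e = e := by
    have h1 : Matrix.mulVec S e = Matrix.mulVec (S - 1) e + e := by
      rw [Matrix.sub_mulVec, Matrix.one_mulVec, sub_add_cancel]
    rw [h1, hNe, zero_add]
  have hSw : Matrix.mulVec S w = w + e := by
    rw [he, Matrix.sub_mulVec, Matrix.one_mulVec]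
    abel
  have hli : LinearIndependent F ![e, w] := by
    rw [LinearIndependent.pair_iff]
    intro a b hab
    have h1 := congrArg (Matrix.mulVec (S - 1)) hab
    rw [Matrix.mulVec_add, Matrix.mulVec_smul, Matrix.mulVec_smul, hNe, smul_zero, zero_add,
      Matrix.mulVec_zero, ← he] at h1
    have hb : b = 0 := (smul_eq_zero.mp h1).resolve_right hw
    subst hb
    rw [zero_smul, add_zero] at hab
    exact ⟨(smul_eq_zero.mp hab).resolve_right hw, rfl⟩
  obtain ⟨Bb, hBb⟩ : ∃ Bb : Basis (Fin 2) F (Fin 2 → F), ∀ k, Bb k = ![e, w] k :=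
    ⟨basisOfLinearIndependentOfCardEqFinrank hli
      (by rw [Module.finrank_fin_fun, Fintype.card_fin]),
      fun k => by rw [coe_basisOfLinearIndependentOfCardEqFinrank]⟩
  have hB0 : Bb 0 = e := hBb 0
  have hB1 : Bb 1 = w := hBb 1
  obtain ⟨T, hT, hsT⟩ := T_two_even Bb (Matrix.toLin' S)
    (by rw [hB0, Matrix.toLin'_apply, hSe]) (by rw [hB0, hB1, Matrix.toLin'_apply, hSw])
    h2F t d ht
  obtain ⟨θ', hθ', hS'⟩ := lift_T S t d T hT (Or.inr (fun v => by
    have h1 := hsT v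
    rw [Matrix.toLin'_apply, Matrix.toLin'_apply] at h1
    exact h1))
  exact ⟨θ', hθ', smul_transfer ζ xm S θ' t hxS hS'⟩

/-- odd `q`, `x * x` a square scalar -/
theorem pos_odd_sq [Fintype F] (hch : ringChar F ≠ 2) (hn : 1 ≤ n) (hnev : 2 ∣ n)
    (hR : n = 2 ∨ padicValNat 2 (Fintype.card F - 1) ≤ padicValNat 2 n) (t d : F)
    (xm : Matrix (Fin n) (Fin n) F) (ζ : F)
    (hx2 : xm * xm = (ζ * ζ) • (1 : Matrix (Fin n) (Fin n) F)) (hdet : xm.det = 1) :
    ∃ θ' : Matrix (Fin n) (Fin n) F, θ' * θ' = t • θ' + d • (1 : Matrix (Fin n) (Fin n) F) ∧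
      (xm * θ' = θ' * xm ∨ xm * θ' = (t • (1 : Matrix (Fin n) (Fin n) F) - θ') * xm) := by
  classical
  have h2F : (2 : F) ≠ 0 := Ring.two_ne_zero hch
  haveI : Nonempty (Fin n) := ⟨⟨0, by omega⟩⟩
  have hζ0 : ζ ≠ 0 := by
    rintro rfl
    have h1 := congrArg Matrix.det hx2
    rw [Matrix.det_mul, hdet, mul_zero, zero_smul, Matrix.det_zero] at h1
    norm_num at h1
  obtain ⟨S, hS⟩ : ∃ S : Matrix (Fin n) (Fin n) F, S = ζ⁻¹ • xm := ⟨_, rfl⟩
  have hxS : xm = ζ • S := by rw [hS, smul_smul, mul_inv_cancel₀ hζ0, one_smul]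
  have hSS : S * S = 1 := by
    rw [hS]
    simp only [Matrix.smul_mul, Matrix.mul_smul, smul_smul]
    rw [hx2, smul_smul]
    have h1 : ζ⁻¹ * ζ⁻¹ * (ζ * ζ) = 1 := by
      field_simp
    rw [h1, one_smul]
  have hSdet : S.det = (ζ ^ n)⁻¹ := by
    rw [hS, Matrix.det_smul, hdet, mul_one, Fintype.card_fin, inv_pow]
  obtain ⟨a, b, u, v, hli, hsp, hu, hv⟩ := inv_eig h2F (Matrix.toLin' S) (fun x => by
    rw [Matrix.toLin'_apply, Matrix.toLin'_apply, Matrix.mulVec_mulVec, hSS, Matrix.one_mulVec])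
  have hB0 : ∀ k, (Basis.mk hli hsp.ge) k = Sum.elim u v k := fun k => by
    rw [Basis.mk_apply]
  generalize Basis.mk hli hsp.ge = B0 at hB0
  have hab : a + b = n := by
    have h1 := Module.finrank_eq_card_basis B0
    rw [Module.finrank_fin_fun, Fintype.card_sum, Fintype.card_fin, Fintype.card_fin] at h1
    exact h1.symm
  have hdetS : S.det = (-1) ^ b := by
    rw [← LinearMap.det_toLin']
    apply det_of_eig B0
    · intro i
      rw [hB0]
      exact hu i
    · intro j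
      rw [hB0]
      exact hv j
  rcases Nat.even_or_odd b with hbe | hbo
  · obtain ⟨b', rfl⟩ := hbe
    have hae : Even a := by
      obtain ⟨m, hm⟩ := hnev
      exact ⟨m - b', by omega⟩
    obtain ⟨a', rfl⟩ := hae
    obtain ⟨T, hT, hsT⟩ := T_of_eig (Matrix.toLin' S) a' b' u v hli hsp hu hv t d
    obtain ⟨θ', hθ', hS'⟩ := lift_T S t d T hT (Or.inl (fun v => by
      have h1 := hsT v
      rw [Matrix.toLin'_apply, Matrix.toLin'_apply] at h1
      exact h1))
    exact ⟨θ', hθ', smul_transfer ζ xm S θ' t hxS hS'⟩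
  · rcases hR with rfl | hR
    · have hb1 : b = 1 := by
        rcases hbo with ⟨c, rfl⟩
        omega
      have ha1 : a = 1 := by omega
      subst hb1
      subst ha1
      obtain ⟨T, hT, hsT⟩ := T_two_odd B0 (Matrix.toLin' S)
        (by rw [hB0]; exact hu 0) (by rw [hB0]; exact hv 0) h2F t d
      obtain ⟨θ', hθ', hS'⟩ := lift_T S t d T hT (Or.inr (fun v => by
        have h1 := hsT v
        rw [Matrix.toLin'_apply, Matrix.toLin'_apply] at h1
        exact h1))
      exact ⟨θ', hθ', smul_transfer ζ xm S θ' t hxS hS'⟩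
    · exfalso
      rw [hSdet, hbo.neg_one_pow] at hdetS
      have hζn : ζ ^ n = -1 := by
        have h1 := congrArg (fun y => y⁻¹) hdetS
        simp only [inv_inv] at h1
        rw [h1]
        norm_num
      exact no_zeta hch n (by omega) hR ζ hζn

end G

end Cfsg.Agent.Helper16.QExt
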