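import Cfsg.Agent.Helper16.Omega6Plus

set_option autoImplicit false
open Cfsg

namespace Cfsg.Agent.Helper16

open Polynomial

/-- a quadratic extension `K` of `F` generated by a root `θ` of `X² - aX + b`, with the
conjugation `x ↦ x ^ q` -/
structure QExt (F K : Type*) [Field F] [Field K] (a b : F) (q : ℕ) where
  ι : F →+* K
  θ : K
  hθ : θ ^ 2 = ι a * θ - ι b
  co : K → F × F
  hco : ∀ z, z = ι (co z).1 + ι (co z).2 * θ
  hco' : ∀ x y, co (ι x + ι y * θ) = (x, y)
  conj_ι : ∀ x : F, (ι x) ^ q = ι x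
  conj_θ : θ ^ q = ι a - θ
  conj_add : ∀ x y : K, (x + y) ^ q = x ^ q + y ^ q
  conj_conj : ∀ x : K, (x ^ q) ^ q = x
  hdisc : 4 * b - a ^ 2 ≠ 0

section Exists
variable {F K : Type*} [Field F] [Fintype F] [Field K] [Fintype K]

theorem exists_char_data {q : ℕ} (hF : Fintype.card F = q) (hK : Fintype.card K = q ^ 2) :
    ∃ (p n : ℕ), p.Prime ∧ q = p ^ n ∧ 0 < n ∧ CharP F p ∧ CharP K p := by
  obtain ⟨p, hpF, n, hp, hn⟩ := FiniteField.card' (K := F)
  obtain ⟨p', hpK, m, hp', hm⟩ := FiniteField.card' (K := K)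
  have hpp : p' = p := by
    have h1 : p' ∣ p ^ (2 * (n : ℕ)) := by
      have : p ^ (2 * (n : ℕ)) = p' ^ (m : ℕ) := by
        rw [← hm, hK, ← hF, hn]
        ring
      rw [this]
      exact dvd_pow_self p' m.pos.ne'
    exact (Nat.prime_dvd_prime_iff_eq hp' hp).1 (hp'.dvd_of_dvd_pow h1)
  subst hpp
  exact ⟨p', n, hp, by rw [← hF, hn], n.pos, hpF, hpK⟩

theorem exists_ringHom_sq {q : ℕ} (hF : Fintype.card F = q) (hK : Fintype.card K = q ^ 2) :
    Nonempty (F →+* K) := by
  obtain ⟨p, n, hp, hq, hn, hcF, hcK⟩ := exists_char_data hF hK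
  haveI : Fact p.Prime := ⟨hp⟩
  letI : Algebra (ZMod p) F := ZMod.algebra F p
  letI : Algebra (ZMod p) K := ZMod.algebra K p
  have h1 := FiniteField.pow_finrank_eq_card p F
  have h2 := FiniteField.pow_finrank_eq_card p K
  rw [hF, hq] at h1
  rw [hK, hq, ← pow_mul] at h2
  have h1' := Nat.pow_right_injective hp.two_le h1
  have h2' := Nat.pow_right_injective hp.two_le h2
  have hdvd : Module.finrank (ZMod p) F ∣ Module.finrank (ZMod p) K := by
    rw [h1', h2']
    exact dvd_mul_right n 2
  obtain ⟨f⟩ := FiniteField.nonempty_algHom_of_finrank_dvd (F := ZMod p) (K := F) (L := K) hdvd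
  exact ⟨f.toRingHom⟩

theorem exists_qext {q : ℕ} (hF : Fintype.card F = q) (hK : Fintype.card K = q ^ 2) (a b : F)
    (hab : ∀ z₁ z₂ : F, z₁ ^ 2 + a * z₁ * z₂ + b * z₂ ^ 2 = 0 → z₁ = 0 ∧ z₂ = 0) :
    Nonempty (QExt F K a b q) := by
  classical
  obtain ⟨p, n, hp, hq, hn, hcF, hcK⟩ := exists_char_data hF hK
  haveI : Fact p.Prime := ⟨hp⟩
  have hq2 : 2 ≤ q := by rw [← hF]; exact Fintype.one_lt_card
  obtain ⟨ι⟩ := exists_ringHom_sq hF hK
  letI : Algebra F K := ι.toAlgebra
  have hιdef : ∀ x : F, algebraMap F K x = ι x := fun x => rfl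
  -- the polynomial
  obtain ⟨f, hf⟩ : ∃ f : F[X], f = X ^ 2 - C a * X + C b := ⟨_, rfl⟩
  have hfdeg : f.natDegree = 2 := by
    rw [hf]
    compute_degree!
  have hfirr : Irreducible f := by
    apply irreducible_of_degree_le_three_of_not_isRoot
    · rw [hfdeg]; decide
    · intro c hc
      rw [hf] at hc
      simp only [IsRoot, eval_add, eval_sub, eval_mul, eval_pow, eval_X, eval_C] at hc
      have := hab (-c) 1 (by linear_combination hc)
      exact one_ne_zero this.2
  haveI : Fact (Irreducible f) := ⟨hfirr⟩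
  have hf0 : f ≠ 0 := hfirr.ne_zero
  have hfinE : Module.finrank F (AdjoinRoot f) = 2 := by
    rw [← hfdeg]
    exact (AdjoinRoot.powerBasis hf0).finrank
  have hfinK : Module.finrank F K = 2 := by
    have h1 := Module.card_eq_pow_finrank (K := F) (V := K)
    rw [hK, hF] at h1
    exact (Nat.pow_right_injective hq2 h1).symm
  obtain ⟨ψ⟩ := FiniteField.nonempty_algHom_of_finrank_dvd (F := F) (K := AdjoinRoot f) (L := K)
    (by rw [hfinE, hfinK])
  obtain ⟨θ, hθdef⟩ : ∃ θ, θ = ψ (AdjoinRoot.root f) := ⟨_, rfl⟩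
  have hθ : θ ^ 2 = ι a * θ - ι b := by
    have h1 : aeval θ f = 0 := by
      rw [hθdef, aeval_algHom_apply, AdjoinRoot.aeval_eq, AdjoinRoot.mk_self, map_zero]
    rw [hf] at h1
    simp only [map_add, map_sub, map_mul, map_pow, aeval_X, aeval_C, hιdef] at h1
    linear_combination h1
  -- coordinates
  have hθF : ∀ c : F, θ ≠ ι c := by
    intro c hc
    have h1 : ι (c ^ 2 - a * c + b) = 0 := by
      rw [map_add, map_sub, map_mul, map_pow, ← hc]
      linear_combination hθ
    rw [map_eq_zero] at h1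
    have := hab (-c) 1 (by linear_combination h1)
    exact one_ne_zero this.2
  have hinj : Function.Injective (fun p : F × F => ι p.1 + ι p.2 * θ) := by
    rintro ⟨x, y⟩ ⟨x', y'⟩ h
    have h1 : ι x + ι y * θ = ι x' + ι y' * θ := h
    have hy : y = y' := by
      by_contra hne
      have hne' : y - y' ≠ 0 := sub_ne_zero.2 hne
      apply hθF ((x' - x) / (y - y'))
      have h3 : ι (y - y') ≠ 0 := by rw [Ne, map_eq_zero]; exact hne'
      have h2 : ι (y - y') * θ = ι (x' - x) := by
        rw [map_sub, map_sub]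
        linear_combination h1
      rw [map_div₀, eq_div_iff h3, mul_comm]
      exact h2
    subst hy
    have hx : x = x' := ι.injective (add_right_cancel h1)
    rw [hx]
  have hbij : Function.Bijective (fun p : F × F => ι p.1 + ι p.2 * θ) := by
    rw [Fintype.bijective_iff_injective_and_card]
    refine ⟨hinj, ?_⟩
    rw [Fintype.card_prod, hF, hK]
    ring
  let e := Equiv.ofBijective _ hbij
  have he : ∀ p : F × F, e p = ι p.1 + ι p.2 * θ := fun p => rfl
  -- conjugation
  have hadd : ∀ x y : K, (x + y) ^ q = x ^ q + y ^ q := by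
    intro x y
    rw [hq]
    exact add_pow_char_pow x y p n
  have hsub : ∀ x y : K, (x - y) ^ q = x ^ q - y ^ q := by
    intro x y
    rw [hq]
    exact sub_pow_char_pow x y n
  have hι : ∀ x : F, (ι x) ^ q = ι x := by
    intro x
    rw [← map_pow, ← hF, FiniteField.pow_card]
  have hcc : ∀ x : K, (x ^ q) ^ q = x := by
    intro x
    rw [← pow_mul, ← sq, ← hK, FiniteField.pow_card]
  have hroot : (θ ^ q) ^ 2 = ι a * θ ^ q - ι b := by
    calc (θ ^ q) ^ 2 = (θ ^ 2) ^ q := by rw [← pow_mul, ← pow_mul, mul_comm]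
      _ = (ι a * θ - ι b) ^ q := by rw [hθ]
      _ = ι a * θ ^ q - ι b := by rw [hsub, mul_pow, hι, hι]
  have hconjθ : θ ^ q = ι a - θ := by
    have h1 : (θ ^ q - θ) * (θ ^ q - (ι a - θ)) = 0 := by linear_combination hroot - hθ
    rcases mul_eq_zero.1 h1 with h2 | h2
    · exfalso
      have hθq : θ ^ q = θ := by linear_combination h2
      have hall : ∀ z : K, z ^ q = z := by
        intro z
        obtain ⟨⟨x, y⟩, rfl⟩ := e.surjective z
        rw [he, hadd, mul_pow, hι, hι, hθq]
      obtain ⟨g, hg⟩ := IsCyclic.exists_generator (α := Kˣ)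
      have hord : orderOf g = q ^ 2 - 1 := by
        rw [orderOf_eq_card_of_forall_mem_zpowers hg, Nat.card_units, Nat.card_eq_fintype_card, hK]
      have h3 : g ^ (q - 1) = 1 := by
        apply Units.ext
        rw [Units.val_pow_eq_pow_val, Units.val_one]
        have h4 := hall (g : K)
        have h5 : (g : K) ^ (q - 1) * (g : K) = (g : K) := by
          rw [← pow_succ, Nat.sub_add_cancel (by omega)]
          exact h4
        have h6 : ((g : K) ^ (q - 1) - 1) * (g : K) = 0 := by linear_combination h5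
        rcases mul_eq_zero.1 h6 with h7 | h7
        · linear_combination h7
        · exact absurd h7 g.ne_zero
      have h4 := orderOf_dvd_of_pow_eq_one h3
      rw [hord] at h4
      have h5 := Nat.le_of_dvd (by omega) h4
      have h6 : q ^ 2 = q * q := sq q
      have h7 : q * 2 ≤ q * q := Nat.mul_le_mul_left q hq2
      omega
    · linear_combination h2
  refine ⟨⟨ι, θ, hθ, e.symm, ?_, ?_, hι, hconjθ, hadd, hcc, minus_disc_ne_all a b hab⟩⟩
  · intro z
    rw [← he, Equiv.apply_symm_apply]
  · intro x y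
    rw [← he (x, y), Equiv.symm_apply_apply]

end Exists

namespace QExt
variable {F K : Type*} [Field F] [Field K] {a b : F} {q : ℕ} (E : QExt F K a b q)

/-- conjugation as a ring homomorphism -/
def conj : K →+* K where
  toFun x := x ^ q
  map_one' := one_pow q
  map_mul' x y := mul_pow x y q
  map_zero' := by
    have h := E.conj_ι 0
    rwa [map_zero] at h
  map_add' := E.conj_add

theorem conj_apply (x : K) : E.conj x = x ^ q := rfl

theorem conj_ι' (x : F) : E.conj (E.ι x) = E.ι x := E.conj_ι x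

theorem conj_θ' : E.conj E.θ = E.ι a - E.θ := E.conj_θ

theorem conj_conj' (x : K) : E.conj (E.conj x) = x := E.conj_conj x

theorem co_ι_add (x y : F) : E.co (E.ι x + E.ι y * E.θ) = (x, y) := E.hco' x y

theorem co_ι (x : F) : E.co (E.ι x) = (x, 0) := by
  have h := E.hco' x 0
  rwa [map_zero, zero_mul, add_zero] at h

theorem co_add (z w : K) : E.co (z + w) = E.co z + E.co w := by
  have hz := E.hco z
  have hw := E.hco w
  have h : z + w = E.ι ((E.co z).1 + (E.co w).1) + E.ι ((E.co z).2 + (E.co w).2) * E.θ := by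
    rw [map_add, map_add]
    linear_combination hz + hw
  rw [h, E.hco']
  rfl

theorem co_ι_mul (c : F) (z : K) : E.co (E.ι c * z) = (c * (E.co z).1, c * (E.co z).2) := by
  have hz := E.hco z
  have h : E.ι c * z = E.ι (c * (E.co z).1) + E.ι (c * (E.co z).2) * E.θ := by
    rw [map_mul, map_mul]
    linear_combination E.ι c * hz
  rw [h, E.hco']

theorem co_neg (z : K) : E.co (-z) = -E.co z := by
  have h := E.co_ι_mul (-1) z
  rw [map_neg, map_one, neg_one_mul] at h
  rw [h]
  ext <;> simp

theorem co_zero : E.co 0 = 0 := by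
  have h := E.co_ι 0
  rwa [map_zero] at h

theorem ι_injective : Function.Injective E.ι := E.ι.injective

/-- the norm in coordinates -/
theorem norm_eq (x y : F) :
    (E.ι x + E.ι y * E.θ) * (E.ι x + E.ι y * (E.ι a - E.θ)) =
      E.ι (x ^ 2 + a * x * y + b * y ^ 2) := by
  have h := E.hθ
  simp only [map_add, map_mul, map_pow]
  linear_combination (-(E.ι y) ^ 2) * h

theorem conj_coord (x y : F) :
    E.conj (E.ι x + E.ι y * E.θ) = E.ι x + E.ι y * (E.ι a - E.θ) := by
  rw [map_add, map_mul, E.conj_ι', E.conj_ι', E.conj_θ']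

/-- elements fixed by the conjugation lie in the base field -/
theorem fixed_of_conj (z : K) (h : E.conj z = z) : z = E.ι (E.co z).1 := by
  have hz := E.hco z
  have h1 : E.ι (E.co z).2 * (E.ι a - 2 * E.θ) = 0 := by
    have h2 := E.conj_coord (E.co z).1 (E.co z).2
    rw [← hz, h] at h2
    linear_combination hz - h2
  have h3 : (E.ι a - 2 * E.θ) ^ 2 = E.ι (a ^ 2 - 4 * b) := by
    have h := E.hθ
    simp only [map_sub, map_mul, map_pow, map_ofNat]
    linear_combination (4 : K) * h
  have h4 : E.ι a - 2 * E.θ ≠ 0 := by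
    intro h5
    rw [h5] at h3
    have h6 : E.ι (a ^ 2 - 4 * b) = 0 := by rw [← h3]; ring
    rw [map_eq_zero] at h6
    exact E.hdisc (by linear_combination (-1 : F) * h6)
  rcases mul_eq_zero.1 h1 with h5 | h5
  · rw [map_eq_zero] at h5
    rw [h5, map_zero, zero_mul, add_zero] at hz
    exact hz
  · exact absurd h5 h4

end QExt

end Cfsg.Agent.Helper16
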