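import Cfsg.Agent.Helper16.ReflNorm

set_option autoImplicit false
open Cfsg

namespace Cfsg.Agent.Helper16

open QuadraticMap Module

section F3T
variable {ι : Type} [Fintype ι] [DecidableEq ι] {F : Type*} [Field F] [Fintype F]

/-- braid relation for non-orthogonal vectors of norm `c` over the field of three elements -/
theorem refl_braid (hF : ∀ x : F, x = 0 ∨ x = 1 ∨ x = -1) (Q : QuadraticForm F (ι → F)) (c : F)
    (hc : c ≠ 0) (a b : ι → F) (ha : Q a = c) (hb : Q b = c) (hab : polar Q a b ≠ 0) :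
    ∃ d, reflElt Q a * reflElt Q b * reflElt Q a = reflElt Q d ∧
      reflElt Q b * reflElt Q a * reflElt Q b = reflElt Q d := by
  have ha0 : Q a ≠ 0 := by rw [ha]; exact hc
  have hb0 : Q b ≠ 0 := by rw [hb]; exact hc
  have h1 := reflElt_conj Q (reflElt Q a) b hb0
  have h2 := reflElt_conj Q (reflElt Q b) a ha0
  rw [reflElt_inv, reflElt_mulVec Q a ha0] at h1
  rw [reflElt_inv, reflElt_mulVec Q b hb0] at h2
  refine ⟨qrefl Q a b, h1, ?_⟩
  rw [h2]
  have ht : c⁻¹ * polar Q a b ≠ 0 := mul_ne_zero (inv_ne_zero hc) hab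
  have ht2 : (c⁻¹ * polar Q a b) * (c⁻¹ * polar Q a b) = 1 := by
    rcases hF (c⁻¹ * polar Q a b) with h | h | h
    · exact absurd h ht
    · rw [h, mul_one]
    · rw [h]; ring
  have e : qrefl Q b a = (-(c⁻¹ * polar Q a b)) • qrefl Q a b := by
    rw [qrefl_apply, qrefl_apply, ha, hb, polar_comm Q b a]
    funext i
    simp only [Pi.sub_apply, Pi.smul_apply, smul_eq_mul]
    linear_combination (-(a i)) * ht2
  rw [e, reflElt_smul Q _ _ (neg_ne_zero.2 ht) (by rw [qrefl_isom Q a ha0 b]; exact hb0)]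

theorem refl_pair_order (hF : ∀ x : F, x = 0 ∨ x = 1 ∨ x = -1) (Q : QuadraticForm F (ι → F))
    (c : F) (hc : c ≠ 0) (a b : ι → F) (ha : Q a = c) (hb : Q b = c) :
    (reflElt Q a * reflElt Q b) ^ 2 = 1 ∨ (reflElt Q a * reflElt Q b) ^ 3 = 1 := by
  have ha0 : Q a ≠ 0 := by rw [ha]; exact hc
  have hb0 : Q b ≠ 0 := by rw [hb]; exact hc
  by_cases h0 : polar Q a b = 0
  · left
    have hcm : reflElt Q a * reflElt Q b * (reflElt Q a)⁻¹ = reflElt Q b := by
      rw [reflElt_conj Q _ b hb0, reflElt_mulVec Q a ha0, qrefl_of_orth Q a b h0]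
    rw [reflElt_inv] at hcm
    rw [pow_two]
    calc reflElt Q a * reflElt Q b * (reflElt Q a * reflElt Q b)
        = (reflElt Q a * reflElt Q b * reflElt Q a) * reflElt Q b := by group
      _ = reflElt Q b * reflElt Q b := by rw [hcm]
      _ = 1 := reflElt_mul_self Q b
  · right
    obtain ⟨d, hd1, hd2⟩ := refl_braid hF Q c hc a b ha hb h0
    calc (reflElt Q a * reflElt Q b) ^ 3
        = (reflElt Q a * reflElt Q b * reflElt Q a) *
          (reflElt Q b * reflElt Q a * reflElt Q b) := by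
          rw [pow_succ, pow_two]
          simp only [mul_assoc]
      _ = 1 := by rw [hd1, hd2, reflElt_mul_self]

theorem refl_conj_of_nonorth (hF : ∀ x : F, x = 0 ∨ x = 1 ∨ x = -1)
    (Q : QuadraticForm F (ι → F)) (c : F) (hc : c ≠ 0) (a b : ι → F) (ha : Q a = c)
    (hb : Q b = c) (hab : polar Q a b ≠ 0) :
    (reflElt Q a * reflElt Q b) * reflElt Q a * (reflElt Q a * reflElt Q b)⁻¹ = reflElt Q b := by
  obtain ⟨d, hd1, hd2⟩ := refl_braid hF Q c hc a b ha hb hab
  have e : (reflElt Q a * reflElt Q b) * reflElt Q a * (reflElt Q a * reflElt Q b)⁻¹ =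
      reflElt Q a * (reflElt Q b * reflElt Q a * reflElt Q b) * reflElt Q a := by
    rw [mul_inv_rev, reflElt_inv, reflElt_inv]
    simp only [mul_assoc]
  rw [e, hd2, ← hd1]
  simp only [mul_assoc]
  rw [reflElt_mul_self, mul_one, ← mul_assoc, reflElt_mul_self, one_mul]

theorem reflNorm_isConj (h3 : (3 : F) = 0) (hF : ∀ x : F, x = 0 ∨ x = 1 ∨ x = -1)
    (hn : 4 ≤ Fintype.card ι) (Q : QuadraticForm F (ι → F))
    (hQ : (polarBilin Q).Nondegenerate) (c : F) (hc : c ≠ 0) (a b : ι → F) (ha : Q a = c)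
    (hb : Q b = c) :
    IsConj (⟨reflElt Q a, refl_mem_reflectionSubgroup Q c hc a ha⟩ : ↥(reflectionSubgroup ⇑Q c))
      ⟨reflElt Q b, refl_mem_reflectionSubgroup Q c hc b hb⟩ := by
  have h2 := two_ne_zero_of_three h3
  have h2c : (2 : F) * c ≠ 0 := mul_ne_zero h2 hc
  have key : ∀ (a b : ι → F) (ha : Q a = c) (hb : Q b = c), polar Q a b ≠ 0 →
      IsConj (⟨reflElt Q a, refl_mem_reflectionSubgroup Q c hc a ha⟩ :
        ↥(reflectionSubgroup ⇑Q c)) ⟨reflElt Q b, refl_mem_reflectionSubgroup Q c hc b hb⟩ := by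
    intro a b ha hb hab
    rw [isConj_iff]
    refine ⟨⟨reflElt Q a, refl_mem_reflectionSubgroup Q c hc a ha⟩ *
      ⟨reflElt Q b, refl_mem_reflectionSubgroup Q c hc b hb⟩, ?_⟩
    apply Subtype.ext
    simp only [Subgroup.coe_mul, Subgroup.coe_inv]
    exact refl_conj_of_nonorth hF Q c hc a b ha hb hab
  by_cases h0 : polar Q a b = 0
  · obtain ⟨z, hz, hzperp⟩ := exists_rep_orth_range h2 Q hQ ![a, b] (by omega) (by
      intro s hs hsperp
      obtain ⟨cf, rfl⟩ := (Submodule.mem_span_range_iff_exists_fun F).1 hs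
      rw [Fin.sum_univ_two] at hsperp ⊢
      have hs0 := hsperp 0
      have hs1 := hsperp 1
      simp only [Matrix.cons_val_zero, Matrix.cons_val_one, Matrix.head_cons] at hs0 hs1 ⊢
      rw [polar_add_right, polar_smul_right, polar_smul_right] at hs0 hs1
      rw [qf_polar_self, ha, h0] at hs0
      rw [polar_comm Q b a, h0, qf_polar_self, hb] at hs1
      simp only [smul_eq_mul, mul_zero, add_zero, zero_add] at hs0 hs1
      have c0 : cf 0 = 0 := by
        rcases mul_eq_zero.1 hs0 with h | h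
        · exact h
        · exact absurd h h2c
      have c1 : cf 1 = 0 := by
        rcases mul_eq_zero.1 hs1 with h | h
        · exact h
        · exact absurd h h2c
      rw [c0, c1]
      simp) (-c) (neg_ne_zero.2 hc)
    have hza : polar Q a z = 0 := hzperp 0
    have hzb : polar Q b z = 0 := hzperp 1
    have hd : Q (a + b + z) = c := by
      rw [qf_add, qf_add, ha, hb, hz, h0, polar_add_left, hza, hzb]
      ring
    have hp1 : polar Q a (a + b + z) ≠ 0 := by
      rw [polar_add_right, polar_add_right, qf_polar_self, ha, h0, hza, add_zero, add_zero]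
      exact h2c
    have hp2 : polar Q (a + b + z) b ≠ 0 := by
      rw [polar_add_left, polar_add_left, qf_polar_self, hb, h0, polar_comm Q z b, hzb, add_zero,
        zero_add]
      exact h2c
    exact (key a (a + b + z) ha hd hp1).trans (key (a + b + z) b hd hb hp2)
  · exact key a b ha hb h0

theorem reflNorm_three_transp (h3 : (3 : F) = 0) (hF : ∀ x : F, x = 0 ∨ x = 1 ∨ x = -1)
    (hn : 4 ≤ Fintype.card ι) (Q : QuadraticForm F (ι → F))
    (hQ : (polarBilin Q).Nondegenerate) (c : F) (hc : c ≠ 0) :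
    IsThreeTranspositionClass {g : ↥(reflectionSubgroup ⇑Q c) |
      (g : ↥(isometryGroup F ⇑Q)) ∈ reflectionsOfNorm ⇑Q c} := by
  have h2 := two_ne_zero_of_three h3
  have hD : ∀ g : ↥(reflectionSubgroup ⇑Q c), g ∈ {g : ↥(reflectionSubgroup ⇑Q c) |
      (g : ↥(isometryGroup F ⇑Q)) ∈ reflectionsOfNorm ⇑Q c} ↔
      ∃ v, Q v = c ∧ (g : ↥(isometryGroup F ⇑Q)) = reflElt Q v :=
    fun g => mem_reflectionsOfNorm Q c hc _
  refine ⟨⟨?_, ?_⟩, ?_, ?_⟩
  · intro d hd
    obtain ⟨a, ha, hda⟩ := (hD d).1 hd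
    apply orderOf_eq_prime
    · apply Subtype.ext
      rw [Subgroup.coe_pow, hda, pow_two, reflElt_mul_self]
      rfl
    · intro h1
      rw [h1] at hda
      exact reflElt_ne_one h2 Q a (by rw [ha]; exact hc) hda.symm
  · intro d hd e he
    obtain ⟨a, ha, hda⟩ := (hD d).1 hd
    obtain ⟨b, hb, heb⟩ := (hD e).1 he
    rcases refl_pair_order hF Q c hc a b ha hb with h | h
    · left
      apply Subtype.ext
      rw [Subgroup.coe_pow, Subgroup.coe_mul, hda, heb, h]
      rfl
    · right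
      apply Subtype.ext
      rw [Subgroup.coe_pow, Subgroup.coe_mul, hda, heb, h]
      rfl
  · obtain ⟨a₀, ha₀⟩ := exists_rep h2 Q hQ (by omega) c hc
    refine ⟨⟨reflElt Q a₀, refl_mem_reflectionSubgroup Q c hc a₀ ha₀⟩,
      (hD _).2 ⟨a₀, ha₀, rfl⟩, ?_⟩
    ext g
    rw [hD]
    show _ ↔ IsConj _ g
    constructor
    · rintro ⟨a, ha, hga⟩
      have : g = ⟨reflElt Q a, refl_mem_reflectionSubgroup Q c hc a ha⟩ := Subtype.ext hga
      rw [this]
      exact reflNorm_isConj h3 hF hn Q hQ c hc a₀ a ha₀ ha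
    · intro hconj
      obtain ⟨k, hk⟩ := isConj_iff.1 hconj
      refine ⟨(((k : ↥(isometryGroup F ⇑Q)) : GL ι F) : Matrix ι ι F).mulVec a₀, ?_, ?_⟩
      · rw [(mem_isometryGroup_iff _ _).1 (k : ↥(isometryGroup F ⇑Q)).2 a₀]
        exact ha₀
      · rw [← hk]
        simp only [Subgroup.coe_mul, Subgroup.coe_inv]
        exact reflElt_conj Q (k : ↥(isometryGroup F ⇑Q)) a₀ (by rw [ha₀]; exact hc)
  · exact Subgroup.closure_closure_coe_preimage

end F3T

end Cfsg.Agent.Helper16
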