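import Cfsg.Agent.Helper16.ModelHom
import Cfsg.Agent.S0242

set_option autoImplicit false
open Cfsg

namespace Cfsg.Agent.Helper16

open Matrix

section SL2
variable {F : Type*} [Field F]

theorem mat2_ext {a b c d a' b' c' d' : F} (h1 : a = a') (h2 : b = b') (h3 : c = c')
    (h4 : d = d') : !![a, b; c, d] = !![a', b'; c', d'] := by
  rw [h1, h2, h3, h4]

/-- upper elementary matrices -/
def E12 (t : F) : Matrix.SpecialLinearGroup (Fin 2) F :=
  ⟨!![1, t; 0, 1], by simp [Matrix.det_fin_two]⟩

/-- lower elementary matrices -/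
def E21 (t : F) : Matrix.SpecialLinearGroup (Fin 2) F :=
  ⟨!![1, 0; t, 1], by simp [Matrix.det_fin_two]⟩

/-- the matrix `-1` in `SL₂` -/
def negOne2 : Matrix.SpecialLinearGroup (Fin 2) F :=
  ⟨-1, by rw [Matrix.det_neg, Matrix.det_one, Fintype.card_fin]; ring⟩

theorem sl2_det (A : Matrix.SpecialLinearGroup (Fin 2) F) :
    A.val 0 0 * A.val 1 1 - A.val 0 1 * A.val 1 0 = 1 := by
  have h := A.2
  rwa [Matrix.det_fin_two] at h

theorem sl2_induction {P : Matrix.SpecialLinearGroup (Fin 2) F → Prop}
    (h12 : ∀ t, P (E12 t)) (h21 : ∀ t, P (E21 t)) (hmul : ∀ A B, P A → P B → P (A * B))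
    (A : Matrix.SpecialLinearGroup (Fin 2) F) : P A := by
  have key : ∀ A : Matrix.SpecialLinearGroup (Fin 2) F, A.val 1 0 ≠ 0 → P A := by
    intro A hγ
    have hdet := sl2_det A
    have e : A = E12 ((A.val 0 0 - 1) / A.val 1 0) * E21 (A.val 1 0) *
        E12 ((A.val 1 1 - 1) / A.val 1 0) := by
      apply Subtype.ext
      show A.val = !![1, (A.val 0 0 - 1) / A.val 1 0; 0, 1] * !![1, 0; A.val 1 0, 1] *
        !![1, (A.val 1 1 - 1) / A.val 1 0; 0, 1]
      rw [Matrix.mul_fin_two, Matrix.mul_fin_two]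
      conv_lhs => rw [Matrix.eta_fin_two A.val]
      apply mat2_ext
      · field_simp
        ring
      · field_simp
        linear_combination (-1 : F) * hdet
      · ring
      · field_simp
        ring
    rw [e]
    exact hmul _ _ (hmul _ _ (h12 _) (h21 _)) (h12 _)
  by_cases hγ : A.val 1 0 = 0
  · have hdet := sl2_det A
    have hα : A.val 0 0 ≠ 0 := by
      intro h
      rw [h, hγ] at hdet
      simp at hdet
    have e : A = E21 (-1) * (E21 1 * A) := by
      rw [← mul_assoc]
      have : E21 (-1 : F) * E21 1 = 1 := by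
        apply Subtype.ext
        show !![(1 : F), 0; -1, 1] * !![1, 0; 1, 1] = 1
        rw [Matrix.mul_fin_two, Matrix.one_fin_two]
        apply mat2_ext <;> ring
      rw [this, one_mul]
    rw [e]
    refine hmul _ _ (h21 _) (key _ ?_)
    have h10 : (E21 (1 : F) * A).val 1 0 = A.val 0 0 + A.val 1 0 := by
      show (!![(1 : F), 0; 1, 1] * A.val) 1 0 = _
      simp [Matrix.mul_apply, Fin.sum_univ_two]
    rw [h10, hγ, add_zero]
    exact hα
  · exact key A hγ

theorem sl2_central_of_pm (s : Matrix.SpecialLinearGroup (Fin 2) F)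
    (h1 : (s * E12 1).val = (E12 1 * s).val ∨ (s * E12 1).val = -(E12 1 * s).val)
    (h2 : (s * E21 1).val = (E21 1 * s).val ∨ (s * E21 1).val = -(E21 1 * s).val) :
    s ∈ Subgroup.center (Matrix.SpecialLinearGroup (Fin 2) F) := by
  have hdet := sl2_det s
  obtain ⟨α, hα⟩ : ∃ α, α = s.val 0 0 := ⟨_, rfl⟩
  obtain ⟨β, hβ⟩ : ∃ β, β = s.val 0 1 := ⟨_, rfl⟩
  obtain ⟨γ, hγ⟩ : ∃ γ, γ = s.val 1 0 := ⟨_, rfl⟩
  obtain ⟨δ, hδ⟩ : ∃ δ, δ = s.val 1 1 := ⟨_, rfl⟩
  rw [← hα, ← hβ, ← hγ, ← hδ] at hdet
  have hs : s.val = !![α, β; γ, δ] := by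
    rw [hα, hβ, hγ, hδ]
    exact Matrix.eta_fin_two _
  have e1 : (s * E12 1).val = !![α, α + β; γ, γ + δ] := by
    show s.val * !![(1 : F), 1; 0, 1] = _
    rw [hs, Matrix.mul_fin_two]
    apply mat2_ext <;> ring
  have e2 : (E12 1 * s).val = !![α + γ, β + δ; γ, δ] := by
    show !![(1 : F), 1; 0, 1] * s.val = _
    rw [hs, Matrix.mul_fin_two]
    apply mat2_ext <;> ring
  have e3 : (s * E21 1).val = !![α + β, β; γ + δ, δ] := by
    show s.val * !![(1 : F), 0; 1, 1] = _
    rw [hs, Matrix.mul_fin_two]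
    apply mat2_ext <;> ring
  have e4 : (E21 1 * s).val = !![α, β; α + γ, β + δ] := by
    show !![(1 : F), 0; 1, 1] * s.val = _
    rw [hs, Matrix.mul_fin_two]
    apply mat2_ext <;> ring
  rw [e1, e2] at h1
  rw [e3, e4] at h2
  have hγ0 : γ = 0 ∧ α = δ := by
    rcases h1 with h | h
    · have h00 := congrFun (congrFun h 0) 0
      have h01 := congrFun (congrFun h 0) 1
      simp at h00 h01
      exact ⟨h00, by linear_combination h01⟩
    · have h00 := congrFun (congrFun h 0) 0
      have h01 := congrFun (congrFun h 0) 1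
      have h10 := congrFun (congrFun h 1) 0
      simp at h00 h01 h10
      by_cases h2' : (2 : F) = 0
      · have hg : γ = 0 := by linear_combination h00 - α * h2'
        exact ⟨hg, by linear_combination h01 - (β + δ) * h2'⟩
      · exfalso
        have hg : γ = 0 := by
          have : (2 : F) * γ = 0 := by linear_combination h10
          rcases mul_eq_zero.1 this with h3 | h3
          · exact absurd h3 h2'
          · exact h3
        have ha : α = 0 := by
          have : (2 : F) * α = 0 := by linear_combination h00 - hg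
          rcases mul_eq_zero.1 this with h3 | h3
          · exact absurd h3 h2'
          · exact h3
        rw [ha, hg] at hdet
        simp at hdet
  have hβ0 : β = 0 := by
    rcases h2 with h | h
    · have h00 := congrFun (congrFun h 0) 0
      simp at h00
      exact h00
    · have h00 := congrFun (congrFun h 0) 0
      have h01 := congrFun (congrFun h 0) 1
      simp at h00 h01
      by_cases h2' : (2 : F) = 0
      · linear_combination h00 - α * h2'
      · have : (2 : F) * β = 0 := by linear_combination h01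
        rcases mul_eq_zero.1 this with h3 | h3
        · exact absurd h3 h2'
        · exact h3
  have hs' : s.val = α • (1 : Matrix (Fin 2) (Fin 2) F) := by
    rw [hs, hγ0.1, hβ0, ← hγ0.2]
    ext i j
    fin_cases i <;> fin_cases j <;> simp
  rw [Subgroup.mem_center_iff]
  intro g
  apply Subtype.ext
  show g.val * s.val = s.val * g.val
  rw [hs', Matrix.mul_smul, Matrix.smul_mul, mul_one, one_mul]

end SL2

end Cfsg.Agent.Helper16
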