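import Mathlib
import Cfsg.Agent.S0752

set_option autoImplicit false

namespace Cfsg.Agent.Helper16

/-- a field with `q` elements embeds in a field with `q²` elements -/
theorem exists_ringHom_of_card_sq {F K : Type*} [Field F] [Fintype F] [Field K] [Fintype K]
    {q : ℕ} (hF : Fintype.card F = q) (hK : Fintype.card K = q ^ 2) : Nonempty (F →+* K) := by
  obtain ⟨p, hp⟩ := CharP.exists F
  have hpp : Fact p.Prime := ⟨CharP.char_is_prime F p⟩
  obtain ⟨p', hp'⟩ := CharP.exists K
  have hpp' : Fact p'.Prime := ⟨CharP.char_is_prime K p'⟩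
  let _ : Algebra (ZMod p) F := ZMod.algebra F p
  let _ : Algebra (ZMod p') K := ZMod.algebra K p'
  have h1 := FiniteField.pow_finrank_eq_card p F
  have h2 := FiniteField.pow_finrank_eq_card p' K
  have hdF : 0 < Module.finrank (ZMod p) F := Module.finrank_pos
  have hdK : 0 < Module.finrank (ZMod p') K := Module.finrank_pos
  have hpeq : p = p' := by
    have h3 : p ∣ p' ^ Module.finrank (ZMod p') K := by
      rw [h2, hK, ← hF, ← h1]
      exact dvd_pow (dvd_pow_self p hdF.ne') (by norm_num)
    exact (Nat.prime_dvd_prime_iff_eq hpp.out hpp'.out).1 (hpp.out.dvd_of_dvd_pow h3)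
  subst hpeq
  have hfr : Module.finrank (ZMod p) K = 2 * Module.finrank (ZMod p) F := by
    have h3 : p ^ Module.finrank (ZMod p) K = p ^ (2 * Module.finrank (ZMod p) F) := by
      rw [h2, hK, ← hF, ← h1, ← pow_mul, mul_comm]
    exact Nat.pow_right_injective hpp.out.two_le h3
  obtain ⟨f⟩ := FiniteField.nonempty_algHom_of_finrank_dvd (F := ZMod p) (K := F) (L := K)
    ⟨2, by rw [hfr, mul_comm]⟩
  exact ⟨f.toRingHom⟩

theorem finrank_of_card_sq {F K : Type*} [Field F] [Fintype F] [Field K] [Fintype K]
    [Algebra F K] {q : ℕ} (hF : Fintype.card F = q) (hK : Fintype.card K = q ^ 2) :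
    Module.finrank F K = 2 := by
  have h1 : Fintype.card K = Fintype.card F ^ Module.finrank F K := Module.card_eq_pow_finrank
  rw [hK, hF] at h1
  have hq : 2 ≤ q := by
    rw [← hF]
    exact Fintype.one_lt_card
  exact (Nat.pow_right_injective hq h1).symm

/-- restriction of scalars: a group acting on `K^n` by matrices preserving a non-degenerate
alternating `F`-bilinear form embeds in the symplectic group over `F` -/
theorem exists_hom_symplectic {F K : Type*} [Field F] [Field K] [Algebra F K]
    [FiniteDimensional F K] {n : Type} [Fintype n] [DecidableEq n] {H : Type*} [Group H]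
    (ψ : H →* Matrix n n K) (hψ : Function.Injective ψ) (B : LinearMap.BilinForm F (n → K))
    (hA : B.IsAlt) (hB : B.Nondegenerate)
    (hinv : ∀ g u v, B ((ψ g).mulVec u) ((ψ g).mulVec v) = B u v) (N : ℕ)
    (hN : Module.finrank F (n → K) = 2 * N) :
    ∃ φ : H →* ↥(Matrix.symplecticGroup (Fin N) F), Function.Injective φ := by
  obtain ⟨m, k, b', h1, h2, h3, h4⟩ := Cfsg.Agent.S0752.result B hA
  have hk : k = 0 := by
    by_contra hk
    exact b'.ne_zero (Sum.inr (⟨0, Nat.pos_of_ne_zero hk⟩ : Fin k)) (hB.1 _ (h4 _))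
  subst hk
  have hm : m = N := by
    have h5 := Module.finrank_eq_card_basis b'
    rw [hN] at h5
    simp at h5
    omega
  subst hm
  let b : Module.Basis (Fin m ⊕ Fin m) F (n → K) :=
    b'.reindex (Equiv.sumEmpty (Fin m ⊕ Fin m) (Fin 0))
  have hb : ∀ x, b x = b' (Sum.inl x) := by
    intro x
    simp [b]
  have hG : LinearMap.BilinForm.toMatrix b B = -Matrix.J (Fin m) F := by
    ext x y
    rw [LinearMap.BilinForm.toMatrix_apply, hb, hb]
    rcases x with i | i <;> rcases y with j | j
    · rw [h2]
      simp [Matrix.J]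
    · rw [h1]
      simp [Matrix.J, Matrix.one_apply]
    · rw [← LinearMap.IsAlt.neg hA (b' (Sum.inl (Sum.inl j))) (b' (Sum.inl (Sum.inr i))), h1]
      simp [Matrix.J, Matrix.one_apply, eq_comm]
    · rw [h3]
      simp [Matrix.J]
  let L : H → ((n → K) →ₗ[F] (n → K)) := fun g => (Matrix.toLin' (ψ g)).restrictScalars F
  have hL : ∀ g u, L g u = (ψ g).mulVec u := fun g u => rfl
  have hL1 : L 1 = LinearMap.id := by
    apply LinearMap.ext
    intro u
    rw [hL, map_one, Matrix.one_mulVec]
    rfl
  have hLmul : ∀ g h, L (g * h) = L g ∘ₗ L h := by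
    intro g h
    apply LinearMap.ext
    intro u
    rw [LinearMap.comp_apply, hL, hL, hL, map_mul, Matrix.mulVec_mulVec]
  have hmem : ∀ g, LinearMap.toMatrix b b (L g) ∈ Matrix.symplecticGroup (Fin m) F := by
    intro g
    rw [SymplecticGroup.mem_iff']
    have hcomp : B.comp (L g) (L g) = B := by
      refine LinearMap.ext fun u => LinearMap.ext fun v => ?_
      rw [LinearMap.BilinForm.comp_apply, hL, hL, hinv]
    have h5 := LinearMap.BilinForm.toMatrix_comp b b B (L g) (L g)
    rw [hcomp, hG] at h5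
    have h6 : ((LinearMap.toMatrix b b) (L g)).transpose * Matrix.J (Fin m) F *
        (LinearMap.toMatrix b b) (L g) =
        -(((LinearMap.toMatrix b b) (L g)).transpose * -Matrix.J (Fin m) F *
        (LinearMap.toMatrix b b) (L g)) := by
      rw [Matrix.mul_neg, Matrix.neg_mul, neg_neg]
    rw [h6, ← h5, neg_neg]
  let φ : H →* ↥(Matrix.symplecticGroup (Fin m) F) :=
    { toFun := fun g => ⟨LinearMap.toMatrix b b (L g), hmem g⟩
      map_one' := by
        apply Subtype.ext
        show LinearMap.toMatrix b b (L 1) = 1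
        rw [hL1, LinearMap.toMatrix_id]
      map_mul' := by
        intro g h
        apply Subtype.ext
        show LinearMap.toMatrix b b (L (g * h)) =
          LinearMap.toMatrix b b (L g) * LinearMap.toMatrix b b (L h)
        rw [hLmul, LinearMap.toMatrix_comp b b b] }
  refine ⟨φ, ?_⟩
  intro g g' hgg
  have h5 : LinearMap.toMatrix b b (L g) = LinearMap.toMatrix b b (L g') :=
    congrArg Subtype.val hgg
  have h6 : L g = L g' := (LinearMap.toMatrix b b).injective h5
  apply hψ
  apply Matrix.toLin'.injective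
  apply LinearMap.ext
  intro u
  rw [Matrix.toLin'_apply, Matrix.toLin'_apply, ← hL, ← hL, h6]

/-- non-degeneracy of `τ ∘ f` from that of `f`, when the values `f u v` are closed under scaling -/
theorem separating_of_comp {F K V : Type*} [Field F] [Field K] [Algebra F K] (f : V → V → K)
    [Zero V] (hf : ∀ u, u ≠ 0 → ∃ v, f u v ≠ 0) (hsc : ∀ (c : K) (u v : V), ∃ v', f u v' = c * f u v)
    (τ : K →ₗ[F] F) (hτ : τ ≠ 0) (u : V) (hu : ∀ v, τ (f u v) = 0) : u = 0 := by
  by_contra hne
  obtain ⟨v, hv⟩ := hf u hne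
  obtain ⟨y, hy⟩ : ∃ y, τ y ≠ 0 := by
    by_contra hcon
    apply hτ
    apply LinearMap.ext
    intro y
    by_contra hy
    exact hcon ⟨y, hy⟩
  obtain ⟨v', hv'⟩ := hsc (y / f u v) u v
  apply hy
  have : f u v' = y := by rw [hv', div_mul_cancel₀ y hv]
  rw [← this]
  exact hu v'

end Cfsg.Agent.Helper16
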