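import Cfsg.Agent.Helper16.Simple

set_option autoImplicit false
open Cfsg

namespace Cfsg.Agent.Helper16

open QuadraticMap Module
open scoped commutatorElement

section SiegChar2
variable {ι : Type} [Fintype ι] [DecidableEq ι] {F : Type*} [Field F] [Fintype F] [CharP F 2]

theorem card_lt_orth_three (hn : 7 ≤ Fintype.card ι) (Q : QuadraticForm F (ι → F))
    (hQ : (polarBilin Q).Nondegenerate) (a b h : ι → F) :
    Fintype.card ι < 2 * finrank F (orth Q (Submodule.span F {a} ⊔ Submodule.span F {b} ⊔
      Submodule.span F {h})) := by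
  rw [finrank_orth Q hQ, Module.finrank_fintype_fun_eq_card]
  have h1 := Submodule.finrank_add_le_finrank_add_finrank (Submodule.span F {a})
    (Submodule.span F {b})
  have h1' := Submodule.finrank_add_le_finrank_add_finrank
    (Submodule.span F {a} ⊔ Submodule.span F {b}) (Submodule.span F {h})
  have h2 := finrank_span_one_le (F := F) a
  have h3 := finrank_span_one_le (F := F) b
  have h4 := finrank_span_one_le (F := F) h
  omega

/-- in characteristic two and dimension at least seven there is a singular vector orthogonal to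
`a` but not to `b` -/
theorem exists_sing_perp_char2 (hn : 7 ≤ Fintype.card ι) (Q : QuadraticForm F (ι → F))
    (hQ : (polarBilin Q).Nondegenerate) (a b : ι → F) (hb : b ∉ Submodule.span F {a}) :
    ∃ p, Q p = 0 ∧ polar Q a p = 0 ∧ polar Q b p ≠ 0 := by
  obtain ⟨h, hah, hbh⟩ : ∃ h, polar Q a h = 0 ∧ polar Q b h ≠ 0 := by
    by_contra hcon
    push Not at hcon
    have hle : orth Q (Submodule.span F {a}) ≤ orth Q (Submodule.span F {b}) := by
      intro y hy
      rw [mem_orth_span_singleton] at hy ⊢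
      exact hcon y hy
    have hle2 : orth Q (orth Q (Submodule.span F {b})) ≤
        orth Q (orth Q (Submodule.span F {a})) :=
      LinearMap.BilinForm.orthogonal_le (B := polarBilin Q) hle
    rw [orth_orth Q hQ, orth_orth Q hQ] at hle2
    exact hb (hle2 (Submodule.mem_span_singleton_self b))
  obtain ⟨p₀, hp₀U, hp₀⟩ := exists_nonsing_of_big Q hQ _ (card_lt_orth_three hn Q hQ a b h)
  rw [orth_sup, orth_sup, Submodule.mem_inf, Submodule.mem_inf, mem_orth_span_singleton,
    mem_orth_span_singleton, mem_orth_span_singleton] at hp₀U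
  obtain ⟨⟨hap, hbp⟩, hhp⟩ := hp₀U
  obtain ⟨t, ht⟩ := FiniteField.isSquare_of_char_two (ringChar.eq F 2) (Q h / Q p₀)
  have h2 : (2 : F) = 0 := CharTwo.two_eq_zero
  refine ⟨h + t • p₀, ?_, ?_, ?_⟩
  · rw [qf_add, qf_smul, polar_smul_right, hhp, ← ht]
    field_simp
    linear_combination Q h * h2
  · rw [polar_add_right, polar_smul_right, hah, hap]
    simp
  · rw [polar_add_right, polar_smul_right, hbp]
    simpa using hbh

theorem exists_sing_decomp_char2 (hn : 7 ≤ Fintype.card ι) (Q : QuadraticForm F (ι → F))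
    (hQ : (polarBilin Q).Nondegenerate) (a u : ι → F) (ha : Q a ≠ 0) (hu : Q u = 0)
    (hau : polar Q a u = 0) :
    ∃ v₁ v₂, Q v₁ = 0 ∧ Q v₂ = 0 ∧ polar Q u v₁ = 0 ∧ polar Q u v₂ = 0 ∧ v₁ + v₂ = a := by
  have hnot : a ∉ Submodule.span F {u} := fun h => ha (TS_span_singleton Q u hu a h)
  obtain ⟨p, hp, hup, hap⟩ := exists_sing_perp_char2 hn Q hQ u a hnot
  refine ⟨(Q a / polar Q a p) • p, a - (Q a / polar Q a p) • p, ?_, ?_, ?_, ?_, by abel⟩
  · rw [qf_smul, hp, mul_zero]
  · rw [sub_eq_add_neg, qf_add, QuadraticMap.map_neg, qf_smul, hp, polar_neg_right,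
      polar_smul_right, smul_eq_mul]
    field_simp
    ring
  · rw [polar_smul_right, hup, smul_zero]
  · rw [polar_sub_right, polar_smul_right, hup, polar_comm Q u a, hau]
    simp

theorem special_pair_mem_char2 (hn : 7 ≤ Fintype.card ι) (Q : QuadraticForm F (ι → F))
    (hQ : (polarBilin Q).Nondegenerate) (a u : ι → F)
    (ha : Q a ≠ 0) (hu : Q u = 0) (hau : polar Q a u = 0) :
    reflElt Q a * reflElt Q (a + u) ∈ Subgroup.closure (siegelSet Q) := by
  obtain ⟨v₁, v₂, hv₁, hv₂, huv₁, huv₂, hsum⟩ := exists_sing_decomp_char2 hn Q hQ a u ha hu hau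
  subst hsum
  rw [special_pair_eq Q u v₁ v₂ ha hu hau hv₁ hv₂ huv₁ huv₂]
  exact Subgroup.mul_mem _ (siegelElt_mem _ _ _ _ _ _ _) (siegelElt_mem _ _ _ _ _ _ _)

theorem goodPair_mem_siegel_char2 (hn : 7 ≤ Fintype.card ι) (Q : QuadraticForm F (ι → F))
    (hQ : (polarBilin Q).Nondegenerate) (a b : ι → F)
    (ha : Q a ≠ 0) (hb : Q b = Q a) :
    reflElt Q a * reflElt Q b ∈ Subgroup.closure (siegelSet Q) := by
  have h2 : (2 : F) = 0 := CharTwo.two_eq_zero
  have hpair : ∀ a z : ι → F, Q a ≠ 0 → Q z = Q a → Q (z - a) = 0 →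
      reflElt Q a * reflElt Q z ∈ Subgroup.closure (siegelSet Q) := by
    intro a z ha hz hza
    have e' : reflElt Q z = reflElt Q (a + (z - a)) := by
      congr 1
      abel
    rw [e']
    apply special_pair_mem_char2 hn Q hQ a (z - a) ha hza
    rw [sub_eq_add_neg, qf_add, QuadraticMap.map_neg, hz, polar_neg_right, polar_comm Q z a] at hza
    rw [polar_sub_right, qf_polar_self]
    linear_combination -hza
  by_cases h1 : Q (b - a) = 0
  · exact hpair a b ha hb h1
  · have hnot : b ∉ Submodule.span F {a} := by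
      intro hmem
      obtain ⟨t, rfl⟩ := Submodule.mem_span_singleton.1 hmem
      rw [qf_smul] at hb
      have ht : t * t = 1 := by
        have h3 : (t * t - 1) * Q a = 0 := by linear_combination hb
        rcases mul_eq_zero.1 h3 with h | h
        · exact sub_eq_zero.1 h
        · exact absurd h ha
      have ht1 : t = 1 := by
        have h3 : (t - 1) * (t - 1) = 0 := by linear_combination ht + (1 - t) * h2
        exact sub_eq_zero.1 (mul_self_eq_zero.1 h3)
      apply h1
      rw [ht1, one_smul, sub_self, QuadraticMap.map_zero]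
    obtain ⟨p, hp, hap, hbp⟩ := exists_sing_perp_char2 hn Q hQ a b hnot
    obtain ⟨z, hz⟩ : ∃ z, z = a + (Q (b - a) / polar Q b p) • p := ⟨_, rfl⟩
    have hzQ : Q z = Q a := by
      rw [hz, qf_add, qf_smul, hp, polar_smul_right, hap]
      simp
    have hza : Q (z - a) = 0 := by
      have e1 : z - a = (Q (b - a) / polar Q b p) • p := by
        rw [hz]
        abel
      rw [e1, qf_smul, hp, mul_zero]
    have hbz : Q (b - z) = 0 := by
      have e1 : b - z = (b - a) + (-(Q (b - a) / polar Q b p)) • p := by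
        rw [hz, neg_smul]
        abel
      rw [e1, qf_add, qf_smul, hp, polar_smul_right, polar_sub_left, hap, smul_eq_mul]
      field_simp
      ring
    have hz0 : Q z ≠ 0 := by rw [hzQ]; exact ha
    have e : reflElt Q a * reflElt Q b =
        (reflElt Q a * reflElt Q z) * (reflElt Q z * reflElt Q b) := by
      rw [mul_assoc, ← mul_assoc (reflElt Q z), reflElt_mul_self, one_mul]
    rw [e]
    exact Subgroup.mul_mem _ (hpair a z ha hzQ hza) (hpair z b hz0 (hb.trans hzQ.symm) hbz)

/-- in characteristic two and dimension at least seven `Ω` is generated by the long root elements -/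
theorem Omega_eq_siegel_char2 (hn : 7 ≤ Fintype.card ι) (Q : QuadraticForm F (ι → F))
    (hQ : (polarBilin Q).Nondegenerate) :
    Omega F ⇑Q = Subgroup.closure (siegelSet Q) := by
  apply le_antisymm
  · obtain ⟨a₀, ha₀⟩ := exists_nonsing Q hQ (by omega)
    refine le_trans (Omega_le_even Q a₀ ha₀ (cd2 Q hQ (Or.inr (by omega)))) ?_
    rw [Subgroup.closure_le]
    intro g hg
    obtain ⟨u, v, hu, hv, rfl⟩ := pairSet_eq Q g hg
    obtain ⟨c, hc⟩ := FiniteField.isSquare_of_char_two (ringChar.eq F 2) (Q u / Q v)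
    have hc0 : c ≠ 0 := by
      rintro rfl
      rw [mul_zero] at hc
      exact (div_ne_zero hu hv) hc
    have hv' : Q (c • v) = Q u := by
      rw [qf_smul, ← hc]
      field_simp
    rw [← reflElt_smul Q v c hc0 hv]
    exact goodPair_mem_siegel_char2 hn Q hQ u (c • v) hu hv'
  · rw [Subgroup.closure_le]
    intro g hg
    obtain ⟨u, v, c, hu, hv, hvu, -, rfl⟩ := siegelSet_eq_sieg Q g hg
    exact sieg_mem_Omega (by omega) Q hQ v (c • u) hv hvu

/-- `Ω` is generated by long root elements, any characteristic, dimension at least seven -/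
theorem Omega_eq_siegel_all {ι : Type} [Fintype ι] [DecidableEq ι] {F : Type*} [Field F]
    [Fintype F] (hn : 7 ≤ Fintype.card ι) (Q : QuadraticForm F (ι → F))
    (hQ : (polarBilin Q).Nondegenerate) :
    Omega F ⇑Q = Subgroup.closure (siegelSet Q) := by
  by_cases h2 : (2 : F) = 0
  · haveI : CharP F 2 := CharTwo.of_one_ne_zero_of_two_eq_zero one_ne_zero h2
    exact Omega_eq_siegel_char2 hn Q hQ
  · exact Omega_eq_siegel h2 (by omega) Q hQ

end SiegChar2

theorem minus_disc_ne_all {F : Type*} [Field F] [Fintype F] (a b : F)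
    (hab : ∀ z₁ z₂ : F, z₁ ^ 2 + a * z₁ * z₂ + b * z₂ ^ 2 = 0 → z₁ = 0 ∧ z₂ = 0) :
    4 * b - a ^ 2 ≠ 0 := by
  intro h
  by_cases h2 : (2 : F) = 0
  · haveI : CharP F 2 := CharTwo.of_one_ne_zero_of_two_eq_zero one_ne_zero h2
    have ha : a = 0 := by
      have h4 : (4 : F) = 0 := by linear_combination 2 * h2
      rw [h4, zero_mul, zero_sub, neg_eq_zero] at h
      exact pow_eq_zero_iff (n := 2) (by norm_num) |>.1 h
    obtain ⟨t, ht⟩ := FiniteField.isSquare_of_char_two (ringChar.eq F 2) b
    have h1 := (hab t 1 (by rw [ha, ht]; linear_combination t * t * h2)).2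
    exact one_ne_zero h1
  · have h1 := (hab (-a / 2) 1 (by
      field_simp
      linear_combination h)).2
    exact one_ne_zero h1

end Cfsg.Agent.Helper16
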