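import Mathlib

set_option autoImplicit false

namespace Cfsg.Agent.Helper16

open Polynomial

section cyclic

variable {F : Type*} [Field F]

/-- pairing on polynomials: the top coefficient of the remainder of the product modulo `g`. -/
noncomputable def polyPair (g : F[X]) (f h : F[X]) : F :=
  ((f * h) %ₘ (g * C g.leadingCoeff⁻¹)).coeff (g.natDegree - 1)

theorem polyPair_add (g f f' h : F[X]) :
    polyPair g (f + f') h = polyPair g f h + polyPair g f' h := by
  unfold polyPair
  rw [add_mul, add_modByMonic, coeff_add]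

theorem polyPair_C_mul (g : F[X]) (c : F) (f h : F[X]) :
    polyPair g (C c * f) h = c * polyPair g f h := by
  unfold polyPair
  rw [mul_assoc, ← smul_eq_C_mul, smul_modByMonic, coeff_smul, smul_eq_mul]

theorem polyPair_comm (g f h : F[X]) : polyPair g f h = polyPair g h f := by
  unfold polyPair
  rw [mul_comm]

theorem polyPair_X_mul (g f h : F[X]) : polyPair g (X * f) h = polyPair g f (X * h) := by
  unfold polyPair
  congr 2
  ring

theorem normalized_dvd_iff (g : F[X]) (hg : g ≠ 0) (x : F[X]) :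
    g * C g.leadingCoeff⁻¹ ∣ x ↔ g ∣ x := by
  have hu : IsUnit (C g.leadingCoeff⁻¹ : F[X]) :=
    isUnit_C.mpr (IsUnit.mk0 _ (inv_ne_zero (leadingCoeff_ne_zero.mpr hg)))
  exact hu.mul_right_dvd

theorem polyPair_congr (g : F[X]) (hg : g ≠ 0) {f f' : F[X]} (h : F[X]) (hff : g ∣ f - f') :
    polyPair g f h = polyPair g f' h := by
  unfold polyPair
  rw [modByMonic_eq_of_dvd_sub (monic_mul_leadingCoeff_inv hg)]
  have : f * h - f' * h = (f - f') * h := by ring
  rw [this, normalized_dvd_iff g hg]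
  exact Dvd.dvd.mul_right hff h

theorem polyPair_nondeg (g : F[X]) (hg : g ≠ 0) (f : F[X]) (hf : ∀ h, polyPair g f h = 0) :
    g ∣ f := by
  have hmon : (g * C g.leadingCoeff⁻¹).Monic := monic_mul_leadingCoeff_inv hg
  have hdeg : (g * C g.leadingCoeff⁻¹).natDegree = g.natDegree :=
    natDegree_mul_C (inv_ne_zero (leadingCoeff_ne_zero.mpr hg))
  by_contra hnd
  obtain ⟨r, hr⟩ : ∃ r, r = f %ₘ (g * C g.leadingCoeff⁻¹) := ⟨_, rfl⟩
  have hr0 : r ≠ 0 := by
    intro h0
    apply hnd
    rw [hr] at h0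
    exact (normalized_dvd_iff g hg f).mp ((modByMonic_eq_zero_iff_dvd hmon).mp h0)
  have hrdeg : r.degree < (g * C g.leadingCoeff⁻¹).degree := by
    rw [hr]; exact degree_modByMonic_lt f hmon
  have hrnat : r.natDegree < g.natDegree := by
    rw [← hdeg]; exact natDegree_lt_natDegree hr0 hrdeg
  have hfr : g ∣ f - r := by
    have h1 := modByMonic_add_div f (g * C g.leadingCoeff⁻¹)
    have h2 : f - r = g * (C g.leadingCoeff⁻¹ * (f /ₘ (g * C g.leadingCoeff⁻¹))) := by
      rw [hr]
      linear_combination -h1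
    rw [h2]
    exact dvd_mul_right _ _
  obtain ⟨k, hk⟩ : ∃ k, g.natDegree - 1 = r.natDegree + k := ⟨g.natDegree - 1 - r.natDegree, by omega⟩
  have key := hf (X ^ k)
  rw [polyPair_congr g hg _ hfr] at key
  unfold polyPair at key
  have hlt : (r * X ^ k).degree < (g * C g.leadingCoeff⁻¹).degree := by
    rw [degree_mul, degree_X_pow, degree_eq_natDegree hr0, degree_eq_natDegree hmon.ne_zero, hdeg]
    norm_cast
    omega
  rw [(modByMonic_eq_self_iff hmon).mpr hlt, hk, coeff_mul_X_pow] at key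
  exact hr0 (leadingCoeff_eq_zero.mp key)

/-- the pairing on the cyclic module `F[X] / (g)` -/
noncomputable def quotPair (g : F[X]) (a b : F[X] ⧸ F[X] ∙ g) : F :=
  polyPair g (Classical.choose (Submodule.Quotient.mk_surjective _ a))
    (Classical.choose (Submodule.Quotient.mk_surjective _ b))

theorem dvd_sub_of_mk_eq (g : F[X]) {f f' : F[X]}
    (h : (Submodule.Quotient.mk f : F[X] ⧸ F[X] ∙ g) = Submodule.Quotient.mk f') : g ∣ f - f' := by
  rw [Submodule.Quotient.eq, Submodule.mem_span_singleton] at h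
  obtain ⟨a, ha⟩ := h
  exact ⟨a, by rw [← ha, smul_eq_mul, mul_comm]⟩

theorem quotPair_mk (g : F[X]) (hg : g ≠ 0) (f h : F[X]) :
    quotPair g (Submodule.Quotient.mk f) (Submodule.Quotient.mk h) = polyPair g f h := by
  unfold quotPair
  have h1 := Classical.choose_spec (Submodule.Quotient.mk_surjective (F[X] ∙ g) (Submodule.Quotient.mk f))
  have h2 := Classical.choose_spec (Submodule.Quotient.mk_surjective (F[X] ∙ g) (Submodule.Quotient.mk h))
  rw [polyPair_congr g hg _ (dvd_sub_of_mk_eq g h1), polyPair_comm g f,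
    polyPair_congr g hg _ (dvd_sub_of_mk_eq g h2), polyPair_comm g h]

theorem quotPair_add (g : F[X]) (hg : g ≠ 0) (a a' b : F[X] ⧸ F[X] ∙ g) :
    quotPair g (a + a') b = quotPair g a b + quotPair g a' b := by
  obtain ⟨f, rfl⟩ := Submodule.Quotient.mk_surjective _ a
  obtain ⟨f', rfl⟩ := Submodule.Quotient.mk_surjective _ a'
  obtain ⟨h, rfl⟩ := Submodule.Quotient.mk_surjective _ b
  rw [← Submodule.Quotient.mk_add, quotPair_mk g hg, quotPair_mk g hg, quotPair_mk g hg, polyPair_add]

theorem quotPair_smul (g : F[X]) (hg : g ≠ 0) (c : F) (a b : F[X] ⧸ F[X] ∙ g) :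
    quotPair g (C c • a) b = c * quotPair g a b := by
  obtain ⟨f, rfl⟩ := Submodule.Quotient.mk_surjective _ a
  obtain ⟨h, rfl⟩ := Submodule.Quotient.mk_surjective _ b
  rw [← Submodule.Quotient.mk_smul, quotPair_mk g hg, quotPair_mk g hg, smul_eq_mul, polyPair_C_mul]

theorem quotPair_comm (g : F[X]) (hg : g ≠ 0) (a b : F[X] ⧸ F[X] ∙ g) :
    quotPair g a b = quotPair g b a := by
  obtain ⟨f, rfl⟩ := Submodule.Quotient.mk_surjective _ a
  obtain ⟨h, rfl⟩ := Submodule.Quotient.mk_surjective _ b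
  rw [quotPair_mk g hg, quotPair_mk g hg, polyPair_comm]

theorem quotPair_X (g : F[X]) (hg : g ≠ 0) (a b : F[X] ⧸ F[X] ∙ g) :
    quotPair g ((X : F[X]) • a) b = quotPair g a ((X : F[X]) • b) := by
  obtain ⟨f, rfl⟩ := Submodule.Quotient.mk_surjective _ a
  obtain ⟨h, rfl⟩ := Submodule.Quotient.mk_surjective _ b
  rw [← Submodule.Quotient.mk_smul, ← Submodule.Quotient.mk_smul, quotPair_mk g hg,
    quotPair_mk g hg, smul_eq_mul, smul_eq_mul, polyPair_X_mul]

theorem quotPair_zero_right (g : F[X]) (hg : g ≠ 0) (a : F[X] ⧸ F[X] ∙ g) :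
    quotPair g a 0 = 0 := by
  have h := quotPair_smul g hg 0 0 a
  rw [map_zero, zero_smul, zero_mul] at h
  rw [quotPair_comm g hg, h]

theorem quotPair_nondeg (g : F[X]) (hg : g ≠ 0) (a : F[X] ⧸ F[X] ∙ g)
    (ha : ∀ b, quotPair g a b = 0) : a = 0 := by
  obtain ⟨f, rfl⟩ := Submodule.Quotient.mk_surjective _ a
  have h1 : g ∣ f := by
    apply polyPair_nondeg g hg
    intro h
    rw [← quotPair_mk g hg]
    exact ha _
  rw [Submodule.Quotient.mk_eq_zero, Submodule.mem_span_singleton]
  obtain ⟨c, hc⟩ := h1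
  exact ⟨c, by rw [hc, smul_eq_mul, mul_comm]⟩

end cyclic

section sum

variable {F : Type*} [Field F] {ι : Type*} [Fintype ι]

/-- the pairing on a direct sum of cyclic modules -/
noncomputable def sumPair (g : ι → F[X]) (a b : DirectSum ι fun i => F[X] ⧸ F[X] ∙ g i) : F :=
  ∑ i, quotPair (g i) (a i) (b i)

variable (g : ι → F[X]) (hg : ∀ i, g i ≠ 0)

include hg

theorem sumPair_add (a a' b : DirectSum ι fun i => F[X] ⧸ F[X] ∙ g i) :
    sumPair g (a + a') b = sumPair g a b + sumPair g a' b := by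
  unfold sumPair
  rw [← Finset.sum_add_distrib]
  refine Finset.sum_congr rfl fun i _ => ?_
  rw [DirectSum.add_apply, quotPair_add _ (hg i)]

theorem sumPair_smul (c : F) (a b : DirectSum ι fun i => F[X] ⧸ F[X] ∙ g i) :
    sumPair g (C c • a) b = c * sumPair g a b := by
  unfold sumPair
  rw [Finset.mul_sum]
  refine Finset.sum_congr rfl fun i _ => ?_
  rw [DirectSum.smul_apply, quotPair_smul _ (hg i)]

theorem sumPair_comm (a b : DirectSum ι fun i => F[X] ⧸ F[X] ∙ g i) :
    sumPair g a b = sumPair g b a := by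
  unfold sumPair
  refine Finset.sum_congr rfl fun i _ => ?_
  rw [quotPair_comm _ (hg i)]

theorem sumPair_X (a b : DirectSum ι fun i => F[X] ⧸ F[X] ∙ g i) :
    sumPair g ((X : F[X]) • a) b = sumPair g a ((X : F[X]) • b) := by
  unfold sumPair
  refine Finset.sum_congr rfl fun i _ => ?_
  rw [DirectSum.smul_apply, DirectSum.smul_apply, quotPair_X _ (hg i)]

theorem sumPair_nondeg (a : DirectSum ι fun i => F[X] ⧸ F[X] ∙ g i)
    (ha : ∀ b, sumPair g a b = 0) : a = 0 := by
  classical
  apply DFinsupp.ext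
  intro i
  rw [DirectSum.zero_apply]
  apply quotPair_nondeg (g i) (hg i)
  intro c
  have h := ha (DirectSum.of (fun i => F[X] ⧸ F[X] ∙ g i) i c)
  unfold sumPair at h
  rw [Finset.sum_eq_single i] at h
  · rwa [DirectSum.of_eq_same] at h
  · intro j _ hji
    rw [DirectSum.of_eq_of_ne _ _ _ hji, quotPair_zero_right _ (hg j)]
  · intro hi
    exact absurd (Finset.mem_univ i) hi

end sum

theorem exists_gram_transpose {F : Type*} [Field F] {κ : Type*} [Fintype κ] [DecidableEq κ] (A : Matrix κ κ F) :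
    ∃ G : Matrix κ κ F, IsUnit G.det ∧ G * A = A.transpose * G := by
  classical
  let T : (κ → F) →ₗ[F] (κ → F) := Matrix.toLin' A
  have htors : Module.IsTorsion F[X] (Module.AEval' T) :=
    Module.AEval.isTorsion_of_aeval_eq_zero (LinearMap.aeval_self_charpoly T)
      (LinearMap.charpoly_monic T).ne_zero
  obtain ⟨ι, hι, p, hp, k, ⟨e⟩⟩ := Module.equiv_directSum_of_isTorsion htors
  have hg : ∀ i, p i ^ k i ≠ 0 := fun i => pow_ne_zero _ (hp i).ne_zero
  let ε : (κ → F) → DirectSum ι fun i => F[X] ⧸ F[X] ∙ (p i ^ k i) :=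
    fun u => e (Module.AEval'.of T u)
  have hε_add : ∀ u v, ε (u + v) = ε u + ε v := by
    intro u v
    simp only [ε, map_add]
  have hε_smul : ∀ (c : F) u, ε (c • u) = (C c : F[X]) • ε u := by
    intro c u
    simp only [ε]
    rw [map_smul, ← Module.AEval.C_smul, map_smul]
  have hε_T : ∀ u, ε (T u) = (X : F[X]) • ε u := by
    intro u
    simp only [ε]
    rw [← Module.AEval'.X_smul_of, map_smul]
  have hε_surj : Function.Surjective ε := by
    intro b
    refine ⟨(Module.AEval'.of T).symm (e.symm b), ?_⟩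
    simp only [ε]
    rw [LinearEquiv.apply_symm_apply, LinearEquiv.apply_symm_apply]
  have hε_inj : ∀ u, ε u = 0 → u = 0 := by
    intro u hu
    simp only [ε] at hu
    rw [LinearEquiv.map_eq_zero_iff, LinearEquiv.map_eq_zero_iff] at hu
    exact hu
  let B₀ : (κ → F) → (κ → F) → F := fun u v => sumPair (fun i => p i ^ k i) (ε u) (ε v)
  have hB_add : ∀ u u' v, B₀ (u + u') v = B₀ u v + B₀ u' v := by
    intro u u' v
    simp only [B₀]
    rw [hε_add, sumPair_add _ hg]
  have hB_smul : ∀ (c : F) u v, B₀ (c • u) v = c • B₀ u v := by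
    intro c u v
    simp only [B₀]
    rw [hε_smul, sumPair_smul _ hg, smul_eq_mul]
  have hB_comm : ∀ u v, B₀ u v = B₀ v u := by
    intro u v
    simp only [B₀]
    rw [sumPair_comm _ hg]
  let B : LinearMap.BilinForm F (κ → F) := LinearMap.mk₂ F B₀ hB_add hB_smul
    (by intro u v v'; rw [hB_comm, hB_add, hB_comm v, hB_comm v'])
    (by intro c u v; rw [hB_comm, hB_smul, hB_comm])
  have hB : ∀ u v, B u v = B₀ u v := fun u v => rfl
  have hBT : ∀ u v, B (T u) v = B u (T v) := by
    intro u v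
    rw [hB, hB]
    simp only [B₀]
    rw [hε_T, hε_T, sumPair_X _ hg]
  have hnd : ∀ u, (∀ v, B u v = 0) → u = 0 := by
    intro u hu
    apply hε_inj
    apply sumPair_nondeg _ hg
    intro b
    obtain ⟨v, rfl⟩ := hε_surj b
    exact hu v
  refine ⟨LinearMap.BilinForm.toMatrix' B, ?_, ?_⟩
  · rw [isUnit_iff_ne_zero, ← Matrix.nondegenerate_iff_det_ne_zero,
      LinearMap.BilinForm.nondegenerate_toMatrix'_iff]
    refine ⟨hnd, ?_⟩
    intro v hv
    apply hnd
    intro u
    rw [hB, hB_comm, ← hB]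
    exact hv u
  · have h1 : B.compRight T = B.compLeft T := by
      apply LinearMap.ext
      intro u
      apply LinearMap.ext
      intro v
      show B u (T v) = B (T u) v
      exact (hBT _ _).symm
    have h2 := congrArg LinearMap.BilinForm.toMatrix' h1
    rw [LinearMap.BilinForm.toMatrix'_compRight, LinearMap.BilinForm.toMatrix'_compLeft] at h2
    simpa [T] using h2

theorem isConj_transpose {F : Type*} [Field F] {κ : Type*} [Fintype κ] [DecidableEq κ] (A : Matrix κ κ F) :
    IsConj A A.transpose := by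
  obtain ⟨G, hG, h⟩ := exists_gram_transpose A
  exact ⟨((Matrix.isUnit_iff_isUnit_det G).mpr hG).unit, h⟩

end Cfsg.Agent.Helper16
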