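import Cfsg.Agent.Helper16.SpInvA

set_option autoImplicit false
open Cfsg
open scoped MatrixGroups

namespace Cfsg.Agent.Helper16.SpInv

open Module Submodule Cfsg.Agent.Helper16.Jord Cfsg.Agent.Helper16.QExt

section B
variable {F : Type*} [Field F]

/-- no scalar multiple of a reflection is a similarity of a symplectic form (`n ≥ 3`) -/
theorem refl_not_simil {n : ℕ} (hn : 3 ≤ n) (f : (Fin n → F) → (Fin n → F) → F)
    (hf : Cfsg.Geo.IsSymplecticForm f) (g : GL (Fin n) F)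
    (hg : g ∈ Cfsg.Geo.similarityGroup f) (ζ : F) (hζ : ζ ≠ 0) (a b : Fin n → F)
    (hba : b ⬝ᵥ a = -2) (h2 : (2 : F) ≠ 0)
    (hgm : (g : Matrix (Fin n) (Fin n) F) = ζ • (1 + Matrix.vecMulVec a b)) : False := by
  classical
  obtain ⟨c, hc⟩ := hg
  have hR : ∀ u, Matrix.mulVec (g : Matrix (Fin n) (Fin n) F) u = ζ • (u + (b ⬝ᵥ u) • a) := by
    intro u
    rw [hgm, Matrix.smul_mulVec, Matrix.add_mulVec, Matrix.one_mulVec, vmv]
  have hc' : ∀ u v, ζ * ζ * f (u + (b ⬝ᵥ u) • a) (v + (b ⬝ᵥ v) • a) = (c : F) * f u v := by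
    intro u v
    have h1 := hc u v
    rw [hR, hR, hf.bilinear.smul_left, hf.bilinear.smul_right] at h1
    rw [← h1]
    ring
  have ha0 : a ≠ 0 := by
    rintro rfl
    rw [dotProduct_zero] at hba
    exact h2 (by linear_combination hba)
  have hba0 : b ⬝ᵥ a ≠ 0 := by
    rw [hba]
    exact neg_ne_zero.mpr h2
  have hproj : ∀ y : Fin n → F, b ⬝ᵥ (y + (-(b ⬝ᵥ y) / (b ⬝ᵥ a)) • a) = 0 := by
    intro y
    rw [dotProduct_add, dotProduct_smul, smul_eq_mul, div_mul_cancel₀ _ hba0, add_neg_cancel]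
  obtain ⟨φ₁, hφ₁⟩ : ∃ φ₁ : (Fin n → F) →ₗ[F] F, ∀ u, φ₁ u = b ⬝ᵥ u :=
    ⟨{ toFun := fun u => b ⬝ᵥ u
       map_add' := fun u v => dotProduct_add b u v
       map_smul' := fun k u => by simp [dotProduct_smul] }, fun u => rfl⟩
  obtain ⟨φ₂, hφ₂⟩ : ∃ φ₂ : (Fin n → F) →ₗ[F] F, ∀ u, φ₂ u = f u a :=
    ⟨{ toFun := fun u => f u a
       map_add' := fun u v => hf.bilinear.add_left u v a
       map_smul' := fun k u => by
        rw [RingHom.id_apply, smul_eq_mul]
        exact hf.bilinear.smul_left k u a }, fun u => rfl⟩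
  have hker : LinearMap.ker (LinearMap.pi ![φ₁, φ₂]) ≠ ⊥ := by
    apply LinearMap.ker_ne_bot_of_finrank_lt
    rw [Module.finrank_fintype_fun_eq_card, Module.finrank_fintype_fun_eq_card,
      Fintype.card_fin, Fintype.card_fin]
    omega
  obtain ⟨u₀, hu₀ker, hu₀⟩ := (Submodule.ne_bot_iff _).mp hker
  rw [LinearMap.mem_ker] at hu₀ker
  have hbu : b ⬝ᵥ u₀ = 0 := by
    rw [← hφ₁]
    exact congrFun hu₀ker 0
  have hfu : f u₀ a = 0 := by
    rw [← hφ₂]
    exact congrFun hu₀ker 1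
  obtain ⟨y, hy⟩ := (hf.nondegenerate u₀ hu₀).2
  obtain ⟨v₀, hv₀⟩ : ∃ v₀, v₀ = y + (-(b ⬝ᵥ y) / (b ⬝ᵥ a)) • a := ⟨_, rfl⟩
  have hbv : b ⬝ᵥ v₀ = 0 := by
    rw [hv₀]
    exact hproj y
  have hfuv : f u₀ v₀ = f u₀ y := by
    rw [hv₀, hf.bilinear.add_right, hf.bilinear.smul_right, hfu, mul_zero, add_zero]
  have h1 := hc' u₀ v₀
  rw [hbu, hbv, zero_smul, add_zero, add_zero, hfuv] at h1
  have hcζ : (c : F) = ζ * ζ := (mul_right_cancel₀ hy h1).symm
  have hiso : ∀ u v, f (u + (b ⬝ᵥ u) • a) (v + (b ⬝ᵥ v) • a) = f u v := by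
    intro u v
    have h3 := hc' u v
    rw [hcζ] at h3
    exact mul_left_cancel₀ (mul_ne_zero hζ hζ) h3
  have hperp : ∀ v, b ⬝ᵥ v = 0 → f a v = 0 := by
    intro v hv
    have h3 := hiso a v
    rw [hv, zero_smul, add_zero, hba] at h3
    have e : a + (-2 : F) • a = (-1 : F) • a := by module
    rw [e, hf.bilinear.smul_left] at h3
    have h4 : 2 * f a v = 0 := by linear_combination -h3
    exact (mul_eq_zero.mp h4).resolve_left h2
  obtain ⟨w, hw⟩ := (hf.nondegenerate a ha0).2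
  apply hw
  have h5 := hperp _ (hproj w)
  rw [hf.bilinear.add_right, hf.bilinear.smul_right, hf.alternating, mul_zero, add_zero] at h5
  exact h5

theorem not_conj_refl {n : ℕ} (hn : 3 ≤ n) (f : (Fin n → F) → (Fin n → F) → F)
    (hf : Cfsg.Geo.IsSymplecticForm f) (x : Matrix.SpecialLinearGroup (Fin n) F)
    (ζ : F) (hζ : ζ ≠ 0) (a b : Fin n → F) (hba : b ⬝ᵥ a = -2) (h2 : (2 : F) ≠ 0)
    (hx : (x : Matrix (Fin n) (Fin n) F) = ζ • (1 + Matrix.vecMulVec a b))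
    (P : Matrix.SpecialLinearGroup (Fin n) F) :
    P⁻¹ * x * P ∉ ((Cfsg.Geo.similarityGroup f).comap
      (Matrix.SpecialLinearGroup.toGL :
        Matrix.SpecialLinearGroup (Fin n) F →* GL (Fin n) F)) := by
  intro h
  rw [Subgroup.mem_comap] at h
  have hPu : IsUnit (P : Matrix (Fin n) (Fin n) F).det := by
    rw [P.det_coe]
    exact isUnit_one
  have hPP : (P : Matrix (Fin n) (Fin n) F) * (P : Matrix (Fin n) (Fin n) F)⁻¹ = 1 :=
    Matrix.mul_nonsing_inv _ hPu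
  have hPP' : (P : Matrix (Fin n) (Fin n) F)⁻¹ * (P : Matrix (Fin n) (Fin n) F) = 1 :=
    Matrix.nonsing_inv_mul _ hPu
  refine refl_not_simil hn f hf _ h ζ hζ
    (Matrix.mulVec (P : Matrix (Fin n) (Fin n) F)⁻¹ a)
    (Matrix.vecMul b (P : Matrix (Fin n) (Fin n) F)) ?_ h2 ?_
  · rw [← Matrix.dotProduct_mulVec, Matrix.mulVec_mulVec, hPP, Matrix.one_mulVec, hba]
  · rw [coe_conj, hx, Matrix.mul_smul, Matrix.smul_mul, Matrix.mul_add, Matrix.add_mul,
      Matrix.mul_one, hPP', Matrix.mul_vecMulVec, Matrix.vecMulVec_mul]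

theorem neg_elt_odd [Fintype F] {n : ℕ} (hn : 2 ≤ n) (hch : ringChar F ≠ 2)
    (hv : padicValNat 2 n < padicValNat 2 (Fintype.card F - 1)) :
    ∃ (x : Matrix.SpecialLinearGroup (Fin n) F) (ζ : F) (a b : Fin n → F),
      ζ ≠ 0 ∧ b ⬝ᵥ a = -2 ∧
      (x : Matrix (Fin n) (Fin n) F) = ζ • (1 + Matrix.vecMulVec a b) ∧
      (∃ z : F, ((x ^ 2 : Matrix.SpecialLinearGroup (Fin n) F) : Matrix (Fin n) (Fin n) F)
        = z • (1 : Matrix (Fin n) (Fin n) F)) ∧
      (∀ z : F, (x : Matrix (Fin n) (Fin n) F) ≠ z • (1 : Matrix (Fin n) (Fin n) F)) := by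
  classical
  obtain ⟨i₀, i₁, h01⟩ : ∃ i₀ i₁ : Fin n, i₀ ≠ i₁ :=
    ⟨⟨0, by omega⟩, ⟨1, by omega⟩, by simp [Fin.ext_iff]⟩
  have h2F : (2 : F) ≠ 0 := Ring.two_ne_zero hch
  obtain ⟨ζ, hζ⟩ := exists_zeta hch n (by omega) hv
  have hζ0 : ζ ≠ 0 := by
    rintro rfl
    rw [zero_pow (by omega)] at hζ
    have h3 : (1 : F) = 0 := by linear_combination hζ
    exact one_ne_zero h3
  have hba : (Pi.single i₀ (-2 : F) : Fin n → F) ⬝ᵥ (Pi.single i₀ (1 : F)) = -2 := by
    rw [single_dotProduct, Pi.single_eq_same, mul_one]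
  obtain ⟨x, hx, hx2⟩ := rank_one_elt ζ (Pi.single i₀ 1) (Pi.single i₀ (-2))
    (by rw [hba]; ring) (by rw [hba, hζ]; ring)
  refine ⟨x, ζ, Pi.single i₀ 1, Pi.single i₀ (-2), hζ0, hba, hx, ⟨_, hx2⟩, ?_⟩
  intro z hz
  rw [hx] at hz
  have h1 := congrFun (congrFun hz i₀) i₀
  have h2 := congrFun (congrFun hz i₁) i₁
  rw [Matrix.smul_apply, Matrix.add_apply, Matrix.one_apply_eq, Matrix.vecMulVec_apply,
    Pi.single_eq_same, Pi.single_eq_same, Matrix.smul_apply, Matrix.one_apply_eq] at h1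
  rw [Matrix.smul_apply, Matrix.add_apply, Matrix.one_apply_eq, Matrix.vecMulVec_apply,
    Pi.single_eq_of_ne h01.symm, Matrix.smul_apply, Matrix.one_apply_eq] at h2
  simp only [smul_eq_mul] at h1 h2
  apply hζ0
  have h3 : 2 * ζ = 0 := by linear_combination h2 - h1
  exact (mul_eq_zero.mp h3).resolve_left h2F

/-- `x * x` a non-square scalar -/
theorem pos_nonsq {n m : ℕ} (hnm : n = 2 * m) (hm : 1 ≤ m)
    (f : (Fin n → F) → (Fin n → F) → F) (hf : Cfsg.Geo.IsSymplecticForm f)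
    (x : Matrix.SpecialLinearGroup (Fin n) F) (z : F) (hz : ¬ IsSquare z)
    (hx2 : (x : Matrix (Fin n) (Fin n) F) * (x : Matrix (Fin n) (Fin n) F)
      = z • (1 : Matrix (Fin n) (Fin n) F)) :
    ∃ P : Matrix.SpecialLinearGroup (Fin n) F, P⁻¹ * x * P ∈
      ((Cfsg.Geo.similarityGroup f).comap (Matrix.SpecialLinearGroup.toGL :
        Matrix.SpecialLinearGroup (Fin n) F →* GL (Fin n) F)) := by
  classical
  have hz0 : z ≠ 0 := by
    rintro rfl
    exact hz IsSquare.zero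
  obtain ⟨xm, hxm⟩ : ∃ xm : Matrix (Fin n) (Fin n) F,
      xm = (x : Matrix (Fin n) (Fin n) F) := ⟨_, rfl⟩
  rw [← hxm] at hx2
  have hxx : ∀ v, Matrix.mulVec xm (Matrix.mulVec xm v) = z • v := by
    intro v
    rw [Matrix.mulVec_mulVec, hx2, Matrix.smul_mulVec, Matrix.one_mulVec]
  have hT : ∀ v, Matrix.toLin' xm (Matrix.toLin' xm v)
      = (0 : F) • Matrix.toLin' xm v + z • v := by
    intro v
    rw [Matrix.toLin'_apply, Matrix.toLin'_apply, hxx, zero_smul, zero_add]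
  have hirr : ∀ l : F, l * l ≠ 0 * l + z := by
    intro l hl
    exact hz ⟨l, by rw [hl]; ring⟩
  have hbot : ∀ w ∈ (⊥ : Submodule F (Fin n → F)),
      Matrix.toLin' xm w ∈ (⊥ : Submodule F (Fin n → F)) := by
    intro w hw
    rw [Submodule.mem_bot] at hw ⊢
    rw [hw, map_zero]
  obtain ⟨u, hli, -⟩ := chain_fin (Matrix.toLin' xm) 0 z hT hirr m ⊥ hbot (by
    rw [finrank_bot, Module.finrank_fin_fun, hnm, zero_add])
  have hc : Fintype.card (Fin m ⊕ Fin m) = finrank F (Fin n → F) := by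
    rw [Module.finrank_fin_fun, Fintype.card_sum, Fintype.card_fin, hnm]
    ring
  haveI : Nonempty (Fin m ⊕ Fin m) := ⟨Sum.inl ⟨0, hm⟩⟩
  obtain ⟨bX, hbX⟩ : ∃ bX : Basis (Fin m ⊕ Fin m) F (Fin n → F),
      ∀ j, bX j = Sum.elim u (fun i => Matrix.toLin' xm (u i)) j :=
    ⟨basisOfLinearIndependentOfCardEqFinrank hli hc, fun j => by
      rw [coe_basisOfLinearIndependentOfCardEqFinrank]⟩
  obtain ⟨bS, hbS⟩ := exists_planes f hf (Fin m) (by rw [Fintype.card_fin]; exact hnm)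
  apply simil_of_planes (by omega) f hf bS hbS x bX (fun _ => 0)
    (Sum.elim (fun _ => 1) (fun _ => z)) (-z) (neg_ne_zero.mpr hz0)
  · intro j
    rw [← hxm]
    rcases j with i | i
    · show Matrix.mulVec xm (bX (Sum.inl i))
        = (0 : F) • bX (Sum.inl i) + (1 : F) • bX (Sum.inr i)
      rw [hbX, hbX, zero_smul, zero_add, one_smul]
      show Matrix.mulVec xm (u i) = Matrix.toLin' xm (u i)
      rw [Matrix.toLin'_apply]
    · show Matrix.mulVec xm (bX (Sum.inr i))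
        = (0 : F) • bX (Sum.inr i) + z • bX (Sum.inl i)
      rw [hbX, hbX, zero_smul, zero_add]
      show Matrix.mulVec xm (Matrix.toLin' xm (u i)) = z • u i
      rw [Matrix.toLin'_apply, hxx]
  · intro j
    rcases j with i | i
    · show (0 : F) * 0 - 1 * z = -z
      ring
    · show (0 : F) * 0 - z * 1 = -z
      ring

/-- `x = ζ s` with `s` an involution whose eigenspaces have even dimensions -/
theorem pos_sq_eig {n : ℕ} (hn : 1 ≤ n) (f : (Fin n → F) → (Fin n → F) → F)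
    (hf : Cfsg.Geo.IsSymplecticForm f) (x : Matrix.SpecialLinearGroup (Fin n) F) (ζ : F)
    (hζ0 : ζ ≠ 0) (a' b' : ℕ) (u : Fin (a' + a') → (Fin n → F)) (v : Fin (b' + b') → (Fin n → F))
    (hli : LinearIndependent F (Sum.elim u v)) (hsp : span F (Set.range (Sum.elim u v)) = ⊤)
    (hu : ∀ i, Matrix.mulVec (x : Matrix (Fin n) (Fin n) F) (u i) = ζ • u i)
    (hv : ∀ j, Matrix.mulVec (x : Matrix (Fin n) (Fin n) F) (v j) = (-ζ) • v j) :
    ∃ P : Matrix.SpecialLinearGroup (Fin n) F, P⁻¹ * x * P ∈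
      ((Cfsg.Geo.similarityGroup f).comap (Matrix.SpecialLinearGroup.toGL :
        Matrix.SpecialLinearGroup (Fin n) F →* GL (Fin n) F)) := by
  classical
  obtain ⟨e, he⟩ : ∃ e : Fin (a' + a') ⊕ Fin (b' + b') ≃ (Fin a' ⊕ Fin b') ⊕ (Fin a' ⊕ Fin b'),
      e = (Equiv.sumCongr finSumFinEquiv.symm finSumFinEquiv.symm).trans
        (Equiv.sumSumSumComm _ _ _ _) := ⟨_, rfl⟩
  have hB0 : ∀ k, (Basis.mk hli hsp.ge) k = Sum.elim u v k := fun k => by
    rw [Basis.mk_apply]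
  generalize Basis.mk hli hsp.ge = B0 at hB0
  have hab : (a' + a') + (b' + b') = n := by
    have h1 := Module.finrank_eq_card_basis B0
    rw [Module.finrank_fin_fun, Fintype.card_sum, Fintype.card_fin, Fintype.card_fin] at h1
    exact h1.symm
  obtain ⟨c, hcdef⟩ : ∃ c : Fin a' ⊕ Fin b' → F, c = Sum.elim (fun _ => ζ) (fun _ => -ζ) :=
    ⟨_, rfl⟩
  have h1 : ∀ i, Matrix.mulVec (x : Matrix (Fin n) (Fin n) F) ((B0.reindex e) (Sum.inl i))
      = c i • (B0.reindex e) (Sum.inl i) := by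
    intro i
    rw [Basis.reindex_apply, hB0, hcdef]
    rcases i with i | i
    · have h1 : e.symm (Sum.inl (Sum.inl i)) = Sum.inl (finSumFinEquiv (Sum.inl i)) := by
        rw [he]
        rfl
      rw [h1]
      simp only [Sum.elim_inl]
      rw [hu]
    · have h1 : e.symm (Sum.inl (Sum.inr i)) = Sum.inr (finSumFinEquiv (Sum.inl i)) := by
        rw [he]
        rfl
      rw [h1]
      simp only [Sum.elim_inr]
      rw [hv]
  have h2 : ∀ i, Matrix.mulVec (x : Matrix (Fin n) (Fin n) F) ((B0.reindex e) (Sum.inr i))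
      = c i • (B0.reindex e) (Sum.inr i) := by
    intro i
    rw [Basis.reindex_apply, hB0, hcdef]
    rcases i with i | i
    · have h1 : e.symm (Sum.inr (Sum.inl i)) = Sum.inl (finSumFinEquiv (Sum.inr i)) := by
        rw [he]
        rfl
      rw [h1]
      simp only [Sum.elim_inl]
      rw [hu]
    · have h1 : e.symm (Sum.inr (Sum.inr i)) = Sum.inr (finSumFinEquiv (Sum.inr i)) := by
        rw [he]
        rfl
      rw [h1]
      simp only [Sum.elim_inr]
      rw [hv]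
  have hcc : ∀ i, c i * c i = ζ * ζ := by
    intro i
    rw [hcdef]
    rcases i with i | i
    · rfl
    · show -ζ * -ζ = ζ * ζ
      ring
  obtain ⟨bS, hbS⟩ := exists_planes f hf (Fin a' ⊕ Fin b') (by
    rw [Fintype.card_sum, Fintype.card_fin, Fintype.card_fin]
    omega)
  apply simil_of_planes hn f hf bS hbS x (B0.reindex e) (Sum.elim c c) (fun _ => 0) (ζ * ζ)
    (mul_ne_zero hζ0 hζ0)
  · intro j
    rcases j with i | i
    · show _ = c i • _ + (0 : F) • _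
      rw [h1, zero_smul, add_zero]
    · show _ = c i • _ + (0 : F) • _
      rw [h2, zero_smul, add_zero]
  · intro j
    rcases j with i | i
    · show c i * c i - (0 : F) * 0 = ζ * ζ
      rw [hcc]
      ring
    · show c i * c i - (0 : F) * 0 = ζ * ζ
      rw [hcc]
      ring

end B

end Cfsg.Agent.Helper16.SpInv
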