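import Cfsg.Agent.Helper16.SpInvB

set_option autoImplicit false
open Cfsg
open scoped MatrixGroups

namespace Cfsg.Agent.Helper16.SpInv

open Module Submodule Cfsg.Agent.Helper16.Jord Cfsg.Agent.Helper16.QExt

section C
variable {F : Type*} [Field F]

/-- characteristic 2: `x = ζ (1 + N)` with `N * N = 0` -/
theorem pos_even {n : ℕ} (hn : 1 ≤ n) (hnev : Even n) (h2F : (2 : F) = 0)
    (f : (Fin n → F) → (Fin n → F) → F) (hf : Cfsg.Geo.IsSymplecticForm f)
    (x : Matrix.SpecialLinearGroup (Fin n) F) (ζ : F) (hζ0 : ζ ≠ 0)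
    (hx2 : (x : Matrix (Fin n) (Fin n) F) * (x : Matrix (Fin n) (Fin n) F)
      = (ζ * ζ) • (1 : Matrix (Fin n) (Fin n) F)) :
    ∃ P : Matrix.SpecialLinearGroup (Fin n) F, P⁻¹ * x * P ∈
      ((Cfsg.Geo.similarityGroup f).comap (Matrix.SpecialLinearGroup.toGL :
        Matrix.SpecialLinearGroup (Fin n) F →* GL (Fin n) F)) := by
  classical
  obtain ⟨xm, hxm⟩ : ∃ xm : Matrix (Fin n) (Fin n) F,
      xm = (x : Matrix (Fin n) (Fin n) F) := ⟨_, rfl⟩
  rw [← hxm] at hx2
  obtain ⟨N, hN⟩ : ∃ N : Matrix (Fin n) (Fin n) F, N = ζ⁻¹ • xm - 1 := ⟨_, rfl⟩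
  have hSS : (ζ⁻¹ • xm) * (ζ⁻¹ • xm) = 1 := by
    simp only [Matrix.smul_mul, Matrix.mul_smul, smul_smul]
    rw [hx2, smul_smul]
    have h1 : ζ⁻¹ * ζ⁻¹ * (ζ * ζ) = 1 := by
      field_simp
    rw [h1, one_smul]
  have hN2 : N * N = 0 := by
    have e : ∀ A : Matrix (Fin n) (Fin n) F,
        (A - 1) * (A - 1) = A * A - 1 - (A + A) + (1 + 1) := by
      intro A
      noncomm_ring
    have hadd : ∀ M : Matrix (Fin n) (Fin n) F, M + M = 0 := by
      intro M
      ext i j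
      simp only [Matrix.add_apply, Matrix.zero_apply]
      linear_combination (M i j) * h2F
    rw [hN, e, hSS, hadd, hadd]
    simp
  have hxN : ∀ y, Matrix.mulVec xm y = ζ • (y + Matrix.mulVec N y) := by
    intro y
    rw [hN, Matrix.sub_mulVec, Matrix.smul_mulVec, Matrix.one_mulVec, add_sub_cancel, smul_smul,
      mul_inv_cancel₀ hζ0, one_smul]
  have hNN : ∀ y, Matrix.mulVec N (Matrix.mulVec N y) = 0 := fun y => by
    rw [Matrix.mulVec_mulVec, hN2, Matrix.zero_mulVec]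
  have hN' : ∀ y, Matrix.mulVec N (Matrix.mulVec N (Matrix.mulVec N y)) = 0 := fun y => by
    rw [hNN]
  obtain ⟨a, b, c, u, v, w, hli, hsp, hv, hw⟩ := jordan3 (Matrix.toLin' N) (fun y => by
    rw [Matrix.toLin'_apply, Matrix.toLin'_apply, Matrix.toLin'_apply]
    exact hN' y)
  have ha : a = 0 := by
    by_contra ha
    have h1 := hli.ne_zero
      (Sum.inr (Sum.inr (Sum.inl (Sum.inl (⟨0, Nat.pos_of_ne_zero ha⟩ : Fin a)))))
    apply h1
    show Matrix.toLin' N (Matrix.toLin' N (u _)) = 0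
    rw [Matrix.toLin'_apply, Matrix.toLin'_apply, hNN]
  subst ha
  have hcard : 2 * b + c = n := by
    have hB0 : Fintype.card (JI 0 b c) = n := by
      have h1 := Module.finrank_eq_card_basis (Basis.mk hli hsp.ge)
      rw [Module.finrank_fin_fun] at h1
      exact h1.symm
    rw [card_JI] at hB0
    omega
  obtain ⟨c', rfl⟩ : ∃ c', c = c' + c' := by
    obtain ⟨m, hm⟩ := hnev
    exact ⟨m - b, by omega⟩
  obtain ⟨φ, hφ⟩ : ∃ φ : (Fin b ⊕ Fin c') ⊕ (Fin b ⊕ Fin c') → JI 0 b (c' + c'),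
      φ = Sum.elim
        (Sum.elim (fun j => Sum.inr (Sum.inl (Sum.inr j)))
          (fun l => Sum.inr (Sum.inr (Sum.inr (finSumFinEquiv (Sum.inl l))))))
        (Sum.elim (fun j => Sum.inr (Sum.inr (Sum.inl (Sum.inr j))))
          (fun l => Sum.inr (Sum.inr (Sum.inr (finSumFinEquiv (Sum.inr l)))))) := ⟨_, rfl⟩
  have hφinj : Function.Injective φ := by
    intro s s' h
    rw [hφ] at h
    rcases s with (j | l) | (j | l) <;> rcases s' with (j' | l') | (j' | l') <;>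
      simp only [Sum.elim_inl, Sum.elim_inr, Sum.inr.injEq, Sum.inl.injEq, reduceCtorEq,
        EmbeddingLike.apply_eq_iff_eq] at h <;> rw [h]
  have hliG : LinearIndependent F (fam (Matrix.toLin' N) u v w ∘ φ) := hli.comp φ hφinj
  have hc : Fintype.card ((Fin b ⊕ Fin c') ⊕ (Fin b ⊕ Fin c')) = finrank F (Fin n → F) := by
    rw [Module.finrank_fin_fun]
    simp only [Fintype.card_sum, Fintype.card_fin]
    omega
  haveI : Nonempty ((Fin b ⊕ Fin c') ⊕ (Fin b ⊕ Fin c')) := Fintype.card_pos_iff.mp (by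
    rw [hc, Module.finrank_fin_fun]
    omega)
  obtain ⟨bX, hbX⟩ : ∃ bX : Basis ((Fin b ⊕ Fin c') ⊕ (Fin b ⊕ Fin c')) F (Fin n → F),
      ∀ s, bX s = fam (Matrix.toLin' N) u v w (φ s) :=
    ⟨basisOfLinearIndependentOfCardEqFinrank hliG hc, fun s => by
      rw [coe_basisOfLinearIndependentOfCardEqFinrank]
      rfl⟩
  obtain ⟨bS, hbS⟩ := exists_planes f hf (Fin b ⊕ Fin c') (by
    rw [Fintype.card_sum, Fintype.card_fin, Fintype.card_fin]
    omega)
  apply simil_of_planes hn f hf bS hbS x bX (fun _ => ζ)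
    (Sum.elim (Sum.elim (fun _ => ζ) (fun _ => 0)) (fun _ => 0)) (ζ * ζ) (mul_ne_zero hζ0 hζ0)
  · intro s
    rw [← hxm, hxN]
    rcases s with (j | l) | (j | l)
    · show ζ • (bX (Sum.inl (Sum.inl j)) + Matrix.mulVec N (bX (Sum.inl (Sum.inl j))))
        = ζ • bX (Sum.inl (Sum.inl j)) + ζ • bX (Sum.inr (Sum.inl j))
      simp only [hbX]
      rw [hφ]
      show ζ • (v j + Matrix.mulVec N (v j)) = ζ • v j + ζ • Matrix.toLin' N (v j)
      rw [Matrix.toLin'_apply, smul_add]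
    · show ζ • (bX (Sum.inl (Sum.inr l)) + Matrix.mulVec N (bX (Sum.inl (Sum.inr l))))
        = ζ • bX (Sum.inl (Sum.inr l)) + (0 : F) • bX (Sum.inr (Sum.inr l))
      simp only [hbX]
      rw [hφ]
      show ζ • (w (finSumFinEquiv (Sum.inl l)) + Matrix.mulVec N (w (finSumFinEquiv (Sum.inl l))))
        = ζ • w (finSumFinEquiv (Sum.inl l)) + (0 : F) • w (finSumFinEquiv (Sum.inr l))
      have h1 := hw (finSumFinEquiv (Sum.inl l))
      rw [Matrix.toLin'_apply] at h1
      rw [h1, add_zero, zero_smul, add_zero]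
    · show ζ • (bX (Sum.inr (Sum.inl j)) + Matrix.mulVec N (bX (Sum.inr (Sum.inl j))))
        = ζ • bX (Sum.inr (Sum.inl j)) + (0 : F) • bX (Sum.inl (Sum.inl j))
      simp only [hbX]
      rw [hφ]
      show ζ • (Matrix.toLin' N (v j) + Matrix.mulVec N (Matrix.toLin' N (v j)))
        = ζ • Matrix.toLin' N (v j) + (0 : F) • v j
      rw [Matrix.toLin'_apply, hNN, add_zero, zero_smul, add_zero]
    · show ζ • (bX (Sum.inr (Sum.inr l)) + Matrix.mulVec N (bX (Sum.inr (Sum.inr l))))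
        = ζ • bX (Sum.inr (Sum.inr l)) + (0 : F) • bX (Sum.inl (Sum.inr l))
      simp only [hbX]
      rw [hφ]
      show ζ • (w (finSumFinEquiv (Sum.inr l)) + Matrix.mulVec N (w (finSumFinEquiv (Sum.inr l))))
        = ζ • w (finSumFinEquiv (Sum.inr l)) + (0 : F) • w (finSumFinEquiv (Sum.inl l))
      have h1 := hw (finSumFinEquiv (Sum.inr l))
      rw [Matrix.toLin'_apply] at h1
      rw [h1, add_zero, zero_smul, add_zero]
  · intro s
    rcases s with (j | l) | (j | l)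
    · show ζ * ζ - ζ * 0 = ζ * ζ
      ring
    · show ζ * ζ - (0 : F) * 0 = ζ * ζ
      ring
    · show ζ * ζ - 0 * ζ = ζ * ζ
      ring
    · show ζ * ζ - (0 : F) * 0 = ζ * ζ
      ring

/-- odd `q`, `x * x` a square scalar -/
theorem pos_odd_sq [Fintype F] {n : ℕ} (hch : ringChar F ≠ 2) (hn : 1 ≤ n) (hnev : Even n)
    (hR : padicValNat 2 (Fintype.card F - 1) ≤ padicValNat 2 n)
    (f : (Fin n → F) → (Fin n → F) → F) (hf : Cfsg.Geo.IsSymplecticForm f)
    (x : Matrix.SpecialLinearGroup (Fin n) F) (ζ : F)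
    (hx2 : (x : Matrix (Fin n) (Fin n) F) * (x : Matrix (Fin n) (Fin n) F)
      = (ζ * ζ) • (1 : Matrix (Fin n) (Fin n) F)) :
    ∃ P : Matrix.SpecialLinearGroup (Fin n) F, P⁻¹ * x * P ∈
      ((Cfsg.Geo.similarityGroup f).comap (Matrix.SpecialLinearGroup.toGL :
        Matrix.SpecialLinearGroup (Fin n) F →* GL (Fin n) F)) := by
  classical
  have h2F : (2 : F) ≠ 0 := Ring.two_ne_zero hch
  haveI : Nonempty (Fin n) := ⟨⟨0, by omega⟩⟩
  obtain ⟨xm, hxm⟩ : ∃ xm : Matrix (Fin n) (Fin n) F,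
      xm = (x : Matrix (Fin n) (Fin n) F) := ⟨_, rfl⟩
  have hdet : xm.det = 1 := by
    rw [hxm]
    exact x.det_coe
  rw [← hxm] at hx2
  have hζ0 : ζ ≠ 0 := by
    rintro rfl
    have h1 := congrArg Matrix.det hx2
    rw [Matrix.det_mul, hdet, mul_zero, zero_smul, Matrix.det_zero] at h1
    norm_num at h1
  obtain ⟨S, hS⟩ : ∃ S : Matrix (Fin n) (Fin n) F, S = ζ⁻¹ • xm := ⟨_, rfl⟩
  have hxS : xm = ζ • S := by rw [hS, smul_smul, mul_inv_cancel₀ hζ0, one_smul]
  have hSS : S * S = 1 := by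
    rw [hS]
    simp only [Matrix.smul_mul, Matrix.mul_smul, smul_smul]
    rw [hx2, smul_smul]
    have h1 : ζ⁻¹ * ζ⁻¹ * (ζ * ζ) = 1 := by
      field_simp
    rw [h1, one_smul]
  have hSdet : S.det = (ζ ^ n)⁻¹ := by
    rw [hS, Matrix.det_smul, hdet, mul_one, Fintype.card_fin, inv_pow]
  obtain ⟨a, b, u, v, hli, hsp, hu, hv⟩ := inv_eig h2F (Matrix.toLin' S) (fun y => by
    rw [Matrix.toLin'_apply, Matrix.toLin'_apply, Matrix.mulVec_mulVec, hSS, Matrix.one_mulVec])
  have hB0 : ∀ k, (Basis.mk hli hsp.ge) k = Sum.elim u v k := fun k => by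
    rw [Basis.mk_apply]
  generalize Basis.mk hli hsp.ge = B0 at hB0
  have hab : a + b = n := by
    have h1 := Module.finrank_eq_card_basis B0
    rw [Module.finrank_fin_fun, Fintype.card_sum, Fintype.card_fin, Fintype.card_fin] at h1
    exact h1.symm
  have hdetS : S.det = (-1) ^ b := by
    rw [← LinearMap.det_toLin']
    apply det_of_eig B0
    · intro i
      rw [hB0]
      exact hu i
    · intro j
      rw [hB0]
      exact hv j
  rcases Nat.even_or_odd b with hbe | hbo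
  · obtain ⟨b', rfl⟩ := hbe
    have hae : Even a := by
      obtain ⟨m, hm⟩ := hnev
      exact ⟨m - b', by omega⟩
    obtain ⟨a', rfl⟩ := hae
    apply pos_sq_eig hn f hf x ζ hζ0 a' b' u v hli hsp
    · intro i
      have h1 := hu i
      rw [Matrix.toLin'_apply] at h1
      rw [← hxm, hxS, Matrix.smul_mulVec, h1]
    · intro j
      have h1 := hv j
      rw [Matrix.toLin'_apply] at h1
      rw [← hxm, hxS, Matrix.smul_mulVec, h1, smul_neg, neg_smul]
  · exfalso
    rw [hSdet, hbo.neg_one_pow] at hdetS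
    have hζn : ζ ^ n = -1 := by
      have h1 := congrArg (fun y => y⁻¹) hdetS
      simp only [inv_inv] at h1
      rw [h1]
      norm_num
    exact no_zeta hch n (by omega) hR ζ hζn

end C

end Cfsg.Agent.Helper16.SpInv
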