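import Mathlib

set_option autoImplicit false

namespace Cfsg.Agent.Helper16

open Matrix

/-- A basis adapted to a rank-one square-zero endomorphism. -/
theorem exists_adapted_basis {F V : Type*} [Field F] [AddCommGroup V] [Module F V]
    [FiniteDimensional F V] (k : ℕ) (hV : Module.finrank F V = k + 3) (f : V →ₗ[F] V)
    (hrank : Module.finrank F (LinearMap.range f) = 1) (hsq : ∀ v, f (f v) = 0) :
    ∃ c : Module.Basis (Fin (k + 3)) F V, f (c 0) = c 1 ∧ ∀ j : Fin (k + 2), f (c j.succ) = 0 := by
  classical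
  have hker : Module.finrank F (LinearMap.ker f) = k + 2 := by
    have h := LinearMap.finrank_range_add_finrank_ker f
    rw [hrank, hV] at h
    omega
  have hlt : LinearMap.ker f < ⊤ := by
    rw [lt_top_iff_ne_top]
    intro h
    have h2 : Module.finrank F (LinearMap.ker f) = k + 3 := by
      rw [h, finrank_top, hV]
    omega
  obtain ⟨b₁, -, hb₁⟩ := SetLike.exists_of_lt hlt
  have hb₁' : f b₁ ≠ 0 := by
    intro h
    exact hb₁ (LinearMap.mem_ker.mpr h)
  have hb₀ker : f b₁ ∈ LinearMap.ker f := LinearMap.mem_ker.mpr (hsq b₁)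
  have hb₀'ne : (⟨f b₁, hb₀ker⟩ : LinearMap.ker f) ≠ 0 := by
    intro h
    apply hb₁'
    exact congrArg Subtype.val h
  obtain ⟨W, hW⟩ := Submodule.exists_isCompl
    (F ∙ (⟨f b₁, hb₀ker⟩ : LinearMap.ker f) : Submodule F (LinearMap.ker f))
  have hWrank : Module.finrank F W = k + 1 := by
    have h := Submodule.finrank_add_eq_of_isCompl hW
    rw [finrank_span_singleton hb₀'ne, hker] at h
    omega
  let bw : Module.Basis (Fin (k + 1)) F W := Module.finBasisOfFinrankEq F W hWrank
  let w : Fin (k + 1) → V := fun j => ((bw j : LinearMap.ker f) : V)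
  have hwker : ∀ j, f (w j) = 0 := by
    intro j
    exact LinearMap.mem_ker.mp (bw j : LinearMap.ker f).2
  have hwli : LinearIndependent F w := by
    have h1 : LinearIndependent F (⇑W.subtype ∘ ⇑bw) :=
      LinearIndependent.map' bw.linearIndependent W.subtype (Submodule.ker_subtype W)
    have h2 : LinearIndependent F (⇑(LinearMap.ker f).subtype ∘ (⇑W.subtype ∘ ⇑bw)) :=
      LinearIndependent.map' h1 (LinearMap.ker f).subtype (Submodule.ker_subtype _)
    exact h2
  have hspanw : Submodule.span F (Set.range w) = (W.map (LinearMap.ker f).subtype) := by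
    have h1 : Set.range w = (fun x : W => ((x : LinearMap.ker f) : V)) '' Set.range bw := by
      ext x
      constructor
      · rintro ⟨j, rfl⟩
        exact ⟨bw j, ⟨j, rfl⟩, rfl⟩
      · rintro ⟨_, ⟨j, rfl⟩, rfl⟩
        exact ⟨j, rfl⟩
    have h2 : (fun x : W => ((x : LinearMap.ker f) : V)) =
        ⇑((LinearMap.ker f).subtype.comp W.subtype) := rfl
    rw [h1, h2, ← Submodule.map_span, bw.span_eq, Submodule.map_comp, Submodule.map_subtype_top]
  have hb₀notin : f b₁ ∉ Submodule.span F (Set.range w) := by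
    rw [hspanw]
    rintro ⟨x, hx, hxe⟩
    have hxb : x = (⟨f b₁, hb₀ker⟩ : LinearMap.ker f) := Subtype.ext hxe
    have h1 : (⟨f b₁, hb₀ker⟩ : LinearMap.ker f) ∈
        (F ∙ (⟨f b₁, hb₀ker⟩ : LinearMap.ker f) : Submodule F (LinearMap.ker f)) ⊓ W :=
      ⟨Submodule.mem_span_singleton_self _, hxb ▸ hx⟩
    rw [hW.inf_eq_bot] at h1
    exact hb₀'ne ((Submodule.mem_bot F).mp h1)
  have hli1 : LinearIndependent F (Fin.cons (f b₁) w : Fin (k + 2) → V) :=
    linearIndependent_finCons.mpr ⟨hwli, hb₀notin⟩
  have hb₁notin : b₁ ∉ Submodule.span F (Set.range (Fin.cons (f b₁) w : Fin (k + 2) → V)) := by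
    intro h
    apply hb₁
    have hle : Submodule.span F (Set.range (Fin.cons (f b₁) w : Fin (k + 2) → V)) ≤
        LinearMap.ker f := by
      rw [Submodule.span_le]
      rintro _ ⟨j, rfl⟩
      refine Fin.cases ?_ (fun j' => ?_) j
      · exact hb₀ker
      · rw [Fin.cons_succ, SetLike.mem_coe, LinearMap.mem_ker]
        exact hwker j'
    exact hle h
  have hli : LinearIndependent F (Fin.cons b₁ (Fin.cons (f b₁) w) : Fin (k + 3) → V) :=
    linearIndependent_finCons.mpr ⟨hli1, hb₁notin⟩
  refine ⟨basisOfLinearIndependentOfCardEqFinrank hli (by rw [Fintype.card_fin, hV]), ?_, ?_⟩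
  · rw [coe_basisOfLinearIndependentOfCardEqFinrank]
    rfl
  · intro j
    rw [coe_basisOfLinearIndependentOfCardEqFinrank, Fin.cons_succ]
    refine Fin.cases ?_ (fun j' => ?_) j
    · rw [Fin.cons_zero]
      exact hsq b₁
    · rw [Fin.cons_succ]
      exact hwker j'

/-- A rank-one square-zero matrix is conjugate (by a matrix of determinant one, when the dimension
is at least 3) to the elementary matrix `single 1 0 1`. -/
theorem exists_conj_single {F : Type*} [Field F] (k : ℕ) (N : Matrix (Fin (k + 3)) (Fin (k + 3)) F)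
    (hrank : N.rank = 1) (hsq : N * N = 0) :
    ∃ P : Matrix (Fin (k + 3)) (Fin (k + 3)) F, P.det = 1 ∧
      N * P = P * Matrix.single (1 : Fin (k + 3)) (0 : Fin (k + 3)) (1 : F) := by
  classical
  obtain ⟨cb, hc0, hcs⟩ := exists_adapted_basis k (Module.finrank_fin_fun F) N.mulVecLin hrank
    (by
      intro v
      show N *ᵥ (N *ᵥ v) = 0
      rw [Matrix.mulVec_mulVec, hsq, Matrix.zero_mulVec])
  let P : Matrix (Fin (k + 3)) (Fin (k + 3)) F := (Pi.basisFun F (Fin (k + 3))).toMatrix cb
  have hPapp : ∀ i j, P i j = cb j i := by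
    intro i j
    simp only [P, Module.Basis.toMatrix_apply, Pi.basisFun_repr]
  have hPdet : P.det ≠ 0 := by
    have h1 := Module.Basis.toMatrix_mul_toMatrix_flip (Pi.basisFun F (Fin (k + 3))) cb
    have h2 := congrArg Matrix.det h1
    rw [Matrix.det_mul, Matrix.det_one] at h2
    intro h0
    rw [show ((Pi.basisFun F (Fin (k + 3))).toMatrix cb).det = P.det from rfl, h0, zero_mul] at h2
    exact zero_ne_one h2
  have hNP : N * P = P * Matrix.single (1 : Fin (k + 3)) (0 : Fin (k + 3)) (1 : F) := by
    ext i j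
    have hl : (N * P) i j = (N *ᵥ (cb j)) i := by
      simp only [Matrix.mul_apply, Matrix.mulVec, dotProduct, hPapp]
    have hr : (P * Matrix.single (1 : Fin (k + 3)) (0 : Fin (k + 3)) (1 : F)) i j =
        if j = 0 then P i 1 else 0 := by
      simp only [Matrix.mul_apply, Matrix.single_apply]
      by_cases hj : j = 0
      · subst hj
        simp
      · have : ∀ x : Fin (k + 3), ¬ (1 = x ∧ 0 = j) := fun x h => hj h.2.symm
        simp [this, hj]
    rw [hl, hr]
    refine Fin.cases ?_ (fun j' => ?_) j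
    · rw [if_pos rfl, hPapp]
      exact congrFun hc0 i
    · rw [if_neg (Fin.succ_ne_zero j')]
      exact congrFun (hcs j') i
  -- adjust the determinant
  let D : Matrix (Fin (k + 3)) (Fin (k + 3)) F :=
    Matrix.diagonal (fun i => if i = 2 then P.det⁻¹ else 1)
  have hDE : D * Matrix.single (1 : Fin (k + 3)) (0 : Fin (k + 3)) (1 : F) =
      Matrix.single (1 : Fin (k + 3)) (0 : Fin (k + 3)) (1 : F) * D := by
    ext i j
    simp only [D, Matrix.diagonal_mul, Matrix.mul_diagonal, Matrix.single_apply]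
    by_cases h : (1 : Fin (k + 3)) = i ∧ (0 : Fin (k + 3)) = j
    · obtain ⟨rfl, rfl⟩ := h
      have h1 : ¬ ((1 : Fin (k + 3)) = 2) := by
        intro h
        have h' := congrArg Fin.val h
        rw [Fin.val_two, Fin.val_one] at h'
        omega
      have h2 : ¬ ((0 : Fin (k + 3)) = 2) := by
        intro h
        have h' := congrArg Fin.val h
        rw [Fin.val_two, Fin.val_zero] at h'
        omega
      simp [h1, h2]
    · simp [h]
  have hDdet : D.det = P.det⁻¹ := by
    simp only [D, Matrix.det_diagonal]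
    rw [Finset.prod_eq_single (2 : Fin (k + 3))]
    · simp
    · intro b _ hb
      simp [hb]
    · intro h
      exact absurd (Finset.mem_univ _) h
  refine ⟨P * D, ?_, ?_⟩
  · rw [Matrix.det_mul, hDdet, mul_inv_cancel₀ hPdet]
  · rw [← mul_assoc, hNP, mul_assoc, mul_assoc, hDE]

end Cfsg.Agent.Helper16
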