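import Mathlib
import Cfsg.Agent.S5043

set_option autoImplicit false

namespace Cfsg.Agent.Helper16

open Matrix Cfsg.Agent.S5043

variable {F : Type*} [Field F] {n : ℕ}

/-- all coordinates lie in the subfield -/
def SRat (F₀ : Subfield F) (v : Fin n → F) : Prop := ∀ i, v i ∈ F₀

theorem srat_zero (F₀ : Subfield F) : SRat F₀ (0 : Fin n → F) := fun _ => F₀.zero_mem

theorem srat_add {F₀ : Subfield F} {x y : Fin n → F} (hx : SRat F₀ x) (hy : SRat F₀ y) :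
    SRat F₀ (x + y) := fun i => F₀.add_mem (hx i) (hy i)

theorem srat_sub {F₀ : Subfield F} {x y : Fin n → F} (hx : SRat F₀ x) (hy : SRat F₀ y) :
    SRat F₀ (x - y) := fun i => F₀.sub_mem (hx i) (hy i)

theorem srat_neg {F₀ : Subfield F} {x : Fin n → F} (hx : SRat F₀ x) :
    SRat F₀ (-x) := fun i => F₀.neg_mem (hx i)

theorem srat_smul {F₀ : Subfield F} {x : Fin n → F} {c : F} (hc : c ∈ F₀) (hx : SRat F₀ x) :
    SRat F₀ (c • x) := fun i => F₀.mul_mem hc (hx i)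

theorem srat_single (F₀ : Subfield F) (i : Fin n) {c : F} (hc : c ∈ F₀) :
    SRat F₀ (Pi.single i c : Fin n → F) := by
  intro j
  by_cases h : j = i
  · rw [h, Pi.single_eq_same]; exact hc
  · rw [Pi.single_eq_of_ne h]; exact F₀.zero_mem

theorem srat_dot {F₀ : Subfield F} {x y : Fin n → F} (hx : SRat F₀ x) (hy : SRat F₀ y) :
    x ⬝ᵥ y ∈ F₀ := by
  unfold dotProduct
  exact F₀.sum_mem (fun i _ => F₀.mul_mem (hx i) (hy i))

theorem exists_ne_zero_coord (χ : Fin n → F) (h : χ ≠ 0) : ∃ k, χ k ≠ 0 := by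
  by_contra hc
  push Not at hc
  exact h (funext hc)

/-- a vector orthogonal to all rational vectors orthogonal to the rational `χ` is a multiple of `χ` -/
theorem srat_perp_smul {F₀ : Subfield F} (χ ψ : Fin n → F) (hχ : SRat F₀ χ) (hχ0 : χ ≠ 0)
    (h : ∀ x, SRat F₀ x → χ ⬝ᵥ x = 0 → ψ ⬝ᵥ x = 0) : ∃ d : F, ψ = d • χ := by
  obtain ⟨k, hk⟩ := exists_ne_zero_coord χ hχ0
  refine ⟨ψ k / χ k, ?_⟩
  funext j
  have hx : SRat F₀ (χ k • (Pi.single j (1 : F) : Fin n → F) - χ j • (Pi.single k (1 : F) : Fin n → F)) :=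
    srat_sub (srat_smul (hχ k) (srat_single F₀ j F₀.one_mem))
      (srat_smul (hχ j) (srat_single F₀ k F₀.one_mem))
  have h1 := h _ hx (by
    rw [dotProduct_sub, dotProduct_smul, dotProduct_smul, dotProduct_single_one,
      dotProduct_single_one, smul_eq_mul, smul_eq_mul]
    ring)
  rw [dotProduct_sub, dotProduct_smul, dotProduct_smul, dotProduct_single_one,
    dotProduct_single_one, smul_eq_mul, smul_eq_mul] at h1
  rw [Pi.smul_apply, smul_eq_mul]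
  field_simp
  linear_combination h1

theorem srat_perp_smul' {F₀ : Subfield F} (u w : Fin n → F) (hu : SRat F₀ u) (hu0 : u ≠ 0)
    (h : ∀ x, SRat F₀ x → x ⬝ᵥ u = 0 → x ⬝ᵥ w = 0) : ∃ d : F, w = d • u :=
  srat_perp_smul u w hu hu0 (fun x hx hx0 => by
    rw [dotProduct_comm]
    exact h x hx (by rw [dotProduct_comm]; exact hx0))

/-- two rational vectors have a common non-zero rational perpendicular (`n ≥ 3`) -/
theorem exists_srat_perp {F₀ : Subfield F} (hn : 3 ≤ n) (a b : Fin n → F) (ha : SRat F₀ a)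
    (hb : SRat F₀ b) :
    ∃ x : Fin n → F, SRat F₀ x ∧ x ≠ 0 ∧ a ⬝ᵥ x = 0 ∧ b ⬝ᵥ x = 0 := by
  classical
  obtain ⟨a', ha'⟩ : ∃ a' : Fin n → F₀, ∀ i, (a' i : F) = a i := ⟨fun i => ⟨a i, ha i⟩, fun _ => rfl⟩
  obtain ⟨b', hb'⟩ : ∃ b' : Fin n → F₀, ∀ i, (b' i : F) = b i := ⟨fun i => ⟨b i, hb i⟩, fun _ => rfl⟩
  obtain ⟨f, hf⟩ : ∃ f : (Fin n → F₀) →ₗ[F₀] (Fin 2 → F₀),
      ∀ x, f x = ![a' ⬝ᵥ x, b' ⬝ᵥ x] :=
    ⟨{ toFun := fun x => ![a' ⬝ᵥ x, b' ⬝ᵥ x]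
       map_add' := by
         intro x y
         ext t
         fin_cases t
         · simp [dotProduct_add]
         · simp [dotProduct_add]
       map_smul' := by
         intro c x
         ext t
         fin_cases t
         · simp [dotProduct_smul]
         · simp [dotProduct_smul] }, fun _ => rfl⟩
  have hlt : Module.finrank F₀ (Fin 2 → F₀) < Module.finrank F₀ (Fin n → F₀) := by
    rw [Module.finrank_fin_fun, Module.finrank_fin_fun]
    omega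
  have hker := LinearMap.ker_ne_bot_of_finrank_lt (f := f) hlt
  obtain ⟨x', hx', hx0⟩ := Submodule.exists_mem_ne_zero_of_ne_bot hker
  rw [LinearMap.mem_ker, hf] at hx'
  have h0 : a' ⬝ᵥ x' = 0 := by
    have := congrFun hx' 0
    simpa using this
  have h1 : b' ⬝ᵥ x' = 0 := by
    have := congrFun hx' 1
    simpa using this
  refine ⟨fun i => (x' i : F), fun i => (x' i).2, ?_, ?_, ?_⟩
  · intro h
    apply hx0
    funext i
    have := congrFun h i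
    exact Subtype.ext this
  · have h2 := congrArg (fun t : F₀ => (t : F)) h0
    simp only [dotProduct] at h2 ⊢
    rw [← h2.trans (by simp : ((0 : F₀) : F) = 0)]
    push_cast
    exact Finset.sum_congr rfl (fun i _ => by rw [ha'])
  · have h2 := congrArg (fun t : F₀ => (t : F)) h1
    simp only [dotProduct] at h2 ⊢
    rw [← h2.trans (by simp : ((0 : F₀) : F) = 0)]
    push_cast
    exact Finset.sum_congr rfl (fun i _ => by rw [hb'])

/-- separation of two non-proportional rational functionals by a rational vector -/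
theorem exists_srat_sep {F₀ : Subfield F} (χ χ' : Fin n → F) (hχ : SRat F₀ χ)
    (hχ' : SRat F₀ χ') (h : ∀ d : F, χ' ≠ d • χ) :
    ∃ x, SRat F₀ x ∧ χ' ⬝ᵥ x = 1 ∧ χ ⬝ᵥ x = 0 := by
  by_contra hne
  push Not at hne
  have key : ∀ x, SRat F₀ x → χ ⬝ᵥ x = 0 → χ' ⬝ᵥ x = 0 := by
    intro x hx hx0
    by_contra h1
    exact hne ((χ' ⬝ᵥ x)⁻¹ • x) (srat_smul (F₀.inv_mem (srat_dot hχ' hx)) hx)
      (by rw [dotProduct_smul, smul_eq_mul, inv_mul_cancel₀ h1])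
      (by rw [dotProduct_smul, hx0, smul_zero])
  by_cases hχ0 : χ = 0
  · apply h 0
    rw [zero_smul]
    funext j
    have := key (Pi.single j 1) (srat_single F₀ j F₀.one_mem) (by rw [hχ0, zero_dotProduct])
    rw [dotProduct_single_one] at this
    exact this
  · obtain ⟨d, hd⟩ := srat_perp_smul χ χ' hχ hχ0 key
    exact h d hd

theorem exists_srat_sep' {F₀ : Subfield F} (u u' : Fin n → F) (hu : SRat F₀ u)
    (hu' : SRat F₀ u') (h : ∀ d : F, u' ≠ d • u) :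
    ∃ x, SRat F₀ x ∧ x ⬝ᵥ u' = 1 ∧ x ⬝ᵥ u = 0 := by
  obtain ⟨x, hx, h1, h2⟩ := exists_srat_sep u u' hu hu' h
  exact ⟨x, hx, by rw [dotProduct_comm]; exact h1, by rw [dotProduct_comm]; exact h2⟩

/-- a non-zero rational vector perpendicular to `u` and not proportional to `χ` -/
theorem exists_srat_perp_indep {F₀ : Subfield F} (hn : 3 ≤ n) (u χ : Fin n → F)
    (hu : SRat F₀ u) (hχ0 : χ ≠ 0) :
    ∃ x, SRat F₀ x ∧ x ≠ 0 ∧ u ⬝ᵥ x = 0 ∧ ∀ d : F, x ≠ d • χ := by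
  obtain ⟨k, hk⟩ := exists_ne_zero_coord χ hχ0
  obtain ⟨x, hx, hx0, h1, h2⟩ :=
    exists_srat_perp hn u (Pi.single k 1) hu (srat_single F₀ k F₀.one_mem)
  refine ⟨x, hx, hx0, h1, ?_⟩
  intro d hd
  have h3 : x k = 0 := by
    rw [single_one_dotProduct] at h2
    exact h2
  have h4 : d = 0 := by
    have := congrFun hd k
    rw [h3, Pi.smul_apply, smul_eq_mul] at this
    rcases mul_eq_zero.mp this.symm with h | h
    · exact h
    · exact absurd h hk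
  apply hx0
  rw [hd, h4, zero_smul]

/-! ### transvection identities -/

theorem tv_comm_id (p φ r ψ : Fin n → F) (h1 : φ ⬝ᵥ p = 0) (h2 : ψ ⬝ᵥ r = 0)
    (h3 : ψ ⬝ᵥ p = 0) (a b : F) :
    tv p φ a * tv r ψ b * (tv p φ a)⁻¹ * (tv r ψ b)⁻¹ = tv p ψ (a * b * (φ ⬝ᵥ r)) := by
  apply sl_ext
  intro v
  rw [tv_inv p φ h1, tv_inv r ψ h2, Matrix.SpecialLinearGroup.coe_mul,
    Matrix.SpecialLinearGroup.coe_mul, Matrix.SpecialLinearGroup.coe_mul,
    ← Matrix.mulVec_mulVec, ← Matrix.mulVec_mulVec, ← Matrix.mulVec_mulVec]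
  simp only [tv_mulVec p φ h1, tv_mulVec r ψ h2, tv_mulVec p ψ h3, dotProduct_add,
    dotProduct_smul, smul_eq_mul, h1, h2, h3, mul_zero, add_zero]
  module

theorem tv_axis_add (p φ φ' : Fin n → F) (h : φ ⬝ᵥ p = 0) (h' : φ' ⬝ᵥ p = 0) (c : F) :
    tv p (φ + φ') c = tv p φ c * tv p φ' c := by
  apply sl_ext
  intro v
  rw [Matrix.SpecialLinearGroup.coe_mul, ← Matrix.mulVec_mulVec,
    tv_mulVec p (φ + φ') (by rw [add_dotProduct, h, h', add_zero]), tv_mulVec p φ' h',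
    tv_mulVec p φ h]
  simp only [add_dotProduct, dotProduct_add, dotProduct_smul, smul_eq_mul, h, mul_zero, add_zero]
  module

theorem tv_axis_zero (p : Fin n → F) (c : F) : tv p 0 c = 1 := by
  apply sl_ext
  intro v
  rw [tv_mulVec p 0 (zero_dotProduct p), zero_dotProduct, mul_zero, zero_smul, add_zero,
    Matrix.SpecialLinearGroup.coe_one, Matrix.one_mulVec]

theorem tv_axis_neg (p φ : Fin n → F) (h : φ ⬝ᵥ p = 0) (c : F) :
    tv p (-φ) c = (tv p φ c)⁻¹ := by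
  rw [tv_inv p φ h]
  have e : -φ = (-1 : F) • φ := by rw [neg_smul, one_smul]
  rw [e, tv_smul_right p φ h, neg_one_mul]

theorem tv_pow (p φ : Fin n → F) (h : φ ⬝ᵥ p = 0) (c : F) (k : ℕ) :
    (tv p φ c) ^ k = tv p φ (k * c) := by
  induction k with
  | zero => rw [pow_zero, Nat.cast_zero, zero_mul, tv_zero p φ h]
  | succ k ih =>
    rw [pow_succ, ih, tv_mul p φ h]
    congr 1
    push_cast
    ring

theorem tv_nil2 (p φ : Fin n → F) (h : φ ⬝ᵥ p = 0) (c : F) (v : Fin n → F) :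
    ((tv p φ c : Matrix.SpecialLinearGroup (Fin n) F) : Matrix (Fin n) (Fin n) F) *ᵥ
      (((tv p φ c : Matrix.SpecialLinearGroup (Fin n) F) : Matrix (Fin n) (Fin n) F) *ᵥ v) + v
    = ((tv p φ c : Matrix.SpecialLinearGroup (Fin n) F) : Matrix (Fin n) (Fin n) F) *ᵥ v
      + ((tv p φ c : Matrix.SpecialLinearGroup (Fin n) F) : Matrix (Fin n) (Fin n) F) *ᵥ v := by
  simp only [tv_mulVec p φ h, dotProduct_add, dotProduct_smul, smul_eq_mul, h, mul_zero, add_zero]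
  module

/-! ### the standing hypotheses -/

/-- `H` contains the rational transvections, and every transvection in `H` with rational centre
and axis has a rational parameter -/
structure SubH (F₀ : Subfield F) (H : Subgroup (Matrix.SpecialLinearGroup (Fin n) F)) : Prop where
  rat : ∀ u χ : Fin n → F, SRat F₀ u → SRat F₀ χ → χ ⬝ᵥ u = 0 → ∀ f ∈ F₀, tv u χ f ∈ H
  R : ∀ u χ : Fin n → F, SRat F₀ u → SRat F₀ χ → u ≠ 0 → χ ≠ 0 → χ ⬝ᵥ u = 0 →
    ∀ μ : F, tv u χ μ ∈ H → μ ∈ F₀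

variable {F₀ : Subfield F} {H : Subgroup (Matrix.SpecialLinearGroup (Fin n) F)}

/-- a transvection of `H` with rational centre has a rational axis -/
theorem SubH.axis_rat (hH : SubH F₀ H) (hn : 3 ≤ n) (u ψ : Fin n → F) (hu : SRat F₀ u)
    (hu0 : u ≠ 0) (h0 : ψ ⬝ᵥ u = 0) (hT : tv u ψ 1 ∈ H) : SRat F₀ ψ := by
  intro j
  obtain ⟨χ, hχ, hχ0, h1, h2⟩ :=
    exists_srat_perp hn u (Pi.single j 1) hu (srat_single F₀ j F₀.one_mem)
  have hχu : χ ⬝ᵥ u = 0 := by rw [dotProduct_comm]; exact h1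
  have hχj : χ ⬝ᵥ Pi.single j 1 = 0 := by rw [dotProduct_comm]; exact h2
  have hB : tv (Pi.single j 1) χ 1 ∈ H :=
    hH.rat _ _ (srat_single F₀ j F₀.one_mem) hχ hχj 1 F₀.one_mem
  have hc := tv_comm_id u ψ (Pi.single j 1) χ h0 hχj hχu 1 1
  have hmem : tv u χ (1 * 1 * (ψ ⬝ᵥ Pi.single j 1)) ∈ H := by
    rw [← hc]
    exact H.mul_mem (H.mul_mem (H.mul_mem hT hB) (H.inv_mem hT)) (H.inv_mem hB)
  have := hH.R u χ hu hχ hu0 hχ0 hχu _ hmem
  rw [one_mul, one_mul, dotProduct_single_one] at this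
  exact this

/-- a transvection of `H` with rational axis has a rational centre -/
theorem SubH.center_rat (hH : SubH F₀ H) (hn : 3 ≤ n) (w χ : Fin n → F) (hχ : SRat F₀ χ)
    (hχ0 : χ ≠ 0) (h0 : χ ⬝ᵥ w = 0) (hT : tv w χ 1 ∈ H) : SRat F₀ w := by
  intro j
  obtain ⟨u', hu', hu'0, h1, h2⟩ :=
    exists_srat_perp hn χ (Pi.single j 1) hχ (srat_single F₀ j F₀.one_mem)
  have hA : tv u' (Pi.single j 1) 1 ∈ H :=
    hH.rat _ _ hu' (srat_single F₀ j F₀.one_mem) h2 1 F₀.one_mem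
  have hc := tv_comm_id u' (Pi.single j 1) w χ h2 h0 h1 1 1
  have hmem : tv u' χ (1 * 1 * ((Pi.single j 1 : Fin n → F) ⬝ᵥ w)) ∈ H := by
    rw [← hc]
    exact H.mul_mem (H.mul_mem (H.mul_mem hA hT) (H.inv_mem hA)) (H.inv_mem hT)
  have := hH.R u' χ hu' hχ hu'0 hχ0 h1 _ hmem
  rw [one_mul, one_mul, single_one_dotProduct] at this
  exact this

/-- an element of `H` mapping a rational point to a rational point is rational up to a scalar -/
theorem SubH.mem_of_fix (hH : SubH F₀ H) (hn : 3 ≤ n) (g : Matrix.SpecialLinearGroup (Fin n) F)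
    (hg : g ∈ H) (u u' : Fin n → F) (hu : SRat F₀ u) (hu0 : u ≠ 0) (hu' : SRat F₀ u') (lam : F)
    (hgu : (g : Matrix (Fin n) (Fin n) F) *ᵥ u = lam • u') :
    ∃ c : F, c ≠ 0 ∧ ∀ i j, c * (g : Matrix (Fin n) (Fin n) F) i j ∈ F₀ := by
  have hgu0 : (g : Matrix (Fin n) (Fin n) F) *ᵥ u ≠ 0 := sl_mulVec_ne_zero g u hu0
  have hlam : lam ≠ 0 := by
    rintro rfl
    rw [zero_smul] at hgu
    exact hgu0 hgu
  have hu'0 : u' ≠ 0 := by
    rintro rfl
    rw [smul_zero] at hgu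
    exact hgu0 hgu
  have step1 : ∀ φ : Fin n → F, SRat F₀ φ → φ ⬝ᵥ u = 0 →
      SRat F₀ (lam • (φ ᵥ* ((g⁻¹ : Matrix.SpecialLinearGroup (Fin n) F) :
        Matrix (Fin n) (Fin n) F))) := by
    intro φ hφ hφu
    have h1 : g * tv u φ 1 * g⁻¹ ∈ H :=
      H.mul_mem (H.mul_mem hg (hH.rat u φ hu hφ hφu 1 F₀.one_mem)) (H.inv_mem hg)
    rw [tv_conj u φ hφu g 1, hgu] at h1
    have hv := conj_valid u φ hφu g
    rw [hgu, dotProduct_smul, smul_eq_mul] at hv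
    have hv' : (φ ᵥ* ((g⁻¹ : Matrix.SpecialLinearGroup (Fin n) F) :
        Matrix (Fin n) (Fin n) F)) ⬝ᵥ u' = 0 := by
      rcases mul_eq_zero.mp hv with h | h
      · exact absurd h hlam
      · exact h
    rw [tv_smul_left u' _ hv' lam 1] at h1
    have h2 : tv u' (lam • (φ ᵥ* ((g⁻¹ : Matrix.SpecialLinearGroup (Fin n) F) :
        Matrix (Fin n) (Fin n) F))) 1 ∈ H := by
      rw [tv_smul_right u' _ hv' lam 1]
      exact h1
    exact hH.axis_rat hn u' _ hu' hu'0 (by rw [smul_dotProduct, hv', smul_zero]) h2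
  have step2 : ∀ v : Fin n → F, SRat F₀ v →
      SRat F₀ (lam⁻¹ • ((g : Matrix (Fin n) (Fin n) F) *ᵥ v)) := by
    intro v hv
    by_cases hv0 : v = 0
    · rw [hv0, Matrix.mulVec_zero, smul_zero]
      exact srat_zero F₀
    obtain ⟨φ, hφ, hφ0, h1, h2⟩ := exists_srat_perp hn v u hv hu
    have hφv : φ ⬝ᵥ v = 0 := by rw [dotProduct_comm]; exact h1
    have hφu : φ ⬝ᵥ u = 0 := by rw [dotProduct_comm]; exact h2
    have h3 : g * tv v φ 1 * g⁻¹ ∈ H :=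
      H.mul_mem (H.mul_mem hg (hH.rat v φ hv hφ hφv 1 F₀.one_mem)) (H.inv_mem hg)
    rw [tv_conj v φ hφv g 1] at h3
    have hval := conj_valid v φ hφv g
    have hval2 : (lam • (φ ᵥ* ((g⁻¹ : Matrix.SpecialLinearGroup (Fin n) F) :
        Matrix (Fin n) (Fin n) F))) ⬝ᵥ ((g : Matrix (Fin n) (Fin n) F) *ᵥ v) = 0 := by
      rw [smul_dotProduct, hval, smul_zero]
    have h4 : tv (lam⁻¹ • ((g : Matrix (Fin n) (Fin n) F) *ᵥ v))
        (lam • (φ ᵥ* ((g⁻¹ : Matrix.SpecialLinearGroup (Fin n) F) :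
          Matrix (Fin n) (Fin n) F))) 1 ∈ H := by
      rw [tv_smul_left _ _ hval2 lam⁻¹ 1, tv_smul_right _ _ hval lam (lam⁻¹ * 1), ← mul_assoc,
        mul_inv_cancel₀ hlam, one_mul]
      exact h3
    have hφg0 : lam • (φ ᵥ* ((g⁻¹ : Matrix.SpecialLinearGroup (Fin n) F) :
        Matrix (Fin n) (Fin n) F)) ≠ 0 := by
      intro h
      rcases smul_eq_zero.mp h with h | h
      · exact hlam h
      · exact sl_vecMul_ne_zero g φ hφ0 h
    exact hH.center_rat hn _ _ (step1 φ hφ hφu) hφg0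
      (by rw [dotProduct_smul, hval2, smul_zero]) h4
  refine ⟨lam⁻¹, inv_ne_zero hlam, fun i j => ?_⟩
  have := step2 (Pi.single j 1) (srat_single F₀ j F₀.one_mem) i
  rw [Pi.smul_apply, Matrix.mulVec_single_one, smul_eq_mul] at this
  exact this

/-- a transvection of `H` whose centre lies in a rational hyperplane has rational centre up to a
scalar -/
theorem SubH.center_smul_rat (hH : SubH F₀ H) (hn : 3 ≤ n) (w ψ : Fin n → F) (h0 : ψ ⬝ᵥ w = 0)
    (hψ0 : ψ ≠ 0) (hT : tv w ψ 1 ∈ H) (χ : Fin n → F) (hχ : SRat F₀ χ) (hχ0 : χ ≠ 0)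
    (hχw : χ ⬝ᵥ w = 0) : ∃ c : F, c ≠ 0 ∧ SRat F₀ (c • w) := by
  by_cases hb : ∀ x, SRat F₀ x → χ ⬝ᵥ x = 0 → ψ ⬝ᵥ x = 0
  · obtain ⟨d, hd⟩ := srat_perp_smul χ ψ hχ hχ0 hb
    have hd0 : d ≠ 0 := by
      rintro rfl
      rw [zero_smul] at hd
      exact hψ0 hd
    refine ⟨d, hd0, ?_⟩
    have h1 : tv (d • w) χ 1 ∈ H := by
      rw [tv_smul_left w χ hχw d 1, ← tv_smul_right w χ hχw d 1, ← hd]
      exact hT
    exact hH.center_rat hn _ _ hχ hχ0 (by rw [dotProduct_smul, hχw, smul_zero]) h1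
  · push Not at hb
    obtain ⟨u0, hu0, hχu0, hb0⟩ := hb
    refine ⟨ψ ⬝ᵥ u0, hb0, ?_⟩
    have hB : tv u0 χ 1 ∈ H := hH.rat u0 χ hu0 hχ hχu0 1 F₀.one_mem
    have hc := tv_comm_id w ψ u0 χ h0 hχu0 hχw 1 1
    have hmem : tv w χ (1 * 1 * (ψ ⬝ᵥ u0)) ∈ H := by
      rw [← hc]
      exact H.mul_mem (H.mul_mem (H.mul_mem hT hB) (H.inv_mem hT)) (H.inv_mem hB)
    have h1 : tv ((ψ ⬝ᵥ u0) • w) χ 1 ∈ H := by
      rw [tv_smul_left w χ hχw (ψ ⬝ᵥ u0) 1, mul_one]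
      rw [one_mul, one_mul] at hmem
      exact hmem
    exact hH.center_rat hn _ _ hχ hχ0 (by rw [dotProduct_smul, hχw, smul_zero]) h1

/-- a transvection of `H` whose axis contains a rational point has rational axis up to a scalar -/
theorem SubH.axis_smul_rat (hH : SubH F₀ H) (hn : 3 ≤ n) (w ψ : Fin n → F) (h0 : ψ ⬝ᵥ w = 0)
    (hw0 : w ≠ 0) (hT : tv w ψ 1 ∈ H) (u : Fin n → F) (hu : SRat F₀ u) (hu0 : u ≠ 0)
    (hψu : ψ ⬝ᵥ u = 0) : ∃ c : F, c ≠ 0 ∧ SRat F₀ (c • ψ) := by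
  by_cases hb : ∀ x, SRat F₀ x → x ⬝ᵥ u = 0 → x ⬝ᵥ w = 0
  · obtain ⟨d, hd⟩ := srat_perp_smul' u w hu hu0 hb
    have hd0 : d ≠ 0 := by
      rintro rfl
      rw [zero_smul] at hd
      exact hw0 hd
    refine ⟨d, hd0, ?_⟩
    have h1 : tv u (d • ψ) 1 ∈ H := by
      rw [tv_smul_right u ψ hψu d 1, ← tv_smul_left u ψ hψu d 1, ← hd]
      exact hT
    exact hH.axis_rat hn u _ hu hu0 (by rw [smul_dotProduct, hψu, smul_zero]) h1
  · push Not at hb
    obtain ⟨χ0, hχ0, hχ0u, ha⟩ := hb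
    refine ⟨χ0 ⬝ᵥ w, ha, ?_⟩
    have hA : tv u χ0 1 ∈ H := hH.rat u χ0 hu hχ0 hχ0u 1 F₀.one_mem
    have hc := tv_comm_id u χ0 w ψ hχ0u h0 hψu 1 1
    have hmem : tv u ψ (1 * 1 * (χ0 ⬝ᵥ w)) ∈ H := by
      rw [← hc]
      exact H.mul_mem (H.mul_mem (H.mul_mem hA hT) (H.inv_mem hA)) (H.inv_mem hT)
    have h1 : tv u ((χ0 ⬝ᵥ w) • ψ) 1 ∈ H := by
      rw [tv_smul_right u ψ hψu (χ0 ⬝ᵥ w) 1, mul_one]
      rw [one_mul, one_mul] at hmem
      exact hmem
    exact hH.axis_rat hn u _ hu hu0 (by rw [smul_dotProduct, hψu, smul_zero]) h1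

end Cfsg.Agent.Helper16
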