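import Mathlib
import Cfsg.Agent.S5043
import Cfsg.Agent.Helper16.FrobK
import Cfsg.Agent.Helper16.SubfA

set_option autoImplicit false

namespace Cfsg.Agent.Helper16

open Matrix Cfsg.Agent.S5043

variable {F : Type*} [Field F] {n : ℕ}
variable {F₀ : Subfield F} {H : Subgroup (Matrix.SpecialLinearGroup (Fin n) F)}

set_option maxHeartbeats 1600000 in
/-- **The full-rank case is impossible.**  If `H` satisfies the standing hypotheses, it contains
no transvection whose centre is killed by no rational functional and whose axis contains no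
rational point. -/
theorem SubH.full_rank_false [Fintype F] (hH : SubH F₀ H) (hn : 4 ≤ n) (w ψ : Fin n → F)
    (h0 : ψ ⬝ᵥ w = 0) (hT : tv w ψ 1 ∈ H)
    (hFR : ∀ χ : Fin n → F, SRat F₀ χ → χ ≠ 0 → χ ⬝ᵥ w ≠ 0)
    (hFR' : ∀ u : Fin n → F, SRat F₀ u → u ≠ 0 → ψ ⬝ᵥ u ≠ 0) : False := by
  classical
  haveI : Finite (Matrix.SpecialLinearGroup (Fin n) F) :=
    Finite.of_injective (fun A : Matrix.SpecialLinearGroup (Fin n) F =>
      (A : Matrix (Fin n) (Fin n) F)) Subtype.val_injective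
  obtain ⟨i0, i1, i2, i3, h01, h02, h03, h12, h13, h23⟩ : ∃ i0 i1 i2 i3 : Fin n,
      i0 ≠ i1 ∧ i0 ≠ i2 ∧ i0 ≠ i3 ∧ i1 ≠ i2 ∧ i1 ≠ i3 ∧ i2 ≠ i3 :=
    ⟨⟨0, by omega⟩, ⟨1, by omega⟩, ⟨2, by omega⟩, ⟨3, by omega⟩,
      by simp [Fin.ext_iff], by simp [Fin.ext_iff], by simp [Fin.ext_iff],
      by simp [Fin.ext_iff], by simp [Fin.ext_iff], by simp [Fin.ext_iff]⟩
  obtain ⟨u, hudef⟩ : ∃ u : Fin n → F, u = Pi.single i0 1 := ⟨_, rfl⟩
  have hu : SRat F₀ u := by rw [hudef]; exact srat_single F₀ i0 F₀.one_mem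
  have hu_self : u i0 = 1 := by rw [hudef, Pi.single_eq_same]
  have hu_apply : ∀ i, i ≠ i0 → u i = 0 := by
    intro i hi
    rw [hudef, Pi.single_eq_of_ne hi]
  have hu0 : u ≠ 0 := by
    intro h
    have := congrFun h i0
    rw [hu_self] at this
    exact one_ne_zero this
  have hdotu : ∀ x : Fin n → F, x ⬝ᵥ u = x i0 := by
    intro x
    rw [hudef, dotProduct_single_one]
  have hw : ∀ i, w i ≠ 0 := by
    intro i
    have := hFR (Pi.single i 1) (srat_single F₀ i F₀.one_mem) (by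
      intro h
      have := congrFun h i
      rw [Pi.single_eq_same] at this
      exact one_ne_zero this)
    rwa [single_one_dotProduct] at this
  have hb : ψ ⬝ᵥ u ≠ 0 := hFR' u hu hu0
  -- the subgroup `X`
  obtain ⟨S, hS⟩ : ∃ S : Set (Matrix.SpecialLinearGroup (Fin n) F),
      S = {g | g = tv w ψ 1 ∨ ∃ χ : Fin n → F, SRat F₀ χ ∧ χ ⬝ᵥ u = 0 ∧ g = tv u χ 1} := ⟨_, rfl⟩
  obtain ⟨X, hXdef⟩ : ∃ X : Subgroup (Matrix.SpecialLinearGroup (Fin n) F),
      X = Subgroup.closure S := ⟨_, rfl⟩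
  have hXH : X ≤ H := by
    rw [hXdef, Subgroup.closure_le]
    intro g hg
    rw [hS] at hg
    rcases hg with rfl | ⟨χ, hχ, hχu, rfl⟩
    · exact hT
    · exact hH.rat u χ hu hχ hχu 1 F₀.one_mem
  have hTX : tv w ψ 1 ∈ X := by
    rw [hXdef]
    apply Subgroup.subset_closure
    rw [hS]
    exact Or.inl rfl
  have hsX : ∀ χ : Fin n → F, SRat F₀ χ → χ ⬝ᵥ u = 0 → tv u χ 1 ∈ X := by
    intro χ hχ hχu
    rw [hXdef]
    apply Subgroup.subset_closure
    rw [hS]
    exact Or.inr ⟨χ, hχ, hχu, rfl⟩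
  -- the shape of the elements of `X`
  have hFm_mul : ∀ g g' : Matrix.SpecialLinearGroup (Fin n) F,
      (∀ v, ∃ a b : F, (g : Matrix (Fin n) (Fin n) F) *ᵥ v = v + a • u + b • w) →
      (∀ v, ∃ a b : F, (g' : Matrix (Fin n) (Fin n) F) *ᵥ v = v + a • u + b • w) →
      (∀ v, ∃ a b : F, ((g * g' : Matrix.SpecialLinearGroup (Fin n) F) :
        Matrix (Fin n) (Fin n) F) *ᵥ v = v + a • u + b • w) := by
    intro g g' hg hg' v
    obtain ⟨a', b', e'⟩ := hg' v
    obtain ⟨a1, b1, e1⟩ := hg v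
    obtain ⟨a2, b2, e2⟩ := hg u
    obtain ⟨a3, b3, e3⟩ := hg w
    refine ⟨a1 + a' * (1 + a2) + b' * a3, b1 + a' * b2 + b' * (1 + b3), ?_⟩
    rw [Matrix.SpecialLinearGroup.coe_mul, ← Matrix.mulVec_mulVec, e', Matrix.mulVec_add,
      Matrix.mulVec_add, Matrix.mulVec_smul, Matrix.mulVec_smul, e1, e2, e3]
    module
  have hFm_one : ∀ v : Fin n → F, ∃ a b : F,
      ((1 : Matrix.SpecialLinearGroup (Fin n) F) : Matrix (Fin n) (Fin n) F) *ᵥ v
        = v + a • u + b • w := by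
    intro v
    refine ⟨0, 0, ?_⟩
    rw [Matrix.SpecialLinearGroup.coe_one, Matrix.one_mulVec, zero_smul, zero_smul, add_zero,
      add_zero]
  have hFm_pow : ∀ g : Matrix.SpecialLinearGroup (Fin n) F,
      (∀ v, ∃ a b : F, (g : Matrix (Fin n) (Fin n) F) *ᵥ v = v + a • u + b • w) →
      ∀ k : ℕ, (∀ v, ∃ a b : F, ((g ^ k : Matrix.SpecialLinearGroup (Fin n) F) :
        Matrix (Fin n) (Fin n) F) *ᵥ v = v + a • u + b • w) := by
    intro g hg k
    induction k with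
    | zero => rw [pow_zero]; exact hFm_one
    | succ k ih => rw [pow_succ]; exact hFm_mul _ _ ih hg
  have hFm_inv : ∀ g : Matrix.SpecialLinearGroup (Fin n) F,
      (∀ v, ∃ a b : F, (g : Matrix (Fin n) (Fin n) F) *ᵥ v = v + a • u + b • w) →
      (∀ v, ∃ a b : F, ((g⁻¹ : Matrix.SpecialLinearGroup (Fin n) F) :
        Matrix (Fin n) (Fin n) F) *ᵥ v = v + a • u + b • w) := by
    intro g hg
    have hpos : 0 < orderOf g := orderOf_pos g
    have e : g⁻¹ = g ^ (orderOf g - 1) := by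
      apply inv_eq_of_mul_eq_one_right
      rw [← pow_succ', Nat.sub_add_cancel hpos, pow_orderOf_eq_one]
    rw [e]
    exact hFm_pow g hg _
  have hFmX : ∀ g ∈ X, ∀ v, ∃ a b : F,
      (g : Matrix (Fin n) (Fin n) F) *ᵥ v = v + a • u + b • w := by
    intro g hg
    rw [hXdef] at hg
    induction hg using Subgroup.closure_induction with
    | mem x hx =>
      rw [hS] at hx
      rcases hx with rfl | ⟨χ, hχ, hχu, rfl⟩
      · intro v
        exact ⟨0, 1 * (ψ ⬝ᵥ v), by rw [tv_mulVec w ψ h0, zero_smul, add_zero]⟩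
      · intro v
        exact ⟨1 * (χ ⬝ᵥ v), 0, by rw [tv_mulVec u χ hχu, zero_smul, add_zero]⟩
    | one => exact hFm_one
    | mul x y _ _ hx hy => exact hFm_mul x y hx hy
    | inv x _ hx => exact hFm_inv x hx
  -- elements of `X` fixing the point `⟨u⟩`
  have hfix : ∀ g ∈ X, (∃ κ : F, (g : Matrix (Fin n) (Fin n) F) *ᵥ u = κ • u) →
      ∃ a : Fin n → F, SRat F₀ a ∧ a ⬝ᵥ u = 0 ∧ g = tv u a 1 := by
    rintro g hg ⟨κ, hκ⟩
    obtain ⟨c, hc0, hc⟩ := hH.mem_of_fix (by omega) g (hXH hg) u u hu hu0 hu κ hκ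
    have hF := hFmX g hg
    choose a b hab using fun j : Fin n => hF (Pi.single j 1)
    have hent : ∀ i j, (g : Matrix (Fin n) (Fin n) F) i j
        = (Pi.single j (1 : F) : Fin n → F) i + a j * u i + b j * w i := by
      intro i j
      have := congrFun (hab j) i
      rw [Matrix.mulVec_single_one] at this
      rw [Pi.add_apply, Pi.add_apply, Pi.smul_apply, Pi.smul_apply, smul_eq_mul,
        smul_eq_mul] at this
      exact this
    have hb0 : ∀ j, b j = 0 := by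
      intro j
      by_contra hbj
      obtain ⟨i, i', hi0, hi'0, hij, hi'j, hii'⟩ : ∃ i i' : Fin n,
          i ≠ i0 ∧ i' ≠ i0 ∧ i ≠ j ∧ i' ≠ j ∧ i ≠ i' := by
        by_cases h1 : j = i1
        · exact ⟨i2, i3, h02.symm, h03.symm, by rw [h1]; exact h12.symm,
            by rw [h1]; exact h13.symm, h23⟩
        · by_cases h2 : j = i2
          · exact ⟨i1, i3, h01.symm, h03.symm, by rw [h2]; exact h12,
              by rw [h2]; exact h23.symm, h13⟩
          · exact ⟨i1, i2, h01.symm, h02.symm, fun h => h1 h.symm, fun h => h2 h.symm, h12⟩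
      have e1 : (g : Matrix (Fin n) (Fin n) F) i j = b j * w i := by
        rw [hent, Pi.single_eq_of_ne hij, hu_apply i hi0]
        ring
      have e2 : (g : Matrix (Fin n) (Fin n) F) i' j = b j * w i' := by
        rw [hent, Pi.single_eq_of_ne hi'j, hu_apply i' hi'0]
        ring
      have f1 := hc i j
      have f2 := hc i' j
      rw [e1] at f1
      rw [e2] at f2
      have hχ : SRat F₀ ((c * (b j * w i')) • (Pi.single i (1 : F) : Fin n → F)
          - (c * (b j * w i)) • (Pi.single i' (1 : F) : Fin n → F)) :=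
        srat_sub (srat_smul f2 (srat_single F₀ i F₀.one_mem))
          (srat_smul f1 (srat_single F₀ i' F₀.one_mem))
      apply hFR _ hχ
      · intro h
        have h5 := congrFun h i
        rw [Pi.sub_apply, Pi.smul_apply, Pi.smul_apply, Pi.single_eq_same,
          Pi.single_eq_of_ne hii', smul_eq_mul, smul_eq_mul, mul_one, mul_zero, sub_zero,
          Pi.zero_apply] at h5
        exact mul_ne_zero hc0 (mul_ne_zero hbj (hw i')) h5
      · rw [sub_dotProduct, smul_dotProduct, smul_dotProduct, single_one_dotProduct,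
          single_one_dotProduct, smul_eq_mul, smul_eq_mul]
        ring
    have hent' : ∀ i j, (g : Matrix (Fin n) (Fin n) F) i j
        = (1 : Matrix (Fin n) (Fin n) F) i j + u i * a j := by
      intro i j
      rw [hent, hb0 j, zero_mul, add_zero, Matrix.one_apply, Pi.single_apply, mul_comm]
    have hcF : c ∈ F₀ := by
      have := hc i1 i1
      rw [hent', Matrix.one_apply_eq, hu_apply i1 h01.symm, zero_mul, add_zero, mul_one] at this
      exact this
    have hgF : ∀ i j, (g : Matrix (Fin n) (Fin n) F) i j ∈ F₀ := by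
      intro i j
      have h1 := F₀.mul_mem (F₀.inv_mem hcF) (hc i j)
      rwa [← mul_assoc, inv_mul_cancel₀ hc0, one_mul] at h1
    have haF : SRat F₀ a := by
      intro j
      have h1 := hgF i0 j
      rw [hent', hu_self, one_mul] at h1
      have h2 : (1 : Matrix (Fin n) (Fin n) F) i0 j ∈ F₀ := by
        rw [Matrix.one_apply]
        split_ifs
        · exact F₀.one_mem
        · exact F₀.zero_mem
      have := F₀.sub_mem h1 h2
      rwa [add_sub_cancel_left] at this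
    have hmat : (g : Matrix (Fin n) (Fin n) F) = 1 + Matrix.vecMulVec u a := by
      ext i j
      rw [hent', Matrix.add_apply, Matrix.vecMulVec_apply]
    have hau : a ⬝ᵥ u = 0 := by
      have hdet := g.2
      rw [hmat, Matrix.vecMulVec_eq (Fin 1),
        Matrix.det_one_add_replicateCol_mul_replicateRow] at hdet
      linear_combination hdet
    refine ⟨a, haF, hau, ?_⟩
    apply Subtype.ext
    rw [tv_coe u a hau, one_smul]
    exact hmat
  have hstar : ∀ g ∈ X, ∀ χ χ' : Fin n → F, χ ⬝ᵥ u = 0 → χ ≠ 0 → χ' ⬝ᵥ u = 0 →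
      g * tv u χ 1 * g⁻¹ = tv u χ' 1 →
      ∃ a : Fin n → F, SRat F₀ a ∧ a ⬝ᵥ u = 0 ∧ g = tv u a 1 := by
    intro g hg χ χ' hχu hχ0 hχ'u heq
    apply hfix g hg
    rw [tv_conj u χ hχu g 1] at heq
    have hne := sl_vecMul_ne_zero g χ hχ0
    obtain ⟨v, hv⟩ := exists_dot_ne _ hne
    have h1 := congrArg (fun t : Matrix.SpecialLinearGroup (Fin n) F =>
      (t : Matrix (Fin n) (Fin n) F) *ᵥ v) heq
    rw [tv_mulVec _ _ (conj_valid u χ hχu g), tv_mulVec u χ' hχ'u, one_mul, one_mul] at h1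
    have h2 : ((χ ᵥ* ((g⁻¹ : Matrix.SpecialLinearGroup (Fin n) F) :
        Matrix (Fin n) (Fin n) F)) ⬝ᵥ v) • ((g : Matrix (Fin n) (Fin n) F) *ᵥ u)
        = (χ' ⬝ᵥ v) • u := add_left_cancel h1
    refine ⟨((χ ᵥ* ((g⁻¹ : Matrix.SpecialLinearGroup (Fin n) F) :
        Matrix (Fin n) (Fin n) F)) ⬝ᵥ v)⁻¹ * (χ' ⬝ᵥ v), ?_⟩
    rw [mul_smul, ← h2, smul_smul, inv_mul_cancel₀ hv, one_smul]
  -- the subgroup `P` of `X`
  obtain ⟨P, hP⟩ : ∃ P : Subgroup X, ∀ x : X, x ∈ P ↔
      ∃ a : Fin n → F, SRat F₀ a ∧ a ⬝ᵥ u = 0 ∧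
        (x : Matrix.SpecialLinearGroup (Fin n) F) = tv u a 1 :=
    ⟨{ carrier := {x | ∃ a : Fin n → F, SRat F₀ a ∧ a ⬝ᵥ u = 0 ∧
          (x : Matrix.SpecialLinearGroup (Fin n) F) = tv u a 1}
       mul_mem' := by
         rintro x y ⟨a, ha, hau, hx⟩ ⟨a', ha', ha'u, hy⟩
         refine ⟨a + a', srat_add ha ha', by rw [add_dotProduct, hau, ha'u, add_zero], ?_⟩
         rw [Subgroup.coe_mul, hx, hy, tv_axis_add u a a' hau ha'u]
       one_mem' := ⟨0, srat_zero F₀, zero_dotProduct _, by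
         rw [Subgroup.coe_one, tv_axis_zero]⟩
       inv_mem' := by
         rintro x ⟨a, ha, hau, hx⟩
         refine ⟨-a, srat_neg ha, by rw [neg_dotProduct, hau, neg_zero], ?_⟩
         rw [Subgroup.coe_inv, hx, tv_axis_neg u a hau] }, fun x => Iff.rfl⟩
  obtain ⟨p, hpdef⟩ : ∃ p : ℕ, p = ringChar F := ⟨_, rfl⟩
  haveI hcharP : CharP F p := by rw [hpdef]; exact ringChar.charP F
  haveI hpp : Fact p.Prime := ⟨CharP.char_is_prime F p⟩
  have hpgrp : IsPGroup p P := by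
    rintro ⟨x, hx⟩
    obtain ⟨a, ha, hau, hxa⟩ := (hP x).1 hx
    refine ⟨1, ?_⟩
    apply Subtype.ext
    apply Subtype.ext
    rw [pow_one]
    show ((x ^ p : X) : Matrix.SpecialLinearGroup (Fin n) F) = 1
    rw [Subgroup.coe_pow, hxa, tv_pow u a hau, CharP.cast_eq_zero F p, zero_mul,
      tv_zero u a hau]
  have hcomm : ∀ x ∈ P, ∀ y ∈ P, x * y = y * x := by
    intro x hx y hy
    obtain ⟨a, ha, hau, hxa⟩ := (hP x).1 hx
    obtain ⟨a', ha', ha'u, hya⟩ := (hP y).1 hy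
    apply Subtype.ext
    rw [Subgroup.coe_mul, Subgroup.coe_mul, hxa, hya, ← tv_axis_add u a a' hau ha'u,
      ← tv_axis_add u a' a ha'u hau, add_comm]
  have he1 : SRat F₀ (Pi.single i1 (1 : F) : Fin n → F) := srat_single F₀ i1 F₀.one_mem
  have he2 : SRat F₀ (Pi.single i2 (1 : F) : Fin n → F) := srat_single F₀ i2 F₀.one_mem
  have he1u : (Pi.single i1 (1 : F) : Fin n → F) ⬝ᵥ u = 0 := by
    rw [hdotu, Pi.single_eq_of_ne h01]
  have he2u : (Pi.single i2 (1 : F) : Fin n → F) ⬝ᵥ u = 0 := by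
    rw [hdotu, Pi.single_eq_of_ne h02]
  have he10 : (Pi.single i1 (1 : F) : Fin n → F) ≠ 0 := by
    intro h
    have := congrFun h i1
    rw [Pi.single_eq_same] at this
    exact one_ne_zero this
  have hNP : ∀ g : X, (∀ s ∈ P, g * s * g⁻¹ ∈ P) → g ∈ P := by
    intro g hg
    have hs : (⟨tv u (Pi.single i1 1) 1, hsX _ he1 he1u⟩ : X) ∈ P :=
      (hP _).2 ⟨_, he1, he1u, rfl⟩
    obtain ⟨a', ha', ha'u, heq⟩ := (hP _).1 (hg _ hs)
    rw [Subgroup.coe_mul, Subgroup.coe_mul, Subgroup.coe_inv] at heq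
    exact (hP g).2 (hstar g g.2 _ a' he1u he10 ha'u heq)
  have hCP : ∀ s ∈ P, s ≠ 1 → ∀ g : X, g * s * g⁻¹ = s → g ∈ P := by
    intro s hs hs1 g hgs
    obtain ⟨a, ha, hau, hsa⟩ := (hP s).1 hs
    have ha0 : a ≠ 0 := by
      rintro rfl
      apply hs1
      apply Subtype.ext
      rw [hsa, tv_axis_zero, Subgroup.coe_one]
    have heq := congrArg (fun t : X => (t : Matrix.SpecialLinearGroup (Fin n) F)) hgs
    rw [Subgroup.coe_mul, Subgroup.coe_mul, Subgroup.coe_inv, hsa] at heq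
    exact (hP g).2 (hstar g g.2 a a hau ha0 hau heq)
  haveI : Finite X := Finite.of_injective (fun x : X =>
    (x : Matrix.SpecialLinearGroup (Fin n) F)) Subtype.val_injective
  obtain ⟨K, hKP, hK⟩ := frob_kernel p P hpgrp hcomm hNP hCP
  -- elements outside `K` are transvections
  have hnil : ∀ x : X, x ∉ K → ∀ v : Fin n → F,
      ((x : Matrix.SpecialLinearGroup (Fin n) F) : Matrix (Fin n) (Fin n) F) *ᵥ
        (((x : Matrix.SpecialLinearGroup (Fin n) F) : Matrix (Fin n) (Fin n) F) *ᵥ v) + v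
      = ((x : Matrix.SpecialLinearGroup (Fin n) F) : Matrix (Fin n) (Fin n) F) *ᵥ v
        + ((x : Matrix.SpecialLinearGroup (Fin n) F) : Matrix (Fin n) (Fin n) F) *ᵥ v := by
    intro x hx v
    obtain ⟨g, s, hs, rfl⟩ := hK x hx
    obtain ⟨a, ha, hau, hsa⟩ := (hP s).1 hs
    rw [Subgroup.coe_mul, Subgroup.coe_mul, Subgroup.coe_inv, hsa, tv_conj u a hau]
    exact tv_nil2 _ _ (conj_valid u a hau _) 1 v
  -- the elements `tv u e_k 1 * tv w ψ 1` lie in `K`
  have hinK : ∀ k : Fin n, k ≠ i0 → ∀ hk : tv u (Pi.single k 1) 1 * tv w ψ 1 ∈ X,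
      (⟨tv u (Pi.single k 1) 1 * tv w ψ 1, hk⟩ : X) ∈ K := by
    intro k hk0 hk
    by_contra hnot
    have hku : (Pi.single k (1 : F) : Fin n → F) ⬝ᵥ u = 0 := by
      rw [hdotu, Pi.single_eq_of_ne (Ne.symm hk0)]
    have h1 := hnil _ hnot u
    have exu : ((tv u (Pi.single k 1) 1 * tv w ψ 1 : Matrix.SpecialLinearGroup (Fin n) F) :
        Matrix (Fin n) (Fin n) F) *ᵥ u = (1 + w k * (ψ ⬝ᵥ u)) • u + (ψ ⬝ᵥ u) • w := by
      rw [Matrix.SpecialLinearGroup.coe_mul, ← Matrix.mulVec_mulVec, tv_mulVec w ψ h0,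
        tv_mulVec u _ hku, dotProduct_add, dotProduct_smul, hku, single_one_dotProduct]
      simp only [smul_eq_mul]
      module
    have exw : ((tv u (Pi.single k 1) 1 * tv w ψ 1 : Matrix.SpecialLinearGroup (Fin n) F) :
        Matrix (Fin n) (Fin n) F) *ᵥ w = w + w k • u := by
      rw [Matrix.SpecialLinearGroup.coe_mul, ← Matrix.mulVec_mulVec, tv_mulVec w ψ h0,
        tv_mulVec u _ hku, dotProduct_add, dotProduct_smul, h0, single_one_dotProduct]
      simp only [smul_eq_mul]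
      module
    rw [exu, Matrix.mulVec_add, Matrix.mulVec_smul, Matrix.mulVec_smul, exu, exw] at h1
    have h2 := congrFun h1 i1
    simp only [Pi.add_apply, Pi.smul_apply, smul_eq_mul, hu_apply i1 h01.symm, mul_zero,
      zero_add, add_zero] at h2
    have h3 : w k * (ψ ⬝ᵥ u) * (ψ ⬝ᵥ u) * w i1 = 0 := by linear_combination h2
    exact mul_ne_zero (mul_ne_zero (mul_ne_zero (hw k) hb) hb) (hw i1) h3
  have hs1X := hsX _ he1 he1u
  have hs2X := hsX _ he2 he2u
  have hx1 := hinK i1 h01.symm (X.mul_mem hs1X hTX)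
  have hx2 := hinK i2 h02.symm (X.mul_mem hs2X hTX)
  have hq : (⟨tv u (Pi.single i1 1) 1, hs1X⟩ : X) * (⟨tv u (Pi.single i2 1) 1, hs2X⟩ : X)⁻¹
      ∈ K ⊓ P := by
    refine ⟨?_, P.mul_mem ((hP _).2 ⟨_, he1, he1u, rfl⟩)
      (P.inv_mem ((hP _).2 ⟨_, he2, he2u, rfl⟩))⟩
    have h5 := K.mul_mem hx1 (K.inv_mem hx2)
    have e : (⟨tv u (Pi.single i1 1) 1 * tv w ψ 1, X.mul_mem hs1X hTX⟩ : X)
        * (⟨tv u (Pi.single i2 1) 1 * tv w ψ 1, X.mul_mem hs2X hTX⟩ : X)⁻¹
        = (⟨tv u (Pi.single i1 1) 1, hs1X⟩ : X) * (⟨tv u (Pi.single i2 1) 1, hs2X⟩ : X)⁻¹ := by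
      apply Subtype.ext
      rw [Subgroup.coe_mul, Subgroup.coe_inv, Subgroup.coe_mul, Subgroup.coe_inv]
      show tv u (Pi.single i1 1) 1 * tv w ψ 1 * (tv u (Pi.single i2 1) 1 * tv w ψ 1)⁻¹
        = tv u (Pi.single i1 1) 1 * (tv u (Pi.single i2 1) 1)⁻¹
      group
    rwa [e] at h5
  rw [hKP, Subgroup.mem_bot] at hq
  have h6 : tv u (Pi.single i1 1) 1 = tv u (Pi.single i2 1) 1 := by
    have h7 := congrArg (fun t : X => (t : Matrix.SpecialLinearGroup (Fin n) F)) hq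
    rw [Subgroup.coe_mul, Subgroup.coe_inv, Subgroup.coe_one] at h7
    exact mul_inv_eq_one.mp h7
  have h8 := congrArg (fun t : Matrix.SpecialLinearGroup (Fin n) F =>
    (t : Matrix (Fin n) (Fin n) F) *ᵥ (Pi.single i1 (1 : F) : Fin n → F)) h6
  rw [tv_mulVec u _ he1u, tv_mulVec u _ he2u, single_one_dotProduct, single_one_dotProduct,
    Pi.single_eq_same, Pi.single_eq_of_ne h12.symm, mul_one, mul_zero, zero_smul, one_smul,
    add_zero] at h8
  have h9 := congrFun h8 i0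
  rw [Pi.add_apply, hu_self, Pi.single_eq_of_ne h01] at h9
  simp at h9

end Cfsg.Agent.Helper16
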