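import Mathlib
import Cfsg.Agent.S5043
import Cfsg.Agent.S0249
import Cfsg.Agent.Helper16.SubfA
import Cfsg.Agent.Helper16.SubfB

set_option autoImplicit false

namespace Cfsg.Agent.Helper16

open Matrix Cfsg.Agent.S5043

variable {F : Type*} [Field F] {n : ℕ}
variable {F₀ : Subfield F} {H : Subgroup (Matrix.SpecialLinearGroup (Fin n) F)}

/-- change of axis for a transvection with rational centre and axis and arbitrary parameter -/
theorem irr_axis (hn : 3 ≤ n)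
    (hrat : ∀ u χ : Fin n → F, SRat F₀ u → SRat F₀ χ → χ ⬝ᵥ u = 0 → ∀ f ∈ F₀, tv u χ f ∈ H)
    (u χ χ' : Fin n → F) (hu : SRat F₀ u) (hχ : SRat F₀ χ) (hχ' : SRat F₀ χ')
    (hχu : χ ⬝ᵥ u = 0) (hχ'u : χ' ⬝ᵥ u = 0) (hχ0 : χ ≠ 0) (hχ'0 : χ' ≠ 0) (lam : F)
    (hmem : tv u χ' lam ∈ H) : tv u χ lam ∈ H := by
  have caseA : ∀ χ₁ χ₂ : Fin n → F, SRat F₀ χ₁ → SRat F₀ χ₂ → χ₁ ⬝ᵥ u = 0 → χ₂ ⬝ᵥ u = 0 →
      (∀ d : F, χ₂ ≠ d • χ₁) → tv u χ₂ lam ∈ H → tv u χ₁ lam ∈ H := by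
    intro χ₁ χ₂ h1 h2 h1u h2u hind hm
    obtain ⟨x, hx, hx1, hx0⟩ := exists_srat_sep χ₁ χ₂ h1 h2 hind
    have hB : tv x χ₁ 1 ∈ H := hrat x χ₁ hx h1 hx0 1 F₀.one_mem
    have hc := tv_comm_id u χ₂ x χ₁ h2u hx0 h1u lam 1
    have h3 : tv u χ₁ (lam * 1 * (χ₂ ⬝ᵥ x)) ∈ H := by
      rw [← hc]
      exact H.mul_mem (H.mul_mem (H.mul_mem hm hB) (H.inv_mem hm)) (H.inv_mem hB)
    rwa [hx1, mul_one, mul_one] at h3
  by_cases hind : ∀ d : F, χ' ≠ d • χ
  · exact caseA χ χ' hχ hχ' hχu hχ'u hind hmem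
  · push Not at hind
    obtain ⟨d, hd⟩ := hind
    obtain ⟨χ'', hχ'', hχ''0, h1, h2⟩ := exists_srat_perp_indep hn u χ hu hχ0
    have hχ''u : χ'' ⬝ᵥ u = 0 := by rw [dotProduct_comm]; exact h1
    have hind' : ∀ e : F, χ' ≠ e • χ'' := by
      intro e he
      have he0 : e ≠ 0 := by
        rintro rfl
        rw [zero_smul] at he
        exact hχ'0 he
      apply h2 (e⁻¹ * d)
      rw [mul_smul, ← hd, he, smul_smul, inv_mul_cancel₀ he0, one_smul]
    have hm2 := caseA χ'' χ' hχ'' hχ' hχ''u hχ'u hind' hmem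
    exact caseA χ χ'' hχ hχ'' hχu hχ''u h2 hm2

/-- change of centre -/
theorem irr_center (hn : 3 ≤ n)
    (hrat : ∀ u χ : Fin n → F, SRat F₀ u → SRat F₀ χ → χ ⬝ᵥ u = 0 → ∀ f ∈ F₀, tv u χ f ∈ H)
    (χ u u' : Fin n → F) (hχ : SRat F₀ χ) (hu : SRat F₀ u) (hu' : SRat F₀ u')
    (hχu : χ ⬝ᵥ u = 0) (hχu' : χ ⬝ᵥ u' = 0) (hu0 : u ≠ 0) (hu'0 : u' ≠ 0) (lam : F)
    (hmem : tv u' χ lam ∈ H) : tv u χ lam ∈ H := by
  have caseA : ∀ u₁ u₂ : Fin n → F, SRat F₀ u₁ → SRat F₀ u₂ → χ ⬝ᵥ u₁ = 0 → χ ⬝ᵥ u₂ = 0 →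
      (∀ d : F, u₂ ≠ d • u₁) → tv u₂ χ lam ∈ H → tv u₁ χ lam ∈ H := by
    intro u₁ u₂ h1 h2 h1u h2u hind hm
    obtain ⟨x, hx, hx1, hx0⟩ := exists_srat_sep' u₁ u₂ h1 h2 hind
    have hA : tv u₁ x 1 ∈ H := hrat u₁ x h1 hx hx0 1 F₀.one_mem
    have hc := tv_comm_id u₁ x u₂ χ hx0 h2u h1u 1 lam
    have h3 : tv u₁ χ (1 * lam * (x ⬝ᵥ u₂)) ∈ H := by
      rw [← hc]
      exact H.mul_mem (H.mul_mem (H.mul_mem hA hm) (H.inv_mem hA)) (H.inv_mem hm)
    rwa [hx1, mul_one, one_mul] at h3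
  by_cases hind : ∀ d : F, u' ≠ d • u
  · exact caseA u u' hu hu' hχu hχu' hind hmem
  · push Not at hind
    obtain ⟨d, hd⟩ := hind
    obtain ⟨u'', hu'', hu''0, h1, h2⟩ := exists_srat_perp_indep hn χ u hχ hu0
    have hind' : ∀ e : F, u' ≠ e • u'' := by
      intro e he
      have he0 : e ≠ 0 := by
        rintro rfl
        rw [zero_smul] at he
        exact hu'0 he
      apply h2 (e⁻¹ * d)
      rw [mul_smul, ← hd, he, smul_smul, inv_mul_cancel₀ he0, one_smul]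
    have hm2 := caseA u'' u' hu'' hu' h1 hχu' hind' hmem
    exact caseA u u'' hu hu'' hχu h1 h2 hm2

/-- all rational pairs carry the same parameters -/
theorem irr_all (hn : 3 ≤ n)
    (hrat : ∀ u χ : Fin n → F, SRat F₀ u → SRat F₀ χ → χ ⬝ᵥ u = 0 → ∀ f ∈ F₀, tv u χ f ∈ H)
    (u χ u' χ' : Fin n → F) (hu : SRat F₀ u) (hχ : SRat F₀ χ) (hu' : SRat F₀ u')
    (hχ' : SRat F₀ χ') (hu0 : u ≠ 0) (hχ0 : χ ≠ 0) (hu'0 : u' ≠ 0) (hχ'0 : χ' ≠ 0)
    (h0 : χ ⬝ᵥ u = 0) (h0' : χ' ⬝ᵥ u' = 0) (lam : F) (hmem : tv u χ lam ∈ H) :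
    tv u' χ' lam ∈ H := by
  obtain ⟨χ'', hχ'', hχ''0, h1, h2⟩ := exists_srat_perp hn u u' hu hu'
  have h1' : χ'' ⬝ᵥ u = 0 := by rw [dotProduct_comm]; exact h1
  have h2' : χ'' ⬝ᵥ u' = 0 := by rw [dotProduct_comm]; exact h2
  have a1 := irr_axis hn hrat u χ'' χ hu hχ'' hχ h1' h0 hχ''0 hχ0 lam hmem
  have a2 := irr_center hn hrat χ'' u' u hχ'' hu' hu h2' h1' hu'0 hu0 lam a1
  exact irr_axis hn hrat u' χ' χ'' hu' hχ' hχ'' h0' h2' hχ'0 hχ''0 lam a2

set_option maxHeartbeats 800000 in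
/-- a rational transvection direction with an irrational parameter forces `H = SL_n(F)` -/
theorem top_of_irr [Fintype F] (hn : 3 ≤ n) (r : ℕ) (hr : r.Prime)
    (hcard : Fintype.card F = Nat.card F₀ ^ r)
    (hrat : ∀ u χ : Fin n → F, SRat F₀ u → SRat F₀ χ → χ ⬝ᵥ u = 0 → ∀ f ∈ F₀, tv u χ f ∈ H)
    (u₀ χ₀ : Fin n → F) (hu₀ : SRat F₀ u₀) (hχ₀ : SRat F₀ χ₀) (hu₀0 : u₀ ≠ 0) (hχ₀0 : χ₀ ≠ 0)
    (h0 : χ₀ ⬝ᵥ u₀ = 0) (μ₀ : F) (hμ₀ : μ₀ ∉ F₀) (hmem : tv u₀ χ₀ μ₀ ∈ H) : H = ⊤ := by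
  classical
  obtain ⟨n', rfl⟩ : ∃ n', n = n' + 3 := ⟨n - 3, by omega⟩
  -- the parameter algebra
  obtain ⟨A, hA⟩ : ∃ A : Subalgebra F₀ F, ∀ lam : F, lam ∈ A ↔
      ∀ u χ : Fin (n' + 3) → F, SRat F₀ u → SRat F₀ χ → u ≠ 0 → χ ≠ 0 → χ ⬝ᵥ u = 0 →
        tv u χ lam ∈ H :=
    ⟨{ carrier := {lam | ∀ u χ : Fin (n' + 3) → F, SRat F₀ u → SRat F₀ χ → u ≠ 0 → χ ≠ 0 →
          χ ⬝ᵥ u = 0 → tv u χ lam ∈ H}
       mul_mem' := by
         intro a b ha hb u χ hu hχ hu0 hχ0 hχu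
         obtain ⟨u', hu', hu'0, h1, h2⟩ := exists_srat_perp_indep hn χ u hχ hu0
         obtain ⟨χ', hχ', h3, h4⟩ := exists_srat_sep' u u' hu hu' h2
         have hχ'0 : χ' ≠ 0 := by
           rintro rfl
           rw [zero_dotProduct] at h3
           exact zero_ne_one h3
         have m1 := ha u χ' hu hχ' hu0 hχ'0 h4
         have m2 := hb u' χ hu' hχ hu'0 hχ0 h1
         have hc := tv_comm_id u χ' u' χ h4 h1 hχu a b
         have h5 : tv u χ (a * b * (χ' ⬝ᵥ u')) ∈ H := by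
           rw [← hc]
           exact H.mul_mem (H.mul_mem (H.mul_mem m1 m2) (H.inv_mem m1)) (H.inv_mem m2)
         rwa [h3, mul_one] at h5
       one_mem' := fun u χ hu hχ _ _ hχu => hrat u χ hu hχ hχu 1 F₀.one_mem
       add_mem' := by
         intro a b ha hb u χ hu hχ hu0 hχ0 hχu
         have := H.mul_mem (ha u χ hu hχ hu0 hχ0 hχu) (hb u χ hu hχ hu0 hχ0 hχu)
         rwa [tv_mul u χ hχu] at this
       zero_mem' := by
         intro u χ hu hχ hu0 hχ0 hχu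
         rw [tv_zero u χ hχu]
         exact H.one_mem
       algebraMap_mem' := fun f u χ hu hχ _ _ hχu => hrat u χ hu hχ hχu _ f.2 },
      fun lam => Iff.rfl⟩
  have hμA : μ₀ ∈ A := by
    rw [hA]
    intro u χ hu hχ hu0 hχ0 hχu
    exact irr_all hn hrat u₀ χ₀ u χ hu₀ hχ₀ hu hχ hu₀0 hχ₀0 hu0 hχ0 h0 hχu μ₀ hmem
  -- `A = ⊤`
  have hfr : Module.finrank F₀ F = r := by
    have h1 := Module.card_eq_pow_finrank (K := F₀) (V := F)
    rw [hcard, Nat.card_eq_fintype_card] at h1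
    have h2 : 2 ≤ Fintype.card F₀ := Fintype.one_lt_card
    exact (Nat.pow_right_injective h2 h1).symm
  have hE : IntermediateField.adjoin F₀ ({μ₀} : Set F) = ⊤ := by
    have h1 : Module.finrank F₀ (IntermediateField.adjoin F₀ ({μ₀} : Set F))
        * Module.finrank (IntermediateField.adjoin F₀ ({μ₀} : Set F)) F = r := by
      rw [Module.finrank_mul_finrank, hfr]
    have h2 : Module.finrank F₀ (IntermediateField.adjoin F₀ ({μ₀} : Set F)) ≠ 1 := by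
      intro h
      rw [IntermediateField.finrank_eq_one_iff] at h
      have h3 : μ₀ ∈ IntermediateField.adjoin F₀ ({μ₀} : Set F) :=
        IntermediateField.subset_adjoin F₀ _ (Set.mem_singleton μ₀)
      rw [h, IntermediateField.mem_bot] at h3
      obtain ⟨f, hf⟩ := h3
      apply hμ₀
      rw [← hf]
      exact f.2
    have h3 : Module.finrank F₀ (IntermediateField.adjoin F₀ ({μ₀} : Set F)) = r := by
      have hdvd : Module.finrank F₀ (IntermediateField.adjoin F₀ ({μ₀} : Set F)) ∣ r :=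
        Dvd.intro _ h1
      rcases (Nat.dvd_prime hr).mp hdvd with h | h
      · exact absurd h h2
      · exact h
    apply IntermediateField.eq_of_le_of_finrank_eq le_top
    rw [h3, IntermediateField.finrank_top', hfr]
  have hAtop : ∀ lam : F, lam ∈ A := by
    intro lam
    have h1 : (IntermediateField.adjoin F₀ ({μ₀} : Set F)).toSubalgebra
        = Algebra.adjoin F₀ ({μ₀} : Set F) :=
      IntermediateField.adjoin_toSubalgebra_of_isAlgebraic (fun x _ =>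
        Algebra.IsAlgebraic.isAlgebraic x)
    have h2 : Algebra.adjoin F₀ ({μ₀} : Set F) ≤ A :=
      Algebra.adjoin_le (Set.singleton_subset_iff.mpr hμA)
    apply h2
    rw [← h1, hE]
    exact IntermediateField.mem_top
  rw [eq_top_iff]
  intro B _
  apply Cfsg.Agent.S0249.transvection_induction (P := fun B => B ∈ H)
  · intro i j hij c
    have h3 : Matrix.SpecialLinearGroup.transvection hij c
        = tv (Pi.single i 1) (Pi.single j 1) c := by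
      apply Subtype.ext
      rw [tv_single i j hij]
      rfl
    rw [h3]
    have hi0 : (Pi.single i (1 : F) : Fin (n' + 3) → F) ≠ 0 := by
      intro h
      have := congrFun h i
      rw [Pi.single_eq_same] at this
      exact one_ne_zero this
    have hj0 : (Pi.single j (1 : F) : Fin (n' + 3) → F) ≠ 0 := by
      intro h
      have := congrFun h j
      rw [Pi.single_eq_same] at this
      exact one_ne_zero this
    exact (hA c).1 (hAtop c) _ _ (srat_single F₀ i F₀.one_mem) (srat_single F₀ j F₀.one_mem)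
      hi0 hj0 (single_dot j i hij.symm)
  · intro B C hB hC
    exact H.mul_mem hB hC

/-- **Core of the subfield-group maximality.**  A subgroup of `SL_n(F)` containing all elements
that are `F₀`-rational up to a scalar either consists of such elements or is everything. -/
theorem subfield_core [Fintype F] (hn : 4 ≤ n) (F₀ : Subfield F) (r : ℕ) (hr : r.Prime)
    (hcard : Fintype.card F = Nat.card F₀ ^ r)
    (H : Subgroup (Matrix.SpecialLinearGroup (Fin n) F))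
    (hM : ∀ A : Matrix.SpecialLinearGroup (Fin n) F,
      (∃ c : F, c ≠ 0 ∧ ∀ i j, c * (A : Matrix (Fin n) (Fin n) F) i j ∈ F₀) → A ∈ H) :
    (∀ A ∈ H, ∃ c : F, c ≠ 0 ∧ ∀ i j, c * (A : Matrix (Fin n) (Fin n) F) i j ∈ F₀)
      ∨ H = ⊤ := by
  classical
  have hrat : ∀ u χ : Fin n → F, SRat F₀ u → SRat F₀ χ → χ ⬝ᵥ u = 0 → ∀ f ∈ F₀,
      tv u χ f ∈ H := by
    intro u χ hu hχ h0 f hf
    apply hM
    refine ⟨1, one_ne_zero, fun i j => ?_⟩
    rw [one_mul, tv_coe u χ h0, Matrix.add_apply, Matrix.smul_apply, Matrix.vecMulVec_apply,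
      Matrix.one_apply, smul_eq_mul]
    refine F₀.add_mem ?_ (F₀.mul_mem hf (F₀.mul_mem (hu i) (hχ j)))
    split_ifs
    · exact F₀.one_mem
    · exact F₀.zero_mem
  by_cases hR : ∀ u χ : Fin n → F, SRat F₀ u → SRat F₀ χ → u ≠ 0 → χ ≠ 0 → χ ⬝ᵥ u = 0 →
      ∀ μ : F, tv u χ μ ∈ H → μ ∈ F₀
  · left
    have hH : SubH F₀ H := ⟨hrat, hR⟩
    intro h hh
    by_contra hnot
    obtain ⟨i0, i1, h01⟩ : ∃ i0 i1 : Fin n, i0 ≠ i1 :=
      ⟨⟨0, by omega⟩, ⟨1, by omega⟩, by simp [Fin.ext_iff]⟩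
    have he0 : SRat F₀ (Pi.single i0 (1 : F) : Fin n → F) := srat_single F₀ i0 F₀.one_mem
    have he1 : SRat F₀ (Pi.single i1 (1 : F) : Fin n → F) := srat_single F₀ i1 F₀.one_mem
    have he00 : (Pi.single i0 (1 : F) : Fin n → F) ≠ 0 := by
      intro h
      have := congrFun h i0
      rw [Pi.single_eq_same] at this
      exact one_ne_zero this
    have he10 : (Pi.single i1 (1 : F) : Fin n → F) ≠ 0 := by
      intro h
      have := congrFun h i1
      rw [Pi.single_eq_same] at this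
      exact one_ne_zero this
    have h10 : (Pi.single i1 (1 : F) : Fin n → F) ⬝ᵥ (Pi.single i0 (1 : F) : Fin n → F) = 0 := by
      rw [dotProduct_single_one, Pi.single_eq_of_ne h01]
    obtain ⟨w, hwdef⟩ : ∃ w : Fin n → F,
        w = (h : Matrix (Fin n) (Fin n) F) *ᵥ (Pi.single i0 (1 : F) : Fin n → F) := ⟨_, rfl⟩
    obtain ⟨ψ, hψdef⟩ : ∃ ψ : Fin n → F,
        ψ = (Pi.single i1 (1 : F) : Fin n → F) ᵥ*
          ((h⁻¹ : Matrix.SpecialLinearGroup (Fin n) F) : Matrix (Fin n) (Fin n) F) := ⟨_, rfl⟩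
    have hT : tv w ψ 1 ∈ H := by
      have := H.mul_mem (H.mul_mem hh (hrat _ _ he0 he1 h10 1 F₀.one_mem)) (H.inv_mem hh)
      rwa [tv_conj _ _ h10 h 1, ← hwdef, ← hψdef] at this
    have h0 : ψ ⬝ᵥ w = 0 := by
      rw [hwdef, hψdef]
      exact conj_valid _ _ h10 h
    have hw0 : w ≠ 0 := by
      rw [hwdef]
      exact sl_mulVec_ne_zero h _ he00
    have hψ0 : ψ ≠ 0 := by
      rw [hψdef]
      exact sl_vecMul_ne_zero h _ he10
    have hnr : ∀ c : F, c ≠ 0 → ¬ SRat F₀ (c • w) := by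
      intro c hc hrt
      apply hnot
      refine hH.mem_of_fix (by omega) h hh _ (c • w) he0 he00 hrt c⁻¹ ?_
      rw [smul_smul, inv_mul_cancel₀ hc, one_smul, hwdef]
    apply hH.full_rank_false hn w ψ h0 hT
    · intro χ hχ hχ0 hχw
      obtain ⟨c, hc, hrat'⟩ := hH.center_smul_rat (by omega) w ψ h0 hψ0 hT χ hχ hχ0 hχw
      exact hnr c hc hrat'
    · intro u hu hu0 hψu
      obtain ⟨c, hc, hrat'⟩ := hH.axis_smul_rat (by omega) w ψ h0 hw0 hT u hu hu0 hψu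
      have hv : (c • ψ) ⬝ᵥ w = 0 := by rw [smul_dotProduct, h0, smul_zero]
      have h5 : tv (c⁻¹ • w) (c • ψ) 1 ∈ H := by
        rw [tv_smul_left w _ hv c⁻¹ 1, tv_smul_right w ψ h0 c (c⁻¹ * 1), ← mul_assoc,
          mul_inv_cancel₀ hc, one_mul]
        exact hT
      have hcψ0 : c • ψ ≠ 0 := by
        intro h
        rcases smul_eq_zero.mp h with h | h
        · exact hc h
        · exact hψ0 h
      have := hH.center_rat (by omega) _ _ hrat' hcψ0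
        (by rw [dotProduct_smul, hv, smul_zero]) h5
      exact hnr c⁻¹ (inv_ne_zero hc) this
  · right
    push Not at hR
    obtain ⟨u, χ, hu, hχ, hu0, hχ0, h0, μ, hμ, hμF⟩ := hR
    exact top_of_irr (by omega) r hr hcard hrat u χ hu hχ hu0 hχ0 h0 μ hμF hμ

end Cfsg.Agent.Helper16
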