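import Cfsg.Agent.Helper16.OmegaTrans
import Cfsg.Agent.Helper16.PermIso

set_option autoImplicit false
open Cfsg

namespace Cfsg.Agent.Helper16

open QuadraticMap Module
open scoped commutatorElement

section SumForm
variable {ι₁ ι₂ : Type} [Fintype ι₁] [DecidableEq ι₁] [Fintype ι₂] [DecidableEq ι₂]
  {F : Type*} [Field F]

/-- the orthogonal direct sum of two quadratic forms -/
noncomputable def qfSum (Q₁ : QuadraticForm F (ι₁ → F)) (Q₂ : QuadraticForm F (ι₂ → F)) :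
    QuadraticForm F (ι₁ ⊕ ι₂ → F) :=
  Q₁.comp (LinearMap.funLeft F F Sum.inl) + Q₂.comp (LinearMap.funLeft F F Sum.inr)

theorem qfSum_apply (Q₁ : QuadraticForm F (ι₁ → F)) (Q₂ : QuadraticForm F (ι₂ → F))
    (v : ι₁ ⊕ ι₂ → F) : qfSum Q₁ Q₂ v = Q₁ (v ∘ Sum.inl) + Q₂ (v ∘ Sum.inr) := rfl

theorem coe_qfSum (Q₁ : QuadraticForm F (ι₁ → F)) (Q₂ : QuadraticForm F (ι₂ → F)) :
    ⇑(qfSum Q₁ Q₂) = fun v : ι₁ ⊕ ι₂ → F => Q₁ (v ∘ Sum.inl) + Q₂ (v ∘ Sum.inr) := rfl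

theorem polar_qfSum (Q₁ : QuadraticForm F (ι₁ → F)) (Q₂ : QuadraticForm F (ι₂ → F))
    (x y : ι₁ ⊕ ι₂ → F) :
    polar (qfSum Q₁ Q₂) x y = polar Q₁ (x ∘ Sum.inl) (y ∘ Sum.inl) +
      polar Q₂ (x ∘ Sum.inr) (y ∘ Sum.inr) := by
  unfold polar
  rw [qfSum_apply, qfSum_apply, qfSum_apply]
  have e1 : (x + y) ∘ Sum.inl = x ∘ (Sum.inl : ι₁ → ι₁ ⊕ ι₂) + y ∘ Sum.inl := rfl
  have e2 : (x + y) ∘ Sum.inr = x ∘ (Sum.inr : ι₂ → ι₁ ⊕ ι₂) + y ∘ Sum.inr := rfl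
  rw [e1, e2]
  ring

theorem qfSum_nondegenerate (Q₁ : QuadraticForm F (ι₁ → F)) (Q₂ : QuadraticForm F (ι₂ → F))
    (h₁ : (polarBilin Q₁).Nondegenerate) (h₂ : (polarBilin Q₂).Nondegenerate) :
    (polarBilin (qfSum Q₁ Q₂)).Nondegenerate := by
  apply ((polarBilin_isSymm _).isRefl.nondegenerate_iff_separatingLeft).2
  intro x hx
  have hx' : ∀ y, polar (qfSum Q₁ Q₂) x y = 0 := hx
  have hl : x ∘ Sum.inl = 0 := by
    apply h₁.1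
    intro y₁
    have h := hx' (Sum.elim y₁ 0)
    rw [polar_qfSum] at h
    have e1 : (Sum.elim y₁ (0 : ι₂ → F)) ∘ Sum.inl = y₁ := rfl
    have e2 : (Sum.elim y₁ (0 : ι₂ → F)) ∘ Sum.inr = 0 := rfl
    rw [e1, e2, qf_polar_zero_right, add_zero] at h
    exact h
  have hr : x ∘ Sum.inr = 0 := by
    apply h₂.1
    intro y₂
    have h := hx' (Sum.elim 0 y₂)
    rw [polar_qfSum] at h
    have e1 : (Sum.elim (0 : ι₁ → F) y₂) ∘ Sum.inl = 0 := rfl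
    have e2 : (Sum.elim (0 : ι₁ → F) y₂) ∘ Sum.inr = y₂ := rfl
    rw [e1, e2, qf_polar_zero_right, zero_add] at h
    exact h
  funext i
  rcases i with i | i
  · exact congrFun hl i
  · exact congrFun hr i

theorem fromBlocks_diag_mulVec (A : Matrix ι₁ ι₁ F) (D : Matrix ι₂ ι₂ F) (v : ι₁ ⊕ ι₂ → F) :
    (Matrix.fromBlocks A 0 0 D).mulVec v =
      Sum.elim (A.mulVec (v ∘ Sum.inl)) (D.mulVec (v ∘ Sum.inr)) := by
  rw [Matrix.fromBlocks_mulVec]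
  simp

/-- block-diagonal isometries of an orthogonal sum -/
noncomputable def blockHom (Q₁ : QuadraticForm F (ι₁ → F)) (Q₂ : QuadraticForm F (ι₂ → F)) :
    ↥(isometryGroup F ⇑Q₁) × ↥(isometryGroup F ⇑Q₂) →* ↥(isometryGroup F ⇑(qfSum Q₁ Q₂)) where
  toFun p := ⟨⟨Matrix.fromBlocks ((p.1 : GL ι₁ F) : Matrix ι₁ ι₁ F) 0 0
      ((p.2 : GL ι₂ F) : Matrix ι₂ ι₂ F),
    Matrix.fromBlocks (((p.1⁻¹ : ↥(isometryGroup F ⇑Q₁)) : GL ι₁ F) : Matrix ι₁ ι₁ F) 0 0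
      (((p.2⁻¹ : ↥(isometryGroup F ⇑Q₂)) : GL ι₂ F) : Matrix ι₂ ι₂ F), by
      rw [Matrix.fromBlocks_multiply]
      simp, by
      rw [Matrix.fromBlocks_multiply]
      simp⟩, (mem_isometryGroup_iff _ _).2 fun v => by
        show qfSum Q₁ Q₂ ((Matrix.fromBlocks ((p.1 : GL ι₁ F) : Matrix ι₁ ι₁ F) 0 0
          ((p.2 : GL ι₂ F) : Matrix ι₂ ι₂ F)).mulVec v) = qfSum Q₁ Q₂ v
        rw [fromBlocks_diag_mulVec, qfSum_apply, qfSum_apply]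
        have e1 : (Sum.elim (((p.1 : GL ι₁ F) : Matrix ι₁ ι₁ F).mulVec (v ∘ Sum.inl))
          (((p.2 : GL ι₂ F) : Matrix ι₂ ι₂ F).mulVec (v ∘ Sum.inr))) ∘ Sum.inl =
            ((p.1 : GL ι₁ F) : Matrix ι₁ ι₁ F).mulVec (v ∘ Sum.inl) := rfl
        have e2 : (Sum.elim (((p.1 : GL ι₁ F) : Matrix ι₁ ι₁ F).mulVec (v ∘ Sum.inl))
          (((p.2 : GL ι₂ F) : Matrix ι₂ ι₂ F).mulVec (v ∘ Sum.inr))) ∘ Sum.inr =
            ((p.2 : GL ι₂ F) : Matrix ι₂ ι₂ F).mulVec (v ∘ Sum.inr) := rfl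
        rw [e1, e2, (mem_isometryGroup_iff _ _).1 p.1.2, (mem_isometryGroup_iff _ _).1 p.2.2]⟩
  map_one' := isom_ext _ _ _ (by
    show Matrix.fromBlocks (1 : Matrix ι₁ ι₁ F) 0 0 (1 : Matrix ι₂ ι₂ F) = 1
    exact Matrix.fromBlocks_one)
  map_mul' p p' := isom_ext _ _ _ (by
    show Matrix.fromBlocks (((p.1 * p'.1 : ↥(isometryGroup F ⇑Q₁)) : GL ι₁ F) : Matrix ι₁ ι₁ F) 0 0
      (((p.2 * p'.2 : ↥(isometryGroup F ⇑Q₂)) : GL ι₂ F) : Matrix ι₂ ι₂ F) =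
      Matrix.fromBlocks ((p.1 : GL ι₁ F) : Matrix ι₁ ι₁ F) 0 0 ((p.2 : GL ι₂ F) : Matrix ι₂ ι₂ F) *
      Matrix.fromBlocks ((p'.1 : GL ι₁ F) : Matrix ι₁ ι₁ F) 0 0 ((p'.2 : GL ι₂ F) : Matrix ι₂ ι₂ F)
    rw [Matrix.fromBlocks_multiply]
    simp)

theorem blockHom_coe (Q₁ : QuadraticForm F (ι₁ → F)) (Q₂ : QuadraticForm F (ι₂ → F))
    (p : ↥(isometryGroup F ⇑Q₁) × ↥(isometryGroup F ⇑Q₂)) :
    ((blockHom Q₁ Q₂ p : GL (ι₁ ⊕ ι₂) F) : Matrix (ι₁ ⊕ ι₂) (ι₁ ⊕ ι₂) F) =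
      Matrix.fromBlocks ((p.1 : GL ι₁ F) : Matrix ι₁ ι₁ F) 0 0
        ((p.2 : GL ι₂ F) : Matrix ι₂ ι₂ F) := rfl

theorem blockHom_act (Q₁ : QuadraticForm F (ι₁ → F)) (Q₂ : QuadraticForm F (ι₂ → F))
    (p : ↥(isometryGroup F ⇑Q₁) × ↥(isometryGroup F ⇑Q₂)) (v : ι₁ ⊕ ι₂ → F) :
    act ⇑(qfSum Q₁ Q₂) (blockHom Q₁ Q₂ p) v =
      Sum.elim (act ⇑Q₁ p.1 (v ∘ Sum.inl)) (act ⇑Q₂ p.2 (v ∘ Sum.inr)) :=
  fromBlocks_diag_mulVec _ _ v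

end SumForm

section Doubling
variable {ι : Type} [Fintype ι] [DecidableEq ι] {F : Type*} [Field F]

theorem qfSum_comp_swap (Q : QuadraticForm F (ι → F)) (v : ι ⊕ ι → F) :
    qfSum Q Q (v ∘ Equiv.sumComm ι ι) = qfSum Q Q v := by
  rw [qfSum_apply, qfSum_apply, add_comm]
  rfl

/-- `diag(g, g⁻¹)` is a commutator -/
theorem block_inv_mem_Omega (Q : QuadraticForm F (ι → F)) (g : ↥(isometryGroup F ⇑Q)) :
    blockHom Q Q (g, g⁻¹) ∈ Omega F ⇑(qfSum Q Q) := by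
  have hSS : permElt ⇑(qfSum Q Q) (Equiv.sumComm ι ι) (qfSum_comp_swap Q) *
      permElt ⇑(qfSum Q Q) (Equiv.sumComm ι ι) (qfSum_comp_swap Q) = 1 := by
    apply isom_ext
    show (permMat (Equiv.sumComm ι ι) : Matrix _ _ F) * permMat (Equiv.sumComm ι ι) = 1
    rw [permMat_mul]
    have : (Equiv.sumComm ι ι : Equiv.Perm (ι ⊕ ι)) * Equiv.sumComm ι ι = 1 := by
      ext x
      rcases x with i | i <;> rfl
    rw [this, permMat_one]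
  have key : blockHom Q Q (g, g⁻¹) = ⁅blockHom Q Q (g, 1),
      permElt ⇑(qfSum Q Q) (Equiv.sumComm ι ι) (qfSum_comp_swap Q)⁆ := by
    rw [commutatorElement_def, inv_eq_of_mul_eq_one_left hSS, ← map_inv]
    apply act_ext
    intro v
    rw [act_mul, act_mul, act_mul, blockHom_act, blockHom_act, blockHom_act]
    have hs : ∀ w : ι ⊕ ι → F, act ⇑(qfSum Q Q)
        (permElt ⇑(qfSum Q Q) (Equiv.sumComm ι ι) (qfSum_comp_swap Q)) w =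
        w ∘ Equiv.sumComm ι ι := fun w => permElt_mulVec _ _ _ w
    rw [hs, hs]
    funext i
    rcases i with i | i
    · simp [act_one]
      rfl
    · simp [act_one]
      rfl
  rw [key]
  exact Subgroup.commutator_mem_commutator (Subgroup.mem_top _) (Subgroup.mem_top _)

end Doubling

end Cfsg.Agent.Helper16
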