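import Cfsg.Agent.Helper16.SumForm
import Cfsg.Agent.Helper16.Dickson

set_option autoImplicit false
open Cfsg

namespace Cfsg.Agent.Helper16

open QuadraticMap Module

section SumOmega
variable {ι₁ ι₂ : Type} [Fintype ι₁] [DecidableEq ι₁] [Fintype ι₂] [DecidableEq ι₂]
  {F : Type*} [Field F]

theorem qfSum_elim_zero (Q₁ : QuadraticForm F (ι₁ → F)) (Q₂ : QuadraticForm F (ι₂ → F))
    (a : ι₁ → F) : qfSum Q₁ Q₂ (Sum.elim a 0) = Q₁ a := by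
  rw [qfSum_apply]
  have e1 : (Sum.elim a (0 : ι₂ → F)) ∘ Sum.inl = a := rfl
  have e2 : (Sum.elim a (0 : ι₂ → F)) ∘ Sum.inr = 0 := rfl
  rw [e1, e2, map_zero, add_zero]

theorem blockHom_refl (Q₁ : QuadraticForm F (ι₁ → F)) (Q₂ : QuadraticForm F (ι₂ → F))
    (a : ι₁ → F) (ha : Q₁ a ≠ 0) :
    blockHom Q₁ Q₂ (reflElt Q₁ a, 1) = reflElt (qfSum Q₁ Q₂) (Sum.elim a 0) := by
  have ha' : qfSum Q₁ Q₂ (Sum.elim a 0) ≠ 0 := by rw [qfSum_elim_zero]; exact ha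
  apply act_ext
  intro v
  rw [blockHom_act, act_refl _ _ ha', act_one, qrefl_apply, polar_qfSum, qfSum_elim_zero]
  have e1 : (Sum.elim a (0 : ι₂ → F)) ∘ Sum.inl = a := rfl
  have e2 : (Sum.elim a (0 : ι₂ → F)) ∘ Sum.inr = 0 := rfl
  rw [e1, e2]
  have e3 : polar Q₂ 0 (v ∘ Sum.inr) = 0 := by simp [polar]
  rw [e3, add_zero]
  show Sum.elim (act ⇑Q₁ (reflElt Q₁ a) (v ∘ Sum.inl)) (v ∘ Sum.inr) = _
  rw [act_refl Q₁ a ha, qrefl_apply]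
  funext i
  rcases i with i | i
  · simp
  · simp

theorem blockHom_inl_prod (Q₁ : QuadraticForm F (ι₁ → F)) (Q₂ : QuadraticForm F (ι₂ → F))
    (vs : List (ι₁ → F)) (hvs : ∀ v ∈ vs, Q₁ v ≠ 0) :
    blockHom Q₁ Q₂ ((vs.map (reflElt Q₁)).prod, 1) =
      ((vs.map (fun a => (Sum.elim a 0 : ι₁ ⊕ ι₂ → F))).map (reflElt (qfSum Q₁ Q₂))).prod := by
  induction vs with
  | nil =>
    simp only [List.map_nil, List.prod_nil]
    exact map_one _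
  | cons v vs ih =>
    have e : ((List.map (reflElt Q₁) (v :: vs)).prod, (1 : ↥(isometryGroup F ⇑Q₂))) =
        (reflElt Q₁ v, 1) * ((List.map (reflElt Q₁) vs).prod, 1) := by
      rw [List.map_cons, List.prod_cons, Prod.mk_mul_mk, one_mul]
    rw [e, map_mul, ih (fun w hw => hvs w (List.mem_cons_of_mem _ hw)),
      blockHom_refl Q₁ Q₂ v (hvs v List.mem_cons_self)]
    simp only [List.map_cons, List.prod_cons]

theorem block_one_mem_Omega_iff_odd [Fintype F] (h2 : (2 : F) ≠ 0)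
    (Q₁ : QuadraticForm F (ι₁ → F)) (Q₂ : QuadraticForm F (ι₂ → F))
    (h₁ : (polarBilin Q₁).Nondegenerate) (h₂ : (polarBilin Q₂).Nondegenerate)
    (g₁ : ↥(isometryGroup F ⇑Q₁)) :
    blockHom Q₁ Q₂ (g₁, 1) ∈ Omega F ⇑(qfSum Q₁ Q₂) ↔ g₁ ∈ Omega F ⇑Q₁ := by
  obtain ⟨vs, hvs, rfl⟩ := exists_refl_list h2 Q₁ h₁ g₁
  have hvs' : ∀ w ∈ vs.map (fun a => (Sum.elim a 0 : ι₁ ⊕ ι₂ → F)), qfSum Q₁ Q₂ w ≠ 0 := by
    intro w hw
    obtain ⟨a, ha, rfl⟩ := List.mem_map.1 hw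
    rw [qfSum_elim_zero]
    exact hvs a ha
  rw [mem_Omega_iff h2 Q₁ h₁ _ vs hvs (coe_prod_reflElt Q₁ vs hvs),
    mem_Omega_iff h2 (qfSum Q₁ Q₂) (qfSum_nondegenerate Q₁ Q₂ h₁ h₂) _ _ hvs' (by
      rw [blockHom_inl_prod Q₁ Q₂ vs hvs, coe_prod_reflElt _ _ hvs']),
    List.length_map, List.map_map]
  have e : ((fun v => (qfSum Q₁ Q₂) v) ∘ fun a => (Sum.elim a 0 : ι₁ ⊕ ι₂ → F)) =
      fun v => Q₁ v := by
    funext a
    exact qfSum_elim_zero Q₁ Q₂ a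
  rw [e]

theorem block_one_mem_Omega_iff_char2 [Fintype F] [CharP F 2]
    (Q₁ : QuadraticForm F (ι₁ → F)) (Q₂ : QuadraticForm F (ι₂ → F))
    (h₁ : (polarBilin Q₁).Nondegenerate) (h₂ : (polarBilin Q₂).Nondegenerate)
    (hc₁ : Fintype.card F ≠ 2 ∨ Fintype.card ι₁ ≠ 4)
    (hc : Fintype.card F ≠ 2 ∨ Fintype.card (ι₁ ⊕ ι₂) ≠ 4)
    (g₁ : ↥(isometryGroup F ⇑Q₁)) :
    blockHom Q₁ Q₂ (g₁, 1) ∈ Omega F ⇑(qfSum Q₁ Q₂) ↔ g₁ ∈ Omega F ⇑Q₁ := by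
  rcases Nat.eq_zero_or_pos (Fintype.card ι₁) with h0 | h0
  · have hg : g₁ = 1 := by
      apply act_ext
      intro x
      haveI : IsEmpty ι₁ := Fintype.card_eq_zero_iff.1 h0
      exact Subsingleton.elim _ _
    rw [hg]
    have : blockHom Q₁ Q₂ ((1 : ↥(isometryGroup F ⇑Q₁)), (1 : ↥(isometryGroup F ⇑Q₂))) = 1 :=
      map_one _
    rw [this]
    exact ⟨fun _ => Subgroup.one_mem _, fun _ => Subgroup.one_mem _⟩
  · have hQQ := qfSum_nondegenerate Q₁ Q₂ h₁ h₂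
    have hcomp : (dicksonHom (qfSum Q₁ Q₂) hQQ hc).comp
        ((blockHom Q₁ Q₂).comp (MonoidHom.inl _ _)) = dicksonHom Q₁ h₁ hc₁ := by
      apply MonoidHom.eq_of_eqOn_dense (cd2 Q₁ h₁ hc₁)
      rintro x ⟨v, hv, hmat⟩
      have hx : x = reflElt Q₁ v := isom_ext _ _ _ (by rw [hmat, reflElt_coe Q₁ v hv])
      subst hx
      show dicksonHom (qfSum Q₁ Q₂) hQQ hc (blockHom Q₁ Q₂ (reflElt Q₁ v, 1)) =
        dicksonHom Q₁ h₁ hc₁ (reflElt Q₁ v)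
      rw [blockHom_refl Q₁ Q₂ v hv, dicksonHom_refl _ _ _ _ (by rw [qfSum_elim_zero]; exact hv),
        dicksonHom_refl _ _ _ _ hv]
    have hval : dicksonHom (qfSum Q₁ Q₂) hQQ hc (blockHom Q₁ Q₂ (g₁, 1)) =
        dicksonHom Q₁ h₁ hc₁ g₁ := DFunLike.congr_fun hcomp g₁
    rw [mem_Omega_iff_dickson _ hQQ hc (by rw [Fintype.card_sum]; omega),
      mem_Omega_iff_dickson Q₁ h₁ hc₁ h0, hval]

theorem block_one_mem_Omega_iff [Fintype F]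
    (Q₁ : QuadraticForm F (ι₁ → F)) (Q₂ : QuadraticForm F (ι₂ → F))
    (h₁ : (polarBilin Q₁).Nondegenerate) (h₂ : (polarBilin Q₂).Nondegenerate)
    (h : Fintype.card F ≠ 2 ∨ (Fintype.card ι₁ ≠ 4 ∧ Fintype.card ι₁ + Fintype.card ι₂ ≠ 4))
    (g₁ : ↥(isometryGroup F ⇑Q₁)) :
    blockHom Q₁ Q₂ (g₁, 1) ∈ Omega F ⇑(qfSum Q₁ Q₂) ↔ g₁ ∈ Omega F ⇑Q₁ := by
  by_cases h2 : (2 : F) = 0
  · haveI : CharP F 2 := CharTwo.of_one_ne_zero_of_two_eq_zero one_ne_zero h2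
    apply block_one_mem_Omega_iff_char2 Q₁ Q₂ h₁ h₂
    · rcases h with h | h
      · exact Or.inl h
      · exact Or.inr h.1
    · rcases h with h | h
      · exact Or.inl h
      · right
        rw [Fintype.card_sum]
        exact h.2
  · exact block_one_mem_Omega_iff_odd h2 Q₁ Q₂ h₁ h₂ g₁

end SumOmega

end Cfsg.Agent.Helper16
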