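import Cfsg.Agent.Helper16.PointMax
import Cfsg.Agent.Helper16.SiegChar2
import Cfsg.Agent.Helper16.StdForms
import Cfsg.Agent.Helper16.CD2Main

set_option autoImplicit false
open Cfsg

namespace Cfsg.Agent.Helper16

open QuadraticMap Module

section TSMax
variable {ι : Type} [Fintype ι] [DecidableEq ι] {F : Type*} [Field F]

/-- singular vectors whose full root group lies in `M` -/
def rootDirs (Q : QuadraticForm F (ι → F)) (M : Subgroup (GL ι F)) : Set (ι → F) :=
  {u | ∃ hu : Q u = 0, ∀ (w : ι → F) (huw : polar Q u w = 0),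
    ((sieg Q u w hu huw : ↥(isometryGroup F ⇑Q)) : GL ι F) ∈ M}

theorem rootDirs_act (Q : QuadraticForm F (ι → F)) (M : Subgroup (GL ι F))
    (h : ↥(isometryGroup F ⇑Q)) (hM : (h : GL ι F) ∈ M) (u : ι → F) (hu : u ∈ rootDirs Q M) :
    act ⇑Q h u ∈ rootDirs Q M := by
  obtain ⟨hu0, hu1⟩ := hu
  refine ⟨(act_Q ⇑Q h u).trans hu0, ?_⟩
  intro w huw
  have hw : act ⇑Q h (act ⇑Q h⁻¹ w) = w := act_act_inv ⇑Q h w
  have huw' : polar Q u (act ⇑Q h⁻¹ w) = 0 := by
    have h1 := act_polar ⇑Q h u (act ⇑Q h⁻¹ w)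
    rw [hw] at h1
    rw [← h1]
    exact huw
  have key := sieg_conj Q h u (act ⇑Q h⁻¹ w) hu0 huw'
  have e : sieg Q (act ⇑Q h u) w ((act_Q ⇑Q h u).trans hu0) huw =
      h * sieg Q u (act ⇑Q h⁻¹ w) hu0 huw' * h⁻¹ := by
    rw [key]
    exact sieg_congr2 Q _ _ _ _ _ _ _ _ rfl hw.symm
  rw [e, Subgroup.coe_mul, Subgroup.coe_mul, Subgroup.coe_inv]
  exact M.mul_mem (M.mul_mem hM (hu1 _ huw')) (M.inv_mem hM)

theorem rootDirs_smul (Q : QuadraticForm F (ι → F)) (M : Subgroup (GL ι F))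
    (c : F) (u : ι → F) (hu : u ∈ rootDirs Q M) : c • u ∈ rootDirs Q M := by
  obtain ⟨hu0, hu1⟩ := hu
  refine ⟨by rw [qf_smul, hu0, mul_zero], ?_⟩
  intro w huw
  by_cases hc : c = 0
  · subst hc
    have e : sieg Q ((0 : F) • u) w (by rw [qf_smul, hu0, mul_zero]) huw = 1 := by
      rw [← sieg_zero_left Q w]
      exact sieg_congr2 Q _ _ _ _ _ _ _ _ (zero_smul F u) rfl
    rw [e]
    exact M.one_mem
  · have huw' : polar Q u w = 0 := by
      rw [polar_smul_left, smul_eq_mul] at huw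
      exact (mul_eq_zero.1 huw).resolve_left hc
    have e := sieg_smul Q u w c hu0 huw'
    rw [e]
    exact hu1 _ _

theorem rootDirs_opp (Q : QuadraticForm F (ι → F)) (M : Subgroup (GL ι F))
    (u r r' : ι → F) (hu : u ∈ rootDirs Q M) (hr : r ∈ rootDirs Q M) (hr' : Q r' = 0)
    (hur : polar Q u r ≠ 0) (hur' : polar Q u r' ≠ 0) : r' ∈ rootDirs Q M := by
  obtain ⟨hu0, hu1⟩ := hu
  have hr0 : Q r = 0 := hr.1
  have h1 : Q ((polar Q u r)⁻¹ • r) = 0 := by rw [qf_smul, hr0, mul_zero]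
  have h2 : Q ((polar Q u r')⁻¹ • r') = 0 := by rw [qf_smul, hr', mul_zero]
  have h3 : polar Q u ((polar Q u r)⁻¹ • r) = 1 := by
    rw [polar_smul_right, smul_eq_mul, inv_mul_cancel₀ hur]
  have h4 : polar Q u ((polar Q u r')⁻¹ • r') = 1 := by
    rw [polar_smul_right, smul_eq_mul, inv_mul_cancel₀ hur']
  have hmv := sieg_move Q u _ _ hu0 h1 h2 h3 h4
  have h5 := rootDirs_act Q M _ (hu1 ((polar Q u r)⁻¹ • r - (polar Q u r')⁻¹ • r')
    (by rw [polar_sub_right, h3, h4, sub_self])) _ (rootDirs_smul Q M (polar Q u r)⁻¹ r hr)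
  rw [hmv] at h5
  have h6 := rootDirs_smul Q M (polar Q u r') _ h5
  rwa [smul_smul, mul_inv_cancel₀ hur', one_smul] at h6

theorem rootDirs_zero (Q : QuadraticForm F (ι → F)) (M : Subgroup (GL ι F)) :
    (0 : ι → F) ∈ rootDirs Q M := by
  refine ⟨QuadraticMap.map_zero Q, ?_⟩
  intro w huw
  have e : sieg Q 0 w (QuadraticMap.map_zero Q) huw = 1 := sieg_zero_left Q w
  rw [e]
  exact M.one_mem

/-- two opposite root groups give all root groups -/
theorem rootDirs_all (hn : 5 ≤ Fintype.card ι) (Q : QuadraticForm F (ι → F))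
    (hQ : (polarBilin Q).Nondegenerate) (M : Subgroup (GL ι F))
    (u₁ u₂ : ι → F) (h1 : u₁ ∈ rootDirs Q M) (h2 : u₂ ∈ rootDirs Q M)
    (h12 : polar Q u₁ u₂ ≠ 0) (s : ι → F) (hs : Q s = 0) : s ∈ rootDirs Q M := by
  by_cases hs0 : s = 0
  · subst hs0
    exact rootDirs_zero Q M
  have hu0 : u₁ ≠ 0 := by
    rintro rfl
    apply h12
    simp [polar]
  obtain ⟨z, hz, hzu, hzs⟩ := exists_sing_nonorth hn Q hQ u₁ s hu0 hs0 h1.1 hs
  have hz' : z ∈ rootDirs Q M :=
    rootDirs_opp Q M u₁ u₂ z h1 h2 hz h12 (by rw [polar_comm]; exact hzu)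
  exact rootDirs_opp Q M z u₁ s hz' h1 hs hzu hzs

/-- a subgroup containing all root groups contains `Ω` -/
theorem omegaGL_le_of_rootDirs [Fintype F] (hn : 7 ≤ Fintype.card ι) (Q : QuadraticForm F (ι → F))
    (hQ : (polarBilin Q).Nondegenerate) (M : Subgroup (GL ι F))
    (h : ∀ s, Q s = 0 → s ∈ rootDirs Q M) : Geo.omegaGL ⇑Q ≤ M := by
  intro k hk
  obtain ⟨g, hg, rfl⟩ := exists_of_mem_omegaGL ⇑Q k hk
  rw [Omega_eq_siegel_all hn Q hQ] at hg
  have hle : Subgroup.closure (siegelSet Q) ≤ M.comap (isometryGroup F ⇑Q).subtype := by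
    rw [Subgroup.closure_le]
    intro x hx
    obtain ⟨u, v, c, hu, hv, hvu, -, rfl⟩ := siegelSet_eq_sieg Q x hx
    exact (h v hv).2 _ hvu
  exact hle hg

/-- root groups of vectors of a totally singular subspace stabilise it -/
theorem sieg_stab_TS (Q : QuadraticForm F (ι → F)) (W : Submodule F (ι → F)) (hW : TS Q W)
    (u w : ι → F) (hu : u ∈ W) (huw : polar Q u w = 0) :
    ((sieg Q u w (hW u hu) huw : ↥(isometryGroup F ⇑Q)) : GL ι F) ∈ Geo.subspaceStabilizer W := by
  have key : ∀ (w' : ι → F) (huw' : polar Q u w' = 0), ∀ x ∈ W,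
      act ⇑Q (sieg Q u w' (hW u hu) huw') x ∈ W := by
    intro w' huw' x hx
    rw [act_sieg, hW.polar_eq_zero hu hx]
    simp only [zero_smul, mul_zero, sub_zero]
    exact W.add_mem hx (W.smul_mem _ hu)
  apply mem_stab_of_maps
  · intro x hx
    exact key w huw x hx
  · intro x hx
    have h1 := key (-w) (by rw [polar_neg_right, huw, neg_zero]) x hx
    rw [← sieg_inv Q u w (hW u hu) huw] at h1
    exact h1

/-- Siegel elements fixing a totally singular subspace pointwise -/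
theorem sieg_stab_orth (Q : QuadraticForm F (ι → F)) (W : Submodule F (ι → F))
    (y v : ι → F) (hy : Q y = 0) (hyv : polar Q y v = 0) (hyW : ∀ x ∈ W, polar Q y x = 0)
    (hvW : ∀ x ∈ W, polar Q v x = 0) :
    ((sieg Q y v hy hyv : ↥(isometryGroup F ⇑Q)) : GL ι F) ∈ Geo.subspaceStabilizer W := by
  have key : ∀ (v' : ι → F) (hyv' : polar Q y v' = 0), (∀ x ∈ W, polar Q v' x = 0) → ∀ x ∈ W,
      act ⇑Q (sieg Q y v' hy hyv') x ∈ W := by
    intro v' hyv' hv' x hx
    rw [act_sieg, hyW x hx, hv' x hx]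
    simp only [zero_smul, mul_zero, sub_zero, add_zero]
    exact hx
  apply mem_stab_of_maps
  · intro x hx
    exact key v hyv hvW x hx
  · intro x hx
    have h1 := key (-v) (by rw [polar_neg_right, hyv, neg_zero])
      (fun x hx => by rw [polar_neg_left, hvW x hx, neg_zero]) x hx
    rw [← sieg_inv Q y v hy hyv] at h1
    exact h1

/-- the stabiliser in `Ω` of a non-zero totally singular subspace is maximal, unless the subspace
is a hyperplane of a totally singular subspace of half the dimension -/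
theorem ts_max [Fintype F] (hn : 7 ≤ Fintype.card ι) (Q : QuadraticForm F (ι → F))
    (hQ : (polarBilin Q).Nondegenerate) (W : Submodule F (ι → F)) (hW0 : W ≠ ⊥) (hW : TS Q W)
    (hT : ∀ T : Submodule F (ι → F), TS Q T → finrank F T = finrank F W + 1 →
      2 * (finrank F W + 1) ≠ Fintype.card ι) :
    Geo.IsMaximalIn (Geo.omegaGL ⇑Q) (Geo.subspaceStabilizer W ⊓ Geo.omegaGL ⇑Q) := by
  constructor
  · refine lt_of_le_of_ne inf_le_right ?_
    intro heq
    obtain ⟨x, hx, hx0⟩ := Submodule.exists_mem_ne_zero_of_ne_bot hW0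
    obtain ⟨g, hg, hgx⟩ := exists_move_TS (by omega) Q hQ W hW x hx hx0
    have hmem : (g : GL ι F) ∈ Geo.subspaceStabilizer W ⊓ Geo.omegaGL ⇑Q := by
      rw [heq]
      exact mem_omegaGL ⇑Q g hg
    exact hgx (((mem_subspaceStabilizer _ _).1 hmem.1 x).1 hx)
  · intro M hHM hMK
    by_cases hMH : M ≤ Geo.subspaceStabilizer W ⊓ Geo.omegaGL ⇑Q
    · exact Or.inl (le_antisymm hMH hHM)
    right
    apply le_antisymm hMK
    obtain ⟨k, hkM, hkH⟩ := SetLike.not_le_iff_exists.1 hMH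
    obtain ⟨g₀, hg₀Ω, rfl⟩ := exists_of_mem_omegaGL ⇑Q k (hMK hkM)
    -- an element of `M` moving a vector of `W` out of `W`
    obtain ⟨g, hgM, w₀, hw₀, hgw⟩ : ∃ g : ↥(isometryGroup F ⇑Q), (g : GL ι F) ∈ M ∧
        ∃ w₀ ∈ W, act ⇑Q g w₀ ∉ W := by
      by_contra hcon
      push Not at hcon
      apply hkH
      refine ⟨mem_stab_of_maps _ W (fun v hv => hcon g₀ hkM v hv) (fun v hv => ?_), hMK hkM⟩
      have h1 := hcon g₀⁻¹ (by rw [Subgroup.coe_inv]; exact M.inv_mem hkM) v hv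
      unfold act at h1
      rw [Subgroup.coe_inv] at h1
      exact h1
    -- vectors of `W` are root directions
    have hWD : ∀ u ∈ W, u ∈ rootDirs Q M := by
      intro u hu
      refine ⟨hW u hu, ?_⟩
      intro w huw
      exact hHM ⟨sieg_stab_TS Q W hW u w hu huw,
        mem_omegaGL ⇑Q _ (sieg_mem_Omega (by omega) Q hQ u w (hW u hu) huw)⟩
    obtain ⟨t, htdef⟩ : ∃ t, t = act ⇑Q g w₀ := ⟨_, rfl⟩
    rw [← htdef] at hgw
    have htD : t ∈ rootDirs Q M := by
      rw [htdef]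
      exact rootDirs_act Q M g hgM w₀ (hWD w₀ hw₀)
    have htQ : Q t = 0 := htD.1
    apply omegaGL_le_of_rootDirs hn Q hQ M
    by_cases hA : ∃ w₂ ∈ W, polar Q t w₂ ≠ 0
    · obtain ⟨w₂, hw₂, hne⟩ := hA
      exact rootDirs_all (by omega) Q hQ M t w₂ htD (hWD w₂ hw₂) hne
    push Not at hA
    -- `t` is a singular vector of `W^⊥` outside `W`
    have hTS : TS Q (W ⊔ Submodule.span F {t}) := by
      intro x hx
      obtain ⟨a, ha, b, hb, rfl⟩ := Submodule.mem_sup.1 hx
      obtain ⟨c, rfl⟩ := Submodule.mem_span_singleton.1 hb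
      rw [qf_add, hW a ha, qf_smul, htQ, polar_smul_right, polar_comm Q a t, hA a ha]
      simp
    have hfin : finrank F (W ⊔ Submodule.span F {t} : Submodule F (ι → F)) = finrank F W + 1 :=
      finrank_sup_span W t hgw
    have hle := TS_finrank_le Q hQ _ hTS
    rw [hfin] at hle
    have hne := hT _ hTS hfin
    have hlt : 2 * (finrank F W + 1) < Fintype.card ι := lt_of_le_of_ne hle hne
    -- a singular `y ∈ W^⊥` not orthogonal to `t`
    obtain ⟨x, hxW, hxt⟩ : ∃ x ∈ orth Q W, polar Q x t ≠ 0 := by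
      by_contra hcon
      push Not at hcon
      apply hgw
      rw [← orth_orth Q hQ W, mem_orth]
      exact hcon
    rw [mem_orth] at hxW
    obtain ⟨y, hydef⟩ : ∃ y, y = x + (-(Q x / polar Q x t)) • t := ⟨_, rfl⟩
    have hyQ : Q y = 0 := by
      rw [hydef, qf_add, qf_smul, htQ, polar_smul_right, smul_eq_mul]
      field_simp
      ring
    have hyW : ∀ a ∈ W, polar Q y a = 0 := by
      intro a ha
      rw [hydef, polar_add_left, polar_smul_left, hA a ha, polar_comm Q x a, hxW a ha]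
      simp
    have hyt : polar Q y t ≠ 0 := by
      rw [hydef, polar_add_left, polar_smul_left, qf_polar_self, htQ]
      simpa using hxt
    have hyW' : y ∉ W := by
      intro hy
      apply hyt
      rw [polar_comm]
      exact hA y hy
    -- a non-singular `v` orthogonal to `W` and `y`
    obtain ⟨v, hvE, hvQ⟩ := exists_nonsing_of_big Q hQ (orth Q (W ⊔ Submodule.span F {y})) (by
      rw [finrank_orth Q hQ, Module.finrank_fintype_fun_eq_card, finrank_sup_span W y hyW']
      omega)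
    rw [orth_sup, Submodule.mem_inf, mem_orth_span_singleton, mem_orth] at hvE
    obtain ⟨hvW, hyv⟩ := hvE
    have hρM : ((sieg Q y v hyQ hyv : ↥(isometryGroup F ⇑Q)) : GL ι F) ∈ M :=
      hHM ⟨sieg_stab_orth Q W y v hyQ hyv hyW (fun a ha => by rw [polar_comm]; exact hvW a ha),
        mem_omegaGL ⇑Q _ (sieg_mem_Omega (by omega) Q hQ y v hyQ hyv)⟩
    have ht'D := rootDirs_act Q M _ hρM t htD
    have hopp : polar Q (act ⇑Q (sieg Q y v hyQ hyv) t) t ≠ 0 := by
      rw [act_sieg, polar_sub_left, polar_sub_left, polar_add_left, polar_smul_left,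
        polar_smul_left, polar_smul_left, qf_polar_self, htQ]
      simp only [smul_eq_mul]
      have e : 2 * 0 + polar Q v t * polar Q y t - polar Q y t * polar Q v t -
          Q v * polar Q y t * polar Q y t = -(Q v * polar Q y t * polar Q y t) := by ring
      rw [e]
      exact neg_ne_zero.2 (mul_ne_zero (mul_ne_zero hvQ hyt) hyt)
    exact rootDirs_all (by omega) Q hQ M _ t ht'D htD hopp

end TSMax

end Cfsg.Agent.Helper16
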