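import Mathlib
import Cfsg.Agent.Helper16.UnitI
import Cfsg.Agent.S0781

set_option autoImplicit false
set_option linter.unusedSectionVars false
set_option linter.style.haveILetI false
set_option linter.unusedSimpArgs false
set_option linter.unusedVariables false

namespace Cfsg.Agent.Helper16

open Cfsg Matrix Cfsg.Agent.Helper3
open scoped Pointwise

noncomputable section UnitJ

variable {F : Type*} [Field F] [Fintype F] {q : ℕ}

theorem iso_block_K1 (hF : Fintype.card F = q ^ 2) (Φ : Frob F q) {n : ℕ} (hn : 3 ≤ n)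
    (B : Set (IsoPt n F q)) (hB : MulAction.IsBlock ↥(SU n F q) B) (x y z : Fin n → F)
    (hx0 : x ≠ 0) (hy0 : y ≠ 0) (hz0 : z ≠ 0) (hx : hermForm n F q x x = 0)
    (hy : hermForm n F q y y = 0) (hz : hermForm n F q z z = 0)
    (hxy : hermForm n F q x y ≠ 0) (hxz : hermForm n F q x z ≠ 0)
    (hxB : mkIso x hx0 hx ∈ B) (hyB : mkIso y hy0 hy ∈ B) : mkIso z hz0 hz ∈ B := by
  obtain ⟨g, hgx, c, hgy⟩ := exists_su_stab_move hF Φ hn x y z hx hy hz hxy hxz
  have h1 : g • mkIso x hx0 hx = mkIso x hx0 hx := by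
    rw [smul_mkIso]
    exact mkIso_eq_of_smul _ _ _ _ hx0 hx 1 (by rw [one_smul]; exact hgx)
  have h2 : g • B = B := hB.smul_eq_of_mem hxB (by rw [h1]; exact hxB)
  have h3 : g • mkIso y hy0 hy ∈ g • B := Set.smul_mem_smul_set hyB
  rw [h2, smul_mkIso] at h3
  have h4 : mkIso (sact g y) (sact_ne_zero g y hy0) ((sact_herm g y y).trans hy) =
      mkIso z hz0 hz := mkIso_eq_of_smul _ _ _ _ hz0 hz c hgy
  rw [← h4]
  exact h3

theorem iso_block_core (hF : Fintype.card F = q ^ 2) (Φ : Frob F q) {n : ℕ} (hn : 3 ≤ n)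
    (B : Set (IsoPt n F q)) (hB : MulAction.IsBlock ↥(SU n F q) B) (x y : Fin n → F)
    (hx0 : x ≠ 0) (hy0 : y ≠ 0) (hx : hermForm n F q x x = 0) (hy : hermForm n F q y y = 0)
    (hxy : hermForm n F q x y ≠ 0)
    (hxB : mkIso x hx0 hx ∈ B) (hyB : mkIso y hy0 hy ∈ B) : B = Set.univ := by
  apply Set.eq_univ_of_forall
  intro S
  obtain ⟨s, hs0, hs, rfl⟩ := exists_mkIso S
  obtain ⟨z, hz, hzx, hzs⟩ := exists_iso_nonorth hF Φ x s hx0 hs0 hx hs
  have hz0 : z ≠ 0 := by
    rintro rfl
    exact hzx (uherm_zero_left x)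
  have hxz : hermForm n F q x z ≠ 0 := by
    rw [← uherm_conj Φ, Ne, map_eq_zero]
    exact hzx
  have hzB : mkIso z hz0 hz ∈ B :=
    iso_block_K1 hF Φ hn B hB x y z hx0 hy0 hz0 hx hy hz hxy hxz hxB hyB
  exact iso_block_K1 hF Φ hn B hB z x s hz0 hx0 hs0 hz hx hs hzx hzs hzB hxB

theorem iso_pretransitive (hF : Fintype.card F = q ^ 2) {n : ℕ} (hn : 3 ≤ n) :
    MulAction.IsPretransitive ↥(SU n F q) (IsoPt n F q) := by
  obtain ⟨Φ⟩ := exists_Frob hF
  constructor
  intro P R
  obtain ⟨x, hx0, hx, rfl⟩ := exists_mkIso P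
  obtain ⟨y, hy0, hy, rfl⟩ := exists_mkIso R
  obtain ⟨g, hg⟩ := exists_su_move hF Φ hn x y hx0 hy0 hx hy
  refine ⟨g, ?_⟩
  rw [smul_mkIso]
  exact mkIso_eq_of_smul _ _ _ _ hy0 hy 1 (by rw [one_smul]; exact hg)

theorem iso_preprimitive (hF : Fintype.card F = q ^ 2) {n : ℕ} (hn : 3 ≤ n) :
    MulAction.IsPreprimitive ↥(SU n F q) (IsoPt n F q) := by
  obtain ⟨Φ⟩ := exists_Frob hF
  haveI := iso_pretransitive (F := F) hF hn
  constructor
  intro B hB
  by_cases hsub : B.Subsingleton
  · exact Or.inl hsub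
  · right
    rw [Set.not_subsingleton_iff] at hsub
    obtain ⟨P, hP, R, hR, hPR⟩ := hsub
    obtain ⟨x, hx0, hx, rfl⟩ := exists_mkIso P
    obtain ⟨u, hu0, hu, rfl⟩ := exists_mkIso R
    by_cases hxu : hermForm n F q x u = 0
    · have hind : ∀ c : F, x ≠ c • u := by
        intro c hc
        exact hPR (mkIso_eq_of_smul x u hx0 hx hu0 hu c hc)
      obtain ⟨y₀, hy₀u, hy₀x⟩ := exists_two_vals Φ u x hu0 hind 0 1
      obtain ⟨b, hb⟩ := exists_tr_one hF Φ
      obtain ⟨d, hd0, hd⟩ := exists_skew hF Φ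
      have hφd0 : Φ.φ d ≠ 0 := by rwa [Ne, map_eq_zero]
      have hxy₀ : hermForm n F q x y₀ = 1 := by rw [← uherm_conj Φ, hy₀x, map_one]
      have hN : Φ.φ (hermForm n F q y₀ y₀) = hermForm n F q y₀ y₀ := uherm_conj Φ y₀ y₀
      obtain ⟨z, hz⟩ : ∃ z : Fin n → F, z = y₀ + (-(hermForm n F q y₀ y₀) * b) • x := ⟨_, rfl⟩
      have hzz : hermForm n F q z z = 0 := by
        rw [hz]
        simp only [uherm_add_left, uherm_add_right Φ, uherm_smul_left, uherm_smul_right Φ, hx,
          hy₀x, hxy₀, map_mul, map_neg, hN]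
        linear_combination (-(hermForm n F q y₀ y₀)) * hb
      have hzu : hermForm n F q z u = 0 := by
        rw [hz, uherm_add_left, uherm_smul_left, hxu, hy₀u, mul_zero, add_zero]
      have hzx : hermForm n F q z x = 1 := by
        rw [hz, uherm_add_left, uherm_smul_left, hx, hy₀x, mul_zero, add_zero]
      have huz : hermForm n F q u z = 0 := by rw [← uherm_conj Φ, hzu, map_zero]
      have hxz : hermForm n F q x z = 1 := by rw [← uherm_conj Φ, hzx, map_one]
      have hdq : d + d ^ q = 0 := by rw [← Φ.hφ]; exact hd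
      obtain ⟨g, hg⟩ : ∃ g : ↥(SU n F q), g = mkSU (unitaryTransvection n q z d)
        (ut_pres Φ z d hzz hdq) (ut_det z d hzz) := ⟨_, rfl⟩
      have hgu : sact g u = u := by
        rw [hg, sact_mkSU, ut_mulVec, huz, mul_zero, zero_smul, add_zero]
      have hgx : sact g x = x + d • z := by
        rw [hg, sact_mkSU, ut_mulVec, hxz, mul_one]
      have h1 : g • mkIso u hu0 hu = mkIso u hu0 hu := by
        rw [smul_mkIso]
        exact mkIso_eq_of_smul _ _ _ _ hu0 hu 1 (by rw [one_smul]; exact hgu)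
      have h2 : g • B = B := hB.smul_eq_of_mem hR (by rw [h1]; exact hR)
      have h3 : g • mkIso x hx0 hx ∈ g • B := Set.smul_mem_smul_set hP
      rw [h2, smul_mkIso] at h3
      refine iso_block_core hF Φ hn B hB x _ hx0 _ hx _ ?_ hP h3
      rw [hgx, uherm_add_right Φ, uherm_smul_right Φ, hx, hxz, zero_add, mul_one]
      exact hφd0
    · exact iso_block_core hF Φ hn B hB x u hx0 hu0 hx hu hxu hP hR

/-- generators of the root subgroup of an isotropic point -/
def uRootSet {n : ℕ} (P : IsoPt n F q) : Set ↥(SU n F q) :=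
  {A | ∃ (u : Fin n → F) (c : F), u ∈ P.1 ∧ hermForm n F q u u = 0 ∧
    (A.1.1 : Matrix (Fin n) (Fin n) F) = unitaryTransvection n q u c}

theorem ut_comm_of_orth (Φ : Frob F q) {n : ℕ} (v w : Fin n → F) (c d : F)
    (hvw : hermForm n F q v w = 0) (hwv : hermForm n F q w v = 0) :
    unitaryTransvection n q v c * unitaryTransvection n q w d =
      unitaryTransvection n q w d * unitaryTransvection n q v c := by
  apply umat_ext
  intro x
  rw [← Matrix.mulVec_mulVec, ← Matrix.mulVec_mulVec, ut_mulVec, ut_mulVec, ut_mulVec, ut_mulVec,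
    uherm_add_left, uherm_add_left, uherm_smul_left, uherm_smul_left, hvw, hwv]
  simp only [mul_zero, add_zero]
  abel

theorem uRoot_comm (Φ : Frob F q) {n : ℕ} (P : IsoPt n F q) :
    IsMulCommutative (Subgroup.closure (uRootSet P)) := by
  obtain ⟨v, hv0, hv, rfl⟩ := exists_mkIso P
  apply Subgroup.isMulCommutative_closure
  intro x hx y hy
  obtain ⟨u, c, hu, -, hx'⟩ := hx
  obtain ⟨u', c', hu', -, hy'⟩ := hy
  obtain ⟨a, rfl⟩ := Submodule.mem_span_singleton.1 hu
  obtain ⟨a', rfl⟩ := Submodule.mem_span_singleton.1 hu'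
  apply Subtype.ext
  apply Subtype.ext
  show (x.1.1 : Matrix (Fin n) (Fin n) F) * y.1.1 = y.1.1 * x.1.1
  rw [hx', hy']
  apply ut_comm_of_orth Φ
  · rw [uherm_smul_left, uherm_smul_right Φ, hv, mul_zero, mul_zero]
  · rw [uherm_smul_left, uherm_smul_right Φ, hv, mul_zero, mul_zero]

theorem uRoot_conj_le {n : ℕ} (g : ↥(SU n F q)) (P : IsoPt n F q) :
    MulAut.conj g • Subgroup.closure (uRootSet P) ≤ Subgroup.closure (uRootSet (g • P)) := by
  rw [Subgroup.pointwise_smul_subset_iff, Subgroup.closure_le]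
  intro x hx
  obtain ⟨u, c, hmem, hu, hx'⟩ := hx
  rw [SetLike.mem_coe, Subgroup.mem_inv_pointwise_smul_iff, MulAut.smul_def, MulAut.conj_apply]
  apply Subgroup.subset_closure
  refine ⟨sact g u, c, ?_, (sact_herm g u u).trans hu, ?_⟩
  · rw [mem_smul_iso]
    exact ⟨u, hmem, rfl⟩
  · show (g.1.1 : Matrix (Fin n) (Fin n) F) * x.1.1 * (g⁻¹).1.1 = _
    have h1 : (g.1.1 : Matrix (Fin n) (Fin n) F) * (g⁻¹).1.1 = 1 :=
      congrArg (fun z : ↥(SU n F q) => (z.1.1 : Matrix (Fin n) (Fin n) F)) (mul_inv_cancel g)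
    rw [hx', ut_comm_pres _ ((mem_SU_iff g.1).mp g.2), Matrix.mul_assoc, h1, Matrix.mul_one]
    rfl

theorem uRoot_conj {n : ℕ} (g : ↥(SU n F q)) (P : IsoPt n F q) :
    Subgroup.closure (uRootSet (g • P)) = MulAut.conj g • Subgroup.closure (uRootSet P) := by
  apply le_antisymm
  · have h := uRoot_conj_le g⁻¹ (g • P)
    rw [inv_smul_smul] at h
    rw [Subgroup.subset_pointwise_smul_iff, ← map_inv]
    exact h
  · exact uRoot_conj_le g P

theorem ut_zero_vec {n : ℕ} (c : F) :
    unitaryTransvection n q (0 : Fin n → F) c = 1 := by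
  apply umat_ext
  intro x
  rw [ut_mulVec, smul_zero, add_zero, Matrix.one_mulVec]

theorem uRoot_gen {n : ℕ}
    (hgen : Subgroup.closure {A : ↥(Cfsg.SU n F q) | ∃ (v : Fin n → F) (c : F),
      Cfsg.hermForm n F q v v = 0 ∧
      ((A : Matrix.SpecialLinearGroup (Fin n) F) : Matrix (Fin n) (Fin n) F) =
        Cfsg.unitaryTransvection n q v c} = ⊤) :
    (⨆ P : IsoPt n F q, Subgroup.closure (uRootSet P)) = ⊤ := by
  rw [eq_top_iff, ← hgen, Subgroup.closure_le]
  rintro A ⟨v, c, hv, hA⟩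
  by_cases hv0 : v = 0
  · have : A = 1 := by
      apply Subtype.ext
      apply Subtype.ext
      rw [hA, hv0, ut_zero_vec]
      rfl
    rw [this]
    exact Subgroup.one_mem _
  · exact Subgroup.mem_iSup_of_mem (mkIso v hv0 hv) (Subgroup.subset_closure
      ⟨v, c, Submodule.mem_span_singleton_self v, hv, hA⟩)

/-- the Iwasawa structure of `SU_n` on the isotropic points -/
def uIwasawa (Φ : Frob F q) {n : ℕ}
    (hgen : Subgroup.closure {A : ↥(Cfsg.SU n F q) | ∃ (v : Fin n → F) (c : F),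
      Cfsg.hermForm n F q v v = 0 ∧
      ((A : Matrix.SpecialLinearGroup (Fin n) F) : Matrix (Fin n) (Fin n) F) =
        Cfsg.unitaryTransvection n q v c} = ⊤) :
    MulAction.IwasawaStructure ↥(SU n F q) (IsoPt n F q) where
  T P := Subgroup.closure (uRootSet P)
  is_comm P := uRoot_comm Φ P
  is_conj g P := uRoot_conj g P
  is_generator := uRoot_gen hgen

/-- an element fixing all isotropic points is central -/
theorem su_central_of_fix (hF : Fintype.card F = q ^ 2) (Φ : Frob F q) {n : ℕ}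
    (hgen : Subgroup.closure {A : ↥(Cfsg.SU n F q) | ∃ (v : Fin n → F) (c : F),
      Cfsg.hermForm n F q v v = 0 ∧
      ((A : Matrix.SpecialLinearGroup (Fin n) F) : Matrix (Fin n) (Fin n) F) =
        Cfsg.unitaryTransvection n q v c} = ⊤)
    (g : ↥(SU n F q))
    (hfix : ∀ u : Fin n → F, u ≠ 0 → hermForm n F q u u = 0 → ∃ lam : F, sact g u = lam • u) :
    g ∈ Subgroup.center ↥(SU n F q) := by
  have hcomm : ∀ A ∈ {A : ↥(Cfsg.SU n F q) | ∃ (v : Fin n → F) (c : F),
      Cfsg.hermForm n F q v v = 0 ∧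
      ((A : Matrix.SpecialLinearGroup (Fin n) F) : Matrix (Fin n) (Fin n) F) =
        Cfsg.unitaryTransvection n q v c}, g * A = A * g := by
    rintro A ⟨v, c, hv, hA⟩
    by_cases hv0 : v = 0
    · have : A = 1 := by
        apply Subtype.ext
        apply Subtype.ext
        rw [hA, hv0, ut_zero_vec]
        rfl
      rw [this, mul_one, one_mul]
    · obtain ⟨lam, hlam⟩ := hfix v hv0 hv
      obtain ⟨w, hww, hvw⟩ := exists_partner hF Φ v hv0 hv
      have hwv : hermForm n F q w v = 1 := by rw [← uherm_conj Φ, hvw, map_one]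
      have hw0 : w ≠ 0 := by
        rintro rfl
        rw [uherm_zero_right Φ] at hvw
        exact zero_ne_one hvw
      obtain ⟨mu, hmu⟩ := hfix w hw0 hww
      obtain ⟨d, hd0, hd⟩ := exists_skew hF Φ
      have hz : hermForm n F q (v + d • w) (v + d • w) = 0 := by
        simp only [uherm_add_left, uherm_add_right Φ, uherm_smul_left, uherm_smul_right Φ, hv,
          hww, hvw, hwv]
        linear_combination hd
      have hz0 : v + d • w ≠ 0 := by
        intro h0
        have h1 : hermForm n F q (v + d • w) w = 1 := by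
          rw [uherm_add_left, uherm_smul_left, hvw, hww, mul_zero, add_zero]
        rw [h0, uherm_zero_left] at h1
        exact zero_ne_one h1
      obtain ⟨nu, hnu⟩ := hfix _ hz0 hz
      rw [sact_add, sact_smul, hlam, hmu] at hnu
      have e1 : lam = nu := by
        have h1 := congrArg (fun y => hermForm n F q y w) hnu
        simp only [uherm_add_left, uherm_smul_left, hvw, hww] at h1
        linear_combination h1
      have e2 : mu = nu := by
        have h1 := congrArg (fun y => hermForm n F q y v) hnu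
        simp only [uherm_add_left, uherm_smul_left, hv, hwv] at h1
        have h2 : d * (mu - nu) = 0 := by linear_combination h1
        rcases mul_eq_zero.mp h2 with h3 | h3
        · exact absurd h3 hd0
        · exact sub_eq_zero.mp h3
      have hnorm : lam * Φ.φ lam = 1 := by
        have h1 := sact_herm g v w
        rw [hlam, hmu, uherm_smul_left, uherm_smul_right Φ, hvw, mul_one, e2, ← e1] at h1
        exact h1
      apply Subtype.ext
      apply Subtype.ext
      show (g.1.1 : Matrix (Fin n) (Fin n) F) * A.1.1 = A.1.1 * g.1.1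
      have hgv : (g.1.1 : Matrix (Fin n) (Fin n) F) *ᵥ v = lam • v := hlam
      rw [hA, ut_comm_pres _ ((mem_SU_iff g.1).mp g.2), hgv, ut_smul Φ, hnorm, mul_one]
  rw [Subgroup.mem_center_iff]
  intro h
  have hle : Subgroup.closure {A : ↥(Cfsg.SU n F q) | ∃ (v : Fin n → F) (c : F),
      Cfsg.hermForm n F q v v = 0 ∧
      ((A : Matrix.SpecialLinearGroup (Fin n) F) : Matrix (Fin n) (Fin n) F) =
        Cfsg.unitaryTransvection n q v c} ≤ Subgroup.centralizer {g} := by
    rw [Subgroup.closure_le]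
    intro A hA
    rw [SetLike.mem_coe, Subgroup.mem_centralizer_iff]
    intro x hx
    rw [Set.mem_singleton_iff] at hx
    rw [hx]
    exact hcomm A hA
  have hmem : h ∈ Subgroup.centralizer ({g} : Set ↥(SU n F q)) := hle (by rw [hgen]; trivial)
  rw [Subgroup.mem_centralizer_iff] at hmem
  exact (hmem g rfl).symm

/-- simplicity of `PSU_n(q)` -/
theorem PSU_simple (hF : Fintype.card F = q ^ 2) (n : ℕ) (hn : 3 ≤ n)
    (h32 : ¬ (n = 3 ∧ q = 2)) : IsSimpleGroup (PSU n F q) := by
  obtain ⟨Φ⟩ := exists_Frob hF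
  have hq2 := two_le_q hF
  have hgen := SU_gen hF n h32
  haveI := iso_preprimitive (F := F) hF hn
  have hperf : commutator ↥(SU n F q) = ⊤ := by
    rw [eq_top_iff, ← hgen, Subgroup.closure_le]
    rintro A ⟨v, c, hv, hA⟩
    have hcase : 4 ≤ n ∨ (n = 3 ∧ 3 ≤ q) := by
      by_cases h4 : 4 ≤ n
      · exact Or.inl h4
      · right
        have hn3 : n = 3 := by omega
        refine ⟨hn3, ?_⟩
        by_contra hq
        exact h32 ⟨hn3, by omega⟩
    have h1 := Cfsg.Agent.S0781.result hF n hcase A v c hv hA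
    show A ∈ commutator ↥(SU n F q)
    rw [commutator_eq_closure]
    exact Subgroup.subset_closure h1
  have key : ∀ N : Subgroup ↥(SU n F q), N.Normal →
      N ≤ Subgroup.center ↥(SU n F q) ∨ N = ⊤ := by
    intro N hN
    by_cases hfix : MulAction.fixedPoints N (IsoPt n F q) = Set.univ
    · left
      intro m hmN
      apply su_central_of_fix hF Φ hgen
      intro u hu0 hu
      have hP : mkIso u hu0 hu ∈ MulAction.fixedPoints N (IsoPt n F q) := by
        rw [hfix]
        exact Set.mem_univ _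
      have h1 : (⟨m, hmN⟩ : ↥N) • mkIso u hu0 hu = mkIso u hu0 hu := hP ⟨m, hmN⟩
      have h2 : m • mkIso u hu0 hu = mkIso u hu0 hu := h1
      rw [smul_mkIso] at h2
      exact mem_of_mkIso_eq _ _ _ _ hu0 hu h2
    · right
      exact top_le_iff.1 (hperf ▸ (uIwasawa Φ hgen).commutator_le N hfix)
  have hnt : Subgroup.center ↥(SU n F q) ≠ ⊤ := by
    intro htop
    have hbot : commutator ↥(SU n F q) = ⊥ := (commutator_eq_bot_iff_center_eq_top _).2 htop
    rw [hperf] at hbot
    obtain ⟨ε, hε⟩ := exists_unorm hF Φ (-1) (neg_ne_zero.mpr one_ne_zero)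
      (by rw [map_neg, map_one])
    obtain ⟨i0, i1, hi⟩ : ∃ i0 i1 : Fin n, i0 ≠ i1 :=
      ⟨⟨0, by omega⟩, ⟨1, by omega⟩, by simp [Fin.ext_iff]⟩
    obtain ⟨e, he⟩ : ∃ e : Fin n → F, e = Pi.single i0 1 + ε • Pi.single i1 1 := ⟨_, rfl⟩
    have he0 : e ≠ 0 := by
      intro h0
      have h1 := congrFun h0 i0
      rw [he] at h1
      simp [Pi.single_apply, hi] at h1
    have hee : hermForm n F q e e = 0 := by
      rw [he]
      simp only [uherm_add_left, uherm_add_right Φ, uherm_smul_left, uherm_smul_right Φ,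
        uherm_single_single Φ, if_pos, if_neg hi, if_neg hi.symm]
      linear_combination hε
    obtain ⟨f, hff, hef⟩ := exists_partner hF Φ e he0 hee
    have hf0 : f ≠ 0 := by
      rintro rfl
      rw [uherm_zero_right Φ] at hef
      exact zero_ne_one hef
    obtain ⟨g, hg⟩ := MulAction.exists_smul_eq ↥(SU n F q) (mkIso f hf0 hff) (mkIso e he0 hee)
    have hg1 : g = 1 := by
      have hmem : g ∈ (⊤ : Subgroup ↥(SU n F q)) := Subgroup.mem_top g
      rw [hbot] at hmem
      exact Subgroup.mem_bot.1 hmem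
    rw [hg1, one_smul] at hg
    obtain ⟨c, hc⟩ := mem_of_mkIso_eq _ _ _ _ he0 hee hg
    rw [hc, uherm_smul_right Φ, hee, mul_zero] at hef
    exact zero_ne_one hef
  haveI : Nontrivial (PSU n F q) := QuotientGroup.nontrivial_iff.2 hnt
  constructor
  intro N hN
  have hN' : (N.comap (QuotientGroup.mk' (Subgroup.center ↥(SU n F q)))).Normal :=
    hN.comap _
  rcases key _ hN' with h | h
  · left
    rw [eq_bot_iff]
    intro x hx
    obtain ⟨y, rfl⟩ := QuotientGroup.mk'_surjective (Subgroup.center ↥(SU n F q)) x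
    have hy : y ∈ N.comap (QuotientGroup.mk' (Subgroup.center ↥(SU n F q))) := hx
    exact Subgroup.mem_bot.2 ((QuotientGroup.eq_one_iff y).2 (h hy))
  · right
    rw [eq_top_iff]
    intro x _
    obtain ⟨y, rfl⟩ := QuotientGroup.mk'_surjective (Subgroup.center ↥(SU n F q)) x
    have hy : y ∈ N.comap (QuotientGroup.mk' (Subgroup.center ↥(SU n F q))) := by
      rw [h]
      exact Subgroup.mem_top y
    exact hy

end UnitJ

end Cfsg.Agent.Helper16
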