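import Mathlib
import Cfsg.Agent.Helper16.UnitJ
import Cfsg.Prelude.Def_SporadicB

set_option autoImplicit false
set_option linter.unusedSectionVars false
set_option linter.style.haveILetI false
set_option linter.unusedSimpArgs false
set_option linter.unusedVariables false

namespace Cfsg.Agent.Helper16

open Cfsg Matrix Cfsg.Agent.Helper3

noncomputable section UnitK

variable {F : Type*} [Field F] [Fintype F] {q : ℕ}

theorem rank_vmv' {n : ℕ} (p ψ : Fin n → F) (hp : p ≠ 0) (hψ : ψ ≠ 0) :
    (Matrix.vecMulVec p ψ).rank = 1 := by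
  apply le_antisymm (Matrix.rank_vecMulVec_le p ψ)
  rw [Nat.one_le_iff_ne_zero]
  intro h
  have h' : Module.finrank F (LinearMap.range (Matrix.vecMulVec p ψ).mulVecLin) = 0 := h
  have h1 : LinearMap.range (Matrix.vecMulVec p ψ).mulVecLin = ⊥ := Submodule.finrank_eq_zero.1 h'
  obtain ⟨j, hj⟩ : ∃ j, ψ j ≠ 0 := by
    by_contra hc
    push Not at hc
    exact hψ (funext hc)
  have h2 : (Matrix.vecMulVec p ψ) *ᵥ (Pi.single j 1) ∈
      LinearMap.range (Matrix.vecMulVec p ψ).mulVecLin := ⟨_, rfl⟩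
  rw [h1, Submodule.mem_bot, vmv_mulVec', dotProduct_single_one] at h2
  rcases smul_eq_zero.1 h2 with h3 | h3
  · exact hj h3
  · exact hp h3

/-- a determinant one matrix `M` with `M - 1` of rank one is a transvection -/
theorem rank_one_tv {n : ℕ} (M : Matrix (Fin n) (Fin n) F) (hdet : M.det = 1)
    (hr : (M - 1).rank = 1) : Cfsg.IsTransvection M := by
  refine ⟨hr, ?_⟩
  obtain ⟨a, ψ, ha0, hψ0, hTeq⟩ := rank_one_form (M - 1) hr
  have hMeq : M = 1 + Matrix.vecMulVec a ψ := by
    rw [← hTeq]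
    abel
  have e : Matrix.vecMulVec a ψ =
      Matrix.replicateCol (Fin 1) a * Matrix.replicateRow (Fin 1) ψ := by
    ext i j
    simp [Matrix.vecMulVec_apply, Matrix.mul_apply]
  have e2 := Matrix.det_one_add_replicateCol_mul_replicateRow (ι := Fin 1) a ψ
  have hdot : ψ ⬝ᵥ a = 0 := by
    have h1 : (1 + Matrix.replicateCol (Fin 1) a * Matrix.replicateRow (Fin 1) ψ).det = 1 := by
      rw [← e, ← hMeq]
      exact hdet
    have h2 := e2.symm.trans h1
    linear_combination h2
  rw [hTeq, Matrix.vecMulVec_mul_vecMulVec, hdot, zero_smul, Matrix.vecMulVec_zero]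

theorem ut_rank {n : ℕ} (v : Fin n → F) (c : F) (hv : v ≠ 0) (hc : c ≠ 0) (hq0 : q ≠ 0) :
    (unitaryTransvection n q v c - 1).rank = 1 := by
  have e : unitaryTransvection n q v c - 1 = Matrix.vecMulVec (c • v) (fun j => v j ^ q) := by
    unfold unitaryTransvection
    rw [add_sub_cancel_left, Matrix.smul_vecMulVec]
  rw [e]
  apply rank_vmv'
  · exact smul_ne_zero hc hv
  · obtain ⟨j, hj⟩ : ∃ j, v j ≠ 0 := by
      by_contra hcon
      push Not at hcon
      exact hv (funext hcon)
    intro h0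
    have := congrFun h0 j
    simp only [Pi.zero_apply] at this
    exact hj (pow_eq_zero_iff hq0 |>.mp this)

theorem exists_iso_vec (hF : Fintype.card F = q ^ 2) (Φ : Frob F q) {n : ℕ} (hn : 2 ≤ n) :
    ∃ e : Fin n → F, e ≠ 0 ∧ hermForm n F q e e = 0 := by
  obtain ⟨ε, hε⟩ := exists_unorm hF Φ (-1) (neg_ne_zero.mpr one_ne_zero)
    (by rw [map_neg, map_one])
  obtain ⟨i0, i1, hi⟩ : ∃ i0 i1 : Fin n, i0 ≠ i1 :=
    ⟨⟨0, by omega⟩, ⟨1, by omega⟩, by simp [Fin.ext_iff]⟩
  refine ⟨Pi.single i0 1 + ε • Pi.single i1 1, ?_, ?_⟩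
  · intro h0
    have h1 := congrFun h0 i0
    simp [Pi.single_apply, hi] at h1
  · simp only [uherm_add_left, uherm_add_right Φ, uherm_smul_left, uherm_smul_right Φ,
      uherm_single_single Φ, if_pos, if_neg hi, if_neg hi.symm]
    linear_combination hε

/-- the transvections of `SU_n(2)`, `n ≥ 4`, form a class of 3-transpositions -/
theorem su_three_transp (hF : Fintype.card F = 2 ^ 2) (n : ℕ) (hn : 4 ≤ n) :
    Cfsg.IsThreeTranspositionClass {g : ↥(Cfsg.SU n F 2) |
      (((g : Matrix.SpecialLinearGroup (Fin n) F) : Matrix (Fin n) (Fin n) F) - 1).rank = 1} := by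
  obtain ⟨Φ⟩ := exists_Frob hF
  have h2 : (2 : F) = 0 := two_eq_zero_of_q hF rfl
  have hneg : (-1 : F) = 1 := by linear_combination -h2
  have hcube : ∀ x : F, x ≠ 0 → x * Φ.φ x = 1 := by
    intro x hx
    have h := FiniteField.pow_card_sub_one_eq_one x hx
    rw [hF] at h
    rw [Φ.hφ]
    linear_combination h
  -- the form of the elements
  have hform : ∀ g : ↥(Cfsg.SU n F 2),
      ((g.1.1 : Matrix (Fin n) (Fin n) F) - 1).rank = 1 →
      ∃ a : Fin n → F, a ≠ 0 ∧ hermForm n F 2 a a = 0 ∧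
        (g.1.1 : Matrix (Fin n) (Fin n) F) = unitaryTransvection n 2 a 1 := by
    intro g hg
    have htv := rank_one_tv g.1.1 g.1.2 hg
    obtain ⟨a, c, ha0, haa, hc0, hc, hM⟩ := tv_structure Φ g.1.1 ((mem_SU_iff g.1).mp g.2) htv
    refine ⟨a, ha0, haa, ?_⟩
    have hc1 : c = 1 := by
      rw [Φ.hφ] at hc
      have h3 : c * (1 + c) = 0 := by linear_combination hc
      rcases mul_eq_zero.mp h3 with h4 | h4
      · exact absurd h4 hc0
      · linear_combination h4 - h2
    rw [hM, hc1]
  have hsq : ∀ a : Fin n → F, hermForm n F 2 a a = 0 →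
      unitaryTransvection n 2 a (1 : F) * unitaryTransvection n 2 a 1 = 1 := by
    intro a haa
    have := ut_mul_neg Φ a 1 haa
    rw [hneg] at this
    exact this
  have hone : (1 : F) + 1 ^ 2 = 0 := by linear_combination h2
  have hutp : ∀ a : Fin n → F, hermForm n F 2 a a = 0 →
      HPres n 2 (unitaryTransvection n 2 a (1 : F)) := fun a haa => ut_pres Φ a 1 haa hone
  have hgsq : ∀ g : ↥(Cfsg.SU n F 2),
      ((g.1.1 : Matrix (Fin n) (Fin n) F) - 1).rank = 1 → g * g = 1 := by
    intro g hg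
    obtain ⟨a, ha0, haa, hM⟩ := hform g hg
    apply Subtype.ext
    apply Subtype.ext
    show (g.1.1 : Matrix (Fin n) (Fin n) F) * g.1.1 = 1
    rw [hM]
    exact hsq a haa
  have hmemD : ∀ (g : ↥(Cfsg.SU n F 2)) (a : Fin n → F), a ≠ 0 →
      (g.1.1 : Matrix (Fin n) (Fin n) F) = unitaryTransvection n 2 a 1 →
      ((g.1.1 : Matrix (Fin n) (Fin n) F) - 1).rank = 1 := by
    intro g a ha0 hM
    rw [hM]
    exact ut_rank a 1 ha0 one_ne_zero (by norm_num)
  refine ⟨⟨?_, ?_⟩, ?_, ?_⟩
  · -- order two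
    intro d hd
    have hd1 : d ≠ 1 := by
      intro h1
      have hd' : ((d.1.1 : Matrix (Fin n) (Fin n) F) - 1).rank = 1 := hd
      rw [h1] at hd'
      have : ((1 : ↥(Cfsg.SU n F 2)).1.1 : Matrix (Fin n) (Fin n) F) - 1 = 0 := by
        show (1 : Matrix (Fin n) (Fin n) F) - 1 = 0
        exact sub_self _
      rw [this, Matrix.rank_zero] at hd'
      exact zero_ne_one hd'
    have hd2 : d ^ 2 = 1 := by
      rw [sq]
      exact hgsq d hd
    exact orderOf_eq_prime hd2 hd1
  · -- products
    intro d hd e he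
    obtain ⟨a, ha0, haa, hMd⟩ := hform d hd
    obtain ⟨b, hb0, hbb, hMe⟩ := hform e he
    have hdd := hgsq d hd
    have hee := hgsq e he
    by_cases hab : hermForm n F 2 a b = 0
    · left
      have hba : hermForm n F 2 b a = 0 := by rw [← uherm_conj Φ, hab, map_zero]
      have hcomm : d * e = e * d := by
        apply Subtype.ext
        apply Subtype.ext
        show (d.1.1 : Matrix (Fin n) (Fin n) F) * e.1.1 = e.1.1 * d.1.1
        rw [hMd, hMe]
        exact ut_comm_of_orth Φ a b 1 1 hab hba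
      calc (d * e) ^ 2 = d * (e * d) * e := by simp only [pow_succ, pow_zero, one_mul, mul_assoc]
        _ = d * (d * e) * e := by rw [hcomm]
        _ = (d * d) * (e * e) := by group
        _ = 1 := by rw [hdd, hee, one_mul]
    · right
      have hβ := hcube _ hab
      have hba : hermForm n F 2 b a = Φ.φ (hermForm n F 2 a b) := (uherm_conj Φ a b).symm
      have hXb : unitaryTransvection n 2 a (1 : F) *ᵥ b = b + Φ.φ (hermForm n F 2 a b) • a := by
        rw [ut_mulVec, one_mul, hba]
      have hYa : unitaryTransvection n 2 b (1 : F) *ᵥ a =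
          hermForm n F 2 a b • (unitaryTransvection n 2 a (1 : F) *ᵥ b) := by
        rw [hXb, ut_mulVec, one_mul, smul_add, smul_smul, hβ, one_smul, add_comm]
      have hbraid : d * e * d = e * d * e := by
        apply Subtype.ext
        apply Subtype.ext
        show (d.1.1 : Matrix (Fin n) (Fin n) F) * e.1.1 * d.1.1 = e.1.1 * d.1.1 * e.1.1
        rw [hMd, hMe, ut_conj _ _ (hutp a haa) (hsq a haa), ut_conj _ _ (hutp b hbb) (hsq b hbb),
          hYa, ut_smul Φ, hβ, mul_one]
      have hz : (d * e * d) * (d * e * d) = 1 := by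
        apply Subtype.ext
        apply Subtype.ext
        show ((d.1.1 : Matrix (Fin n) (Fin n) F) * e.1.1 * d.1.1) * (d.1.1 * e.1.1 * d.1.1) = 1
        rw [hMd, hMe, ut_conj _ _ (hutp a haa) (hsq a haa)]
        apply hsq
        rw [hutp a haa, hbb]
      calc (d * e) ^ 3 = (d * e * d) * (e * d * e) := by
            simp only [pow_succ, pow_zero, one_mul, mul_assoc]
        _ = (d * e * d) * (d * e * d) := by rw [hbraid]
        _ = 1 := hz
  · -- a single class
    obtain ⟨a, ha0, haa⟩ := exists_iso_vec hF Φ (n := n) (by omega)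
    obtain ⟨d, hd⟩ : ∃ d : ↥(Cfsg.SU n F 2), d = mkSU (unitaryTransvection n 2 a 1)
      (hutp a haa) (ut_det a 1 haa) := ⟨_, rfl⟩
    have hdM : (d.1.1 : Matrix (Fin n) (Fin n) F) = unitaryTransvection n 2 a 1 := by
      rw [hd]
      rfl
    have hdD : ((d.1.1 : Matrix (Fin n) (Fin n) F) - 1).rank = 1 := hmemD d a ha0 hdM
    refine ⟨d, hdD, ?_⟩
    ext e
    show ((e.1.1 : Matrix (Fin n) (Fin n) F) - 1).rank = 1 ↔ IsConj d e
    constructor
    · intro he
      have he' : ((e.1.1 : Matrix (Fin n) (Fin n) F) - 1).rank = 1 := he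
      obtain ⟨g, hg, hgd, hgS⟩ := tv_conj_exists hF (by omega) d.1.1 e.1.1
        ((mem_SU_iff d.1).mp d.2) ((mem_SU_iff e.1).mp e.2) (rank_one_tv _ d.1.2 hdD)
        (rank_one_tv _ e.1.2 he')
      rw [isConj_iff]
      refine ⟨mkSU g hg hgd, ?_⟩
      have h : mkSU g hg hgd * d = e * mkSU g hg hgd := Subtype.ext (Subtype.ext hgS)
      rw [h, mul_inv_cancel_right]
    · intro hconj
      rw [isConj_iff] at hconj
      obtain ⟨c, hc⟩ := hconj
      have h1 : (c.1.1 : Matrix (Fin n) (Fin n) F) * (c⁻¹).1.1 = 1 :=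
        congrArg (fun z : ↥(SU n F 2) => (z.1.1 : Matrix (Fin n) (Fin n) F)) (mul_inv_cancel c)
      have hM : (e.1.1 : Matrix (Fin n) (Fin n) F) = unitaryTransvection n 2 (sact c a) 1 := by
        rw [← hc]
        show (c.1.1 : Matrix (Fin n) (Fin n) F) * d.1.1 * (c⁻¹).1.1 = _
        rw [hdM, ut_comm_pres _ ((mem_SU_iff c.1).mp c.2), Matrix.mul_assoc, h1, Matrix.mul_one]
        rfl
      exact hmemD e _ (sact_ne_zero c a ha0) hM
  · -- generation
    have hgen := SU_gen hF n (by omega)
    rw [eq_top_iff, ← hgen, Subgroup.closure_le]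
    rintro A ⟨v, c, hv, hA⟩
    by_cases hv0 : v = 0
    · have : A = 1 := by
        apply Subtype.ext
        apply Subtype.ext
        rw [hA, hv0, ut_zero_vec]
        rfl
      rw [this]
      exact Subgroup.one_mem _
    · by_cases hc0 : c = 0
      · have : A = 1 := by
          apply Subtype.ext
          apply Subtype.ext
          rw [hA, hc0]
          apply umat_ext
          intro x
          rw [ut_mulVec, zero_mul, zero_smul, add_zero]
          exact (Matrix.one_mulVec x).symm
        rw [this]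
        exact Subgroup.one_mem _
      · apply Subgroup.subset_closure
        show ((A.1.1 : Matrix (Fin n) (Fin n) F) - 1).rank = 1
        rw [hA]
        exact ut_rank v c hv0 hc0 (by norm_num)

end UnitK

end Cfsg.Agent.Helper16
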