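import Mathlib
import Cfsg.Prelude.Def_Classical
import Cfsg.Prelude.Def_LieClassical
import Cfsg.Agent.Helper16.QuadHyp
import Cfsg.Agent.Helper16.ScalarRestrict

set_option autoImplicit false

namespace Cfsg.Agent.Helper16

open QuadraticMap

section

variable (F K : Type*) [Field F] [Fintype F] [Field K] [Fintype K] [Algebra F K]

/-- the Frobenius `x ↦ x ^ |F|` of `K` over `F` -/
noncomputable def frobF : K →ₐ[F] K := FiniteField.frobeniusAlgHom F K

variable {F K}

theorem frobF_apply (x : K) : frobF F K x = x ^ Fintype.card F := rfl

theorem frobF_frobF (hK : Fintype.card K = Fintype.card F ^ 2) (x : K) :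
    frobF F K (frobF F K x) = x := by
  rw [frobF_apply, frobF_apply, ← pow_mul, ← pow_two, ← hK, FiniteField.pow_card]

theorem frobF_surjective : Function.Surjective (frobF F K) :=
  Finite.injective_iff_surjective.1 (frobF F K : K →+* K).injective

theorem norm_eq_mul_frobF (hK : Fintype.card K = Fintype.card F ^ 2) (x : K) :
    algebraMap F K (Algebra.norm F x) = x * frobF F K x := by
  have hq2 : 2 ≤ Fintype.card F := Fintype.one_lt_card
  rw [FiniteField.algebraMap_norm_eq_pow, frobF_apply, Nat.card_eq_fintype_card,
    Nat.card_eq_fintype_card, hK]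
  have h2 : (Fintype.card F ^ 2 - 1) / (Fintype.card F - 1) = Fintype.card F + 1 := by
    have h3 : Fintype.card F ^ 2 - 1 = (Fintype.card F + 1) * (Fintype.card F - 1) := by
      obtain ⟨c, hc⟩ : ∃ c, Fintype.card F = c + 2 := ⟨Fintype.card F - 2, by omega⟩
      rw [hc]
      have : c + 2 - 1 = c + 1 := by omega
      rw [this]
      have : (c + 2) ^ 2 = (c + 2 + 1) * (c + 1) + 1 := by ring
      rw [this, Nat.add_sub_cancel]
    rw [h3, Nat.mul_div_cancel _ (by omega)]
  rw [h2, pow_succ, mul_comm]

/-- the fixed points of the Frobenius are the elements of `F` -/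
theorem mem_range_of_frobF_eq (x : K) (hx : frobF F K x = x) :
    x ∈ Set.range (algebraMap F K) := by
  classical
  have hq : 1 < Fintype.card F := Fintype.one_lt_card
  have hp0 := FiniteField.X_pow_card_sub_X_ne_zero K hq
  have hdeg := FiniteField.X_pow_card_sub_X_natDegree_eq K hq
  let S : Finset K := Finset.univ.filter (fun x : K => x ^ Fintype.card F = x)
  have hS : S.card ≤ Fintype.card F := by
    have h1 : S.val ≤ (Polynomial.X ^ Fintype.card F - Polynomial.X : Polynomial K).roots := by
      rw [Multiset.le_iff_subset S.nodup]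
      intro y hy
      have hy' : y ^ Fintype.card F = y := by
        have : y ∈ S := hy
        simpa [S] using this
      rw [Polynomial.mem_roots hp0, Polynomial.IsRoot]
      simp [hy']
    have h2 := Multiset.card_le_card h1
    have h3 := Polynomial.card_roots' (Polynomial.X ^ Fintype.card F - Polynomial.X : Polynomial K)
    rw [hdeg] at h3
    exact h2.trans h3
  have hsub : Finset.univ.image (algebraMap F K) ⊆ S := by
    intro y hy
    obtain ⟨c, -, rfl⟩ := Finset.mem_image.1 hy
    simp only [S, Finset.mem_filter, Finset.mem_univ, true_and]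
    rw [← map_pow, FiniteField.pow_card]
  have hcard : (Finset.univ.image (algebraMap F K)).card = Fintype.card F := by
    rw [Finset.card_image_of_injective _ (algebraMap F K).injective, Finset.card_univ]
  have heq := Finset.eq_of_subset_of_card_le hsub (by rw [hcard]; exact hS)
  have hxS : x ∈ S := by
    simp only [S, Finset.mem_filter, Finset.mem_univ, true_and]
    exact hx
  rw [← heq] at hxS
  obtain ⟨c, -, rfl⟩ := Finset.mem_image.1 hxS
  exact ⟨c, rfl⟩

variable (F K)

/-- an `F`-linear retraction of `K` onto `F` -/
noncomputable def retr : K →ₗ[F] F :=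
  Classical.choose (LinearMap.exists_leftInverse_of_injective (Algebra.linearMap F K)
    (LinearMap.ker_eq_bot.2 (algebraMap F K).injective))

variable {F K}

theorem retr_algebraMap (c : F) : retr F K (algebraMap F K c) = c := by
  have h := Classical.choose_spec (LinearMap.exists_leftInverse_of_injective (Algebra.linearMap F K)
    (LinearMap.ker_eq_bot.2 (algebraMap F K).injective))
  exact LinearMap.congr_fun h c

variable (F K)

/-- the `F`-bilinear map `(u, v) ↦ Σ u_i v_i^q` -/
noncomputable def hermBilin (n : Type*) [Fintype n] : (n → K) →ₗ[F] (n → K) →ₗ[F] K :=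
  LinearMap.mk₂ F (fun u v => ∑ i, u i * frobF F K (v i))
    (by
      intro u u' v
      rw [← Finset.sum_add_distrib]
      exact Finset.sum_congr rfl fun i _ => by rw [Pi.add_apply, add_mul])
    (by
      intro c u v
      rw [Finset.smul_sum]
      exact Finset.sum_congr rfl fun i _ => by rw [Pi.smul_apply, smul_mul_assoc])
    (by
      intro u v v'
      rw [← Finset.sum_add_distrib]
      exact Finset.sum_congr rfl fun i _ => by rw [Pi.add_apply, map_add, mul_add])
    (by
      intro c u v
      rw [Finset.smul_sum]
      exact Finset.sum_congr rfl fun i _ => by rw [Pi.smul_apply, map_smul, mul_smul_comm])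

/-- the quadratic form `v ↦ Σ N(v_i)` on `K^n` over `F` -/
noncomputable def normForm (n : Type*) [Fintype n] : QuadraticForm F (n → K) :=
  (retr F K).compQuadraticMap (LinearMap.BilinMap.toQuadraticMap (hermBilin F K n))

variable {F K}

theorem algebraMap_normForm (hK : Fintype.card K = Fintype.card F ^ 2) {n : Type*} [Fintype n]
    (v : n → K) : algebraMap F K (normForm F K n v) = ∑ i, v i * frobF F K (v i) := by
  have h1 : normForm F K n v = retr F K (∑ i, v i * frobF F K (v i)) := rfl
  have h2 : ∑ i, v i * frobF F K (v i) = algebraMap F K (∑ i, Algebra.norm F (v i)) := by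
    rw [map_sum]
    exact Finset.sum_congr rfl fun i _ => (norm_eq_mul_frobF hK (v i)).symm
  rw [h1, h2, retr_algebraMap]

theorem algebraMap_polar_normForm (hK : Fintype.card K = Fintype.card F ^ 2) {n : Type*}
    [Fintype n] (u v : n → K) :
    algebraMap F K (polar (normForm F K n) u v) =
      ∑ i, (u i * frobF F K (v i) + v i * frobF F K (u i)) := by
  unfold polar
  rw [map_sub, map_sub, algebraMap_normForm hK, algebraMap_normForm hK, algebraMap_normForm hK,
    ← Finset.sum_sub_distrib, ← Finset.sum_sub_distrib]
  refine Finset.sum_congr rfl fun i _ => ?_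
  rw [Pi.add_apply, map_add]
  ring

theorem exists_frobF_add_ne_zero (hK : Fintype.card K = Fintype.card F ^ 2) :
    ∃ y : K, y + frobF F K y ≠ 0 := by
  by_contra hcon
  have hall : ∀ y : K, y + frobF F K y = 0 := by
    intro y
    by_contra hy
    exact hcon ⟨y, hy⟩
  have h2 : (2 : K) = 0 := by
    have := hall 1
    rw [map_one] at this
    rw [← this]
    norm_num
  have hfix : ∀ y : K, frobF F K y = y := by
    intro y
    have h3 := hall y
    have h4 : y + y = 0 := by rw [← two_mul, h2, zero_mul]
    have : frobF F K y - y = 0 := by linear_combination h3 - h4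
    exact sub_eq_zero.1 this
  have hsurj : Function.Surjective (algebraMap F K) := by
    intro y
    exact mem_range_of_frobF_eq y (hfix y)
  have hle := Fintype.card_le_of_surjective _ hsurj
  have hq2 : 2 ≤ Fintype.card F := Fintype.one_lt_card
  rw [hK] at hle
  nlinarith

theorem normForm_nondegenerate (hK : Fintype.card K = Fintype.card F ^ 2) {n : Type*} [Fintype n]
    [DecidableEq n] : (polarBilin (normForm F K n)).Nondegenerate := by
  rw [(polarBilin_isSymm _).isRefl.nondegenerate_iff_separatingLeft]
  intro u hu
  by_contra hne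
  obtain ⟨i, hi⟩ : ∃ i, u i ≠ 0 := by
    by_contra hcon
    apply hne
    funext i
    by_contra hne'
    exact hcon ⟨i, hne'⟩
  obtain ⟨y, hy⟩ := exists_frobF_add_ne_zero (F := F) (K := K) hK
  obtain ⟨c, hc⟩ := frobF_surjective (F := F) (K := K) (y / u i)
  have h1 : polar (normForm F K n) u (Pi.single i c) = 0 := hu (Pi.single i c)
  have h2 := algebraMap_polar_normForm hK u (Pi.single i c)
  rw [h1, map_zero, Finset.sum_eq_single i] at h2
  · rw [Pi.single_eq_same, hc] at h2
    have h3 : c * frobF F K (u i) = frobF F K y := by
      have h4 : y = frobF F K c * u i := by rw [hc, div_mul_cancel₀ y hi]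
      rw [h4, map_mul, frobF_frobF hK]
    rw [h3, mul_div_cancel₀ y hi] at h2
    exact hy h2.symm
  · intro j _ hji
    rw [Pi.single_eq_of_ne hji, map_zero, mul_zero, zero_mul, add_zero]
  · intro h
    exact absurd (Finset.mem_univ i) h

theorem normForm_GU (hK : Fintype.card K = Fintype.card F ^ 2) (m : ℕ)
    (g : ↥(Cfsg.GU m K (Fintype.card F))) (u : Fin m → K) :
    normForm F K (Fin m) (((g : Matrix.GeneralLinearGroup (Fin m) K) :
      Matrix (Fin m) (Fin m) K).mulVec u) = normForm F K (Fin m) u := by
  apply (algebraMap F K).injective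
  rw [algebraMap_normForm hK, algebraMap_normForm hK]
  exact g.2 u u

/-- the norm form on `K^(j+j)` is hyperbolic -/
theorem exists_hyp_normForm (hK : Fintype.card K = Fintype.card F ^ 2) (j : ℕ) :
    ∃ e f : Fin (j + j) → (Fin (j + j) → K), IsHypFamily (normForm F K (Fin (j + j))) e f := by
  have hfr : Module.finrank F K = 2 := finrank_of_card_sq rfl hK
  have hfd : FiniteDimensional F K := Module.finite_of_finrank_pos (by omega)
  obtain ⟨ε', hε'⟩ := FiniteField.unitsMap_norm_surjective F K (-1)
  obtain ⟨ε, hε⟩ : ∃ ε : K, ε * frobF F K ε = -1 := by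
    refine ⟨(ε' : K), ?_⟩
    rw [← norm_eq_mul_frobF hK]
    have h1 : Algebra.norm F (ε' : K) = -1 := by
      have := congrArg (fun x : Fˣ => (x : F)) hε'
      simpa using this
    rw [h1, map_neg, map_one]
  let Φ : (Fin j → K) →ₗ[F] (Fin (j + j) → K) :=
    { toFun := fun x l => Sum.elim x (fun i => ε * x i) (finSumFinEquiv.symm l)
      map_add' := by
        intro x y
        funext l
        show Sum.elim (x + y) (fun i => ε * (x + y) i) (finSumFinEquiv.symm l) =
          Sum.elim x (fun i => ε * x i) (finSumFinEquiv.symm l) +
          Sum.elim y (fun i => ε * y i) (finSumFinEquiv.symm l)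
        generalize finSumFinEquiv.symm l = s
        rcases s with i | i
        · rfl
        · show ε * (x i + y i) = ε * x i + ε * y i
          ring
      map_smul' := by
        intro c x
        funext l
        show Sum.elim (c • x) (fun i => ε * (c • x) i) (finSumFinEquiv.symm l) =
          c • Sum.elim x (fun i => ε * x i) (finSumFinEquiv.symm l)
        generalize finSumFinEquiv.symm l = s
        rcases s with i | i
        · rfl
        · show ε * (c • x i) = c • (ε * x i)
          rw [mul_smul_comm] }
  have hΦ : ∀ x l, Φ x l = Sum.elim x (fun i => ε * x i) (finSumFinEquiv.symm l) := fun x l => rfl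
  have hΦinj : Function.Injective Φ := by
    intro x y hxy
    funext i
    have := congrFun hxy (finSumFinEquiv (Sum.inl i))
    rw [hΦ, hΦ, Equiv.symm_apply_apply] at this
    exact this
  have hV : Module.finrank F (Fin (j + j) → K) = 2 * (j + j) := by
    rw [Module.finrank_pi_fintype]
    simp [hfr]
    ring
  apply exists_hyp_of_totally_singular (j + j) (Fin (j + j) → K) (normForm F K (Fin (j + j)))
    (normForm_nondegenerate hK) hV (LinearMap.range Φ)
  · rintro _ ⟨x, rfl⟩
    apply (algebraMap F K).injective
    rw [algebraMap_normForm hK, map_zero, ← Equiv.sum_comp finSumFinEquiv, Fintype.sum_sum_type]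
    simp only [hΦ, Equiv.symm_apply_apply, Sum.elim_inl, Sum.elim_inr, map_mul]
    rw [← Finset.sum_add_distrib]
    apply Finset.sum_eq_zero
    intro i _
    linear_combination (x i * frobF F K (x i)) * hε
  · rw [LinearMap.finrank_range_of_inj hΦinj, Module.finrank_pi_fintype]
    simp [hfr]
    omega

end

end Cfsg.Agent.Helper16
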